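import Mathlib
import Cfsg.Prelude.Def_GeometricClasses
import Cfsg.Agent.H12.Perp

/-!
# Projections of a decomposition and the weight function
-/

set_option autoImplicit false
set_option linter.unusedSectionVars false

open scoped MatrixGroups Matrix

namespace Cfsg.Agent.H12

open Cfsg

variable {ι : Type} [Fintype ι] [DecidableEq ι] {F : Type*} [Field F]

/-- `p` is the family of projections of the decomposition `D` -/
structure IsProj {t : ℕ} (D : Fin t → Submodule F (ι → F)) (p : Fin t → (ι → F) →ₗ[F] (ι → F)) : Prop where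
  mem : ∀ i v, p i v ∈ D i
  sum : ∀ v, ∑ i, p i v = v
  self : ∀ i, ∀ v ∈ D i, p i v = v
  other : ∀ i j, i ≠ j → ∀ v ∈ D j, p i v = 0

theorem exists_isProj {t m : ℕ} {D : Fin t → Submodule F (ι → F)} (hD : Geo.IsMDecomposition m D) :
    ∃ p : Fin t → (ι → F) →ₗ[F] (ι → F), IsProj D p := by
  classical
  have hI : DirectSum.IsInternal D :=
    (DirectSum.isInternal_submodule_iff_iSupIndep_and_iSup_eq_top D).2 ⟨hD.indep, hD.iSup_eq_top⟩
  let e : (DirectSum (Fin t) fun i => D i) ≃ₗ[F] (ι → F) := LinearEquiv.ofBijective (DirectSum.coeLinearMap D) hI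
  have he : ∀ x, e x = DirectSum.coeLinearMap D x := fun x => rfl
  let p : Fin t → (ι → F) →ₗ[F] (ι → F) := fun i =>
    (D i).subtype ∘ₗ (DirectSum.component F (Fin t) (fun i => D i) i) ∘ₗ e.symm.toLinearMap
  have hp : ∀ i v, p i v = ((e.symm v) i : ι → F) := fun i v => rfl
  have hmem : ∀ i, ∀ v (hv : v ∈ D i), e.symm v = DirectSum.lof F (Fin t) (fun i => D i) i ⟨v, hv⟩ := by
    intro i v hv
    rw [LinearEquiv.symm_apply_eq, he, DirectSum.coeLinearMap_lof]
  refine ⟨p, ⟨?_, ?_, ?_, ?_⟩⟩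
  · intro i v
    rw [hp]; exact ((e.symm v) i).2
  · intro v
    simp only [hp]
    conv_rhs => rw [← e.apply_symm_apply v, he, DirectSum.coeLinearMap_eq_dfinsuppSum]
    rw [DFinsupp.sum_eq_sum_fintype]
    · rfl
    · intro i; rfl
  · intro i v hv
    rw [hp, hmem i v hv, DirectSum.lof_eq_of, DirectSum.of_eq_same]
  · intro i j hij v hv
    rw [hp, hmem j v hv, DirectSum.lof_eq_of, DirectSum.of_eq_of_ne _ _ _ hij]
    rfl

namespace IsProj

variable {t : ℕ} {D : Fin t → Submodule F (ι → F)} {p : Fin t → (ι → F) →ₗ[F] (ι → F)}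

theorem uniq (h : IsProj D p) {v : ι → F} {c : Fin t → ι → F} (hc : ∀ i, c i ∈ D i) (hs : ∑ i, c i = v) (i : Fin t) :
    p i v = c i := by
  rw [← hs, map_sum, Finset.sum_eq_single i]
  · exact h.self i _ (hc i)
  · intro j _ hj
    exact h.other i j hj.symm _ (hc j)
  · intro hi; exact absurd (Finset.mem_univ i) hi

theorem mem_iff (h : IsProj D p) {v : ι → F} {i : Fin t} : v ∈ D i ↔ ∀ j, j ≠ i → p j v = 0 := by
  constructor
  · intro hv j hj
    exact h.other j i hj v hv
  · intro hv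
    have h1 := h.sum v
    rw [Finset.sum_eq_single i (fun j _ hj => hv j hj) (fun hi => absurd (Finset.mem_univ i) hi)] at h1
    rw [← h1]; exact h.mem i v

theorem proj_perm (h : IsProj D p) {g : GL ι F} {σ : Equiv.Perm (Fin t)}
    (hg : ∀ i, (D i).map (Matrix.toLin' (g : Matrix ι ι F)) = D (σ i)) (v : ι → F) (i : Fin t) :
    p (σ i) ((g : Matrix ι ι F) *ᵥ v) = (g : Matrix ι ι F) *ᵥ (p i v) := by
  have h1 : ∀ j, (g : Matrix ι ι F) *ᵥ (p (σ.symm j) v) ∈ D j := by
    intro j
    have h2 : (g : Matrix ι ι F) *ᵥ (p (σ.symm j) v) ∈ (D (σ.symm j)).map (Matrix.toLin' (g : Matrix ι ι F)) :=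
      ⟨p (σ.symm j) v, h.mem _ _, by rw [Matrix.toLin'_apply]⟩
    rw [hg, Equiv.apply_symm_apply] at h2
    exact h2
  have h3 : ∑ j, (g : Matrix ι ι F) *ᵥ (p (σ.symm j) v) = (g : Matrix ι ι F) *ᵥ v := by
    rw [Equiv.sum_comp σ.symm (fun j => (g : Matrix ι ι F) *ᵥ (p j v)), ← Matrix.mulVec_sum, h.sum]
  have h4 := h.uniq h1 h3 (σ i)
  rw [Equiv.symm_apply_apply] at h4
  exact h4

open Classical in
/-- the number of nonzero components -/
noncomputable def wt {t : ℕ} (p : Fin t → (ι → F) →ₗ[F] (ι → F)) (v : ι → F) : ℕ :=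
  (Finset.univ.filter (fun i => p i v ≠ 0)).card

theorem wt_perm (h : IsProj D p) {g : GL ι F} (hg : g ∈ Geo.decompositionStabilizer D) (v : ι → F) :
    wt p ((g : Matrix ι ι F) *ᵥ v) = wt p v := by
  classical
  obtain ⟨σ, hσ⟩ := hg
  unfold wt
  symm
  apply Finset.card_bij (fun i _ => σ i)
  · intro i hi
    simp only [Finset.mem_filter, Finset.mem_univ, true_and] at hi ⊢
    rw [h.proj_perm hσ]
    exact gl_mulVec_ne_zero g hi
  · intro a _ b _ hab
    exact σ.injective hab
  · intro j hj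
    refine ⟨σ.symm j, ?_, Equiv.apply_symm_apply _ _⟩
    simp only [Finset.mem_filter, Finset.mem_univ, true_and] at hj ⊢
    intro hc
    apply hj
    have h1 := h.proj_perm hσ v (σ.symm j)
    rw [Equiv.apply_symm_apply, hc, Matrix.mulVec_zero] at h1
    exact h1

/-- the group preserving the weight modulo the characteristic -/
def wgrp (p : Fin t → (ι → F) →ₗ[F] (ι → F)) : Subgroup (GL ι F) where
  carrier := {g | ∀ v, (wt p ((g : Matrix ι ι F) *ᵥ v) : F) = (wt p v : F)}
  mul_mem' := by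
    intro a b ha hb v
    rw [gl_mul_mulVec, ha, hb]
  one_mem' := by
    intro v
    simp
  inv_mem' := by
    intro a ha v
    rw [← ha, gl_mulVec_inv_mulVec]

theorem mem_wgrp {g : GL ι F} : g ∈ wgrp p ↔ ∀ v, (wt p ((g : Matrix ι ι F) *ᵥ v) : F) = (wt p v : F) := Iff.rfl

theorem stab_le_wgrp (h : IsProj D p) : Geo.decompositionStabilizer D ≤ wgrp p := by
  intro g hg v
  rw [h.wt_perm hg]

theorem wt_eq_one (h : IsProj D p) {i : Fin t} {v : ι → F} (hv : v ∈ D i) (hv0 : v ≠ 0) : wt p v = 1 := by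
  classical
  unfold wt
  rw [Finset.card_eq_one]
  refine ⟨i, ?_⟩
  ext j
  simp only [Finset.mem_filter, Finset.mem_univ, true_and, Finset.mem_singleton]
  constructor
  · intro hj
    by_contra hne
    exact hj (h.other j i hne v hv)
  · rintro rfl
    rw [h.self j v hv]; exact hv0

/-- elements of the decomposition stabiliser map members of the decomposition into members -/
theorem exists_mem_of_stab {g : GL ι F} (hg : g ∈ Geo.decompositionStabilizer D) {i : Fin t} {v : ι → F} (hv : v ∈ D i) :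
    ∃ j, (g : Matrix ι ι F) *ᵥ v ∈ D j := by
  obtain ⟨σ, hσ⟩ := hg
  refine ⟨σ i, ?_⟩
  rw [← hσ]
  exact ⟨v, hv, by rw [Matrix.toLin'_apply]⟩

theorem cast_wt (p : Fin t → (ι → F) →ₗ[F] (ι → F)) (v : ι → F) [DecidablePred fun i => p i v ≠ 0] :
    (wt p v : F) = ∑ i, if p i v ≠ 0 then 1 else 0 := by
  classical
  unfold wt
  rw [Finset.card_filter]
  push_cast
  apply Finset.sum_congr rfl
  intro i _
  congr

end IsProj

theorem card_decomp {t m : ℕ} {D : Fin t → Submodule F (ι → F)} (hD : Geo.IsMDecomposition m D) :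
    t * m = Fintype.card ι := by
  classical
  have hI : DirectSum.IsInternal D :=
    (DirectSum.isInternal_submodule_iff_iSupIndep_and_iSup_eq_top D).2 ⟨hD.indep, hD.iSup_eq_top⟩
  have h1 := LinearEquiv.finrank_eq (LinearEquiv.ofBijective (DirectSum.coeLinearMap D) hI)
  rw [Module.finrank_directSum, Module.finrank_fintype_fun_eq_card] at h1
  rw [← h1]
  simp [hD.finrank_eq]

theorem exists_ne_zero_dec {t m : ℕ} {D : Fin t → Submodule F (ι → F)} (hD : Geo.IsMDecomposition m D) (i : Fin t) :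
    ∃ x ∈ D i, x ≠ 0 := by
  have h1 := hD.finrank_eq i
  have h2 := hD.pos
  have h3 : D i ≠ ⊥ := by
    intro h
    rw [h, finrank_bot] at h1
    omega
  exact (Submodule.ne_bot_iff _).mp h3

end Cfsg.Agent.H12
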