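import Mathlib
import Cfsg.Agent.H12.DecProj
import Cfsg.Agent.H12.SpGen

/-!
# Decompositions into 2-spaces over the field with two elements: the weight is a quadratic form
-/

set_option autoImplicit false
set_option linter.unusedSectionVars false

open scoped MatrixGroups Matrix

namespace Cfsg.Agent.H12

open Cfsg IsProj

variable {ι : Type} [Fintype ι] [DecidableEq ι] {F : Type*} [Field F] [Fintype F]

theorem f2_cases (hq : Fintype.card F = 2) (x : F) : x = 0 ∨ x = 1 := by
  classical
  by_contra hcon
  push Not at hcon
  have h1 : ({0, 1, x} : Finset F).card ≤ 2 := hq ▸ Finset.card_le_univ _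
  rw [Finset.card_eq_three.2 ⟨0, 1, x, zero_ne_one, hcon.1.symm, hcon.2.symm, rfl⟩] at h1
  omega

theorem f2_two (hq : Fintype.card F = 2) : (1 : F) + 1 = 0 := by
  rcases f2_cases hq (1 + 1 : F) with h | h
  · exact h
  · have h1 : (1 : F) = 0 := by
      calc (1 : F) = (1 + 1) - 1 := by ring
        _ = 1 - 1 := by rw [h]
        _ = 0 := sub_self 1
    exact absurd h1 one_ne_zero

variable {t : ℕ} {D : Fin t → Submodule F (ι → F)} {p : Fin t → (ι → F) →ₗ[F] (ι → F)}
variable {f : (ι → F) → (ι → F) → F}

open Classical in
/-- a nondegenerate 2-space over `F_2` -/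
theorem two_space (hq : Fintype.card F = 2) (hf : Geo.IsSymplecticForm f) {W : Submodule F (ι → F)}
    (hW : Geo.IsNondegenerateOn f W) (hdim : Module.finrank F W = 2) {a b : ι → F} (ha : a ∈ W) (hb : b ∈ W) :
    (if a + b ≠ 0 then (1 : F) else 0) = (if a ≠ 0 then 1 else 0) + (if b ≠ 0 then 1 else 0) + f a b := by
  have h2 := f2_two hq
  have hbil := hf.bilinear
  have hself : ∀ x : ι → F, x + x = 0 := by
    intro x
    calc x + x = (1 + 1 : F) • x := by rw [add_smul, one_smul]
      _ = 0 := by rw [h2, zero_smul]
  by_cases ha0 : a = 0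
  · subst ha0
    simp [bil_zero_left hbil]
  by_cases hb0 : b = 0
  · subst hb0
    simp [bil_zero_right hbil]
  by_cases hab : a = b
  · subst hab
    rw [hself, hf.alternating]
    simp [ha0, h2]
  · have h3 : a + b ≠ 0 := by
      intro h
      apply hab
      calc a = a + (b + b) := by rw [hself, add_zero]
        _ = (a + b) + b := by rw [add_assoc]
        _ = b := by rw [h, zero_add]
    have h4 : f a b ≠ 0 := by
      intro h0
      obtain ⟨⟨x, hx, hxa⟩, -⟩ := hW a ha ha0
      -- `W = span {a, b}`
      have hli : LinearIndependent F ![(⟨a, ha⟩ : W), ⟨b, hb⟩] := by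
        rw [LinearIndependent.pair_iff]
        intro s u hsu
        have hsu' : s • a + u • b = 0 := congrArg Subtype.val hsu
        rcases f2_cases hq s with rfl | rfl <;> rcases f2_cases hq u with rfl | rfl
        · exact ⟨rfl, rfl⟩
        · simp at hsu'; exact absurd hsu' hb0
        · simp at hsu'; exact absurd hsu' ha0
        · simp at hsu'; exact absurd hsu' h3
      have hspan : Submodule.span F (Set.range ![(⟨a, ha⟩ : W), ⟨b, hb⟩]) = ⊤ := by
        apply hli.span_eq_top_of_card_eq_finrank
        rw [Fintype.card_fin, hdim]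
      have hx' : (⟨x, hx⟩ : W) ∈ Submodule.span F (Set.range ![(⟨a, ha⟩ : W), ⟨b, hb⟩]) := by rw [hspan]; trivial
      rw [Matrix.range_cons, Matrix.range_cons, Matrix.range_empty, Set.union_empty, Set.singleton_union,
        Submodule.mem_span_pair] at hx'
      obtain ⟨s, u, hsu⟩ := hx'
      have hsu' : s • a + u • b = x := congrArg Subtype.val hsu
      apply hxa
      have hba : f b a = 0 := by
        have h5 := hf.alternating (a + b)
        rw [hbil.add_left, hbil.add_right, hbil.add_right, hf.alternating, hf.alternating, h0] at h5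
        simpa using h5
      rw [← hsu', hbil.add_left, hbil.smul_left, hbil.smul_left, hf.alternating, hba]
      simp
    have h5 : f a b = 1 := (f2_cases hq _).resolve_left h4
    rw [h5]
    simp [ha0, hb0, h3, h2]

/-- the weight is a quadratic form with polar form `f` -/
theorem wt_add (hq : Fintype.card F = 2) (hf : Geo.IsSymplecticForm f)
    (hD : Geo.IsNondegenerateMDecomposition f 2 D) (hp : IsProj D p) (u v : ι → F) :
    (wt p (u + v) : F) = (wt p u : F) + (wt p v : F) + f u v := by
  classical
  rw [cast_wt, cast_wt, cast_wt]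
  have h1 : f u v = ∑ i, f (p i u) (p i v) := by
    have hbil := hf.bilinear
    conv_lhs => rw [← hp.sum v, bil_sum_right hbil]
    apply Finset.sum_congr rfl
    intro i _
    have h2 : f u (p i v) = ∑ j, f (p j u) (p i v) := by
      have h3 : ∀ (s : Finset (Fin t)), f (∑ j ∈ s, p j u) (p i v) = ∑ j ∈ s, f (p j u) (p i v) := by
        intro s
        induction s using Finset.induction_on with
        | empty => simp [bil_zero_left hbil]
        | insert a s ha ih => rw [Finset.sum_insert ha, Finset.sum_insert ha, hbil.add_left, ih]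
      conv_lhs => rw [← hp.sum u]
      exact h3 _
    rw [h2, Finset.sum_eq_single i]
    · intro j _ hj
      exact hD.orthogonal j i hj _ (hp.mem j u) _ (hp.mem i v)
    · intro h; exact absurd (Finset.mem_univ i) h
  rw [h1, ← Finset.sum_add_distrib, ← Finset.sum_add_distrib]
  apply Finset.sum_congr rfl
  intro i _
  rw [map_add]
  have := two_space hq hf (hD.nondegenerate i) (hD.decomp.finrank_eq i) (hp.mem i u) (hp.mem i v)
  convert this

/-- a transvection with centre of weight one preserves the weight form -/
theorem stv_mem_wgrp (hq : Fintype.card F = 2) (hf : Geo.IsSymplecticForm f)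
    (hD : Geo.IsNondegenerateMDecomposition f 2 D) (hp : IsProj D p) {u : ι → F} (hu : (wt p u : F) = 1) :
    stv f u 1 ∈ wgrp p := by
  intro v
  rw [stv_mulVec hf, one_mul]
  rcases f2_cases hq (f u v) with h | h
  · rw [h, zero_smul, add_zero]
  · have h1 : f v u = 1 := by
      have hbil := hf.bilinear
      have h5 := hf.alternating (u + v)
      rw [hbil.add_left, hbil.add_right, hbil.add_right, hf.alternating, hf.alternating, h] at h5
      have h2 := f2_two hq
      rcases f2_cases hq (f v u) with h6 | h6
      · rw [h6] at h5; simp at h5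
      · exact h6
    rw [h, one_smul, wt_add hq hf hD hp, hu, h1, add_assoc, f2_two hq, add_zero]

end Cfsg.Agent.H12
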