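import Mathlib
import Cfsg.Agent.H12.DecProj
import Cfsg.Agent.H12.DecF2

/-!
# Elements of SL preserving the weight of a decomposition
-/

set_option autoImplicit false
set_option linter.unusedSectionVars false

open scoped MatrixGroups Matrix

namespace Cfsg.Agent.H12

open Cfsg IsProj

variable {ι : Type} [Fintype ι] [DecidableEq ι] {F : Type*} [Field F] [Fintype F]
variable {t : ℕ} {D : Fin t → Submodule F (ι → F)} {p : Fin t → (ι → F) →ₗ[F] (ι → F)}

theorem sum_eq_of_supp {κ : Type*} [Fintype κ] (ε : κ → Fin t) (hε : Function.Injective ε) (h : Fin t → F)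
    (h0 : ∀ i, (∀ k, ε k ≠ i) → h i = 0) : ∑ i, h i = ∑ k, h (ε k) := by
  classical
  rw [← Finset.sum_image (f := h) (s := Finset.univ) (g := ε) (fun a _ b _ hab => hε hab)]
  symm
  apply Finset.sum_subset (Finset.subset_univ _)
  intro i _ hi
  apply h0
  intro k hk
  exact hi (Finset.mem_image.2 ⟨k, Finset.mem_univ _, hk⟩)

/-- coordinates for a decomposition into lines -/
theorem exists_coord (hD : Geo.IsMDecomposition 1 D) (hp : IsProj D p) :
    ∃ (e : Fin t → ι → F) (φ : Fin t → ι → F), (∀ i, e i ∈ D i) ∧ (∀ i, e i ≠ 0) ∧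
      (∀ i v, p i v = (φ i ⬝ᵥ v) • e i) ∧ (∀ i, φ i ⬝ᵥ e i = 1) ∧ (∀ i j, i ≠ j → φ i ⬝ᵥ e j = 0) := by
  have h1 : ∀ i, ∃ x ∈ D i, x ≠ 0 := exists_ne_zero_dec hD
  choose e he he0 using h1
  have h2 : ∀ i, ∃ φ : ι → F, (∀ y ∈ LinearMap.ker (p i), φ ⬝ᵥ y = 0) ∧ φ ⬝ᵥ e i = 1 := by
    intro i
    apply exists_dot_of_notMem
    rw [LinearMap.mem_ker, hp.self i _ (he i)]
    exact he0 i
  choose φ hφ1 hφ2 using h2
  refine ⟨e, φ, he, he0, ?_, hφ2, ?_⟩
  · intro i v
    have h3 : ∃ c : F, c • e i = p i v := by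
      have h4 := (finrank_eq_one_iff_of_nonzero' (⟨e i, he i⟩ : D i) (fun h => he0 i (congrArg Subtype.val h))).1
        (hD.finrank_eq i) ⟨p i v, hp.mem i v⟩
      obtain ⟨c, hc⟩ := h4
      exact ⟨c, congrArg Subtype.val hc⟩
    obtain ⟨c, hc⟩ := h3
    have h5 : φ i ⬝ᵥ (v - p i v) = 0 := by
      apply hφ1
      rw [LinearMap.mem_ker, map_sub, hp.self i _ (hp.mem i v), sub_self]
    rw [dotProduct_sub, sub_eq_zero, ← hc, dotProduct_smul, hφ2, smul_eq_mul, mul_one] at h5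
    rw [h5, hc]
  · intro i j hij
    apply hφ1
    rw [LinearMap.mem_ker]
    exact hp.other i j hij _ (he j)

/-- the weight as a power sum -/
theorem wt_eq_pow {e φ : Fin t → ι → F} (he0 : ∀ i, e i ≠ 0) (hpe : ∀ i v, p i v = (φ i ⬝ᵥ v) • e i) (v : ι → F) :
    (wt p v : F) = ∑ i, (φ i ⬝ᵥ v) ^ (Fintype.card F - 1) := by
  classical
  rw [cast_wt]
  apply Finset.sum_congr rfl
  intro i _
  have hc : 1 < Fintype.card F := Fintype.one_lt_card
  by_cases h : φ i ⬝ᵥ v = 0
  · rw [if_neg (by rw [hpe, h, zero_smul]; simp), h, zero_pow (by omega)]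
  · rw [if_pos (by rw [hpe]; exact smul_ne_zero h (he0 i)), FiniteField.pow_card_sub_one_eq_one _ h]

theorem pow_id (hq : Fintype.card F ≤ 4) (a b c d : F) :
    (a + (a + b + c + d)) ^ (Fintype.card F - 1) + (b + (a + b + c + d)) ^ (Fintype.card F - 1) +
      (c + (a + b + c + d)) ^ (Fintype.card F - 1) + (d + (a + b + c + d)) ^ (Fintype.card F - 1) =
    a ^ (Fintype.card F - 1) + b ^ (Fintype.card F - 1) + c ^ (Fintype.card F - 1) + d ^ (Fintype.card F - 1) := by
  have h0 : ((Fintype.card F : ℕ) : F) = 0 := FiniteField.cast_card_eq_zero F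
  have hc : 1 < Fintype.card F := Fintype.one_lt_card
  have h1 : Fintype.card F = 2 ∨ Fintype.card F = 3 ∨ Fintype.card F = 4 := by omega
  rcases h1 with h | h | h
  · rw [h] at h0 ⊢
    push_cast at h0
    norm_num
    linear_combination (2 * (a + b + c + d)) * h0
  · rw [h] at h0 ⊢
    push_cast at h0
    norm_num
    linear_combination (2 * (a + b + c + d) ^ 2) * h0
  · rw [h] at h0 ⊢
    push_cast at h0
    have h2 : (2 : F) = 0 := by
      have : (2 : F) * 2 = 0 := by linear_combination h0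
      exact (mul_self_eq_zero).1 this
    norm_num
    linear_combination (3 * (a + b + c + d) * (a ^ 2 + b ^ 2 + c ^ 2 + d ^ 2 + a * b + a * c + a * d + b * c + b * d + c * d) + 2 * (a + b + c + d) ^ 3) * h2

/-- pseudo-reflections -/
noncomputable def psr (u φ : ι → F) (h : (tvm u φ).det ≠ 0) : GL ι F := Matrix.GeneralLinearGroup.mkOfDetNeZero _ h

theorem det_tvmm (u φ : ι → F) : (tvm u φ).det = 1 + φ ⬝ᵥ u := by
  unfold tvm
  rw [Matrix.vecMulVec_eq Unit, Matrix.det_one_add_replicateCol_mul_replicateRow]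

theorem psr_mulVec (u φ : ι → F) (h : (tvm u φ).det ≠ 0) (x : ι → F) :
    ((psr u φ h : GL ι F) : Matrix ι ι F) *ᵥ x = x + (φ ⬝ᵥ x) • u := tvm_mulVec u φ x

theorem det_psr (u φ : ι → F) (h : (tvm u φ).det ≠ 0) : ((psr u φ h : GL ι F) : Matrix ι ι F).det = 1 + φ ⬝ᵥ u :=
  det_tvmm u φ

end Cfsg.Agent.H12
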