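import Mathlib
import Cfsg.Prelude.Def_GeometricClasses
import Cfsg.Agent.H12.Transv
import Cfsg.Agent.H12.Irred
import Cfsg.Agent.H12.ReflForm

/-!
Hermitian forms over finite fields: trace/norm surjectivity, isotropic vectors, unitary transvections.
-/

set_option autoImplicit false
set_option linter.unusedSectionVars false

open scoped MatrixGroups Matrix

namespace Cfsg.Agent.H12

variable {ι : Type} [Fintype ι] [DecidableEq ι] {F : Type*} [Field F]

section field
variable {σ : F ≃+* F}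

lemma exists_moved (hσ : σ ≠ RingEquiv.refl F) : ∃ b : F, σ b ≠ b := by
  by_contra hcon
  push Not at hcon
  exact hσ (RingEquiv.ext hcon)

lemma exists_skew (hσ : σ ≠ RingEquiv.refl F) (hinv : ∀ a, σ (σ a) = a) :
    ∃ a : F, a ≠ 0 ∧ σ a = -a := by
  obtain ⟨b, hb⟩ := exists_moved hσ
  refine ⟨b - σ b, sub_ne_zero.mpr (Ne.symm hb), ?_⟩
  rw [map_sub, hinv]; ring

lemma tr_surj (hσ : σ ≠ RingEquiv.refl F) (hinv : ∀ a, σ (σ a) = a) {b : F} (hb : σ b = b) :
    ∃ c : F, c + σ c = b := by
  have h1 : ∃ t : F, t + σ t ≠ 0 := by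
    by_contra hcon
    push Not at hcon
    apply hσ
    ext t
    have h2 := hcon 1
    rw [map_one] at h2
    have h3 := hcon t
    have h4 : σ t = -t := by linear_combination h3
    rw [h4]
    change -t = t
    linear_combination (-t) * h2
  obtain ⟨t, ht⟩ := h1
  refine ⟨b * t / (t + σ t), ?_⟩
  rw [map_div₀, map_mul, map_add, hinv, hb, add_comm (σ t) t, ← add_div, ← mul_add, mul_div_assoc,
    div_self ht, mul_one]

lemma norm_surj [Finite F] (hσ : σ ≠ RingEquiv.refl F) (hinv : ∀ a, σ (σ a) = a) {b : F}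
    (hb0 : b ≠ 0) (hb : σ b = b) : ∃ c : F, c ≠ 0 ∧ c * σ c = b := by
  classical
  let s : Fˣ →* Fˣ := Units.map (σ : F →* F)
  have hs : ∀ u : Fˣ, ((s u : Fˣ) : F) = σ u := fun u => rfl
  have hss : ∀ u : Fˣ, s (s u) = u := fun u => Units.ext (by rw [hs, hs, hinv])
  let N : Fˣ →* Fˣ :=
    { toFun := fun u => u * s u
      map_one' := by simp
      map_mul' := by intro u v; rw [map_mul]; exact mul_mul_mul_comm _ _ _ _ }
  let D : Fˣ →* Fˣ :=
    { toFun := fun u => u * (s u)⁻¹
      map_one' := by simp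
      map_mul' := by intro u v; rw [map_mul, mul_inv]; exact mul_mul_mul_comm _ _ _ _ }
  have hND : N.range ≤ D.ker := by
    rintro _ ⟨u, rfl⟩
    rw [MonoidHom.mem_ker]
    change (u * s u) * (s (u * s u))⁻¹ = 1
    rw [map_mul, hss, mul_comm (s u) u, mul_inv_cancel]
  have hDN : D.range ≤ N.ker := by
    rintro _ ⟨u, rfl⟩
    rw [MonoidHom.mem_ker]
    change (u * (s u)⁻¹) * s (u * (s u)⁻¹) = 1
    rw [map_mul, map_inv, hss]
    group
  have hH90 : N.ker ≤ D.range := by
    intro c hc
    rw [MonoidHom.mem_ker] at hc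
    change c * s c = 1 at hc
    have hc' : (c : F) * σ c = 1 := by
      exact congrArg Units.val hc
    have h1 : ∃ t : F, t + c * σ t ≠ 0 := by
      by_contra hcon
      push Not at hcon
      apply hσ
      ext t
      have h2 := hcon 1
      rw [map_one, mul_one] at h2
      have h3 := hcon t
      have h4 : (c : F) = -1 := by linear_combination h2
      rw [h4] at h3
      change σ t = t
      linear_combination -h3
    obtain ⟨t, ht⟩ := h1
    refine ⟨Units.mk0 _ ht, ?_⟩
    change Units.mk0 _ ht * (s (Units.mk0 _ ht))⁻¹ = c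
    rw [mul_inv_eq_iff_eq_mul]
    apply Units.ext
    rw [Units.val_mk0, Units.val_mul, hs, Units.val_mk0, map_add, map_mul, hinv]
    linear_combination (-t) * hc'
  have hker : Nat.card N.ker = Nat.card D.range := by
    rw [le_antisymm hH90 hDN]
  have h1 : Nat.card N.ker * Nat.card N.range = Nat.card Fˣ := by
    rw [← Subgroup.index_ker, Subgroup.card_mul_index]
  have h2 : Nat.card D.ker * Nat.card D.range = Nat.card Fˣ := by
    rw [← Subgroup.index_ker, Subgroup.card_mul_index]
  have h3 : Nat.card N.range = Nat.card D.ker := by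
    have hpos : 0 < Nat.card D.range := Nat.card_pos
    rw [hker, mul_comm, ← h2] at h1
    exact Nat.eq_of_mul_eq_mul_right hpos h1
  have h4 : N.range = D.ker := Subgroup.eq_of_le_of_card_ge hND h3.ge
  have h5 : Units.mk0 b hb0 ∈ D.ker := by
    rw [MonoidHom.mem_ker]
    change Units.mk0 b hb0 * (s (Units.mk0 b hb0))⁻¹ = 1
    rw [mul_inv_eq_one]
    apply Units.ext
    rw [hs]
    exact hb.symm
  rw [← h4] at h5
  obtain ⟨c, hc⟩ := h5
  refine ⟨c, c.ne_zero, ?_⟩
  have := congrArg Units.val hc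
  exact this

end field

section uni

variable {σ : F ≃+* F} {f : (ι → F) → (ι → F) → F}

/-- adjust a vector non-orthogonal to an isotropic `e` to an isotropic one -/
lemma iso_adj (h : ReflForm σ 1 f) (hσ : σ ≠ RingEquiv.refl F) {e x : ι → F} (he : f e e = 0)
    (hx : f x e ≠ 0) : ∃ c : F, f (x + c • e) (x + c • e) = 0 := by
  have h0 : f e x ≠ 0 := fun h1 => hx (h.symm_zero.mp h1)
  have h1 : σ (-f x x) = - f x x := by
    rw [map_neg]
    have := h.herm x x
    rw [one_mul] at this
    rw [← this]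
  obtain ⟨c, hc⟩ := tr_surj hσ h.inv h1
  refine ⟨c / f e x, ?_⟩
  rw [h.add_left, h.add_right, h.smul_left, h.add_right, h.smul_right, h.smul_right, he]
  have h2 : f x e = σ (f e x) := by
    have := h.herm x e
    rwa [one_mul] at this
  rw [h2]
  have h3 : σ (f e x) ≠ 0 := by rwa [← h2]
  rw [map_div₀]
  field_simp
  linear_combination (σ (f e x) * f e x) * hc

lemma iso_in [Finite F] (h : ReflForm σ 1 f) (hσ : σ ≠ RingEquiv.refl F)
    (Y : Submodule F (ι → F)) (hY : 2 ≤ Module.finrank F Y) : ∃ z ∈ Y, z ≠ 0 ∧ f z z = 0 := by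
  have hYne : Y ≠ ⊥ := by
    rintro rfl
    rw [finrank_bot] at hY
    omega
  obtain ⟨x, hxY, hx0⟩ := (Submodule.ne_bot_iff Y).mp hYne
  by_cases hxx : f x x = 0
  · exact ⟨x, hxY, hx0, hxx⟩
  have h1 := ReflForm.finrank_inf_ker (h.lin x) Y
  have h2 : (Y ⊓ LinearMap.ker (h.lin x) : Submodule F (ι → F)) ≠ ⊥ := by
    intro h3
    rw [h3, finrank_bot] at h1
    omega
  obtain ⟨y, hyY, hy0⟩ := (Submodule.ne_bot_iff _).mp h2
  have hyx : f y x = 0 := hyY.2
  have hxy : f x y = 0 := h.symm_zero.mp hyx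
  by_cases hyy : f y y = 0
  · exact ⟨y, hyY.1, hy0, hyy⟩
  have hfix : ∀ v, σ (f v v) = f v v := by
    intro v
    have := h.herm v v
    rw [one_mul] at this
    exact this.symm
  obtain ⟨c, hc0, hc⟩ := norm_surj hσ h.inv (b := - f x x / f y y)
    (div_ne_zero (neg_ne_zero.mpr hxx) hyy) (by rw [map_div₀, map_neg, hfix, hfix])
  refine ⟨x + c • y, Y.add_mem hxY (Y.smul_mem _ hyY.1), ?_, ?_⟩
  · intro h0
    have : f (x + c • y) x = 0 := by rw [h0, h.zero_left]
    rw [h.add_left, h.smul_left, hyx, mul_zero, add_zero] at this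
    exact hxx this
  · rw [h.add_left, h.add_right, h.smul_left, h.add_right, h.smul_right, h.smul_right, hyx, hxy]
    have h3 : c * σ c * f y y = - f x x := by rw [hc]; field_simp
    linear_combination h3

/-- a subspace of isotropic vectors is totally isotropic -/
lemma tot_iso (h : ReflForm σ 1 f) (hσ : σ ≠ RingEquiv.refl F) {Y : Submodule F (ι → F)}
    (hY : ∀ y ∈ Y, f y y = 0) : ∀ x ∈ Y, ∀ y ∈ Y, f x y = 0 := by
  intro x hx y hy
  have key : ∀ c : F, σ c * f x y + c * σ (f x y) = 0 := by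
    intro c
    have h1 := hY (x + c • y) (Y.add_mem hx (Y.smul_mem _ hy))
    rw [h.add_left, h.add_right, h.smul_left, h.add_right, h.smul_right, h.smul_right, hY x hx, hY y hy] at h1
    have h2 : f y x = σ (f x y) := by
      have := h.herm y x
      rwa [one_mul] at this
    rw [h2] at h1
    linear_combination h1
  obtain ⟨b, hb⟩ := exists_moved hσ
  have h1 := key 1
  rw [map_one, one_mul, one_mul] at h1
  have h2 := key b
  have h3 : (σ b - b) * f x y = 0 := by linear_combination h2 - b * h1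
  rcases mul_eq_zero.mp h3 with h4 | h4
  · exact absurd (sub_eq_zero.mp h4) hb
  · exact h4

/-- unitary transvection `x ↦ x + a f(x,z) z`. -/
noncomputable def utv (f : (ι → F) → (ι → F) → F) (z : ι → F) (a : F) : GL ι F := tv z (a • gvec f z)

lemma utv_dot (h : ReflForm σ 1 f) {z : ι → F} (hz : f z z = 0) (a : F) : (a • gvec f z) ⬝ᵥ z = 0 := by
  rw [smul_dotProduct, h.gvec_dot, hz, smul_zero]

lemma utv_mulVec (h : ReflForm σ 1 f) {z : ι → F} (hz : f z z = 0) (a : F) (x : ι → F) :
    ((utv f z a : GL ι F) : Matrix ι ι F) *ᵥ x = x + (a * f x z) • z := by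
  rw [utv, tv_mulVec (utv_dot h hz a), smul_dotProduct, h.gvec_dot, smul_eq_mul]

lemma utv_isometry (h : ReflForm σ 1 f) {z : ι → F} (hz : f z z = 0) {a : F} (ha : σ a = -a) (x y : ι → F) :
    f (((utv f z a : GL ι F) : Matrix ι ι F) *ᵥ x) (((utv f z a : GL ι F) : Matrix ι ι F) *ᵥ y) = f x y := by
  rw [utv_mulVec h hz, utv_mulVec h hz]
  rw [h.add_left, h.add_right, h.smul_left, h.add_right, h.smul_right, h.smul_right, hz]
  have h2 : f z y = σ (f y z) := by
    have := h.herm z y
    rwa [one_mul] at this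
  rw [h2, map_mul, ha]
  ring

/-- `f` applied after inverse: functional transport -/
lemma gvec_vecMul_inv (h : ReflForm σ 1 f) {g : GL ι F}
    (hg : ∀ x y, f ((g : Matrix ι ι F) *ᵥ x) ((g : Matrix ι ι F) *ᵥ y) = f x y) (u : ι → F) :
    gvec f u ᵥ* ((g⁻¹ : GL ι F) : Matrix ι ι F) = gvec f ((g : Matrix ι ι F) *ᵥ u) := by
  apply dotProduct_eq
  intro x
  rw [vecMul_inv_dot, h.gvec_dot, h.gvec_dot]
  conv_rhs => rw [← gl_mulVec_inv_mulVec g x]
  rw [hg]

end uni

end Cfsg.Agent.H12
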