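import Mathlib
import Cfsg.Prelude.Def_GeometricClasses
import Cfsg.Agent.H12.Transv
import Cfsg.Agent.H12.ReflForm
import Cfsg.Agent.H12.UniForm
import Cfsg.Agent.H12.SpGen

/-!
Special unitary groups of dimension at least 7 over finite fields are generated by unitary transvections
(`su_mem_of_utv_mem`).
-/

set_option autoImplicit false
set_option linter.unusedSectionVars false

open scoped MatrixGroups Matrix

namespace Cfsg.Agent.H12

variable {ι : Type} [Fintype ι] [DecidableEq ι] {F : Type*} [Field F]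

lemma det_tvm (v φ : ι → F) : (tvm v φ).det = 1 + φ ⬝ᵥ v := by
  have := Matrix.det_one_add_replicateCol_mul_replicateRow (ι := Unit) v φ
  rw [← Matrix.vecMulVec_eq] at this
  rw [tvm, this]

section uni

variable {σ : F ≃+* F} {f : (ι → F) → (ι → F) → F}

open Classical in
/-- quasi-reflection `y ↦ y + a f(y,u) u` (junk value 1) -/
noncomputable def uqr (f : (ι → F) → (ι → F) → F) (u : ι → F) (a : F) : GL ι F :=
  if h : (tvm u (a • gvec f u)).det ≠ 0 then Matrix.GeneralLinearGroup.mkOfDetNeZero _ h else 1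

lemma det_uqrm (h : ReflForm σ 1 f) (u : ι → F) (a : F) : (tvm u (a • gvec f u)).det = 1 + a * f u u := by
  rw [det_tvm, smul_dotProduct, h.gvec_dot, smul_eq_mul]

lemma uqr_mulVec (h : ReflForm σ 1 f) {u : ι → F} {a : F} (ha : 1 + a * f u u ≠ 0) (x : ι → F) :
    ((uqr f u a : GL ι F) : Matrix ι ι F) *ᵥ x = x + (a * f x u) • u := by
  have h1 : (tvm u (a • gvec f u)).det ≠ 0 := by rw [det_uqrm h]; exact ha
  rw [uqr, dif_pos h1]
  change (tvm u (a • gvec f u)) *ᵥ x = _
  rw [tvm_mulVec, smul_dotProduct, h.gvec_dot, smul_eq_mul]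

lemma det_uqr (h : ReflForm σ 1 f) {u : ι → F} {a : F} (ha : 1 + a * f u u ≠ 0) :
    ((uqr f u a : GL ι F) : Matrix ι ι F).det = 1 + a * f u u := by
  have h1 : (tvm u (a • gvec f u)).det ≠ 0 := by rw [det_uqrm h]; exact ha
  rw [uqr, dif_pos h1]
  change (tvm u (a • gvec f u)).det = _
  rw [det_uqrm h]

lemma herm' (h : ReflForm σ 1 f) (v w : ι → F) : f v w = σ (f w v) := by
  have := h.herm v w
  rwa [one_mul] at this

lemma fix_self (h : ReflForm σ 1 f) (v : ι → F) : σ (f v v) = f v v := (herm' h v v).symm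

lemma uni_cond_ne (u : ι → F) {a : F} (ha : a + σ a + a * σ a * f u u = 0) : 1 + a * f u u ≠ 0 := by
  intro h0
  have h1 : a = 0 := by
    have h2 : a + σ a * (1 + a * f u u) = 0 := by linear_combination ha
    rw [h0, mul_zero, add_zero] at h2
    exact h2
  rw [h1, zero_mul, add_zero] at h0
  exact one_ne_zero h0

lemma uqr_isom (h : ReflForm σ 1 f) {u : ι → F} {a : F} (ha : a + σ a + a * σ a * f u u = 0) :
    IsIsom f (uqr f u a) := by
  intro x y
  rw [uqr_mulVec h (uni_cond_ne u ha), uqr_mulVec h (uni_cond_ne u ha), h.add_left, h.add_right, h.smul_left,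
    h.add_right, h.smul_right, h.smul_right, herm' h u y, map_mul]
  linear_combination (f x u * σ (f y u)) * ha

lemma conj_uqr (h : ReflForm σ 1 f) {g : GL ι F} (hg : IsIsom f g) {u : ι → F} {a : F}
    (ha : 1 + a * f u u ≠ 0) :
    g * uqr f u a * g⁻¹ = uqr f ((g : Matrix ι ι F) *ᵥ u) a := by
  apply gl_ext
  intro x
  rw [gl_mul_mulVec, gl_mul_mulVec, uqr_mulVec h ha, uqr_mulVec h (by rw [hg]; exact ha), Matrix.mulVec_add,
    gl_mulVec_inv_mulVec, Matrix.mulVec_smul]
  congr 3
  rw [← hg, gl_mulVec_inv_mulVec]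

lemma conj_utv (h : ReflForm σ 1 f) {g : GL ι F} (hg : IsIsom f g) {u : ι → F} (a : F)
    (hu : f u u = 0) :
    g * utv f u a * g⁻¹ = utv f ((g : Matrix ι ι F) *ᵥ u) a := by
  apply gl_ext
  intro x
  rw [gl_mul_mulVec, gl_mul_mulVec, utv_mulVec h hu, utv_mulVec h (by rw [hg]; exact hu), Matrix.mulVec_add,
    gl_mulVec_inv_mulVec, Matrix.mulVec_smul]
  congr 3
  rw [← hg, gl_mulVec_inv_mulVec]

/-- anisotropic vectors orthogonal to a small set -/
lemma exists_aniso_perp (h : ReflForm σ 1 f) (hσ : σ ≠ RingEquiv.refl F) (s : Finset (ι → F))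
    (hs : 2 * s.card < Fintype.card ι) : ∃ y ∈ h.perp s, f y y ≠ 0 := by
  by_contra hcon
  push Not at hcon
  have htot := tot_iso h hσ hcon
  have hle : h.perp s ≤ Submodule.span F (s : Set (ι → F)) := by
    intro x hx
    exact h.mem_span_of_perp s (fun y hy => htot y hy x hx)
  have h1 := Submodule.finrank_mono hle
  have h2 := finrank_span_finset_le_card (R := F) s
  rw [Set.finrank] at h2
  have h3 := h.finrank_perp s
  omega

/-- vectors of every norm orthogonal to a small set -/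
lemma exists_norm_perp [Finite F] (h : ReflForm σ 1 f) (hσ : σ ≠ RingEquiv.refl F) (s : Finset (ι → F))
    (hs : 2 * s.card < Fintype.card ι) {c : F} (hc : σ c = c) : ∃ y ∈ h.perp s, f y y = c := by
  by_cases hc0 : c = 0
  · exact ⟨0, Submodule.zero_mem _, by rw [h.zero_left, hc0]⟩
  obtain ⟨y, hy, hyy⟩ := exists_aniso_perp h hσ s hs
  obtain ⟨l, hl0, hl⟩ := norm_surj hσ h.inv (b := c / f y y) (div_ne_zero hc0 hyy)
    (by rw [map_div₀, hc, fix_self h])
  refine ⟨l • y, Submodule.smul_mem _ _ hy, ?_⟩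
  rw [h.smul_left, h.smul_right, ← mul_assoc, hl, div_mul_cancel₀ _ hyy]

/-- the group generated by unitary transvections -/
def utvGroup (σ : F ≃+* F) (f : (ι → F) → (ι → F) → F) : Subgroup (GL ι F) :=
  Subgroup.closure {g | ∃ z a, f z z = 0 ∧ σ a = -a ∧ g = utv f z a}

lemma utv_mem_group {z : ι → F} {a : F} (hz : f z z = 0) (ha : σ a = -a) : utv f z a ∈ utvGroup σ f :=
  Subgroup.subset_closure ⟨z, a, hz, ha, rfl⟩

lemma utvGroup_isom (h : ReflForm σ 1 f) {g : GL ι F} (hg : g ∈ utvGroup σ f) : IsIsom f g := by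
  induction hg using Subgroup.closure_induction with
  | mem g hg =>
    obtain ⟨z, a, hz, ha, rfl⟩ := hg
    exact utv_isometry h hz ha
  | one => exact isIsom_one
  | mul a b _ _ ha hb => exact ha.mul hb
  | inv a _ ha => exact ha.inv

lemma utvGroup_det {g : GL ι F} (hg : g ∈ utvGroup σ f) : g ∈ Geo.specialLinear ι F := by
  have : utvGroup σ f ≤ Geo.specialLinear ι F := by
    rw [utvGroup, Subgroup.closure_le]
    rintro g ⟨z, a, -, -, rfl⟩
    exact det_tv _ _
  exact this hg

lemma utvGroup_conj (h : ReflForm σ 1 f) {g t : GL ι F} (hg : IsIsom f g) (ht : t ∈ utvGroup σ f) :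
    g * t * g⁻¹ ∈ utvGroup σ f := by
  induction ht using Subgroup.closure_induction with
  | mem t ht =>
    obtain ⟨z, a, hz, ha, rfl⟩ := ht
    rw [conj_utv h hg a hz]
    exact utv_mem_group (by rw [hg]; exact hz) ha
  | one => simp
  | mul a b _ _ ha hb =>
    have : g * (a * b) * g⁻¹ = (g * a * g⁻¹) * (g * b * g⁻¹) := by group
    rw [this]; exact mul_mem ha hb
  | inv a _ ha =>
    have : g * a⁻¹ * g⁻¹ = (g * a * g⁻¹)⁻¹ := by group
    rw [this]; exact inv_mem ha

lemma utv_trans_step (h : ReflForm σ 1 f) {u v : ι → F} {c : F} (hu : f u u = c) (hv : f v v = c)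
    (h1 : f u v - c ≠ 0) (h2 : σ (f u v - c) = -(f u v - c)) :
    ∃ t ∈ utvGroup σ f, ((t : GL ι F) : Matrix ι ι F) *ᵥ u = v := by
  have hc : σ c = c := by rw [← hu, fix_self h]
  have hiso : f (v - u) (v - u) = 0 := by
    rw [h.sub_left, h.sub_right, h.sub_right, hu, hv, herm' h v u]
    rw [map_sub, hc] at h2
    linear_combination -h2
  refine ⟨utv f (v - u) (f u v - c)⁻¹, utv_mem_group hiso ?_, ?_⟩
  · rw [map_inv₀, h2, inv_neg]
  · rw [utv_mulVec h hiso, h.sub_right, hu, inv_mul_cancel₀ h1, one_smul]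
    abel

/-- transitivity on linearly independent vectors of the same norm -/
lemma utv_trans_indep [Finite F] (h : ReflForm σ 1 f) (hσ : σ ≠ RingEquiv.refl F) (hcard : 7 ≤ Fintype.card ι)
    {u v : ι → F} {c : F} (hu : f u u = c) (hv : f v v = c)
    (huv : u ∉ Submodule.span F {v}) (hvu : v ∉ Submodule.span F {u}) :
    ∃ t ∈ utvGroup σ f, ((t : GL ι F) : Matrix ι ι F) *ᵥ u = v := by
  classical
  have hc : σ c = c := by rw [← hu, fix_self h]
  obtain ⟨δ, hδ0, hδ⟩ := exists_skew hσ h.inv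
  obtain ⟨y1, hy1, hy1'⟩ := h.exists_perp_not_orth {u} (x := v) (by simpa using hvu)
  obtain ⟨y2, hy2, hy2'⟩ := h.exists_perp_not_orth {v} (x := u) (by simpa using huv)
  have hy1u : f y1 u = 0 := hy1 u (by simp)
  have hy2v : f y2 v = 0 := hy2 v (by simp)
  set w0 := ((c - δ) / f y2 u) • y2 + ((c + δ) / f y1 v) • y1 with hw0
  have h1 : f w0 u = c - δ := by
    rw [hw0, h.add_left, h.smul_left, h.smul_left, hy1u, mul_zero, add_zero, div_mul_cancel₀ _ hy2']
  have h2 : f w0 v = c + δ := by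
    rw [hw0, h.add_left, h.smul_left, h.smul_left, hy2v, mul_zero, zero_add, div_mul_cancel₀ _ hy1']
  obtain ⟨z, hz, hzz⟩ := exists_norm_perp h hσ {u, v, w0} (by
    have := Finset.card_le_three (a := u) (b := v) (c := w0)
    omega) (c := c - f w0 w0) (by rw [map_sub, hc, fix_self h])
  have hzu : f z u = 0 := hz u (by simp)
  have hzv : f z v = 0 := hz v (by simp)
  have hzw : f z w0 = 0 := hz w0 (by simp)
  have hwz : f w0 z = 0 := h.symm_zero.mp hzw
  have h3 : f (w0 + z) (w0 + z) = c := by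
    rw [h.add_left, h.add_right w0 w0 z, h.add_right z w0 z, hzz, hzw, hwz]; ring
  have h4 : f u (w0 + z) = c + δ := by
    rw [herm' h, h.add_left, hzu, add_zero, h1, map_sub, hc, hδ]; ring
  have h5 : f (w0 + z) v = c + δ := by
    rw [h.add_left, hzv, add_zero, h2]
  obtain ⟨t1, ht1, e1⟩ := utv_trans_step h hu h3 (by rw [h4]; simpa using hδ0)
    (by rw [h4, map_sub, map_add, hc, hδ]; ring)
  obtain ⟨t2, ht2, e2⟩ := utv_trans_step h h3 hv (by rw [h5]; simpa using hδ0)
    (by rw [h5, map_sub, map_add, hc, hδ]; ring)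
  exact ⟨t2 * t1, mul_mem ht2 ht1, by rw [gl_mul_mulVec, e1, e2]⟩

lemma notMem_span_of_orth (h : ReflForm σ 1 f) {u w : ι → F} (hw : w ≠ 0) (hu : u ≠ 0) (hwu : f w u = 0)
    (hne : f u u ≠ 0 ∨ f w w ≠ 0) : u ∉ Submodule.span F {w} ∧ w ∉ Submodule.span F {u} := by
  constructor
  · intro hm
    obtain ⟨c, rfl⟩ := Submodule.mem_span_singleton.mp hm
    have hc : c ≠ 0 := by rintro rfl; exact hu (zero_smul _ _)
    rw [h.smul_right] at hwu
    have hσc : σ c ≠ 0 := by simpa using hc
    have h1 : f w w = 0 := (mul_eq_zero.mp hwu).resolve_left hσc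
    rcases hne with h2 | h2
    · apply h2; rw [h.smul_left, h.smul_right, h1]; ring
    · exact h2 h1
  · intro hm
    obtain ⟨c, rfl⟩ := Submodule.mem_span_singleton.mp hm
    have hc : c ≠ 0 := by rintro rfl; exact hw (zero_smul _ _)
    rw [h.smul_left] at hwu
    have h1 : f u u = 0 := (mul_eq_zero.mp hwu).resolve_left hc
    rcases hne with h2 | h2
    · exact h2 h1
    · apply h2; rw [h.smul_left, h.smul_right, h1]; ring

/-- transitivity on vectors of a given non-zero norm -/
lemma utv_trans_norm [Finite F] (h : ReflForm σ 1 f) (hσ : σ ≠ RingEquiv.refl F) (hcard : 7 ≤ Fintype.card ι)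
    {u v : ι → F} {c : F} (hc0 : c ≠ 0) (hu : f u u = c) (hv : f v v = c) :
    ∃ t ∈ utvGroup σ f, ((t : GL ι F) : Matrix ι ι F) *ᵥ u = v := by
  classical
  have hc : σ c = c := by rw [← hu, fix_self h]
  have hu0 : u ≠ 0 := by
    rintro rfl; rw [h.zero_left] at hu; exact hc0 hu.symm
  have hv0 : v ≠ 0 := by
    rintro rfl; rw [h.zero_left] at hv; exact hc0 hv.symm
  obtain ⟨w, hw, hww⟩ := exists_norm_perp h hσ {u, v} (by
    have := Finset.card_le_two (a := u) (b := v)
    omega) hc
  have hw0 : w ≠ 0 := by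
    rintro rfl; rw [h.zero_left] at hww; exact hc0 hww.symm
  have h1 := notMem_span_of_orth h hw0 hu0 (hw u (by simp)) (Or.inl (by rw [hu]; exact hc0))
  have h2 := notMem_span_of_orth h hw0 hv0 (hw v (by simp)) (Or.inl (by rw [hv]; exact hc0))
  obtain ⟨t1, ht1, e1⟩ := utv_trans_indep h hσ hcard hu hww h1.1 h1.2
  obtain ⟨t2, ht2, e2⟩ := utv_trans_indep h hσ hcard hww hv h2.2 h2.1
  exact ⟨t2 * t1, mul_mem ht2 ht1, by rw [gl_mul_mulVec, e1, e2]⟩

/-- a non-trivial isometry has a vector `x` with `f(x, gx - x) ≠ 0` -/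
lemma uni_exists_move (h : ReflForm σ 1 f) (hσ : σ ≠ RingEquiv.refl F) {g : GL ι F} (hne : g ≠ 1) :
    ∃ x, f x ((g : Matrix ι ι F) *ᵥ x - x) ≠ 0 := by
  by_contra hcon
  push Not at hcon
  apply hne
  have key : ∀ x y, f x ((g : Matrix ι ι F) *ᵥ y - y) = 0 := by
    intro x y
    have hpol : ∀ x y, f x ((g : Matrix ι ι F) *ᵥ y - y) + f y ((g : Matrix ι ι F) *ᵥ x - x) = 0 := by
      intro x y
      have h1 := hcon (x + y)
      have h2 : (g : Matrix ι ι F) *ᵥ (x + y) - (x + y) =
          ((g : Matrix ι ι F) *ᵥ x - x) + ((g : Matrix ι ι F) *ᵥ y - y) := by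
        rw [Matrix.mulVec_add]; abel
      rw [h2, h.add_left, h.add_right, h.add_right, hcon x, hcon y] at h1
      linear_combination h1
    obtain ⟨b, hb⟩ := exists_moved hσ
    have h1 := hpol x y
    have h2 := hpol (b • x) y
    have h3 : (g : Matrix ι ι F) *ᵥ (b • x) - b • x = b • ((g : Matrix ι ι F) *ᵥ x - x) := by
      rw [Matrix.mulVec_smul, smul_sub]
    rw [h3, h.smul_left, h.smul_right] at h2
    have h4 : (σ b - b) * f x ((g : Matrix ι ι F) *ᵥ y - y) = 0 := by linear_combination σ b * h1 - h2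
    rcases mul_eq_zero.mp h4 with h5 | h5
    · exact absurd (sub_eq_zero.mp h5) hb
    · exact h5
  apply gl_ext
  intro y
  have : (g : Matrix ι ι F) *ᵥ y - y = 0 := by
    by_contra hne'
    obtain ⟨x, hx⟩ := h.nondeg _ hne'
    exact hx (key x y)
  rw [sub_eq_zero.mp this]; simp

theorem uni_decomp [Finite F] (h : ReflForm σ 1 f) (hσ : σ ≠ RingEquiv.refl F) (hcard : 7 ≤ Fintype.card ι)
    {v0 : ι → F} (hv0 : f v0 v0 = 1) : ∀ n : ℕ, ∀ g : GL ι F, IsIsom f g →
    Fintype.card ι - Module.finrank F (fixSub g) ≤ n →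
    ∃ t ∈ utvGroup σ f, ∃ μ : F, μ * σ μ = 1 ∧ g = t * uqr f v0 (μ - 1) := by
  have hr : ∀ μ : F, μ * σ μ = 1 → (μ - 1) + σ (μ - 1) + (μ - 1) * σ (μ - 1) * f v0 v0 = 0 := by
    intro μ hμ
    rw [hv0, map_sub, map_one]
    linear_combination hμ
  have hr1 : uqr f v0 ((1 : F) - 1) = 1 := by
    apply gl_ext
    intro x
    rw [uqr_mulVec h (by simp)]
    simp
  have hrmul : ∀ μ ν : F, μ * σ μ = 1 → ν * σ ν = 1 →
      uqr f v0 (μ - 1) * uqr f v0 (ν - 1) = uqr f v0 (μ * ν - 1) := by
    intro μ ν hμ hν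
    have hμν : (μ * ν) * σ (μ * ν) = 1 := by rw [map_mul]; linear_combination hμ * (ν * σ ν) + hν
    apply gl_ext
    intro x
    rw [gl_mul_mulVec, uqr_mulVec h (uni_cond_ne v0 (hr ν hν)), uqr_mulVec h (uni_cond_ne v0 (hr μ hμ)),
      uqr_mulVec h (uni_cond_ne v0 (hr _ hμν)), h.add_left, h.smul_left, hv0]
    module
  intro n
  induction n with
  | zero =>
    intro g hg hn
    have h1 : Module.finrank F (fixSub g) ≤ Fintype.card ι := by
      have := Submodule.finrank_le (fixSub g)
      rwa [Module.finrank_fintype_fun_eq_card] at this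
    have h2 : fixSub g = ⊤ := by
      apply Submodule.eq_top_of_finrank_eq
      rw [Module.finrank_fintype_fun_eq_card]
      omega
    have : g = 1 := by
      apply gl_ext
      intro x
      have : x ∈ fixSub g := by rw [h2]; trivial
      rw [mem_fixSub] at this
      rw [this]; simp
    refine ⟨1, one_mem _, 1, by simp, ?_⟩
    rw [this, hr1, one_mul]
  | succ n ih =>
    intro g hg hn
    by_cases hne : g = 1
    · refine ⟨1, one_mem _, 1, by simp, ?_⟩
      rw [hne, hr1, one_mul]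
    obtain ⟨x, hx⟩ := uni_exists_move h hσ hne
    set u := (g : Matrix ι ι F) *ᵥ x - x with hu
    set a := (f x u)⁻¹ with ha
    have hgx : (g : Matrix ι ι F) *ᵥ x = x + u := by rw [hu]; abel
    -- the unitarity condition
    have hnorm : f x u + σ (f x u) + f u u = 0 := by
      have h1 := hg x x
      rw [hgx, h.add_left, h.add_right, h.add_right, herm' h u x] at h1
      linear_combination h1
    have hcond : a + σ a + a * σ a * f u u = 0 := by
      have h1 : σ (f x u) ≠ 0 := by simpa using hx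
      rw [ha, map_inv₀]
      field_simp
      linear_combination hnorm
    set s := uqr f u a with hs
    have hsi : IsIsom f s := uqr_isom h hcond
    have hsmul : ∀ y, (s : Matrix ι ι F) *ᵥ y = y + (a * f y u) • u := fun y =>
      uqr_mulVec h (uni_cond_ne u hcond) y
    have hsx : (s : Matrix ι ι F) *ᵥ x = (g : Matrix ι ι F) *ᵥ x := by
      rw [hsmul, ha, inv_mul_cancel₀ hx, one_smul, hgx]
    have hsfix : ∀ y ∈ fixSub g, (s : Matrix ι ι F) *ᵥ y = y := by
      intro y hy
      rw [mem_fixSub] at hy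
      have h1 : f y u = 0 := by
        rw [hu, h.sub_right, sub_eq_zero]
        conv_lhs => rw [← hy, hg]
      rw [hsmul, h1]; simp
    have hlt : fixSub g < fixSub (s⁻¹ * g) := by
      rw [SetLike.lt_iff_le_and_exists]
      refine ⟨?_, x, ?_, ?_⟩
      · intro y hy
        rw [mem_fixSub, gl_mul_mulVec, mem_fixSub.mp hy]
        conv_lhs => rw [← hsfix y hy]
        exact gl_inv_mulVec_mulVec s y
      · rw [mem_fixSub, gl_mul_mulVec, ← hsx, gl_inv_mulVec_mulVec]
      · rw [mem_fixSub]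
        intro h1
        apply hx
        rw [hu, h1, sub_self, h.zero_right]
    have h3 := Submodule.finrank_lt_finrank_of_lt hlt
    obtain ⟨t, ht, μ, hμ, hgt⟩ := ih (s⁻¹ * g) (hsi.inv.mul hg) (by omega)
    have hg' : g = s * (t * uqr f v0 (μ - 1)) := by
      rw [← hgt]; group
    by_cases huu : f u u = 0
    · have hsT : s ∈ utvGroup σ f := by
        have h4 : σ a = -a := by
          rw [huu, mul_zero, add_zero] at hcond
          linear_combination hcond
        have h5 : s = utv f u a := by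
          apply gl_ext
          intro y
          rw [hsmul, utv_mulVec h huu]
        rw [h5]; exact utv_mem_group huu h4
      exact ⟨s * t, mul_mem hsT ht, μ, hμ, by rw [hg', mul_assoc]⟩
    · obtain ⟨c, hc0, hc⟩ := norm_surj hσ h.inv (b := (f u u)⁻¹) (inv_ne_zero huu)
        (by rw [map_inv₀, fix_self h])
      have hunit : f (c • u) (c • u) = 1 := by
        rw [h.smul_left, h.smul_right, ← mul_assoc, hc, inv_mul_cancel₀ huu]
      obtain ⟨k, hk, hkv⟩ := utv_trans_norm h hσ hcard one_ne_zero hv0 hunit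
      have hki := utvGroup_isom h hk
      set ν := 1 + a * f u u with hν
      have hνν : ν * σ ν = 1 := by
        rw [hν, map_add, map_one, map_mul, fix_self h]
        linear_combination (f u u) * hcond
      have hsk : s = k * uqr f v0 (ν - 1) * k⁻¹ := by
        rw [conj_uqr h hki (uni_cond_ne v0 (hr ν hνν)), hkv]
        apply gl_ext
        intro y
        rw [hsmul, uqr_mulVec h (by
          rw [hunit, hν, mul_one, add_sub_cancel]
          exact uni_cond_ne u hcond), h.smul_right, smul_smul]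
        congr 2
        rw [hν, add_sub_cancel_left]
        linear_combination (-(a * f u u * f y u)) * hc + (-(a * f y u)) * (mul_inv_cancel₀ huu)
      refine ⟨k * (uqr f v0 (ν - 1) * (k⁻¹ * t) * (uqr f v0 (ν - 1))⁻¹), mul_mem hk
        (utvGroup_conj h (uqr_isom h (hr ν hνν)) (mul_mem (inv_mem hk) ht)), ν * μ, ?_, ?_⟩
      · rw [map_mul]; linear_combination hνν * (μ * σ μ) + hμ
      · rw [← hrmul ν μ hνν hμ, hg', hsk]
        group

/-- special unitary groups in dimension at least 7 are generated by unitary transvections -/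
theorem su_mem_of_utv_mem [Finite F] (h : ReflForm σ 1 f) (hσ : σ ≠ RingEquiv.refl F)
    (hcard : 7 ≤ Fintype.card ι) {H : Subgroup (GL ι F)}
    (hH : ∀ z a, f z z = 0 → σ a = -a → utv f z a ∈ H) {g : GL ι F} (hg : IsIsom f g)
    (hdet : g ∈ Geo.specialLinear ι F) : g ∈ H := by
  obtain ⟨v0, -, hv0⟩ := exists_norm_perp h hσ ∅ (by simp; omega) (c := 1) (map_one σ)
  obtain ⟨t, ht, μ, hμ, hgt⟩ := uni_decomp h hσ hcard hv0 _ g hg le_rfl
  have hTH : utvGroup σ f ≤ H := by
    rw [utvGroup, Subgroup.closure_le]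
    rintro g ⟨z, a, hz, ha, rfl⟩
    exact hH z a hz ha
  have hcond : (μ - 1) + σ (μ - 1) + (μ - 1) * σ (μ - 1) * f v0 v0 = 0 := by
    rw [hv0, map_sub, map_one]
    linear_combination hμ
  have h1 : uqr f v0 (μ - 1) ∈ Geo.specialLinear ι F := by
    have h2 : uqr f v0 (μ - 1) = t⁻¹ * g := by rw [hgt]; group
    rw [h2]
    exact mul_mem (inv_mem (utvGroup_det ht)) hdet
  have h3 : ((uqr f v0 (μ - 1) : GL ι F) : Matrix ι ι F).det = 1 := by
    rw [Geo.specialLinear, MonoidHom.mem_ker] at h1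
    have := congrArg Units.val h1
    rwa [Matrix.GeneralLinearGroup.val_det_apply] at this
  rw [det_uqr h (uni_cond_ne v0 hcond), hv0] at h3
  have h4 : μ = 1 := by linear_combination h3
  have h5 : uqr f v0 (μ - 1) = 1 := by
    rw [h4]
    apply gl_ext
    intro x
    rw [uqr_mulVec h (by simp)]
    simp
  rw [hgt, h5, mul_one]
  exact hTH ht

end uni

end Cfsg.Agent.H12
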