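import Mathlib
import Cfsg.Prelude.Def_GeometricClasses
import Cfsg.Agent.H12.Transv
import Cfsg.Agent.H12.ReflForm
import Cfsg.Agent.H12.UniForm
import Cfsg.Agent.H12.SpGen
import Cfsg.Agent.H12.UniGen

/-!
The standard hermitian form `hermForm n F q`, `|F| = q²`, as a `ReflForm`; full centres for unitary groups.
-/

set_option autoImplicit false
set_option linter.unusedSectionVars false

open scoped MatrixGroups Matrix

namespace Cfsg.Agent.H12

section frob

variable {F : Type*} [Field F] [Fintype F]

/-- the `q`-power automorphism of the field with `q²` elements -/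
lemma exists_frob {q : ℕ} (hF : Fintype.card F = q ^ 2) :
    ∃ σ : F ≃+* F, (∀ x, σ x = x ^ q) ∧ σ ≠ RingEquiv.refl F ∧ ∀ a, σ (σ a) = a := by
  classical
  obtain ⟨p, hp⟩ := CharP.exists F
  haveI : Fact p.Prime := ⟨CharP.char_is_prime F p⟩
  obtain ⟨k, hpk, hk⟩ := FiniteField.card F p
  have h1 : q ∣ p ^ (k : ℕ) := by
    rw [← hk, hF]; exact Dvd.intro_left q (by ring)
  obtain ⟨j, -, hj⟩ := (Nat.dvd_prime_pow hpk).mp h1
  haveI : ExpChar F p := ExpChar.prime hpk
  refine ⟨iterateFrobeniusEquiv F p j, ?_, ?_, ?_⟩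
  · intro x
    rw [iterateFrobeniusEquiv_def, hj]
  · intro h
    have hq1 : 1 < q := by
      have := Fintype.one_lt_card (α := F)
      rw [hF] at this
      by_contra h'
      have : q ≤ 1 := by omega
      interval_cases q <;> omega
    have h2 : ∀ x : F, x ^ q = x := by
      intro x
      have := congrArg (fun s : F ≃+* F => s x) h
      simp only [iterateFrobeniusEquiv_def, ← hj, RingEquiv.refl_apply] at this
      exact this
    have h3 : Fintype.card F ≤ q := by
      have hne : (Polynomial.X ^ q - Polynomial.X : Polynomial F) ≠ 0 := FiniteField.X_pow_card_sub_X_ne_zero F hq1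
      have h4 : (Finset.univ : Finset F) ⊆ (Polynomial.X ^ q - Polynomial.X : Polynomial F).roots.toFinset := by
        intro x _
        rw [Multiset.mem_toFinset, Polynomial.mem_roots hne]
        simp [h2]
      have h5 := Finset.card_le_card h4
      rw [Finset.card_univ] at h5
      have h6 := Multiset.toFinset_card_le (Polynomial.X ^ q - Polynomial.X : Polynomial F).roots
      have h7 := Polynomial.card_roots' (Polynomial.X ^ q - Polynomial.X : Polynomial F)
      rw [FiniteField.X_pow_card_sub_X_natDegree_eq F hq1] at h7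
      omega
    rw [hF] at h3
    nlinarith
  · intro a
    rw [iterateFrobeniusEquiv_def, iterateFrobeniusEquiv_def, ← hj, ← pow_mul, ← sq, ← hF, FiniteField.pow_card]

variable {n q : ℕ}

/-- the standard hermitian form is a `ReflForm` -/
lemma reflForm_herm {σ : F ≃+* F} (hσq : ∀ x, σ x = x ^ q) (hinv : ∀ a, σ (σ a) = a) :
    ReflForm σ 1 (hermForm n F q) where
  inv := hinv
  eps := by ring
  seps := map_one σ
  add_left := by
    intro x y v
    simp only [hermForm, Pi.add_apply, add_mul, Finset.sum_add_distrib]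
  smul_left := by
    intro c x v
    simp only [hermForm, Pi.smul_apply, smul_eq_mul, Finset.mul_sum, mul_assoc]
  herm := by
    intro v w
    simp only [hermForm]
    rw [one_mul, map_sum]
    apply Finset.sum_congr rfl
    intro i _
    rw [map_mul, ← hσq (v i), hinv, mul_comm, hσq (w i)]
  nondeg := by
    intro v hv
    obtain ⟨i, hi⟩ : ∃ i, v i ≠ 0 := by
      by_contra hcon
      push Not at hcon
      exact hv (funext hcon)
    refine ⟨Pi.single i 1, ?_⟩
    simp only [hermForm]
    rw [Finset.sum_eq_single i]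
    · rw [Pi.single_eq_same, one_mul, ← hσq]
      simpa using hi
    · intro b _ hb
      rw [Pi.single_eq_of_ne hb, zero_mul]
    · simp

lemma mem_GU {g : GL (Fin n) F} : g ∈ GU n F q ↔ IsIsom (hermForm n F q) g := Iff.rfl

end frob

section full

variable {ι : Type} [Fintype ι] [DecidableEq ι] {F : Type*} [Field F]
variable {σ : F ≃+* F} {f : (ι → F) → (ι → F) → F}

/-- `z` is an isotropic vector all of whose unitary transvections are in `M` -/
def ufull (σ : F ≃+* F) (f : (ι → F) → (ι → F) → F) (M : Subgroup (GL ι F)) (z : ι → F) : Prop :=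
  f z z = 0 ∧ ∀ a, σ a = -a → utv f z a ∈ M

lemma utv_smul (h : ReflForm σ 1 f) {z : ι → F} (hz : f z z = 0) (c a : F) :
    utv f (c • z) a = utv f z (a * (c * σ c)) := by
  apply gl_ext
  intro x
  rw [utv_mulVec h (by rw [h.smul_left, h.smul_right, hz]; ring), utv_mulVec h hz, h.smul_right, smul_smul]
  congr 2
  ring

lemma utv_zero_vec (a : F) : utv f (0 : ι → F) a = 1 := by
  rw [utv, tv_zero_left]

lemma ufull_zero (h : ReflForm σ 1 f) (M : Subgroup (GL ι F)) : ufull σ f M 0 := by
  refine ⟨h.zero_left 0, fun a _ => ?_⟩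
  rw [utv_zero_vec]; exact one_mem M

lemma ufull_smul (h : ReflForm σ 1 f) {M : Subgroup (GL ι F)} {z : ι → F} (hz : ufull σ f M z) (c : F) :
    ufull σ f M (c • z) := by
  refine ⟨by rw [h.smul_left, h.smul_right, hz.1]; ring, fun a ha => ?_⟩
  rw [utv_smul h hz.1]
  apply hz.2
  rw [map_mul, map_mul, h.inv, ha]; ring

lemma ufull_image (h : ReflForm σ 1 f) {M : Subgroup (GL ι F)} {z : ι → F} (hz : ufull σ f M z)
    {g : GL ι F} (hg : g ∈ M) (hgi : IsIsom f g) : ufull σ f M ((g : Matrix ι ι F) *ᵥ z) := by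
  refine ⟨by rw [hgi]; exact hz.1, fun a ha => ?_⟩
  rw [← conj_utv h hgi a hz.1]
  exact M.mul_mem (M.mul_mem hg (hz.2 a ha)) (M.inv_mem hg)

/-- adding a non-orthogonal full centre -/
lemma ufull_add (h : ReflForm σ 1 f) {M : Subgroup (GL ι F)} {y z : ι → F} (hy : ufull σ f M y)
    (hz : ufull σ f M z) (hyz : f y z ≠ 0) {c : F} (hc : f (y + c • z) (y + c • z) = 0) :
    ufull σ f M (y + c • z) := by
  have h1 : c * f z y + σ (c * f z y) = 0 := by
    rw [h.add_left, h.add_right, h.add_right, h.smul_left, h.smul_right, h.smul_left, h.smul_right, hy.1, hz.1,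
      herm' h y z] at hc
    rw [map_mul]
    linear_combination hc
  have ha : σ (c / f y z) = -(c / f y z) := by
    have h2 : f z y ≠ 0 := fun h' => hyz (h.symm_zero.mp h')
    have h3 : f y z = σ (f z y) := herm' h y z
    rw [map_div₀, h3, h.inv]
    rw [map_mul] at h1
    have h4 : σ (f z y) ≠ 0 := by rwa [← h3]
    rw [eq_neg_iff_add_eq_zero]
    field_simp
    linear_combination h1
  have h2 := ufull_image h hy (hz.2 _ ha) (utv_isometry h hz.1 ha)
  rwa [utv_mulVec h hz.1, div_mul_cancel₀ _ hyz] at h2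

end full

end Cfsg.Agent.H12
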