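import Mathlib

set_option autoImplicit false

/-! Partitions invariant under an involution. -/

namespace Cfsg.Agent.H12

open Finset

section
variable {X : Type*} [DecidableEq X] (π : X → X)

/-- growing an invariant set two points at a time -/
theorem exists_inv_grow (hπ : ∀ x, π (π x) = x) (S : Finset X) (hS : ∀ x ∈ S, π x ∈ S)
    (Y₀ : Finset X) (hY₀ : Y₀ ⊆ S) (hY₀i : ∀ x ∈ Y₀, π x ∈ Y₀) :
    ∀ k : ℕ, Y₀.card + 2 * k ≤ S.card → ∃ Y ⊆ S, (∀ x ∈ Y, π x ∈ Y) ∧ Y.card = Y₀.card + 2 * k := by
  intro k
  induction k with
  | zero => intro _; exact ⟨Y₀, hY₀, hY₀i, by simp⟩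
  | succ k ih =>
    intro h
    obtain ⟨Y, hYS, hYi, hYc⟩ := ih (by omega)
    have hne : ∀ x ∈ S \ Y, π x ∈ S \ Y := by
      intro x hx
      rw [mem_sdiff] at hx ⊢
      exact ⟨hS x hx.1, fun h => hx.2 (by rw [← hπ x]; exact hYi _ h)⟩
    have hcard : 2 ≤ (S \ Y).card := by
      rw [card_sdiff_of_subset hYS]; omega
    by_cases hm : ∃ x ∈ S \ Y, π x ≠ x
    · obtain ⟨x, hx, hxn⟩ := hm
      have h1 := hne x hx
      rw [mem_sdiff] at hx h1
      refine ⟨insert x (insert (π x) Y), ?_, ?_, ?_⟩
      · intro y hy
        rcases mem_insert.mp hy with rfl | hy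
        · exact hx.1
        rcases mem_insert.mp hy with rfl | hy
        · exact h1.1
        exact hYS hy
      · intro y hy
        rcases mem_insert.mp hy with rfl | hy
        · exact mem_insert_of_mem (mem_insert_self _ _)
        rcases mem_insert.mp hy with rfl | hy
        · rw [hπ]; exact mem_insert_self _ _
        exact mem_insert_of_mem (mem_insert_of_mem (hYi y hy))
      · rw [card_insert_of_notMem, card_insert_of_notMem h1.2, hYc]
        · ring
        · rw [mem_insert, not_or]
          exact ⟨fun h => hxn h.symm, hx.2⟩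
    · push Not at hm
      obtain ⟨T, hT, hTc⟩ := exists_subset_card_eq hcard
      refine ⟨T ∪ Y, ?_, ?_, ?_⟩
      · exact union_subset (hT.trans sdiff_subset) hYS
      · intro y hy
        rcases mem_union.mp hy with hy | hy
        · rw [hm y (hT hy)]; exact mem_union_left _ hy
        · exact mem_union_right _ (hYi y hy)
      · rw [card_union_of_disjoint (Finset.disjoint_left.mpr fun x hx hxY => (mem_sdiff.mp (hT hx)).2 hxY), hTc, hYc]
        ring

/-- half of a free involution -/
theorem exists_half (hπ : ∀ x, π (π x) = x) (S : Finset X) (hS : ∀ x ∈ S, π x ∈ S)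
    (hfree : ∀ x ∈ S, π x ≠ x) :
    ∀ k : ℕ, 2 * k ≤ S.card → ∃ Y ⊆ S, (∀ x ∈ Y, π x ∉ Y) ∧ Y.card = k := by
  intro k
  induction k with
  | zero => intro _; exact ⟨∅, by simp, by simp, by simp⟩
  | succ k ih =>
    intro h
    obtain ⟨Y, hYS, hYi, hYc⟩ := ih (by omega)
    have hc : (Y ∪ Y.image π).card ≤ 2 * k := by
      have e1 : (Y ∪ Y.image π).card ≤ Y.card + (Y.image π).card := card_union_le _ _
      have e2 : (Y.image π).card ≤ Y.card := card_image_le
      omega
    have : ∃ x ∈ S, x ∉ Y ∪ Y.image π := by
      by_contra hcon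
      push Not at hcon
      have := card_le_card (show S ⊆ Y ∪ Y.image π from hcon)
      omega
    obtain ⟨x, hx, hxn⟩ := this
    rw [mem_union, not_or, mem_image] at hxn
    push Not at hxn
    have hpx : π x ∉ Y := fun h => hxn.2 (π x) h (hπ x)
    refine ⟨insert x Y, ?_, ?_, ?_⟩
    · intro y hy
      rcases mem_insert.mp hy with rfl | hy
      · exact hx
      exact hYS hy
    · intro y hy
      rcases mem_insert.mp hy with rfl | hy
      · rw [mem_insert, not_or]
        exact ⟨hfree _ hx, hpx⟩
      · rw [mem_insert, not_or]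
        refine ⟨?_, hYi y hy⟩
        intro h
        exact hxn.2 y hy h
    · rw [card_insert_of_notMem hxn.1, hYc]

theorem even_of_free (hπ : ∀ x, π (π x) = x) (S : Finset X) (hS : ∀ x ∈ S, π x ∈ S)
    (hfree : ∀ x ∈ S, π x ≠ x) : Even S.card := by
  have h := Finset.sum_involution (s := S) (f := fun _ => (1 : ZMod 2)) (fun a _ => π a)
    (fun a _ => by decide) (fun a ha _ => hfree a ha) (fun a ha => hS a ha) (fun a _ => hπ a)
  rw [Finset.sum_const, nsmul_eq_mul, mul_one] at h
  rw [← ZMod.natCast_eq_zero_iff_even]
  exact h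

theorem inv_part_aux (hπ : ∀ x, π (π x) = x) (a : ℕ) (ha : 0 < a) :
    ∀ (t : ℕ) (S : Finset X), (∀ x ∈ S, π x ∈ S) → S.card = a * t →
      ∃ (f : X → ℕ) (σ : ℕ → ℕ), (∀ x ∈ S, f x < t) ∧ (∀ j < t, (S.filter (fun x => f x = j)).card = a) ∧
        (∀ j < t, σ j < t ∧ σ (σ j) = j) ∧ ∀ x ∈ S, f (π x) = σ (f x) := by
  intro t
  induction t using Nat.strong_induction_on with
  | _ t ih =>
  intro S hS hcard
  rcases Nat.eq_zero_or_pos t with rfl | ht
  · refine ⟨fun _ => 0, id, ?_, ?_, ?_, ?_⟩
    · intro x hx
      rw [mul_zero, card_eq_zero] at hcard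
      rw [hcard] at hx
      simp at hx
    · intro j hj; omega
    · intro j hj; omega
    · intro x hx; rfl
  -- is there an invariant subset of size a?
  by_cases hA : ∃ Y ⊆ S, (∀ x ∈ Y, π x ∈ Y) ∧ Y.card = a
  · obtain ⟨Y, hYS, hYi, hYc⟩ := hA
    obtain ⟨f', σ', h1, h2, h3, h4⟩ := ih (t - 1) (by omega) (S \ Y) (by
      intro x hx
      rw [mem_sdiff] at hx ⊢
      exact ⟨hS x hx.1, fun h => hx.2 (by rw [← hπ x]; exact hYi _ h)⟩) (by
      rw [card_sdiff_of_subset hYS, hcard, hYc]
      obtain ⟨t', rfl⟩ : ∃ t', t = t' + 1 := ⟨t - 1, by omega⟩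
      simp [mul_add])
    have hYn : ∀ x, x ∉ Y → π x ∉ Y := fun x hx h => hx (by rw [← hπ x]; exact hYi _ h)
    refine ⟨fun x => if x ∈ Y then t - 1 else f' x, fun j => if j = t - 1 then t - 1 else σ' j, ?_, ?_, ?_, ?_⟩
    · intro x hx
      by_cases hxY : x ∈ Y
      · simp only [hxY, if_true]; omega
      · simp only [hxY, if_false]
        have := h1 x (mem_sdiff.mpr ⟨hx, hxY⟩)
        omega
    · intro j hj
      by_cases hjt : j = t - 1
      · have : S.filter (fun x => (if x ∈ Y then t - 1 else f' x) = j) = Y := by
          ext x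
          rw [mem_filter]
          constructor
          · rintro ⟨hx, he⟩
            by_contra hxY
            simp only [hxY, if_false] at he
            have := h1 x (mem_sdiff.mpr ⟨hx, hxY⟩)
            omega
          · intro hx
            refine ⟨hYS hx, ?_⟩
            simp only [hx, if_true]; exact hjt.symm
        rw [this, hYc]
      · have : S.filter (fun x => (if x ∈ Y then t - 1 else f' x) = j) = (S \ Y).filter (fun x => f' x = j) := by
          ext x
          rw [mem_filter, mem_filter, mem_sdiff]
          constructor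
          · rintro ⟨hx, he⟩
            by_cases hxY : x ∈ Y
            · simp only [hxY, if_true] at he; omega
            · simp only [hxY, if_false] at he
              exact ⟨⟨hx, hxY⟩, he⟩
          · rintro ⟨⟨hx, hxY⟩, he⟩
            refine ⟨hx, ?_⟩
            simp only [hxY, if_false]; exact he
        rw [this]
        exact h2 j (by omega)
    · intro j hj
      by_cases hjt : j = t - 1
      · simp only [hjt, if_true]
        exact ⟨by omega, trivial⟩
      · have := h3 j (by omega)
        have hne : σ' j ≠ t - 1 := by omega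
        simp only [hjt, if_false, hne]
        exact ⟨by omega, this.2⟩
    · intro x hx
      by_cases hxY : x ∈ Y
      · simp only [hxY, hYi x hxY, if_true]
      · have := h1 x (mem_sdiff.mpr ⟨hx, hxY⟩)
        have hne : f' x ≠ t - 1 := by omega
        simp only [hxY, hYn x hxY, if_false, hne]
        exact h4 x (mem_sdiff.mpr ⟨hx, hxY⟩)
  · -- then a is odd and π is free on S
    have hle : a ≤ S.card := by rw [hcard]; exact Nat.le_mul_of_pos_right a ht
    have hodd : ¬ Even a := by
      rintro ⟨k, hk⟩
      apply hA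
      obtain ⟨Y, hY1, hY2, hY3⟩ := exists_inv_grow π hπ S hS ∅ (by simp) (by simp) k (by simp; omega)
      exact ⟨Y, hY1, hY2, by rw [hY3]; simp; omega⟩
    rw [Nat.not_even_iff_odd] at hodd
    obtain ⟨k, hk⟩ := hodd
    have hfree : ∀ x ∈ S, π x ≠ x := by
      intro x hx hxx
      apply hA
      obtain ⟨Y, hY1, hY2, hY3⟩ := exists_inv_grow π hπ S hS {x} (by simpa using hx)
        (by intro y hy; rw [mem_singleton] at hy ⊢; rw [hy, hxx]) k (by simp; omega)
      exact ⟨Y, hY1, hY2, by rw [hY3]; simp; omega⟩
    have hev := even_of_free π hπ S hS hfree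
    have ht2 : 2 ≤ t := by
      by_contra h
      have : t = 1 := by omega
      rw [hcard, this, mul_one, hk] at hev
      exact (Nat.not_even_iff_odd.mpr ⟨k, rfl⟩) hev
    obtain ⟨Y, hYS, hYn, hYc⟩ := exists_half π hπ S hS hfree a (by
      rw [hcard, mul_comm]; exact Nat.mul_le_mul_left a ht2)
    set Z := Y.image π with hZ
    have hinj : Function.Injective π := fun x y h => by rw [← hπ x, h, hπ]
    have hZc : Z.card = a := by rw [hZ, card_image_of_injective _ hinj, hYc]
    have hmZ : ∀ x, x ∈ Z ↔ π x ∈ Y := by
      intro x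
      rw [hZ, mem_image]
      constructor
      · rintro ⟨y, hy, rfl⟩; rwa [hπ]
      · intro h; exact ⟨π x, h, hπ x⟩
    have hZS : Z ⊆ S := by
      intro x hx
      rw [hmZ] at hx
      rw [← hπ x]
      exact hS _ (hYS hx)
    have hdisj : Disjoint Y Z := by
      rw [disjoint_left]
      intro x hx hxZ
      rw [hmZ] at hxZ
      exact hYn x hx hxZ
    obtain ⟨f', σ', h1, h2, h3, h4⟩ := ih (t - 2) (by omega) (S \ (Y ∪ Z)) (by
      intro x hx
      rw [mem_sdiff, mem_union, not_or] at hx ⊢
      refine ⟨hS x hx.1, fun h => hx.2.2 ((hmZ x).mpr h), fun h => hx.2.1 ?_⟩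
      rw [hmZ, hπ] at h
      exact h) (by
      rw [card_sdiff_of_subset (union_subset hYS hZS), hcard, card_union_of_disjoint hdisj, hYc, hZc]
      obtain ⟨t', rfl⟩ : ∃ t', t = t' + 2 := ⟨t - 2, by omega⟩
      simp [mul_add]; omega)
    refine ⟨fun x => if x ∈ Y then t - 1 else if x ∈ Z then t - 2 else f' x,
      fun j => if j = t - 1 then t - 2 else if j = t - 2 then t - 1 else σ' j, ?_, ?_, ?_, ?_⟩
    · intro x hx
      by_cases hxY : x ∈ Y
      · simp only [hxY, if_true]; omega
      · by_cases hxZ : x ∈ Z
        · simp only [hxY, if_false, hxZ, if_true]; omega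
        · simp only [hxY, if_false, hxZ]
          have := h1 x (by rw [mem_sdiff, mem_union, not_or]; exact ⟨hx, hxY, hxZ⟩)
          omega
    · intro j hj
      have hYZ : ∀ x, x ∈ Z → x ∉ Y := fun x hx h => (disjoint_left.mp hdisj) h hx
      by_cases hjt : j = t - 1
      · have : S.filter (fun x => (if x ∈ Y then t - 1 else if x ∈ Z then t - 2 else f' x) = j) = Y := by
          ext x
          rw [mem_filter]
          constructor
          · rintro ⟨hx, he⟩
            by_contra hxY
            by_cases hxZ : x ∈ Z
            · simp only [hxY, if_false, hxZ, if_true] at he; omega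
            · simp only [hxY, if_false, hxZ] at he
              have := h1 x (by rw [mem_sdiff, mem_union, not_or]; exact ⟨hx, hxY, hxZ⟩)
              omega
          · intro hx
            refine ⟨hYS hx, ?_⟩
            simp only [hx, if_true]; exact hjt.symm
        rw [this, hYc]
      · by_cases hjt2 : j = t - 2
        · have : S.filter (fun x => (if x ∈ Y then t - 1 else if x ∈ Z then t - 2 else f' x) = j) = Z := by
            ext x
            rw [mem_filter]
            constructor
            · rintro ⟨hx, he⟩
              by_contra hxZ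
              by_cases hxY : x ∈ Y
              · simp only [hxY, if_true] at he; omega
              · simp only [hxY, if_false, hxZ] at he
                have := h1 x (by rw [mem_sdiff, mem_union, not_or]; exact ⟨hx, hxY, hxZ⟩)
                omega
            · intro hx
              refine ⟨hZS hx, ?_⟩
              simp only [hYZ x hx, hx, if_true, if_false]; exact hjt2.symm
          rw [this, hZc]
        · have : S.filter (fun x => (if x ∈ Y then t - 1 else if x ∈ Z then t - 2 else f' x) = j) =
              (S \ (Y ∪ Z)).filter (fun x => f' x = j) := by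
            ext x
            rw [mem_filter, mem_filter, mem_sdiff, mem_union, not_or]
            constructor
            · rintro ⟨hx, he⟩
              by_cases hxY : x ∈ Y
              · simp only [hxY, if_true] at he; omega
              · by_cases hxZ : x ∈ Z
                · simp only [hxY, if_false, hxZ, if_true] at he; omega
                · simp only [hxY, if_false, hxZ] at he
                  exact ⟨⟨hx, hxY, hxZ⟩, he⟩
            · rintro ⟨⟨hx, hxY, hxZ⟩, he⟩
              refine ⟨hx, ?_⟩
              simp only [hxY, hxZ, if_false]; exact he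
          rw [this]
          exact h2 j (by omega)
    · intro j hj
      by_cases hjt : j = t - 1
      · subst hjt
        have hne : t - 2 ≠ t - 1 := by omega
        simp only [if_true, hne, if_false]
        exact ⟨by omega, trivial⟩
      · by_cases hjt2 : j = t - 2
        · subst hjt2
          have hne : t - 2 ≠ t - 1 := by omega
          simp only [if_true, hne, if_false]
          exact ⟨by omega, trivial⟩
        · have := h3 j (by omega)
          have hne1 : σ' j ≠ t - 1 := by omega
          have hne2 : σ' j ≠ t - 2 := by omega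
          simp only [hjt, hjt2, if_false, hne1, hne2]
          exact ⟨by omega, this.2⟩
    · intro x hx
      have hne : t - 2 ≠ t - 1 := by omega
      by_cases hxY : x ∈ Y
      · have e1 : π x ∉ Y := hYn x hxY
        have e2 : π x ∈ Z := by rw [hmZ, hπ]; exact hxY
        simp only [hxY, e1, e2, if_true, if_false]
      · by_cases hxZ : x ∈ Z
        · have e1 : π x ∈ Y := (hmZ x).mp hxZ
          simp only [hxY, hxZ, e1, if_true, if_false, hne]
        · have e1 : π x ∉ Y := fun h => hxZ ((hmZ x).mpr h)
          have e2 : π x ∉ Z := fun h => hxY (by rw [hmZ, hπ] at h; exact h)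
          have hmem : x ∈ S \ (Y ∪ Z) := by rw [mem_sdiff, mem_union, not_or]; exact ⟨hx, hxY, hxZ⟩
          have := h1 x hmem
          have hne1 : f' x ≠ t - 1 := by omega
          have hne2 : f' x ≠ t - 2 := by omega
          simp only [hxY, hxZ, e1, e2, if_false, hne1, hne2]
          exact h4 x hmem

end

/-- A finite set of size `a t` with an involution has a partition into `t` parts of size `a` permuted by it. -/
theorem inv_part {X : Type*} [Fintype X] [DecidableEq X] (π : X → X) (hπ : ∀ x, π (π x) = x) (a t : ℕ)
    (ha : 0 < a) (hcard : Fintype.card X = a * t) :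
    ∃ (f : X → Fin t) (σ : Equiv.Perm (Fin t)), (∀ j, (Finset.univ.filter (fun x => f x = j)).card = a) ∧
      ∀ x, f (π x) = σ (f x) := by
  obtain ⟨f, σ, h1, h2, h3, h4⟩ := inv_part_aux π hπ a ha t Finset.univ (fun _ _ => mem_univ _) (by
    rw [card_univ, hcard])
  refine ⟨fun x => ⟨f x, h1 x (mem_univ _)⟩,
    ⟨fun j => ⟨σ j, (h3 j j.2).1⟩, fun j => ⟨σ j, (h3 j j.2).1⟩, fun j => Fin.ext (h3 j j.2).2,
      fun j => Fin.ext (h3 j j.2).2⟩, ?_, ?_⟩
  · intro j
    rw [← h2 j j.2]
    congr 1
    ext x
    rw [mem_filter, mem_filter, Fin.ext_iff]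
  · intro x
    exact Fin.ext (h4 x (mem_univ _))

end Cfsg.Agent.H12
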