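import Mathlib
import Cfsg.Prelude.Def_GeometricClasses
import Cfsg.Agent.H12.InvPart

set_option autoImplicit false

/-! Monomial bases for linear maps with scalar square, grouping of basis vectors. -/

namespace Cfsg.Agent.H12

open Module

/-- span of the basis vectors with a given label -/
def labSpan {F : Type*} [Field F] {V : Type*} [AddCommGroup V] [Module F V] {κ : Type*}
    (b : κ → V) {t : ℕ} (g : κ → Fin t) (j : Fin t) : Submodule F V :=
  Submodule.span F (b '' {k | g k = j})

section
variable {F : Type*} [Field F] {V : Type*} [AddCommGroup V] [Module F V] {κ : Type*} [Fintype κ]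

theorem labSpan_finrank (b : Basis κ F V) {t : ℕ} (g : κ → Fin t) (j : Fin t) (a : ℕ)
    (h : (Finset.univ.filter (fun k => g k = j)).card = a) : finrank F (labSpan (F := F) b g j) = a := by
  classical
  have h1 : LinearIndependent F (fun k : {k // g k = j} => b k) :=
    b.linearIndependent.comp _ Subtype.val_injective
  have h2 := finrank_span_eq_card h1
  have h3 : Set.range (fun k : {k // g k = j} => b k) = b '' {k | g k = j} := by
    ext v
    simp
  rw [h3] at h2
  unfold labSpan
  rw [h2, Fintype.card_subtype, h]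

theorem labSpan_indep (b : Basis κ F V) {t : ℕ} (g : κ → Fin t) : iSupIndep (labSpan (F := F) b g) := by
  intro j
  have h1 : Disjoint {k | g k = j} {k | g k ≠ j} := by
    rw [Set.disjoint_left]
    intro k hk hk'
    exact hk' hk
  have h2 := b.linearIndependent.disjoint_span_image h1
  refine h2.mono_right ?_
  refine iSup_le fun i => iSup_le fun hij => ?_
  apply Submodule.span_mono
  apply Set.image_mono
  intro k hk hkj
  exact hij (hk.symm.trans hkj)

theorem labSpan_iSup (b : Basis κ F V) {t : ℕ} (g : κ → Fin t) : iSup (labSpan (F := F) b g) = ⊤ := by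
  rw [eq_top_iff, ← b.span_eq, Submodule.span_le]
  rintro _ ⟨k, rfl⟩
  exact Submodule.mem_iSup_of_mem (g k) (Submodule.subset_span ⟨k, rfl, rfl⟩)

theorem labSpan_map [FiniteDimensional F V] (b : Basis κ F V) {t : ℕ} (g : κ → Fin t) (σ : Equiv.Perm (Fin t))
    (x : V →ₗ[F] V) (hinj : Function.Injective x) (a : ℕ)
    (hcard : ∀ j, (Finset.univ.filter (fun k => g k = j)).card = a)
    (h : ∀ k, x (b k) ∈ labSpan (F := F) b g (σ (g k))) (j : Fin t) :
    (labSpan (F := F) b g j).map x = labSpan (F := F) b g (σ j) := by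
  apply Submodule.eq_of_le_of_finrank_eq
  · rw [Submodule.map_le_iff_le_comap]
    unfold labSpan
    rw [Submodule.span_le]
    rintro _ ⟨k, hk, rfl⟩
    have := h k
    rw [show g k = j from hk] at this
    exact this
  · rw [labSpan_finrank b g _ a (hcard _)]
    have := (Submodule.equivMapOfInjective x hinj (labSpan (F := F) b g j)).finrank_eq
    rw [← this, labSpan_finrank b g _ a (hcard _)]

end

theorem labSpan_mdec {F : Type*} [Field F] {ι : Type} {κ : Type*} [Fintype κ]
    (b : Basis κ F (ι → F)) {t : ℕ} (ht : 2 ≤ t) (g : κ → Fin t) (a : ℕ) (ha : 0 < a)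
    (hcard : ∀ j, (Finset.univ.filter (fun k => g k = j)).card = a) :
    Cfsg.Geo.IsMDecomposition a (labSpan (F := F) b g) :=
  ⟨ht, ha, fun j => labSpan_finrank b g j a (hcard j), labSpan_indep b g, labSpan_iSup b g⟩

/-- A linear map with nonzero scalar square has a basis which it permutes up to scalars, by an involution. -/
theorem mono_basis {F : Type*} [Field F] : ∀ (n : ℕ) {V : Type*} [AddCommGroup V] [Module F V]
    [FiniteDimensional F V], finrank F V = n → ∀ (x : V →ₗ[F] V) (z : F), z ≠ 0 → (∀ v, x (x v) = z • v) →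
    ∃ (κ : Type) (_ : Fintype κ) (b : Basis κ F V) (π : κ → κ), (∀ k, π (π k) = k) ∧
      ∀ k, ∃ c : F, x (b k) = c • b (π k) := by
  intro n
  induction n using Nat.strong_induction_on with
  | _ n ih =>
  intro V _ _ _ hn x z hz hx
  by_cases hsc : ∀ v, ∃ c : F, x v = c • v
  · exact ⟨Fin (finrank F V), inferInstance, finBasis F V, id, fun _ => rfl, fun k => hsc _⟩
  push Not at hsc
  obtain ⟨v, hv⟩ := hsc
  have hli : LinearIndependent F ![v, x v] := by
    rw [LinearIndependent.pair_iff]
    intro s t hst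
    have ht : t = 0 := by
      by_contra ht
      apply hv (-(s / t))
      have : t • x v = -(s • v) := eq_neg_of_add_eq_zero_right hst
      calc x v = t⁻¹ • (t • x v) := by rw [smul_smul, inv_mul_cancel₀ ht, one_smul]
        _ = _ := by rw [this, smul_neg, smul_smul, neg_smul]; congr 2; field_simp
    rw [ht, zero_smul, add_zero] at hst
    refine ⟨?_, ht⟩
    rcases smul_eq_zero.mp hst with h | h
    · exact h
    · exfalso; apply hv 0; rw [h, map_zero, smul_zero]
  -- functional
  obtain ⟨φ, hφ1, hφ2⟩ : ∃ φ : V →ₗ[F] F, φ v = 1 ∧ φ (x v) = 0 := by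
    have hvn : v ∉ Submodule.span F {x v} := by
      rw [Submodule.mem_span_singleton]
      rintro ⟨c, hc⟩
      by_cases hc0 : c = 0
      · rw [hc0, zero_smul] at hc
        apply hv 0
        rw [← hc, map_zero, smul_zero]
      · apply hv c⁻¹
        nth_rewrite 2 [← hc]
        rw [smul_smul, inv_mul_cancel₀ hc0, one_smul]
    obtain ⟨f, hf1, hf2⟩ := Submodule.exists_le_ker_of_notMem hvn
    refine ⟨(f v)⁻¹ • f, ?_, ?_⟩
    · rw [LinearMap.smul_apply, smul_eq_mul, inv_mul_cancel₀ hf1]
    · rw [LinearMap.smul_apply, show f (x v) = 0 from hf2 (Submodule.mem_span_singleton_self _), smul_zero]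
  set P := Submodule.span F (Set.range ![v, x v]) with hP
  set U : Submodule F V := LinearMap.ker φ ⊓ LinearMap.ker (φ ∘ₗ x) with hU
  have hmemU : ∀ w, w ∈ U ↔ φ w = 0 ∧ φ (x w) = 0 := by
    intro w
    rw [hU, Submodule.mem_inf, LinearMap.mem_ker, LinearMap.mem_ker, LinearMap.comp_apply]
  have hvP : v ∈ P := Submodule.subset_span ⟨0, rfl⟩
  have hxvP : x v ∈ P := Submodule.subset_span ⟨1, rfl⟩
  have hcompl : IsCompl P U := by
    constructor
    · rw [Submodule.disjoint_def]
      intro w hwP hwU
      have hr : Set.range ![v, x v] = {v, x v} := by simp [Set.pair_comm]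
      rw [hP, hr, Submodule.mem_span_pair] at hwP
      obtain ⟨α, β, rfl⟩ := hwP
      rw [hmemU, map_add, map_smul, map_smul, hφ1, hφ2, map_add, map_smul, map_smul, map_add, map_smul, map_smul,
        hφ2, hx, map_smul, hφ1] at hwU
      simp only [smul_eq_mul, mul_one, mul_zero, add_zero, zero_add] at hwU
      obtain ⟨h1, h2⟩ := hwU
      have h3 : β = 0 := (mul_eq_zero.mp h2).resolve_right hz
      rw [h1, h3, zero_smul, zero_smul, add_zero]
    · rw [codisjoint_iff, eq_top_iff]
      intro w _
      rw [Submodule.mem_sup]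
      refine ⟨φ w • v + (φ (x w) / z) • x v, add_mem (P.smul_mem _ hvP) (P.smul_mem _ hxvP),
        w - (φ w • v + (φ (x w) / z) • x v), ?_, by abel⟩
      rw [hmemU]
      constructor
      · simp [hφ1, hφ2]
      · rw [map_sub, map_add, map_smul, map_smul, hx, map_sub, map_add, map_smul, map_smul, map_smul, hφ1, hφ2]
        simp only [smul_eq_mul, mul_one, mul_zero, zero_add]
        field_simp
        ring
  have hfP : finrank F P = 2 := by
    rw [hP, finrank_span_eq_card hli]; rfl
  have hfU := Submodule.finrank_add_eq_of_isCompl hcompl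
  have hxU : ∀ u ∈ U, x u ∈ U := by
    intro u hu
    rw [hmemU] at hu ⊢
    exact ⟨hu.2, by rw [hx, map_smul, hu.1, smul_zero]⟩
  obtain ⟨κ, hκ, bU, π, hπ, hb⟩ := ih (finrank F U) (by omega) rfl (x.restrict hxU) z hz (fun u => Subtype.ext (hx u))
  let bP : Basis (Fin 2) F P := Basis.span hli
  have hbP : ∀ i, ((bP i : P) : V) = ![v, x v] i := fun i => by rw [Basis.span_apply]
  let B := (bP.prod bU).map (Submodule.prodEquivOfIsCompl P U hcompl)
  have hB1 : ∀ i, B (Sum.inl i) = ![v, x v] i := by
    intro i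
    simp [B, hbP]
  have hB2 : ∀ k, B (Sum.inr k) = ((bU k : U) : V) := by
    intro k
    simp [B]
  refine ⟨Fin 2 ⊕ κ, inferInstance, B, Sum.map (Equiv.swap 0 1) π, ?_, ?_⟩
  · rintro (i | k)
    · simp
    · simp [hπ]
  · rintro (i | k)
    · fin_cases i
      · refine ⟨1, ?_⟩
        have e1 : B (Sum.inl 0) = v := hB1 0
        have e2 : B (Sum.inl 1) = x v := hB1 1
        simp [e1, e2]
      · refine ⟨z, ?_⟩
        have e1 : B (Sum.inl 0) = v := hB1 0
        have e2 : B (Sum.inl 1) = x v := hB1 1
        simp [e1, e2, hx]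
    · obtain ⟨c, hc⟩ := hb k
      refine ⟨c, ?_⟩
      rw [Sum.map_inr, hB2, hB2]
      exact congrArg Subtype.val hc

end Cfsg.Agent.H12
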