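import Mathlib
import Cfsg.Prelude.Def_GeometricClasses
import Cfsg.Agent.H5.OmegaGen2
import Cfsg.Agent.H12.Transv

/-!
Bridge between `omegaGL Q` and the group `EG Q` generated by Siegel transformations.
-/

set_option autoImplicit false
set_option linter.unusedSectionVars false

namespace Cfsg.Agent.H12

open Matrix Cfsg Cfsg.Agent.H5

section bridge

variable {F : Type*} [Field F] {ι : Type} [Fintype ι] [DecidableEq ι]

/-- the quadratic form attached to a non-degenerate quadratic form given as a function -/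
def mkQF {Q : (ι → F) → F} (hQ : Geo.IsNondegenerateQuadraticForm Q) : QuadraticForm F (ι → F) :=
  QuadraticMap.ofPolar Q (fun a x => by rw [hQ.smul, smul_eq_mul]; ring)
    (fun x x' y => hQ.polar_bilinear.add_left x x' y)
    (fun a x y => by rw [hQ.polar_bilinear.smul_left, smul_eq_mul])

lemma mkQF_coe {Q : (ι → F) → F} (hQ : Geo.IsNondegenerateQuadraticForm Q) : ⇑(mkQF hQ) = Q := rfl

lemma mkQF_nd {Q : (ι → F) → F} (hQ : Geo.IsNondegenerateQuadraticForm Q) : ND (mkQF hQ) := by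
  intro x hx
  by_contra hne
  obtain ⟨-, ⟨y, hy⟩⟩ := hQ.nondegenerate x hne
  exact hy (hx y)

variable (Q : QuadraticForm F (ι → F))

/-- the embedding of `OG Q` in the general linear group -/
noncomputable def ogGL : OG Q →* GL ι F := (isometryGroup F ⇑Q).subtype.comp (ogEquiv Q).symm.toMonoidHom

lemma ogGL_apply (g : OG Q) (x : ι → F) : ((ogGL Q g : GL ι F) : Matrix ι ι F) *ᵥ x = g x := by
  have h := ogEquiv_apply Q ((ogEquiv Q).symm g) x
  rw [MulEquiv.apply_symm_apply] at h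
  exact h.symm

lemma ogGL_inj : Function.Injective (ogGL Q) := by
  intro g h hgh
  apply og_ext
  intro x
  rw [← ogGL_apply, ← ogGL_apply, hgh]

variable {Q}

lemma omegaGL_eq [Finite F] (hnd : ND Q) (hn : 5 ≤ Fintype.card ι) : Geo.omegaGL (⇑Q) = (EG Q).map (ogGL Q) := by
  have h5 : 5 ≤ Module.finrank F (ι → F) := by rw [Module.finrank_fintype_fun_eq_card]; exact hn
  rw [eg_eq_comm hnd h5 (exists_sing hnd (by omega)), ogGL, ← Subgroup.map_map]
  have h1 : (commutator (OG Q)).map (ogEquiv Q).symm.toMonoidHom = commutator (isometryGroup F ⇑Q) := by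
    rw [commutator_def, commutator_def, Subgroup.map_commutator]
    have h2 : (⊤ : Subgroup (OG Q)).map (ogEquiv Q).symm.toMonoidHom = ⊤ :=
      Subgroup.map_top_of_surjective _ (ogEquiv Q).symm.surjective
    rw [h2]
  rw [h1]
  rfl

/-- transfer of maximality -/
theorem maxIn_of [Finite F] (hnd : ND Q) (hn : 5 ≤ Fintype.card ι) (X : Subgroup (GL ι F))
    (h : Geo.IsMaximalIn (EG Q) (X.comap (ogGL Q) ⊓ EG Q)) : Geo.IsMaximalIn (Geo.omegaGL (⇑Q)) (X ⊓ Geo.omegaGL (⇑Q)) := by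
  rw [omegaGL_eq hnd hn]
  have hXE : X ⊓ (EG Q).map (ogGL Q) = (X.comap (ogGL Q) ⊓ EG Q).map (ogGL Q) := by
    ext g
    simp only [Subgroup.mem_inf, Subgroup.mem_map, Subgroup.mem_comap]
    constructor
    · rintro ⟨h1, g', h2, rfl⟩
      exact ⟨g', ⟨h1, h2⟩, rfl⟩
    · rintro ⟨g', ⟨h1, h2⟩, rfl⟩
      exact ⟨h1, g', h2, rfl⟩
  rw [hXE]
  obtain ⟨h1, h2⟩ := h
  refine ⟨?_, ?_⟩
  · refine lt_of_le_of_ne (Subgroup.map_mono h1.le) ?_
    intro heq
    exact h1.ne (Subgroup.map_injective (ogGL_inj Q) heq)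
  · intro M hM1 hM2
    have hM : M = (M.comap (ogGL Q)).map (ogGL Q) := by
      rw [Subgroup.map_comap_eq, eq_comm, inf_eq_right]
      exact hM2.trans (by rintro _ ⟨g, -, rfl⟩; exact ⟨g, rfl⟩)
    have h3 : X.comap (ogGL Q) ⊓ EG Q ≤ M.comap (ogGL Q) := by
      intro g hg
      exact hM1 ⟨g, hg, rfl⟩
    have h4 : M.comap (ogGL Q) ≤ EG Q := by
      intro g hg
      obtain ⟨g', hg', h5⟩ := hM2 hg
      rw [← ogGL_inj Q h5]
      exact hg'
    rcases h2 _ h3 h4 with h5 | h5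
    · left; rw [hM, h5]
    · right; rw [hM, h5]

/-- transfer of non-maximality -/
theorem between_of [Finite F] (hnd : ND Q) (hn : 5 ≤ Fintype.card ι) (X : Subgroup (GL ι F))
    (h : ∃ K : Subgroup (OG Q), X.comap (ogGL Q) ⊓ EG Q < K ∧ K < EG Q) :
    ∃ K : Subgroup (GL ι F), X ⊓ Geo.omegaGL (⇑Q) < K ∧ K < Geo.omegaGL (⇑Q) := by
  rw [omegaGL_eq hnd hn]
  have hXE : X ⊓ (EG Q).map (ogGL Q) = (X.comap (ogGL Q) ⊓ EG Q).map (ogGL Q) := by
    ext g
    simp only [Subgroup.mem_inf, Subgroup.mem_map, Subgroup.mem_comap]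
    constructor
    · rintro ⟨h1, g', h2, rfl⟩
      exact ⟨g', ⟨h1, h2⟩, rfl⟩
    · rintro ⟨g', ⟨h1, h2⟩, rfl⟩
      exact ⟨h1, g', h2, rfl⟩
  rw [hXE]
  obtain ⟨K, h1, h2⟩ := h
  refine ⟨K.map (ogGL Q), ?_, ?_⟩
  · refine lt_of_le_of_ne (Subgroup.map_mono h1.le) ?_
    intro heq
    exact h1.ne (Subgroup.map_injective (ogGL_inj Q) heq)
  · refine lt_of_le_of_ne (Subgroup.map_mono h2.le) ?_
    intro heq
    exact h2.ne (Subgroup.map_injective (ogGL_inj Q) heq)

end bridge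

section stab

variable {F V : Type*} [Field F] [AddCommGroup V] [Module F V] {Q : QuadraticForm F V}

/-- stabiliser of a subspace in `OG Q` -/
def stO (W : Submodule F V) : Subgroup (OG Q) where
  carrier := {g | (∀ x ∈ W, g x ∈ W) ∧ (∀ x ∈ W, (g⁻¹ : OG Q) x ∈ W)}
  mul_mem' := by
    intro a b ha hb
    refine ⟨fun x hx => ?_, fun x hx => ?_⟩
    · rw [og_mul]; exact ha.1 _ (hb.1 _ hx)
    · rw [_root_.mul_inv_rev, og_mul]; exact hb.2 _ (ha.2 _ hx)
  one_mem' := by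
    refine ⟨fun x hx => ?_, fun x hx => ?_⟩
    · rw [og_one]; exact hx
    · rw [inv_one, og_one]; exact hx
  inv_mem' := by
    intro a ha
    refine ⟨ha.2, fun x hx => ?_⟩
    rw [inv_inv]; exact ha.1 _ hx

lemma mem_stO {W : Submodule F V} {g : OG Q} :
    g ∈ stO (Q := Q) W ↔ (∀ x ∈ W, g x ∈ W) ∧ (∀ x ∈ W, (g⁻¹ : OG Q) x ∈ W) := Iff.rfl

/-- in finite dimension one inclusion is enough -/
lemma mem_stO_of_fin [FiniteDimensional F V] {W : Submodule F V} {g : OG Q} (h : ∀ x ∈ W, g x ∈ W) :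
    g ∈ stO (Q := Q) W := by
  refine ⟨h, ?_⟩
  let f : W →ₗ[F] W := (g.1 : V →ₗ[F] V).restrict h
  have hf : Function.Injective f := by
    intro x y hxy
    apply Subtype.ext
    apply g.1.injective
    exact congrArg Subtype.val hxy
  have hs := LinearMap.surjective_of_injective hf
  intro x hx
  obtain ⟨y, hy⟩ := hs ⟨x, hx⟩
  have h1 : g y.1 = x := congrArg Subtype.val hy
  rw [← h1, og_inv]
  exact y.2

end stab

end Cfsg.Agent.H12
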