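import Mathlib
import Cfsg.Prelude.Def_GeometricClasses
import Cfsg.Agent.H12.OmBridge
import Cfsg.Agent.H24.QuadZero
import Cfsg.Agent.H5.Orth3

/-!
Maximality of stabilisers of totally singular subspaces in `EG Q`.
-/

set_option autoImplicit false
set_option linter.unusedSectionVars false

namespace Cfsg.Agent.H12

open Matrix Cfsg Cfsg.Agent.H5

variable {F V : Type*} [Field F] [AddCommGroup V] [Module F V] {Q : QuadraticForm F V}

/-- a singular vector all of whose Siegel transformations lie in `M` -/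
def Full (M : Subgroup (OG Q)) (a : V) : Prop :=
  Q a = 0 ∧ ∀ (w : V) (ha : Q a = 0) (haw : pB Q a w = 0), eich ha haw ∈ M

lemma Full.conj {M : Subgroup (OG Q)} {a : V} (h : Full M a) {g : OG Q} (hg : g ∈ M) : Full M (g a) := by
  refine ⟨by rw [og_q]; exact h.1, fun w ha haw => ?_⟩
  have haw' : pB Q a ((g⁻¹ : OG Q) w) = 0 := by rw [← og_p g, og_inv']; exact haw
  have h1 := eich_conj g h.1 haw' ha (by rw [og_inv']; exact haw)
  have h2 : g * eich h.1 haw' * g⁻¹ ∈ M := mul_mem (mul_mem hg (h.2 _ h.1 haw')) (inv_mem hg)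
  rw [h1] at h2
  have h3 : ∀ (w' : V) (hw' : w' = w) (h4 : pB Q (g a) w' = 0), eich ha h4 ∈ M → eich ha haw ∈ M := by
    intro w' hw' h4 h5
    subst hw'
    exact h5
  exact h3 _ (og_inv' g w) _ h2

lemma Full.smul {M : Subgroup (OG Q)} {a : V} (h : Full M a) (c : F) : Full M (c • a) := by
  refine ⟨by rw [q_smul, h.1, mul_zero], fun w ha haw => ?_⟩
  by_cases hc : c = 0
  · have h1 : eich ha haw = 1 := by
      apply og_ext
      intro x
      rw [eich_apply, hc, og_one]
      simp [pl_smul]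
    rw [h1]; exact one_mem M
  · have h1 : pB Q a w = 0 := by
      rw [pl_smul] at haw
      exact (mul_eq_zero.mp haw).resolve_left hc
    have h2 : pB Q a (c • w) = 0 := by rw [pr_smul, h1, mul_zero]
    rw [eich_smul c h.1 h1 ha haw h2]
    exact h.2 _ h.1 h2

/-- the Siegel element moving `b` to `v` -/
lemma full_of_hyp {M : Subgroup (OG Q)} {a b v : V} (ha : Full M a) (hb : Full M b) (hv : Q v = 0)
    (hab : pB Q a b ≠ 0) (hav : pB Q a v ≠ 0) : Full M v := by
  -- scale `b`
  set c := pB Q a v / pB Q a b with hc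
  have hb' := hb.smul c
  set b' := c • b with hb'd
  have hab' : pB Q a b' = pB Q a v := by rw [hb'd, pr_smul, hc, div_mul_cancel₀ _ hab]
  set w := (pB Q a v)⁻¹ • (v - b') with hw
  have haw : pB Q a w = 0 := by rw [hw, pr_smul, pr_sub, hab', sub_self, mul_zero]
  have h1 := hb'.conj (ha.2 w ha.1 haw)
  have h2 : (eich ha.1 haw) b' = v := by
    rw [eich_apply, hab', hw, pl_smul, pl_sub, q_smul, q_sub, pB_self, hv, hb'.1, smul_smul, mul_inv_cancel₀ hav, one_smul]
    have h3 : ((pB Q a v)⁻¹ * (pB Q v b' - 2 * 0)) + ((pB Q a v)⁻¹ * (pB Q a v)⁻¹ * (0 + 0 - pB Q v b') * pB Q a v) = 0 := by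
      field_simp
      ring
    have h4 : b' + (v - b') - ((pB Q a v)⁻¹ * (pB Q v b' - 2 * 0)) • a -
        ((pB Q a v)⁻¹ * (pB Q a v)⁻¹ * (0 + 0 - pB Q v b') * pB Q a v) • a = v -
        (((pB Q a v)⁻¹ * (pB Q v b' - 2 * 0)) + ((pB Q a v)⁻¹ * (pB Q a v)⁻¹ * (0 + 0 - pB Q v b') * pB Q a v)) • a := by
      module
    rw [h4, h3, zero_smul, sub_zero]
  rwa [h2] at h1

/-- two non-orthogonal full vectors: everything is full -/
theorem full_all {M : Subgroup (OG Q)} [FiniteDimensional F V] (hnd : ND Q) {a b : V} (ha : Full M a) (hb : Full M b)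
    (hab : pB Q a b ≠ 0) {v : V} (hv : Q v = 0) : Full M v := by
  by_cases hv0 : v = 0
  · rw [hv0, ← zero_smul F a]; exact ha.smul 0
  by_cases hav : pB Q a v = 0
  swap
  · exact full_of_hyp ha hb hv hab hav
  by_cases hbv : pB Q b v = 0
  swap
  · exact full_of_hyp hb ha hv (by rwa [pB_symm]) hbv
  -- an auxiliary singular vector
  have hind : LinearIndependent F ![v, a] := by
    rw [LinearIndependent.pair_iff]
    intro s t hst
    have h1 : t * pB Q a b = 0 := by
      have h2 : pB Q (s • v + t • a) b = 0 := by rw [hst]; simp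
      rw [pl_add, pl_smul, pl_smul, pB_symm Q v b, hbv, mul_zero, zero_add] at h2
      exact h2
    have ht : t = 0 := (mul_eq_zero.mp h1).resolve_right hab
    rw [ht, zero_smul, add_zero] at hst
    exact ⟨(smul_eq_zero.mp hst).resolve_right hv0, ht⟩
  obtain ⟨x, hx1, hx2⟩ := exists_prescribed hnd hind 1 1
  have hz : Q (x - Q x • a) = 0 := by
    rw [q_sub, q_smul, ha.1, pr_smul, pB_symm Q x a, hx2]; ring
  have hza : pB Q a (x - Q x • a) = 1 := by rw [pr_sub, pr_smul, pB_self, ha.1, hx2]; ring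
  have hzv : pB Q (x - Q x • a) v = 1 := by
    rw [pl_sub, pl_smul, hav, pB_symm, hx1]; ring
  have h1 : Full M (x - Q x • a) := full_of_hyp ha hb hz hab (by rw [hza]; exact one_ne_zero)
  exact full_of_hyp h1 ha hv (by rw [pB_symm, hza]; exact one_ne_zero) (by rw [hzv]; exact one_ne_zero)

theorem eg_le_of_full {M : Subgroup (OG Q)} [FiniteDimensional F V] (hnd : ND Q) {a b : V} (ha : Full M a) (hb : Full M b)
    (hab : pB Q a b ≠ 0) : EG Q ≤ M := by
  rw [EG, Subgroup.closure_le]
  rintro g ⟨u, w, hu, huw, rfl⟩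
  exact (full_all hnd ha hb hab hu).2 w hu huw

/-- Siegel elements centred in a totally singular subspace stabilise it -/
lemma eich_mem_stO [FiniteDimensional F V] {T : Submodule F V} (hT : ∀ x ∈ T, Q x = 0) {t w : V} (ht : t ∈ T)
    (hQt : Q t = 0) (htw : pB Q t w = 0) : eich hQt htw ∈ stO (Q := Q) T := by
  apply mem_stO_of_fin
  intro x hx
  have h1 : pB Q t x = 0 := by
    have h2 := hT _ (T.add_mem ht hx)
    rw [q_add, hT t ht, hT x hx] at h2
    linear_combination h2
  rw [eich_apply, h1]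
  simp only [zero_smul, add_zero, mul_zero, sub_zero]
  exact T.sub_mem hx (T.smul_mem _ ht)

/-- every nondegenerate space of dimension at least 3 over a finite field ... singular vector in a subspace -/
lemma exists_sing_sub [Finite F] [FiniteDimensional F V] (S : Submodule F V) (hS : 3 ≤ Module.finrank F S) :
    ∃ x ∈ S, x ≠ 0 ∧ Q x = 0 := by
  haveI := Fintype.ofFinite F
  obtain ⟨x, hx, hq⟩ := H24.exists_zero_of_quadraticMap (Q.comp S.subtype) (by
    rw [Module.finrank_self]; omega)
  exact ⟨x.1, x.2, fun h => hx (Subtype.ext h), hq⟩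

theorem ts_maximal [Finite F] [FiniteDimensional F V] (hnd : ND Q) (hn : 5 ≤ Module.finrank F V) {T : Submodule F V}
    (hT0 : T ≠ ⊥) (hT : ∀ x ∈ T, Q x = 0)
    (hY : Module.finrank F V ≤ 2 * Module.finrank F T + 2 → ∀ Y : Submodule F V, T < Y → ∃ y ∈ Y, Q y ≠ 0) :
    Geo.IsMaximalIn (EG Q) (stO (Q := Q) T ⊓ EG Q) := by
  have hTB : ∀ x ∈ T, ∀ y ∈ T, pB Q x y = 0 := by
    intro x hx y hy
    have h2 := hT _ (T.add_mem hx hy)
    rw [q_add, hT x hx, hT y hy] at h2
    linear_combination h2
  obtain ⟨t0, ht0, ht00⟩ := (Submodule.ne_bot_iff _).mp hT0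
  obtain ⟨b0, hb0, htb0⟩ := exists_partner hnd ht00 (hT t0 ht0)
  have hTtop : T ≤ oc Q T := by
    intro x hx
    rw [mem_oc]
    exact fun n hn => hTB n hn x hx
  have hfT := finrank_oc hnd T
  have hle := Submodule.finrank_mono hTtop
  refine ⟨lt_of_le_of_ne inf_le_right ?_, ?_⟩
  · -- proper: `T` would be invariant
    intro heq
    have h1 : EG Q ≤ stO (Q := Q) T := by rw [← heq]; exact inf_le_left
    -- pick `x` orthogonal to `b0`, not in `T`, ...
    -- the element `eich b0 x` maps `t0` to `t0 + x - ...`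
    obtain ⟨x, hx1, hx2⟩ : ∃ x : V, pB Q b0 x = 0 ∧ x ∉ T ⊔ Submodule.span F {b0} := by
      by_contra hcon
      push Not at hcon
      have h2 : oc Q (Submodule.span F {b0}) ≤ T ⊔ Submodule.span F {b0} := by
        intro x hx
        rw [mem_oc] at hx
        exact hcon x (hx b0 (Submodule.mem_span_singleton_self b0))
      have h3 := Submodule.finrank_mono h2
      have h4 := finrank_oc hnd (Submodule.span F {b0})
      have h5 : Module.finrank F (Submodule.span F {b0}) ≤ 1 := by
        have := finrank_span_le_card (R := F) ({b0} : Set V)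
        simpa using this
      have h6 := Submodule.finrank_add_le_finrank_add_finrank T (Submodule.span F {b0})
      omega
    have h2 := (mem_stO.1 (h1 (eg_mem hb0 hx1))).1 t0 ht0
    rw [eich_apply, pB_symm Q b0 t0, htb0] at h2
    apply hx2
    have h3 : x = (t0 + (1 : F) • x - pB Q x t0 • b0 - (Q x * 1) • b0) - t0 + ((pB Q x t0) + Q x) • b0 := by
      module
    rw [h3]
    apply Submodule.add_mem
    · exact Submodule.mem_sup_left (T.sub_mem h2 ht0)
    · exact Submodule.mem_sup_right (Submodule.smul_mem _ _ (Submodule.mem_span_singleton_self b0))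
  intro M hHM hME
  have hfull : ∀ t ∈ T, Full M t := by
    intro t ht
    refine ⟨hT t ht, fun w hQt htw => hHM (Subgroup.mem_inf.2 ⟨eich_mem_stO hT ht hQt htw, eg_mem hQt htw⟩)⟩
  by_cases hcase : ∃ g ∈ M, ∃ t ∈ T, ∃ t' ∈ T, pB Q (g t) t' ≠ 0
  · right
    obtain ⟨g, hg, t, ht, t', ht', hne⟩ := hcase
    exact le_antisymm hME (eg_le_of_full hnd ((hfull t ht).conj hg) (hfull t' ht') hne)
  left
  push Not at hcase
  -- the span of the orbit
  set Y : Submodule F V := Submodule.span F {x | ∃ g ∈ M, ∃ t ∈ T, x = g t} with hYdef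
  have hTY : T ≤ Y := by
    intro t ht
    exact Submodule.subset_span ⟨1, one_mem M, t, ht, by rw [og_one]⟩
  have hYM : ∀ g ∈ M, ∀ y ∈ Y, g y ∈ Y := by
    intro g hg y hy
    induction hy using Submodule.span_induction with
    | mem x hx =>
      obtain ⟨g', hg', t, ht, rfl⟩ := hx
      exact Submodule.subset_span ⟨g * g', mul_mem hg hg', t, ht, by rw [og_mul]⟩
    | zero => rw [og_zero]; exact Y.zero_mem
    | add a b _ _ ha hb => rw [og_add]; exact Y.add_mem ha hb
    | smul c a _ ha => rw [og_smul]; exact Y.smul_mem _ ha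
  have hYT : ∀ y ∈ Y, ∀ t ∈ T, pB Q y t = 0 := by
    intro y hy t ht
    induction hy using Submodule.span_induction with
    | mem x hx =>
      obtain ⟨g', hg', t', ht', rfl⟩ := hx
      exact hcase g' hg' t' ht' t ht
    | zero => simp
    | add a b _ _ ha hb => rw [pl_add, ha, hb, add_zero]
    | smul c a _ ha => rw [pl_smul, ha, mul_zero]
  have hYY : ∀ y ∈ Y, ∀ z ∈ Y, pB Q y z = 0 := by
    intro y hy z hz
    induction hz using Submodule.span_induction with
    | mem x hx =>
      obtain ⟨g', hg', t', ht', rfl⟩ := hx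
      rw [pB_symm, og_p_inv, pB_symm]
      exact hYT _ (hYM _ (inv_mem hg') y hy) t' ht'
    | zero => simp
    | add a b _ _ ha hb => rw [pr_add, ha, hb, add_zero]
    | smul c a _ ha => rw [pr_smul, ha, mul_zero]
  have hYQ : ∀ y ∈ Y, Q y = 0 := by
    intro y hy
    induction hy using Submodule.span_induction with
    | mem x hx =>
      obtain ⟨g', hg', t', ht', rfl⟩ := hx
      rw [og_q]; exact hT t' ht'
    | zero => exact q_zero Q
    | add a b ha' hb' ha hb => rw [q_add, ha, hb, hYY a ha' b hb']; ring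
    | smul c a _ ha => rw [q_smul, ha, mul_zero]
  -- `Y = T`
  have hYeq : Y = T := by
    by_contra hne
    have hlt : T < Y := lt_of_le_of_ne hTY (Ne.symm hne)
    by_cases hdim : Module.finrank F V ≤ 2 * Module.finrank F T + 2
    · obtain ⟨y, hy, hqy⟩ := hY hdim Y hlt
      exact hqy (hYQ y hy)
    push Not at hdim
    obtain ⟨y, hy, hyT⟩ := SetLike.exists_of_lt hlt
    have hyoc : y ∈ oc Q T := by
      rw [mem_oc]
      intro n hn
      rw [pB_symm]; exact hYT y hy n hn
    -- singular `v` in `T^⊥` not orthogonal to `y`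
    obtain ⟨v, hvoc, hvQ, hvy⟩ : ∃ v ∈ oc Q T, Q v = 0 ∧ pB Q v y ≠ 0 := by
      obtain ⟨x, hx, hxy⟩ : ∃ x ∈ oc Q T, pB Q x y ≠ 0 := by
        by_contra hcon
        push Not at hcon
        apply hyT
        rw [← oc_oc hnd T, mem_oc]
        exact hcon
      refine ⟨x - (Q x / pB Q x y) • y, Submodule.sub_mem _ hx (Submodule.smul_mem _ _ hyoc), ?_, ?_⟩
      · rw [q_sub, q_smul, hYQ y hy, pr_smul, mul_zero, add_zero, div_mul_cancel₀ _ hxy, sub_self]
      · rw [pl_sub, pl_smul, pB_self, hYQ y hy]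
        simpa using hxy
    -- nonsingular `w` orthogonal to `T` and `v`
    obtain ⟨w, hwoc, hwQ⟩ : ∃ w ∈ oc Q (T ⊔ Submodule.span F {v}), Q w ≠ 0 := by
      apply exists_ns hnd
      have h4 := finrank_oc hnd (T ⊔ Submodule.span F {v})
      have h5 : Module.finrank F (Submodule.span F {v}) ≤ 1 := by
        have := finrank_span_le_card (R := F) ({v} : Set V)
        simpa using this
      have h6 := Submodule.finrank_add_le_finrank_add_finrank T (Submodule.span F {v})
      omega
    rw [mem_oc] at hwoc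
    have hvw : pB Q v w = 0 := hwoc v (Submodule.mem_sup_right (Submodule.mem_span_singleton_self v))
    have hTw : ∀ t ∈ T, pB Q t w = 0 := fun t ht => hwoc t (Submodule.mem_sup_left ht)
    rw [mem_oc] at hvoc
    have hmem : eich hvQ hvw ∈ M := by
      apply hHM
      refine Subgroup.mem_inf.2 ⟨?_, eg_mem hvQ hvw⟩
      apply mem_stO_of_fin
      intro t ht
      rw [eich_apply, pB_symm Q v t, hvoc t ht, pB_symm Q w t, hTw t ht]
      simpa using ht
    have h1 := hYM _ hmem y hy
    have h2 := hYY _ h1 y hy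
    rw [eich_apply, pl_sub, pl_sub, pl_add, pl_smul, pl_smul, pl_smul, pB_self, hYQ y hy] at h2
    have h3 : Q w * (pB Q v y * pB Q v y) = 0 := by linear_combination -h2
    rcases mul_eq_zero.mp h3 with h4 | h4
    · exact hwQ h4
    · exact (mul_ne_zero hvy hvy) h4
  apply le_antisymm _ hHM
  intro g hg
  refine Subgroup.mem_inf.2 ⟨mem_stO_of_fin (fun x hx => ?_), hME hg⟩
  have := hYM g hg x (hTY hx)
  rwa [hYeq] at this

end Cfsg.Agent.H12
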