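import Mathlib
import Cfsg.Prelude.Def_GeometricClasses
import Cfsg.Agent.H12.OmTS
import Cfsg.Agent.H12.Perp
import Cfsg.Agent.H5.OrthForms

/-!
Bridging lemmas, and nonsingular vectors in characteristic two.
-/

set_option autoImplicit false
set_option linter.unusedSectionVars false

namespace Cfsg.Agent.H12

open Matrix Cfsg Cfsg.Agent.H5

section bridge

variable {F : Type*} [Field F] {ι : Type} [Fintype ι] [DecidableEq ι] (Q : QuadraticForm F (ι → F))

lemma comap_subspaceStabilizer (W : Submodule F (ι → F)) :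
    (Geo.subspaceStabilizer W).comap (ogGL Q) = stO (Q := Q) W := by
  ext g
  rw [Subgroup.mem_comap, mem_subspaceStabilizer_iff]
  constructor
  · intro h
    apply mem_stO_of_fin
    intro x hx
    have := h x hx
    rwa [ogGL_apply] at this
  · intro h x hx
    rw [ogGL_apply]
    exact h.1 x hx

end bridge

lemma two_ne_zero_of_odd {F : Type*} [Field F] [Fintype F] (hodd : Odd (Fintype.card F)) : (2 : F) ≠ 0 := by
  intro h2
  have h1 : ringChar F = 2 := CharP.ringChar_of_prime_eq_zero Nat.prime_two (by exact_mod_cast h2)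
  have h3 := FiniteField.even_card_of_char_two h1
  rw [Nat.odd_iff] at hodd
  omega

lemma two_eq_zero_of_not_odd {F : Type*} [Field F] [Fintype F] (hodd : ¬ Odd (Fintype.card F)) : (2 : F) = 0 := by
  by_contra h2
  apply hodd
  have h1 : ringChar F ≠ 2 := by
    intro h
    apply h2
    have := ringChar.Nat.cast_ringChar (R := F)
    rw [h] at this
    exact_mod_cast this
  have := FiniteField.odd_card_of_char_ne_two h1
  rw [Nat.odd_iff]
  exact this

variable {F V : Type*} [Field F] [AddCommGroup V] [Module F V] {Q : QuadraticForm F V}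

lemma finrank_span_one_le [FiniteDimensional F V] (v : V) : Module.finrank F (Submodule.span F {v}) ≤ 1 := by
  have := finrank_span_le_card (R := F) ({v} : Set V)
  simpa using this

/-- the set of `w` with `eich u w ∈ M` is closed under addition -/
lemma eich_add_mem {M : Subgroup (OG Q)} {u w w' : V} (hu : Q u = 0) (huw : pB Q u w = 0) (huw' : pB Q u w' = 0)
    (h : pB Q u (w + w') = 0) (h1 : eich hu huw ∈ M) (h2 : eich hu huw' ∈ M) : eich hu h ∈ M := by
  rw [← eich_mul hu huw huw' h]
  exact mul_mem h1 h2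

lemma eich_congr {M : Subgroup (OG Q)} {u w w' : V} (hu : Q u = 0) (huw : pB Q u w = 0) (huw' : pB Q u w' = 0)
    (h : w = w') (h1 : eich hu huw ∈ M) : eich hu huw' ∈ M := by
  subst h
  exact h1

/-- adding a multiple of `u` does not change the Siegel element -/
lemma eich_add_smul {u w : V} (hu : Q u = 0) (huw : pB Q u w = 0) (c : F) (h : pB Q u (w + c • u) = 0) :
    eich hu h = eich hu huw := by
  apply og_ext
  intro x
  rw [eich_apply, eich_apply, pl_add, pl_smul, q_add, q_smul, hu, pr_smul, pB_symm Q w u, huw]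
  module

theorem ns_maximal [Finite F] [FiniteDimensional F V] (h2 : (2 : F) = 0) (hnd : ND Q) (hn : 7 ≤ Module.finrank F V) {v : V}
    (hv : Q v ≠ 0) :
    Geo.IsMaximalIn (EG Q) (stO (Q := Q) (Submodule.span F {v}) ⊓ EG Q) := by
  have hvself : ∀ x : V, pB Q x x = 0 := by intro x; rw [pB_self, h2, zero_mul]
  have hv0 : v ≠ 0 := by rintro rfl; exact hv (q_zero Q)
  -- Siegel elements in `v^⊥`
  have hmem : ∀ (u w : V) (hu : Q u = 0) (huw : pB Q u w = 0), pB Q u v = 0 → pB Q w v = 0 →
      eich hu huw ∈ stO (Q := Q) (Submodule.span F {v}) ⊓ EG Q := by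
    intro u w hu huw huv hwv
    refine Subgroup.mem_inf.2 ⟨?_, eg_mem hu huw⟩
    apply mem_stO_of_fin
    intro x hx
    obtain ⟨c, rfl⟩ := Submodule.mem_span_singleton.mp hx
    rw [eich_apply, pr_smul, pr_smul, huv, hwv]
    simpa using hx
  refine ⟨lt_of_le_of_ne inf_le_right ?_, ?_⟩
  · -- proper
    intro heq
    have h1 : EG Q ≤ stO (Q := Q) (Submodule.span F {v}) := by rw [← heq]; exact inf_le_left
    -- a singular vector not orthogonal to `v`: `u`, and `w ⟂ u` outside the span of `u`, `v`
    obtain ⟨y, hy⟩ := hnd.one hv0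
    -- singular `u` with `B(u,v) ≠ 0`
    obtain ⟨u, hu, huv⟩ : ∃ u, Q u = 0 ∧ pB Q u v ≠ 0 := by
      -- a singular vector `s`
      obtain ⟨s, hs0, hs⟩ := exists_sing hnd (by omega)
      by_cases hsv : pB Q s v = 0
      swap
      · exact ⟨s, hs, hsv⟩
      have hind : LinearIndependent F ![s, v] := by
        rw [LinearIndependent.pair_iff]
        intro a b hab
        have h3 : Q (b • v) = 0 := by
          have h4 : b • v = -(a • s) := by
            rw [eq_neg_iff_add_eq_zero, add_comm]; exact hab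
          rw [h4, q_neg, q_smul, hs, mul_zero]
        rw [q_smul] at h3
        have hb : b = 0 := by
          rcases mul_eq_zero.mp h3 with h5 | h5
          · exact mul_self_eq_zero.mp h5
          · exact absurd h5 hv
        rw [hb, zero_smul, add_zero] at hab
        exact ⟨(smul_eq_zero.mp hab).resolve_right hs0, hb⟩
      obtain ⟨x, hx1, hx2⟩ := exists_prescribed hnd hind 1 1
      refine ⟨x - Q x • s, ?_, ?_⟩
      · rw [q_sub, q_smul, hs, pr_smul, pB_symm Q x s, hx1]; ring
      · rw [pl_sub, pl_smul, hsv, pB_symm Q x v, hx2]; simp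
    obtain ⟨w, hw1, hw2⟩ : ∃ w : V, pB Q u w = 0 ∧ w ∉ Submodule.span F {v} ⊔ Submodule.span F {u} := by
      by_contra hcon
      push Not at hcon
      have h2 : oc Q (Submodule.span F {u}) ≤ Submodule.span F {v} ⊔ Submodule.span F {u} := by
        intro x hx
        rw [mem_oc] at hx
        exact hcon x (hx u (Submodule.mem_span_singleton_self u))
      have h3 := Submodule.finrank_mono h2
      have h4 := finrank_oc hnd (Submodule.span F {u})
      have h5 := finrank_span_one_le (F := F) u
      have h5' := finrank_span_one_le (F := F) v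
      have h6 := Submodule.finrank_add_le_finrank_add_finrank (Submodule.span F {v}) (Submodule.span F {u})
      omega
    have h3 := (mem_stO.1 (h1 (eg_mem hu hw1))).1 v (Submodule.mem_span_singleton_self v)
    rw [eich_apply] at h3
    apply hw2
    have h4 : w = (pB Q u v)⁻¹ • ((v + pB Q u v • w - pB Q w v • u - (Q w * pB Q u v) • u) - v) +
        ((pB Q u v)⁻¹ * (pB Q w v + Q w * pB Q u v)) • u := by
      have h5 : (v + pB Q u v • w - pB Q w v • u - (Q w * pB Q u v) • u) - v =
          pB Q u v • w - (pB Q w v + Q w * pB Q u v) • u := by module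
      rw [h5, smul_sub, smul_smul, inv_mul_cancel₀ huv, one_smul, smul_smul]
      abel
    rw [h4]
    apply Submodule.add_mem
    · exact Submodule.mem_sup_left (Submodule.smul_mem _ _ (Submodule.sub_mem _ h3 (Submodule.mem_span_singleton_self v)))
    · exact Submodule.mem_sup_right (Submodule.smul_mem _ _ (Submodule.mem_span_singleton_self u))
  intro M hHM hME
  by_cases hcase : ∀ g ∈ M, g v ∈ Submodule.span F {v}
  · left
    apply le_antisymm _ hHM
    intro g hg
    refine Subgroup.mem_inf.2 ⟨mem_stO_of_fin ?_, hME hg⟩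
    intro x hx
    obtain ⟨c, rfl⟩ := Submodule.mem_span_singleton.mp hx
    rw [og_smul]
    exact Submodule.smul_mem _ _ (hcase g hg)
  right
  push Not at hcase
  obtain ⟨g, hg, hgv⟩ := hcase
  set v' := g v with hv'
  -- every singular vector orthogonal to `v`, `v'` with `v' ∉ ⟨v, u⟩` is full
  have key : ∀ u : V, Q u = 0 → pB Q v u = 0 → pB Q v' u = 0 → v' ∉ Submodule.span F {v} ⊔ Submodule.span F {u} →
      Full M u := by
    intro u hu hvu hv'u hns
    refine ⟨hu, fun w hu' huw => ?_⟩
    -- split `w`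
    by_cases hu0 : u = 0
    · have h1 : eich hu' huw = 1 := by
        apply og_ext
        intro x
        rw [eich_apply, hu0, og_one]
        simp
      rw [h1]; exact one_mem M
    -- `x ⟂ v`, `x ⟂ u`, `B(x, v') = 1`
    obtain ⟨x, hx1, hx2, hx3⟩ : ∃ x, pB Q v x = 0 ∧ pB Q u x = 0 ∧ pB Q v' x ≠ 0 := by
      by_contra hcon
      push Not at hcon
      apply hns
      rw [← oc_oc hnd (Submodule.span F {v} ⊔ Submodule.span F {u}), mem_oc]
      intro n hn
      rw [mem_oc] at hn
      rw [pB_symm]
      exact hcon n (hn v (Submodule.mem_sup_left (Submodule.mem_span_singleton_self v)))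
        (hn u (Submodule.mem_sup_right (Submodule.mem_span_singleton_self u)))
    set c := pB Q v' w / pB Q v' x with hc
    -- `w = c x + (w - c x)`
    have h1 : pB Q u (c • x) = 0 := by rw [pr_smul, hx2, mul_zero]
    have h2' : pB Q u (w - c • x) = 0 := by rw [pr_sub, huw, h1, sub_self]
    have m1 : eich hu' h1 ∈ M := hHM (hmem u _ hu' h1 (by rw [pB_symm]; exact hvu)
      (by rw [pl_smul, pB_symm, hx1, mul_zero]))
    have m2 : eich hu' h2' ∈ M := by
      -- conjugate of a Siegel element in `v^⊥`
      have h3 : Q ((g⁻¹ : OG Q) u) = 0 := by rw [og_q]; exact hu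
      have h4 : pB Q ((g⁻¹ : OG Q) u) ((g⁻¹ : OG Q) (w - c • x)) = 0 := by rw [og_p]; exact h2'
      have h5 : pB Q ((g⁻¹ : OG Q) u) v = 0 := by
        rw [og_p_inv, inv_inv, ← hv', pB_symm]; exact hv'u
      have h6 : pB Q ((g⁻¹ : OG Q) (w - c • x)) v = 0 := by
        rw [og_p_inv, inv_inv, ← hv', pB_symm, pr_sub, pr_smul, hc, div_mul_cancel₀ _ hx3, sub_self]
      have h7 := hHM (hmem _ _ h3 h4 h5 h6)
      have h8 := mul_mem (mul_mem hg h7) (inv_mem hg)
      rw [eich_conj g h3 h4 (by rw [og_inv']; exact hu) (by rw [og_inv', og_inv']; exact h2')] at h8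
      have h9 : ∀ (a b a' b' : V) (ha : Q a = 0) (hab : pB Q a b = 0) (ha' : Q a' = 0) (hab' : pB Q a' b' = 0),
          a = a' → b = b' → eich ha hab ∈ M → eich ha' hab' ∈ M := by
        intro a b a' b' ha hab ha' hab' h10 h11 h12
        subst h10 h11
        exact h12
      exact h9 _ _ _ _ _ _ _ _ (og_inv' g u) (og_inv' g _) h8
    exact eich_congr hu' _ huw (by abel) (eich_add_mem hu' h1 h2' (by rw [pr_add, h1, h2', add_zero]) m1 m2)
  -- a hyperbolic pair in `⟨v, v'⟩^⊥`
  set S := oc Q (Submodule.span F {v} ⊔ Submodule.span F {v'}) with hS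
  have hSdim : 5 ≤ Module.finrank F S := by
    have h4 := finrank_oc hnd (Submodule.span F {v} ⊔ Submodule.span F {v'})
    have h5 := finrank_span_one_le (F := F) v
    have h5' := finrank_span_one_le (F := F) v'
    have h6 := Submodule.finrank_add_le_finrank_add_finrank (Submodule.span F {v}) (Submodule.span F {v'})
    rw [← hS] at h4
    omega
  have hSv : ∀ x ∈ S, pB Q v x = 0 ∧ pB Q v' x = 0 := by
    intro x hx
    rw [hS, mem_oc] at hx
    exact ⟨hx v (Submodule.mem_sup_left (Submodule.mem_span_singleton_self v)),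
      hx v' (Submodule.mem_sup_right (Submodule.mem_span_singleton_self v'))⟩
  -- a singular vector `a` of `S` outside `⟨v, v'⟩`
  obtain ⟨C, hC⟩ := Submodule.exists_isCompl ((Submodule.span F {v} ⊔ Submodule.span F {v'}).comap S.subtype)
  have hT2 : Module.finrank F ((Submodule.span F {v} ⊔ Submodule.span F {v'}).comap S.subtype) ≤ 2 := by
    have h5 := finrank_span_one_le (F := F) v
    have h5' := finrank_span_one_le (F := F) v'
    have h6 := Submodule.finrank_add_le_finrank_add_finrank (Submodule.span F {v}) (Submodule.span F {v'})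
    have h7 : Module.finrank F ((Submodule.span F {v} ⊔ Submodule.span F {v'}).comap S.subtype) ≤
        Module.finrank F (Submodule.span F {v} ⊔ Submodule.span F {v'} : Submodule F V) := by
      rw [← Submodule.finrank_map_subtype_eq S]
      apply Submodule.finrank_mono
      rintro x ⟨y, hy, rfl⟩
      exact hy
    omega
  have hC3 : 3 ≤ Module.finrank F (C.map S.subtype) := by
    have h8 := Submodule.finrank_add_eq_of_isCompl hC
    rw [Submodule.finrank_map_subtype_eq]
    omega
  obtain ⟨a, haC, ha0, ha⟩ := exists_sing_sub (Q := Q) (C.map S.subtype) hC3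
  obtain ⟨a1, ha1C, rfl⟩ := haC
  have haS : (S.subtype a1) ∈ S := a1.2
  have hans : (S.subtype a1) ∉ Submodule.span F {v} ⊔ Submodule.span F {v'} := by
    intro h
    have h9 : a1 ∈ (Submodule.span F {v} ⊔ Submodule.span F {v'}).comap S.subtype ⊓ C := ⟨h, ha1C⟩
    rw [hC.inf_eq_bot, Submodule.mem_bot] at h9
    rw [h9, map_zero] at ha0
    exact ha0 rfl
  set a := S.subtype a1 with hadef
  -- a partner in `S`
  obtain ⟨x, hxS, hax⟩ : ∃ x ∈ S, pB Q x a ≠ 0 := by
    by_contra hcon
    push Not at hcon
    apply hans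
    rw [← oc_oc hnd (Submodule.span F {v} ⊔ Submodule.span F {v'}), mem_oc]
    exact hcon
  set b := x - (Q x / pB Q x a) • a with hb
  have hbS : b ∈ S := S.sub_mem hxS (S.smul_mem _ haS)
  have hbQ : Q b = 0 := by
    rw [hb, q_sub, q_smul, ha, pr_smul, mul_zero, add_zero, div_mul_cancel₀ _ hax, sub_self]
  have hba : pB Q b a ≠ 0 := by
    rw [hb, pl_sub, pl_smul, hvself]
    simpa using hax
  -- both are full
  have hns' : ∀ y ∈ S, y ≠ 0 → Q y = 0 → (∃ z ∈ S, pB Q z y ≠ 0) → v' ∉ Submodule.span F {v} ⊔ Submodule.span F {y} := by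
    intro y hy hy0 hyQ ⟨z, hz, hzy⟩ hmem'
    obtain ⟨p, hp, q, hq, hpq⟩ := Submodule.mem_sup.mp hmem'
    obtain ⟨c, rfl⟩ := Submodule.mem_span_singleton.mp hp
    obtain ⟨d, rfl⟩ := Submodule.mem_span_singleton.mp hq
    have h9 := (hSv z hz).2
    rw [← hpq, pl_add, pl_smul, pl_smul, (hSv z hz).1, mul_zero, zero_add, pB_symm] at h9
    have hd : d = 0 := (mul_eq_zero.mp h9).resolve_right hzy
    apply hgv
    rw [← hpq, hd, zero_smul, add_zero]
    exact Submodule.smul_mem _ _ (Submodule.mem_span_singleton_self v)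
  have hb0 : b ≠ 0 := by
    intro h; rw [h] at hba; simp at hba
  have fa : Full M a := key a ha (hSv a haS).1 (hSv a haS).2 (hns' a haS ha0 ha ⟨x, hxS, hax⟩)
  have fb : Full M b := key b hbQ (hSv b hbS).1 (hSv b hbS).2 (hns' b hbS hb0 hbQ ⟨a, haS, by rwa [pB_symm]⟩)
  exact le_antisymm hME (eg_le_of_full hnd fb fa hba)

end Cfsg.Agent.H12
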