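import Mathlib
import Cfsg.Prelude.Def_GeometricClasses
import Cfsg.Agent.H12.OmTS2

/-!
Irreducibility of orthogonal groups (Witt-closed subspaces), and vectors in general position.
-/

set_option autoImplicit false
set_option linter.unusedSectionVars false

namespace Cfsg.Agent.H12

open Matrix Cfsg Cfsg.Agent.H5

variable {F V : Type*} [Field F] [AddCommGroup V] [Module F V] {Q : QuadraticForm F V}

/-- outside two proper subspaces -/
lemma exists_off_two {N K : Submodule F V} (hN : N ≠ ⊤) (hK : K ≠ ⊤) : ∃ y, y ∉ N ∧ y ∉ K := by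
  obtain ⟨y1, -, hy1⟩ := SetLike.exists_of_lt (lt_top_iff_ne_top.2 hN)
  obtain ⟨y2, -, hy2⟩ := SetLike.exists_of_lt (lt_top_iff_ne_top.2 hK)
  by_cases h1 : y1 ∈ K
  · by_cases h2 : y2 ∈ N
    · refine ⟨y1 + y2, fun h => hy1 ?_, fun h => hy2 ?_⟩
      · have := N.sub_mem h h2
        rwa [add_sub_cancel_right] at this
      · have := K.sub_mem h h1
        rwa [add_sub_cancel_left] at this
    · exact ⟨y2, h2, hy2⟩
  · exact ⟨y1, hy1, h1⟩

theorem witt_closed [FiniteDimensional F V] (hnd : ND Q) {N : Submodule F V} (hN0 : N ≠ ⊥) (hNT : N ≠ ⊤)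
    (hN : ∀ x ∈ N, x ≠ 0 → ∀ y, y ≠ 0 → Q y = Q x → y ∈ N) :
    (∀ c : F, c = 0 ∨ c = 1 ∨ c = -1) ∧ Module.finrank F V = 2 ∧ ∃ y, y ≠ 0 ∧ Q y = 0 := by
  obtain ⟨x, hx, hx0⟩ := (Submodule.ne_bot_iff _).mp hN0
  -- nonsingular vectors not orthogonal to a vector of `N` are in `N`
  have hA : ∀ x ∈ N, x ≠ 0 → ∀ y, y ∉ N → pB Q y x ≠ 0 → Q y = 0 := by
    intro x hx hx0 y hy hyx
    by_contra hq
    apply hy
    have h1 := hN x hx hx0 (refl hq x) (by
      intro h
      have h2 : refl hq (refl hq x) = x := by rw [← og_mul, refl_mul_self, og_one]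
      rw [h, og_zero] at h2
      exact hx0 h2.symm) (og_q _ _)
    rw [refl_apply] at h1
    have h2 := N.sub_mem hx h1
    rw [sub_sub_cancel] at h2
    have hne : (Q y)⁻¹ * pB Q y x ≠ 0 := mul_ne_zero (inv_ne_zero hq) hyx
    have h3 := N.smul_mem ((Q y)⁻¹ * pB Q y x)⁻¹ h2
    rwa [smul_smul, inv_mul_cancel₀ hne, one_smul] at h3
  -- the hyperplane `x^⊥`
  have hperp : ∀ x : V, x ≠ 0 → LinearMap.ker (pB Q x) ≠ ⊤ := by
    intro x hx0 h
    apply hx0
    apply hnd
    intro y
    have : y ∈ LinearMap.ker (pB Q x) := by rw [h]; trivial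
    exact this
  have hex : ∀ x ∈ N, x ≠ 0 → ∃ y, y ∉ N ∧ pB Q y x ≠ 0 ∧ Q y = 0 := by
    intro x hx hx0
    obtain ⟨y, hy1, hy2⟩ := exists_off_two hNT (hperp x hx0)
    have h1 : pB Q y x ≠ 0 := by
      intro h
      apply hy2
      rw [LinearMap.mem_ker, pB_symm]; exact h
    exact ⟨y, hy1, h1, hA x hx hx0 y hy1 h1⟩
  by_cases hF : ∃ c : F, c ≠ 0 ∧ c ≠ 1
  · obtain ⟨c0, hc0, hc1⟩ := hF
    -- vectors of `N ∩ x^⊥`
    have hB : ∀ z ∈ N, pB Q x z = 0 → ∀ y, y ∉ N → pB Q y x ≠ 0 → Q z = 0 ∧ pB Q y z = 0 := by
      intro z hz hxz y hy hyx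
      have h1 : ∀ c : F, c ≠ 0 → c * pB Q y z + c * c * Q z = 0 := by
        intro c hc
        have h2 : y + c • z ∉ N := by
          intro h
          apply hy
          have := N.sub_mem h (N.smul_mem c hz)
          rwa [add_sub_cancel_right] at this
        have h3 := hA x hx hx0 (y + c • z) h2 (by
          rw [pl_add, pl_smul, pB_symm Q z x, hxz, mul_zero, add_zero]; exact hyx)
        rw [q_add, q_smul, pr_smul, hA x hx hx0 y hy hyx] at h3
        linear_combination h3
      have h2 := h1 1 one_ne_zero
      have h3 := h1 c0 hc0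
      have h4 : (c0 * (c0 - 1)) * Q z = 0 := by linear_combination h3 - c0 * h2
      have h5 : Q z = 0 := (mul_eq_zero.mp h4).resolve_left (mul_ne_zero hc0 (sub_ne_zero.2 hc1))
      refine ⟨h5, ?_⟩
      rw [h5] at h2
      linear_combination h2
    obtain ⟨y, hy, hyx, hyQ⟩ := hex x hx hx0
    -- `z ∈ N ∩ x^⊥` is orthogonal to `N` and to `x^⊥`
    have hC : ∀ z ∈ N, pB Q x z = 0 → ∀ w, (w ∈ N ∨ pB Q x w = 0) → pB Q w z = 0 := by
      intro z hz hxz w hw
      -- choose `c ≠ 0` with `y + c w` good
      obtain ⟨c, hc, hg1, hg2⟩ : ∃ c : F, c ≠ 0 ∧ y + c • w ∉ N ∧ pB Q (y + c • w) x ≠ 0 := by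
        rcases hw with hw | hw
        · -- not in N always
          have h1 : ∀ c : F, y + c • w ∉ N := by
            intro c h
            apply hy
            have := N.sub_mem h (N.smul_mem c hw)
            rwa [add_sub_cancel_right] at this
          by_cases h2 : pB Q (y + (1 : F) • w) x = 0
          · refine ⟨c0, hc0, h1 _, ?_⟩
            intro h3
            rw [pl_add, pl_smul] at h2 h3
            have h4 : (c0 - 1) * pB Q w x = 0 := by linear_combination h3 - h2
            have h5 := (mul_eq_zero.mp h4).resolve_left (sub_ne_zero.2 hc1)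
            rw [h5] at h2
            apply hyx
            linear_combination h2
          · exact ⟨1, one_ne_zero, h1 _, h2⟩
        · have h1 : ∀ c : F, pB Q (y + c • w) x ≠ 0 := by
            intro c
            rw [pl_add, pl_smul, pB_symm Q w x, hw, mul_zero, add_zero]; exact hyx
          by_cases h2 : y + (1 : F) • w ∈ N
          · refine ⟨c0, hc0, ?_, h1 _⟩
            intro h3
            have h4 := N.sub_mem h3 h2
            have h5 : y + c0 • w - (y + (1 : F) • w) = (c0 - 1) • w := by module
            rw [h5] at h4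
            have h6 := N.smul_mem (c0 - 1)⁻¹ h4
            rw [smul_smul, inv_mul_cancel₀ (sub_ne_zero.2 hc1), one_smul] at h6
            apply hy
            have := N.sub_mem h2 (N.smul_mem 1 h6)
            rwa [add_sub_cancel_right] at this
          · exact ⟨1, one_ne_zero, h2, h1 _⟩
      have h1 := (hB z hz hxz _ hg1 hg2).2
      rw [pl_add, (hB z hz hxz y hy hyx).2, pl_smul, zero_add] at h1
      exact (mul_eq_zero.mp h1).resolve_left hc
    -- `N ∩ x^⊥ = 0`
    have hNx : ∀ z ∈ N, pB Q x z = 0 → z = 0 := by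
      intro z hz hxz
      -- some element of `N` is not orthogonal to `x`
      by_cases h1 : ∃ t ∈ N, pB Q x t ≠ 0
      · obtain ⟨t, ht, hxt⟩ := h1
        apply hnd
        intro w
        rw [pB_symm]
        have h2 : w = (w - (pB Q x w / pB Q x t) • t) + (pB Q x w / pB Q x t) • t := by module
        rw [h2, pl_add, hC z hz hxz _ (Or.inr (by rw [pr_sub, pr_smul, div_mul_cancel₀ _ hxt, sub_self])),
          pl_smul, hC z hz hxz t (Or.inl ht)]
        ring
      · push Not at h1
        exfalso
        apply hyx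
        exact (hB x hx (h1 x hx) y hy hyx).2
    have hxx : pB Q x x ≠ 0 := fun h => hx0 (hNx x hx h)
    rw [pB_self] at hxx
    have h2 : (2 : F) ≠ 0 := left_ne_zero_of_mul hxx
    have hQx : Q x ≠ 0 := right_ne_zero_of_mul hxx
    have hNspan : ∀ z ∈ N, ∃ c : F, z = c • x := by
      intro z hz
      refine ⟨pB Q x z / pB Q x x, ?_⟩
      have h3 := hNx (z - (pB Q x z / pB Q x x) • x) (N.sub_mem hz (N.smul_mem _ hx)) (by
        rw [pr_sub, pr_smul, div_mul_cancel₀ _ (by rw [pB_self]; exact hxx), sub_self])
      exact sub_eq_zero.mp h3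
    have hD : ∀ t, t ≠ 0 → pB Q x t = 0 → Q t = - Q x := by
      intro t ht hxt
      have h3 : x + t ∉ N := by
        intro h
        have h4 := N.sub_mem h hx
        rw [add_sub_cancel_left] at h4
        exact ht (hNx t h4 hxt)
      have h4 := hA x hx hx0 (x + t) h3 (by
        rw [pl_add, pB_symm Q t x, hxt, add_zero, pB_self]; exact hxx)
      rw [q_add, hxt] at h4
      linear_combination h4
    -- a vector of `x^⊥`
    set t := y - (pB Q x y / pB Q x x) • x with ht
    have hxt : pB Q x t = 0 := by
      rw [ht, pr_sub, pr_smul, div_mul_cancel₀ _ (by rw [pB_self]; exact hxx), sub_self]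
    have ht0 : t ≠ 0 := by
      intro h
      apply hy
      rw [sub_eq_zero.mp h]
      exact N.smul_mem _ hx
    have hQt := hD t ht0 hxt
    refine ⟨?_, ?_, y, ?_, hyQ⟩
    · intro c
      by_cases hc : c = 0
      · exact Or.inl hc
      right
      have h3 := hD (c • t) (smul_ne_zero hc ht0) (by rw [pr_smul, hxt, mul_zero])
      rw [q_smul, hQt] at h3
      have h4 : (c - 1) * (c + 1) = 0 := by
        have h5 : ((c - 1) * (c + 1)) * Q x = 0 := by linear_combination -h3
        exact (mul_eq_zero.mp h5).resolve_right hQx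
      rcases mul_eq_zero.mp h4 with h5 | h5
      · exact Or.inl (sub_eq_zero.mp h5)
      · exact Or.inr (eq_neg_of_add_eq_zero_left h5)
    · -- dimension two
      have hspan : (⊤ : Submodule F V) = Submodule.span F (Set.range ![x, t]) := by
        apply le_antisymm _ le_top
        intro w _
        set s := w - (pB Q x w / pB Q x x) • x with hs
        have hxs : pB Q x s = 0 := by
          rw [hs, pr_sub, pr_smul, div_mul_cancel₀ _ (by rw [pB_self]; exact hxx), sub_self]
        -- `s` is a multiple of `t`
        have h3 : ∃ c : F, s = c • t := by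
          by_contra hcon
          push Not at hcon
          have hs0 : s ≠ 0 := fun h => hcon 0 (by rw [h, zero_smul])
          have hQs := hD s hs0 hxs
          have h4 := hD (t + s) (fun h => hcon (-1) (by
            rw [neg_smul, one_smul]; exact eq_neg_of_add_eq_zero_right h)) (by rw [pr_add, hxt, hxs, add_zero])
          have h5 := hD (t - s) (fun h => hcon 1 (by rw [one_smul]; exact (sub_eq_zero.mp h).symm))
            (by rw [pr_sub, hxt, hxs, sub_zero])
          rw [q_add, hQt, hQs] at h4
          rw [q_sub, hQt, hQs] at h5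
          have h6 : 2 * Q x = 0 := by linear_combination -h4 - h5
          exact hxx h6
        obtain ⟨c, hc⟩ := h3
        have h4 : w = (pB Q x w / pB Q x x) • x + c • t := by
          rw [← hc, hs]; abel
        rw [h4]
        apply Submodule.add_mem
        · exact Submodule.smul_mem _ _ (Submodule.subset_span ⟨0, rfl⟩)
        · exact Submodule.smul_mem _ _ (Submodule.subset_span ⟨1, rfl⟩)
      have hli : LinearIndependent F ![x, t] := by
        rw [LinearIndependent.pair_iff]
        intro a b hab
        have h3 : pB Q x (a • x + b • t) = 0 := by rw [hab]; simp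
        rw [pr_add, pr_smul, pr_smul, hxt, mul_zero, add_zero, pB_self] at h3
        have ha := (mul_eq_zero.mp h3).resolve_right hxx
        rw [ha, zero_smul, zero_add] at hab
        exact ⟨ha, (smul_eq_zero.mp hab).resolve_right ht0⟩
      rw [← finrank_top, hspan, finrank_span_eq_card hli, Fintype.card_fin]
    · rintro rfl
      exact hy N.zero_mem
  · -- the field with two elements
    push Not at hF
    have hF' : ∀ c : F, c ≠ 0 → c = 1 := hF
    have h2 : (1 : F) + 1 = 0 := by
      by_contra h
      have := hF' _ h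
      have h3 : (1 : F) = 0 := by linear_combination this
      exact one_ne_zero h3
    have hself : ∀ x : V, pB Q x x = 0 := by
      intro x; rw [pB_self]
      have : (2 : F) = 0 := by rw [← one_add_one_eq_two]; exact h2
      rw [this, zero_mul]
    have hnn : ∀ v : V, v + v = 0 := by
      intro v
      have : ((1 : F) + 1) • v = 0 := by rw [h2, zero_smul]
      rwa [add_smul, one_smul] at this
    -- all non-zero vectors of `N` have value one
    have hN1 : ∀ x ∈ N, x ≠ 0 → Q x = 1 := by
      intro x hx hx0
      obtain ⟨y, hy, hyx, hyQ⟩ := hex x hx hx0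
      have h3 : x + y ∉ N := by
        intro h
        apply hy
        have := N.sub_mem h hx
        rwa [add_sub_cancel_left] at this
      have h4 := hA x hx hx0 (x + y) h3 (by rw [pl_add, hself, zero_add]; exact hyx)
      rw [q_add, hyQ, pB_symm, hF' _ hyx] at h4
      have h5 : Q x = -1 := by linear_combination h4
      rw [h5]
      linear_combination -h2
    have hout : ∀ y, y ∉ N → Q y = 0 := by
      intro y hy
      by_contra hq
      apply hy
      apply hN x hx hx0 y
      · rintro rfl; exact hy N.zero_mem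
      · rw [hN1 x hx hx0, hF' _ hq]
    have hB1 : ∀ x ∈ N, x ≠ 0 → ∀ y, y ∉ N → pB Q x y = 1 := by
      intro x hx hx0 y hy
      have h3 : x + y ∉ N := by
        intro h
        apply hy
        have := N.sub_mem h hx
        rwa [add_sub_cancel_left] at this
      have h4 := hout _ h3
      rw [q_add, hN1 x hx hx0, hout y hy] at h4
      linear_combination h4 - h2
    obtain ⟨y, hy, hyx, hyQ⟩ := hex x hx hx0
    have hy0 : y ≠ 0 := by rintro rfl; exact hy N.zero_mem
    have hNx : ∀ z ∈ N, z = 0 ∨ z = x := by
      intro z hz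
      by_contra hcon
      push Not at hcon
      have h3 : x + z ≠ 0 := by
        intro h
        apply hcon.2
        have h4 : z = -x := eq_neg_of_add_eq_zero_right h
        rw [h4, neg_eq_iff_add_eq_zero]; exact hnn x
      have h4 := hB1 _ (N.add_mem hx hz) h3 y hy
      rw [pl_add, hB1 x hx hx0 y hy, hB1 z hz hcon.1 y hy, h2] at h4
      exact zero_ne_one h4
    refine ⟨?_, ?_, y, hy0, hyQ⟩
    · intro c
      by_cases hc : c = 0
      · exact Or.inl hc
      · exact Or.inr (Or.inl (hF' c hc))
    · have hspan : (⊤ : Submodule F V) = Submodule.span F (Set.range ![x, y]) := by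
        apply le_antisymm _ le_top
        intro w _
        have hxs : x ∈ Submodule.span F (Set.range ![x, y]) := Submodule.subset_span ⟨0, rfl⟩
        have hys : y ∈ Submodule.span F (Set.range ![x, y]) := Submodule.subset_span ⟨1, rfl⟩
        by_cases hw : w ∈ N
        · rcases hNx w hw with rfl | rfl
          · exact Submodule.zero_mem _
          · exact hxs
        · -- `y + w ∈ N`
          have h3 : y + w ∈ N := by
            by_contra h
            have h4 := hB1 x hx hx0 _ h
            rw [pr_add, hB1 x hx hx0 y hy, hB1 x hx hx0 w hw, h2] at h4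
            exact zero_ne_one h4
          have h5 : w = -y + (y + w) := by abel
          rw [h5]
          apply Submodule.add_mem _ (Submodule.neg_mem _ hys)
          rcases hNx _ h3 with h6 | h6
          · rw [h6]; exact Submodule.zero_mem _
          · rw [h6]; exact hxs
      have hli : LinearIndependent F ![x, y] := by
        rw [LinearIndependent.pair_iff]
        intro a b hab
        have h3 : b = 0 := by
          by_contra hb
          apply hy
          have h4 : y = -(b⁻¹ • (a • x)) := by
            have h5 : b • y = -(a • x) := eq_neg_of_add_eq_zero_right hab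
            rw [← smul_neg, ← h5, smul_smul, inv_mul_cancel₀ hb, one_smul]
          rw [h4]
          exact N.neg_mem (N.smul_mem _ (N.smul_mem _ hx))
        rw [h3, zero_smul, add_zero] at hab
        exact ⟨(smul_eq_zero.mp hab).resolve_right hx0, h3⟩
      rw [← finrank_top, hspan, finrank_span_eq_card hli, Fintype.card_fin]

/-- a singular vector of `S` outside `T` -/
lemma exists_sing_off [Finite F] [FiniteDimensional F V] (S T : Submodule F V)
    (h : 3 + Module.finrank F T ≤ Module.finrank F S) : ∃ x ∈ S, x ∉ T ∧ Q x = 0 := by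
  obtain ⟨C, hC⟩ := Submodule.exists_isCompl (T.comap S.subtype)
  have hT2 : Module.finrank F (T.comap S.subtype) ≤ Module.finrank F T := by
    rw [← Submodule.finrank_map_subtype_eq S]
    apply Submodule.finrank_mono
    rintro x ⟨y, hy, rfl⟩
    exact hy
  have hC3 : 3 ≤ Module.finrank F (C.map S.subtype) := by
    have h8 := Submodule.finrank_add_eq_of_isCompl hC
    rw [Submodule.finrank_map_subtype_eq]
    omega
  obtain ⟨a, haC, ha0, ha⟩ := exists_sing_sub (Q := Q) (C.map S.subtype) hC3
  obtain ⟨a1, ha1C, rfl⟩ := haC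
  refine ⟨_, a1.2, ?_, ha⟩
  intro h
  have h9 : a1 ∈ T.comap S.subtype ⊓ C := ⟨h, ha1C⟩
  rw [hC.inf_eq_bot, Submodule.mem_bot] at h9
  rw [h9, map_zero] at ha0
  exact ha0 rfl

lemma finrank_span_pair_le [FiniteDimensional F V] (a b : V) :
    Module.finrank F (Submodule.span F ({a, b} : Set V)) ≤ 2 := by
  classical
  have h1 := finrank_span_finset_le_card (R := F) ({a, b} : Finset V)
  rw [Finset.coe_insert, Finset.coe_singleton] at h1
  exact h1.trans Finset.card_le_two

/-- singular vectors orthogonal to `a` detect the span of `a` -/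
theorem mem_span_of_sing [Finite F] [FiniteDimensional F V] (hnd : ND Q) (hn : 7 ≤ Module.finrank F V) {a b : V}
    (h : ∀ u, Q u = 0 → pB Q u a = 0 → pB Q u b = 0) : b ∈ Submodule.span F {a} := by
  by_contra hb
  -- `x` with `B(a,x) = 0`, `B(b,x) ≠ 0`
  obtain ⟨x, hax, hbx⟩ : ∃ x, pB Q a x = 0 ∧ pB Q b x ≠ 0 := by
    by_contra hcon
    push Not at hcon
    apply hb
    rw [← oc_oc hnd (Submodule.span F {a}), mem_oc]
    intro n hn
    rw [mem_oc] at hn
    rw [pB_symm]
    exact hcon n (hn a (Submodule.mem_span_singleton_self a))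
  have hD := finrank_oc hnd (Submodule.span F ({a, b} : Set V))
  have h2 := finrank_span_pair_le (F := F) a b
  obtain ⟨e, he, hne, hQe⟩ := exists_sing_off (Q := Q) (oc Q (Submodule.span F ({a, b} : Set V)))
    (Submodule.span F ({a, b} : Set V)) (by omega)
  rw [mem_oc] at he
  have hea : pB Q a e = 0 := he a (Submodule.subset_span (by simp))
  have heb : pB Q b e = 0 := he b (Submodule.subset_span (by simp))
  -- adjust `x` such that `B(e,x) ≠ 0`
  obtain ⟨x', hax', hbx', hex'⟩ : ∃ x', pB Q a x' = 0 ∧ pB Q b x' ≠ 0 ∧ pB Q e x' ≠ 0 := by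
    by_cases hex : pB Q e x = 0
    · obtain ⟨d, hd, hed⟩ : ∃ d ∈ oc Q (Submodule.span F ({a, b} : Set V)), pB Q e d ≠ 0 := by
        by_contra hcon
        push Not at hcon
        apply hne
        rw [← oc_oc hnd (Submodule.span F ({a, b} : Set V)), mem_oc]
        intro n hn
        rw [pB_symm]; exact hcon n hn
      rw [mem_oc] at hd
      refine ⟨x + d, ?_, ?_, ?_⟩
      · rw [pr_add, hax, hd a (Submodule.subset_span (by simp)), add_zero]
      · rw [pr_add, hd b (Submodule.subset_span (by simp)), add_zero]; exact hbx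
      · rw [pr_add, hex, zero_add]; exact hed
    · exact ⟨x, hax, hbx, hex⟩
  have h3 := h (x' - (Q x' / pB Q e x') • e) (by
    rw [q_sub, q_smul, hQe, pr_smul, pB_symm Q x' e, mul_zero, add_zero, div_mul_cancel₀ _ hex', sub_self])
    (by rw [pl_sub, pl_smul, pB_symm Q x' a, hax', pB_symm Q e a, hea]; ring)
  rw [pl_sub, pl_smul, pB_symm Q e b, heb, mul_zero, sub_zero, pB_symm] at h3
  exact hbx' h3

end Cfsg.Agent.H12
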