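import Mathlib
import Cfsg.Prelude.Def_GeometricClasses
import Cfsg.Agent.H12.OmIrr
import Cfsg.Agent.H5.OrthExt

/-!
Maximality of stabilisers of nondegenerate subspaces in `EG Q`.
-/

set_option autoImplicit false
set_option linter.unusedSectionVars false

namespace Cfsg.Agent.H12

open Matrix Cfsg Cfsg.Agent.H5

variable {F V : Type*} [Field F] [AddCommGroup V] [Module F V] {Q : QuadraticForm F V}

/-- correction of an isometry inside a hyperbolic plane -/
theorem exists_corr [FiniteDimensional F V] (hrg : RG Q = ⊤) {e f : V} (he : Q e = 0) (hf : Q f = 0)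
    (hef : pB Q e f = 1) (g : OG Q) :
    ∃ r : OG Q, (∀ x, pB Q e x = 0 → pB Q f x = 0 → r x = x) ∧ g * r ∈ EG Q := by
  have hg : g ∈ RG Q := by rw [hrg]; trivial
  have hfix : ∀ {a : F} (ha : a ≠ 0) (x : V), pB Q e x = 0 → pB Q f x = 0 → ra he hf hef ha x = x := by
    intro a ha x h1 h2
    rw [ra_apply, h1, h2]; simp
  rw [RG] at hg
  induction hg using Subgroup.closure_induction with
  | mem x hx =>
    obtain ⟨v, hv, rfl⟩ := hx
    obtain ⟨a, ha, h⟩ := refl_cong he hf hef hv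
    exact ⟨_, hfix ha, h⟩
  | one => exact ⟨1, fun x _ _ => og_one x, by rw [mul_one]; exact one_mem _⟩
  | mul a b _ _ ha hb =>
    obtain ⟨r, hr, h1⟩ := ha
    obtain ⟨s, hs, h2⟩ := hb
    refine ⟨s * r, fun x h3 h4 => by rw [og_mul, hr x h3 h4, hs x h3 h4], ?_⟩
    have h3 : a * b * (s * r) = (a * (b * s) * a⁻¹) * (a * r) := by group
    rw [h3]
    exact mul_mem (eg_normal.conj_mem _ h2 _) h1
  | inv a _ ha =>
    obtain ⟨r, hr, h1⟩ := ha
    refine ⟨r⁻¹, fun x h3 h4 => ?_, ?_⟩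
    · conv_lhs => rw [← hr x h3 h4]
      rw [og_inv]
    · have h3 : a⁻¹ * r⁻¹ = (r * (a * r) * r⁻¹)⁻¹ := by group
      rw [h3]
      exact inv_mem (eg_normal.conj_mem _ h1 _)

/-- swapping the two vectors of a root element -/
lemma eich_swap {a w : V} (ha : Q a = 0) (hw : Q w = 0) (haw : pB Q a w = 0) (hwa : pB Q (-w) a = 0)
    (hw' : Q (-w) = 0) : eich ha haw = eich hw' hwa := by
  apply og_ext
  intro x
  rw [eich_apply, eich_apply, pl_neg, ha, hw]
  module

/-- action of a Siegel element on another one -/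
lemma eich_comm_mem {M : Subgroup (OG Q)} {u w a b : V} (hu : Q u = 0) (huw : pB Q u w = 0) (ha : Q a = 0)
    (hab : pB Q a b = 0) (hua : pB Q u a = 0) (hwa : pB Q w a = 0) (h1 : eich hu huw ∈ M) (h2 : eich ha hab ∈ M)
    {c : V} (hc : c = pB Q u b • w - pB Q w b • u - (Q w * pB Q u b) • u) (hac : pB Q a c = 0) : eich ha hac ∈ M := by
  have hxa : (eich hu huw) a = a := by
    rw [eich_apply, hua, hwa]
    simp
  have hxb : (eich hu huw) b = b + c := by
    rw [eich_apply, hc]; abel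
  have hab' : pB Q a (b + c) = 0 := by rw [pr_add, hab, hac, add_zero]
  have h3 := eich_conj (eich hu huw) ha hab (by rw [hxa]; exact ha) (by rw [hxa, hxb]; exact hab')
  have h4 : eich ha hab' ∈ M := by
    have h5 := mul_mem (mul_mem h1 h2) (inv_mem h1)
    rw [h3] at h5
    have h9 : ∀ (a b a' b' : V) (ha : Q a = 0) (hab : pB Q a b = 0) (ha' : Q a' = 0) (hab' : pB Q a' b' = 0),
        a = a' → b = b' → eich ha hab ∈ M → eich ha' hab' ∈ M := by
      intro a b a' b' ha hab ha' hab' h10 h11 h12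
      subst h10 h11
      exact h12
    exact h9 _ _ _ _ _ _ _ _ hxa hxb h5
  have hnb : pB Q a (-b) = 0 := by rw [pr_neg, hab, neg_zero]
  have h5 : eich ha hnb ∈ M := by
    have h6 : eich ha hnb = (eich ha hab)⁻¹ := by
      rw [eq_inv_iff_mul_eq_one, eich_mul ha hnb hab (by rw [neg_add_cancel]; simp)]
      apply og_ext
      intro x
      rw [eich_apply, og_one, neg_add_cancel, q_zero]
      simp
    rw [h6]; exact inv_mem h2
  exact eich_congr ha _ hac (by abel) (eich_add_mem ha hab' hnb (by rw [pr_add, hab', hnb, add_zero]) h4 h5)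

section main

variable [Finite F] [FiniteDimensional F V]

/-- Siegel elements inside `U` stabilise `U` -/
lemma eich_mem_stO_nd {U : Submodule F V} {u w : V} (hu : Q u = 0) (huw : pB Q u w = 0) (hU : u ∈ U) (hw : w ∈ U) :
    eich hu huw ∈ stO (Q := Q) U := by
  apply mem_stO_of_fin
  intro x hx
  rw [eich_apply]
  exact U.sub_mem (U.sub_mem (U.add_mem hx (U.smul_mem _ hw)) (U.smul_mem _ hU)) (U.smul_mem _ hU)

/-- Siegel elements inside `U^⊥` stabilise `U` -/
lemma eich_mem_stO_oc {U : Submodule F V} {u w : V} (hu : Q u = 0) (huw : pB Q u w = 0) (hU : u ∈ oc Q U)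
    (hw : w ∈ oc Q U) : eich hu huw ∈ stO (Q := Q) U := by
  rw [mem_oc] at hU hw
  apply mem_stO_of_fin
  intro x hx
  rw [eich_apply, pB_symm Q u x, hU x hx, pB_symm Q w x, hw x hx]
  simpa using hx

/-- the second step: one Siegel element reaching `U^⊥` gives all -/
theorem nd_step2 (hnd : ND Q) (hrg : RG Q = ⊤) {U : Submodule F V} (hU : NDS Q U) (hU7 : 7 ≤ Module.finrank F U)
    (hirr : ¬ ((∀ c : F, c = 0 ∨ c = 1 ∨ c = -1) ∧ Module.finrank F (oc Q U) = 2 ∧ ∃ y ∈ oc Q U, y ≠ 0 ∧ Q y = 0))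
    {M : Subgroup (OG Q)} (hHM : stO (Q := Q) U ⊓ EG Q ≤ M) {u a : V} (hu : u ∈ U) (hu0 : u ≠ 0) (hQu : Q u = 0)
    (ha : a ∉ U) (hua : pB Q u a = 0) (hM : eich hQu hua ∈ M) : EG Q ≤ M := by
  classical
  set W := oc Q U with hW
  have hWU : ∀ x ∈ W, ∀ y ∈ U, pB Q y x = 0 := by
    intro x hx y hy
    rw [hW, mem_oc] at hx
    exact hx y hy
  have hWnd : NDS Q W := hU.oc hnd
  -- hyperbolic pairs in `U`
  have hndU : ND (resQ Q U) := hU.nd
  obtain ⟨u', hu', huu'⟩ : ∃ u' : U, Q (u' : V) = 0 ∧ pB Q u (u' : V) = 1 := by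
    obtain ⟨v, hv, huv⟩ := exists_partner (Q := resQ Q U) hndU (u := ⟨u, hu⟩) (fun h => hu0 (congrArg Subtype.val h)) hQu
    exact ⟨v, hv, huv⟩
  obtain ⟨e, f, he, hf, hef, h1, h2, h3, h4⟩ := exists_hyp2 (Q := resQ Q U) hndU (by omega) (e := ⟨u, hu⟩) (f := u') hQu hu' huu'
  have he' : Q (e : V) = 0 := he
  have hf' : Q (f : V) = 0 := hf
  have hef' : pB Q (e : V) (f : V) = 1 := hef
  have hue : pB Q u (e : V) = 0 := h1
  have hu'e : pB Q (u' : V) (e : V) = 0 := h2
  have huf : pB Q u (f : V) = 0 := h3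
  have hu'f : pB Q (u' : V) (f : V) = 0 := h4
  -- corrected isometries: for `g ∈ OG` preserving `U`
  have hcorr : ∀ g : OG Q, g ∈ stO (Q := Q) U → ∃ h ∈ M, (∀ x ∈ W, h x = g x) ∧ h u = g u ∧ h u' = g u' := by
    intro g hg
    obtain ⟨r, hr, hgr⟩ := exists_corr hrg he' hf' hef' g
    refine ⟨g * r, hHM (Subgroup.mem_inf.2 ⟨mul_mem hg ?_, hgr⟩), ?_, ?_, ?_⟩
    · apply mem_stO_of_fin
      intro x hx
      rw [← oc_oc hnd U, mem_oc]
      intro n hn
      have h5 : r n = n := hr n (hWU n hn e e.2) (hWU n hn f f.2)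
      rw [← h5, og_p, pB_symm]
      exact hWU n hn x hx
    · intro x hx
      rw [og_mul, hr x (hWU x hx e e.2) (hWU x hx f f.2)]
    · rw [og_mul, hr u (by rw [pB_symm]; exact hue) (by rw [pB_symm]; exact huf)]
    · rw [og_mul, hr u' (by rw [pB_symm]; exact hu'e) (by rw [pB_symm]; exact hu'f)]
  -- the submodule `N`
  have huW : ∀ w ∈ W, pB Q u w = 0 := fun w hw => hWU w hw u hu
  have hPconj : ∀ h ∈ M, ∀ (w : V) (hw : pB Q u w = 0), eich hQu hw ∈ M → ∀ (a b : V) (ha : Q a = 0) (hab : pB Q a b = 0),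
      h u = a → h w = b → eich ha hab ∈ M := by
    intro h hh w hw h5 a b ha hab h6 h7
    subst h6 h7
    rw [← eich_conj h hQu hw ha hab]
    exact mul_mem (mul_mem hh h5) (inv_mem hh)
  let N : Submodule F W :=
    { carrier := {w | eich hQu (huW w w.2) ∈ M}
      add_mem' := by
        intro x y hx hy
        exact eich_add_mem hQu (huW x x.2) (huW y y.2) (huW _ (W.add_mem x.2 y.2)) hx hy
      zero_mem' := by
        show eich hQu _ ∈ M
        have : eich hQu (huW ((0 : W) : V) (0 : W).2) = 1 := by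
          apply og_ext
          intro x
          rw [eich_apply, og_one, ZeroMemClass.coe_zero, q_zero]
          simp
        rw [this]; exact one_mem M
      smul_mem' := by
        intro c w hw
        show eich hQu _ ∈ M
        by_cases hc : c = 0
        · have : eich hQu (huW ((c • w : W) : V) (c • w : W).2) = 1 := by
            apply og_ext
            intro x
            rw [eich_apply, og_one, hc, zero_smul, ZeroMemClass.coe_zero, q_zero]
            simp
          rw [this]; exact one_mem M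
        -- the torus element
        obtain ⟨g, hg1, -⟩ := og_witt2 (Q := resQ Q U) hndU (v := ⟨u, hu⟩) (w := u') (v' := c • ⟨u, hu⟩) (w' := c⁻¹ • u')
          (indep_sing (Q := resQ Q U) hQu hu' (by show pB Q u (u' : V) ≠ 0; rw [huu']; exact one_ne_zero))
          (indep_sing (Q := resQ Q U) (by rw [q_smul]; show c * c * Q u = 0; rw [hQu, mul_zero])
            (by rw [q_smul]; show c⁻¹ * c⁻¹ * Q (u' : V) = 0; rw [hu', mul_zero])
            (by rw [pl_smul, pr_smul]; show c * (c⁻¹ * pB Q u (u' : V)) ≠ 0; rw [huu', mul_one, mul_inv_cancel₀ hc]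
                exact one_ne_zero))
          (by rw [q_smul]; show c * c * Q u = Q u; rw [hQu, mul_zero])
          (by rw [q_smul]; show c⁻¹ * c⁻¹ * Q (u' : V) = Q (u' : V); rw [hu', mul_zero])
          (by rw [pl_smul, pr_smul]; show c * (c⁻¹ * pB Q u (u' : V)) = pB Q u (u' : V)
              rw [huu', mul_one, mul_inv_cancel₀ hc])
        obtain ⟨h, hh, hh1, hh2, -⟩ := hcorr (extOG hU g) (by
          apply mem_stO_of_fin
          intro x hx
          have := extOG_mem hU g ⟨x, hx⟩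
          rw [this]; exact (g ⟨x, hx⟩).2)
        have hgu : extOG hU g u = c • u := by
          have := extOG_mem hU g ⟨u, hu⟩
          rw [this, hg1]; rfl
        have hcu : Q (c • u) = 0 := by rw [q_smul, hQu, mul_zero]
        have hcw : pB Q (c • u) (w : V) = 0 := by rw [pl_smul, huW w w.2, mul_zero]
        have h5 := hPconj h hh w (huW w w.2) hw (c • u) w hcu hcw (by rw [hh2, hgu]) (by
          rw [hh1 w w.2]; exact extOG_oc hU g w.2)
        rw [eich_smul c hQu (huW w w.2) hcu hcw (by rw [pr_smul, huW w w.2, mul_zero])] at h5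
        exact h5 }
  have hNmem : ∀ w : W, w ∈ N ↔ eich hQu (huW w w.2) ∈ M := fun w => Iff.rfl
  -- the component of `a`
  obtain ⟨a1, ha1, a2, ha2, haa⟩ := hU.decomp a
  have ha20 : a2 ≠ 0 := by
    rintro rfl
    apply ha
    rw [haa, add_zero]; exact ha1
  have ha2N : (⟨a2, ha2⟩ : W) ∈ N := by
    rw [hNmem]
    have hua1 : pB Q u a1 = 0 := by
      have := hua
      rw [haa, pr_add, huW a2 ha2, add_zero] at this
      exact this
    have hna1 : pB Q u (-a1) = 0 := by rw [pr_neg, hua1, neg_zero]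
    have h5 : eich hQu hna1 ∈ M := hHM (Subgroup.mem_inf.2 ⟨eich_mem_stO_nd hQu hna1 hu (U.neg_mem ha1), eg_mem _ _⟩)
    exact eich_congr hQu _ _ (by rw [haa]; abel) (eich_add_mem hQu hua hna1 (by rw [pr_add, hua, hna1, add_zero]) hM h5)
  have hNtop : N = ⊤ := by
    by_contra hne
    apply hirr
    have hN0 : N ≠ ⊥ := by
      intro h
      rw [h, Submodule.mem_bot] at ha2N
      exact ha20 (congrArg Subtype.val ha2N)
    obtain ⟨h5, h6, y, hy0, hy⟩ := witt_closed (Q := resQ Q W) hWnd.nd hN0 hne (by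
      intro x hx hx0 y hy0 hyx
      obtain ⟨g, hg⟩ := og_witt1 (Q := resQ Q W) hWnd.nd hx0 hy0 hyx
      obtain ⟨h, hh, hh1, hh2, -⟩ := hcorr (extOG hWnd g) (by
        apply mem_stO_of_fin
        intro z hz
        rw [extOG_oc hWnd g (by rw [hW, oc_oc hnd]; exact hz)]
        exact hz)
      have hgu : extOG hWnd g u = u := extOG_oc hWnd g (by rw [hW, oc_oc hnd]; exact hu)
      rw [hNmem]
      exact hPconj h hh x (huW x x.2) hx u y hQu _ (by rw [hh2, hgu]) (by
        rw [hh1 x x.2, extOG_mem, hg]))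
    exact ⟨h5, h6, y, y.2, fun h => hy0 (Subtype.ext h), hy⟩
  -- `u` is full
  have hfull : Full M u := by
    refine ⟨hQu, fun w hQ hw => ?_⟩
    obtain ⟨w1, hw1, w2, hw2, hww⟩ := hU.decomp w
    have huw2 : pB Q u w2 = 0 := huW w2 hw2
    have huw1 : pB Q u w1 = 0 := by
      rw [hww, pr_add, huw2, add_zero] at hw
      exact hw
    have h5 : eich hQu huw2 ∈ M := by
      have : (⟨w2, hw2⟩ : W) ∈ N := by rw [hNtop]; trivial
      exact this
    have h6 : eich hQu huw1 ∈ M := hHM (Subgroup.mem_inf.2 ⟨eich_mem_stO_nd hQu huw1 hu hw1, eg_mem _ _⟩)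
    exact eich_congr hQu _ hw hww.symm (eich_add_mem hQu huw1 huw2 (by rw [pr_add, huw1, huw2, add_zero]) h6 h5)
  -- move `u` to `u'`
  have hu'0 : (u' : V) ≠ 0 := by
    intro h
    rw [h] at huu'
    simp at huu'
  obtain ⟨g, hg⟩ := og_witt1 (Q := resQ Q U) hndU (x := ⟨u, hu⟩) (y := u') (fun h => hu0 (congrArg Subtype.val h))
    (fun h => hu'0 (congrArg Subtype.val h)) (by show Q (u' : V) = Q u; rw [hu', hQu])
  obtain ⟨h, hh, -, hh2, -⟩ := hcorr (extOG hU g) (by
    apply mem_stO_of_fin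
    intro x hx
    have := extOG_mem hU g ⟨x, hx⟩
    rw [this]; exact (g ⟨x, hx⟩).2)
  have hgu : extOG hU g u = u' := by
    have := extOG_mem hU g ⟨u, hu⟩
    rw [this, hg]
  have hfull' := hfull.conj hh
  rw [hh2, hgu] at hfull'
  exact eg_le_of_full hnd hfull hfull' (by rw [huu']; exact one_ne_zero)

theorem nd_maximal (hnd : ND Q) (hrg : RG Q = ⊤) {U : Submodule F V} (hU : NDS Q U) (hU7 : 7 ≤ Module.finrank F U)
    (hW0 : oc Q U ≠ ⊥)
    (hirr : ¬ ((∀ c : F, c = 0 ∨ c = 1 ∨ c = -1) ∧ Module.finrank F (oc Q U) = 2 ∧ ∃ y ∈ oc Q U, y ≠ 0 ∧ Q y = 0))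
    (hsw : ∀ g ∈ EG Q, ∃ u ∈ U, g u ∉ oc Q U) :
    Geo.IsMaximalIn (EG Q) (stO (Q := Q) U ⊓ EG Q) := by
  classical
  have hndU : ND (resQ Q U) := hU.nd
  have hWU : ∀ x ∈ oc Q U, ∀ y ∈ U, pB Q y x = 0 := by
    intro x hx y hy
    rw [mem_oc] at hx
    exact hx y hy
  have hdisj : ∀ x ∈ U, x ∈ oc Q U → x = 0 := by
    intro x hx hx'
    apply hU x hx
    intro y hy
    rw [pB_symm]; exact hWU x hx' y hy
  refine ⟨lt_of_le_of_ne inf_le_right ?_, ?_⟩
  · -- proper
    intro heq
    have h1 : EG Q ≤ stO (Q := Q) U := by rw [← heq]; exact inf_le_left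
    obtain ⟨⟨u, hu⟩, hu0, hQu⟩ := exists_sing (Q := resQ Q U) hndU (by omega)
    obtain ⟨v, hv, huv⟩ := exists_partner (Q := resQ Q U) hndU hu0 hQu
    obtain ⟨w, hw, hw0⟩ := (Submodule.ne_bot_iff _).mp hW0
    have hQu' : Q u = 0 := hQu
    have huv' : pB Q u (v : V) = 1 := huv
    have h2 := (mem_stO.1 (h1 (eg_mem hQu' (hWU w hw u hu)))).1 v v.2
    rw [eich_apply, huv', pB_symm Q w v, hWU w hw v v.2, zero_smul, sub_zero, one_smul, mul_one] at h2
    have h3 : w ∈ U := by
      have h4 : w = ((v : V) + w - Q w • u) - v + Q w • u := by abel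
      rw [h4]
      exact U.add_mem (U.sub_mem h2 v.2) (U.smul_mem _ hu)
    exact hw0 (hdisj w h3 hw)
  intro M hHM hME
  by_cases hcase : ∀ g ∈ M, ∀ x ∈ U, g x ∈ U
  · left
    apply le_antisymm _ hHM
    intro g hg
    exact Subgroup.mem_inf.2 ⟨mem_stO_of_fin (hcase g hg), hME hg⟩
  right
  apply le_antisymm hME
  push Not at hcase
  obtain ⟨g, hg, x0, hx0, hgx0⟩ := hcase
  by_contra hEM
  have hP : ∀ (u a : V) (hQu : Q u = 0) (hua : pB Q u a = 0), u ∈ U → u ≠ 0 → a ∉ U → eich hQu hua ∉ M := by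
    intro u a hQu hua hu hu0 ha hM
    exact hEM (nd_step2 hnd hrg hU hU7 hirr hHM hu hu0 hQu ha hua hM)
  -- the projection
  obtain ⟨p, hp⟩ : ∃ p : V →ₗ[F] U, p = nproj hU := ⟨_, rfl⟩
  have hpsub : ∀ x, x - p x ∈ oc Q U := by intro x; rw [hp]; exact nproj_sub hU x
  have hpB : ∀ (u : U) (x : V), pB Q (u : V) (p x : V) = pB Q (u : V) x := by
    intro u x
    have h1 := hWU _ (hpsub x) u u.2
    rw [pr_sub, sub_eq_zero] at h1
    exact h1.symm
  -- the key relation
  have hkey : ∀ a0 b0 : U, Q (a0 : V) = 0 → g (a0 : V) ∉ U → pB Q (a0 : V) (b0 : V) = 0 →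
      p (g (b0 : V)) ∈ Submodule.span F {p (g (a0 : V))} := by
    intro a0 b0 ha0 hga0 hab0
    apply mem_span_of_sing hndU hU7
    intro u hQu hua
    have hQu' : Q (u : V) = 0 := hQu
    have hua' : pB Q (u : V) (g (a0 : V)) = 0 := by
      rw [← hpB]; exact hua
    show pB Q (u : V) (p (g (b0 : V)) : V) = 0
    rw [hpB]
    by_contra hub
    have hu0 : (u : V) ≠ 0 := by
      intro h
      rw [h] at hub
      simp at hub
    -- `w ∈ U` singular, orthogonal to `u` and `a`, outside `⟨u⟩`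
    obtain ⟨w, hw, hwu, hQw⟩ : ∃ w : U, (pB Q (w : V) (g (a0 : V)) = 0 ∧ pB Q (u : V) (w : V) = 0) ∧
        w ∉ Submodule.span F {u} ∧ Q (w : V) = 0 := by
      have h2 := finrank_oc hndU (Submodule.span F ({u, p (g (a0 : V))} : Set U))
      have h3 := finrank_span_pair_le (F := F) u (p (g (a0 : V)))
      have h4 := finrank_span_one_le (F := F) u
      obtain ⟨w, hw, hwu, hQw⟩ := exists_sing_off (Q := resQ Q U) (oc (resQ Q U) (Submodule.span F ({u, p (g (a0 : V))} : Set U)))
        (Submodule.span F {u}) (by omega)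
      rw [mem_oc] at hw
      refine ⟨w, ⟨?_, hw u (Submodule.subset_span (by simp))⟩, hwu, hQw⟩
      rw [← hpB, pB_symm]
      exact hw _ (Submodule.subset_span (by simp))
    have hQa : Q (g (a0 : V)) = 0 := by rw [og_q]; exact ha0
    have hab : pB Q (g (a0 : V)) (g (b0 : V)) = 0 := by rw [og_p]; exact hab0
    have hM1 : eich hQu' hw.2 ∈ M := hHM (Subgroup.mem_inf.2 ⟨eich_mem_stO_nd hQu' hw.2 u.2 w.2, eg_mem _ _⟩)
    have hM2 : eich hQa hab ∈ M := by
      rw [← eich_conj g ha0 hab0 hQa hab]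
      exact mul_mem (mul_mem hg (hHM (Subgroup.mem_inf.2 ⟨eich_mem_stO_nd ha0 hab0 a0.2 b0.2, eg_mem _ _⟩))) (inv_mem hg)
    set c : V := pB Q (u : V) (g (b0 : V)) • (w : V) - pB Q (w : V) (g (b0 : V)) • (u : V) with hc
    have hcU : c ∈ U := U.sub_mem (U.smul_mem _ w.2) (U.smul_mem _ u.2)
    have hcQ : Q c = 0 := by
      rw [hc, q_sub, q_smul, q_smul, hQu', hQw, pl_smul, pr_smul, pB_symm Q (w : V) (u : V), hw.2]; ring
    have hac : pB Q (g (a0 : V)) c = 0 := by
      rw [hc, pr_sub, pr_smul, pr_smul, pB_symm Q (g (a0 : V)) (w : V), hw.1, pB_symm Q (g (a0 : V)) (u : V), hua']; ring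
    have hM3 := eich_comm_mem hQu' hw.2 hQa hab hua' hw.1 hM1 hM2 (c := c) (by rw [hc, hQw]; simp) hac
    have hc0 : -c ≠ 0 := by
      intro h
      apply hwu
      rw [Submodule.mem_span_singleton]
      refine ⟨(pB Q (u : V) (g (b0 : V)))⁻¹ * pB Q (w : V) (g (b0 : V)), ?_⟩
      apply Subtype.ext
      have h1 : c = 0 := neg_eq_zero.mp h
      rw [hc, sub_eq_zero] at h1
      show ((pB Q (u : V) (g (b0 : V)))⁻¹ * pB Q (w : V) (g (b0 : V))) • (u : V) = (w : V)
      rw [mul_smul, ← h1, smul_smul, inv_mul_cancel₀ hub, one_smul]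
    have hca : pB Q (-c) (g (a0 : V)) = 0 := by rw [pl_neg, pB_symm, hac, neg_zero]
    have hcQ' : Q (-c) = 0 := by rw [q_neg, hcQ]
    rw [eich_swap hQa hcQ hac hca hcQ'] at hM3
    exact hP (-c) (g (a0 : V)) hcQ' hca (U.neg_mem hcU) hc0 hga0 hM3
  -- `T = p ∘ g`
  let T : U →ₗ[F] U := p ∘ₗ (g.1 : V →ₗ[F] V) ∘ₗ U.subtype
  have hT : ∀ x : U, T x = p (g (x : V)) := fun x => rfl
  have hTW : ∀ x : U, T x = 0 → g (x : V) ∈ oc Q U := by
    intro x hx
    have := hpsub (g (x : V))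
    rw [← hT, hx] at this
    simpa using this
  -- a singular vector moved out of `U`
  obtain ⟨a0, ha0, hga0⟩ : ∃ a0 : U, Q (a0 : V) = 0 ∧ g (a0 : V) ∉ U := by
    by_contra hcon
    push Not at hcon
    -- the subspace of vectors mapped into `U`
    let N : Submodule F U := (U.comap ((g.1 : V →ₗ[F] V) ∘ₗ U.subtype))
    have hN : ∀ x : U, x ∈ N ↔ g (x : V) ∈ U := fun x => Iff.rfl
    have hNtop : N ≠ ⊤ := by
      intro h
      have : (⟨x0, hx0⟩ : U) ∈ N := by rw [h]; trivial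
      exact hgx0 this
    -- a vector orthogonal to `N`
    have h1 := finrank_oc hndU N
    have h2 := Submodule.finrank_lt hNtop
    have h3 : oc (resQ Q U) N ≠ ⊥ := by
      intro h
      rw [h, finrank_bot] at h1
      omega
    obtain ⟨b, hb, hb0⟩ := (Submodule.ne_bot_iff _).mp h3
    rw [mem_oc] at hb
    have h4 := mem_span_of_sing hndU hU7 (a := 0) (b := b) (by
      intro u hu _
      exact hb u (hcon u hu))
    rw [Submodule.span_zero_singleton, Submodule.mem_bot] at h4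
    exact hb0 h4
  -- the kernel of `T`
  have hK1 : Module.finrank F U ≤ Module.finrank F (LinearMap.ker T) + 2 := by
    -- restricted to `a0^⊥`
    let D := oc (resQ Q U) (Submodule.span F {a0})
    have h1 : Module.finrank F D + Module.finrank F (Submodule.span F {a0}) = Module.finrank F U :=
      finrank_oc hndU (Submodule.span F {a0})
    have h2 := finrank_span_one_le (F := F) a0
    let T' : D →ₗ[F] U := T ∘ₗ D.subtype
    have h3 := LinearMap.finrank_range_add_finrank_ker T'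
    have h4 : Module.finrank F (LinearMap.range T') ≤ 1 := by
      refine (Submodule.finrank_mono ?_).trans (finrank_span_one_le (F := F) (p (g (a0 : V))))
      rintro _ ⟨x, rfl⟩
      have hx := x.2
      have hx' : pB Q (a0 : V) (x.1 : V) = 0 := by
        have h5 : x.1 ∈ oc (resQ Q U) (Submodule.span F {a0}) := hx
        rw [mem_oc] at h5
        exact h5 a0 (Submodule.mem_span_singleton_self a0)
      exact hkey a0 x.1 ha0 hga0 hx'
    have h5 : Module.finrank F (LinearMap.ker T') ≤ Module.finrank F (LinearMap.ker T) := by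
      rw [← Submodule.finrank_map_subtype_eq D (LinearMap.ker T')]
      apply Submodule.finrank_mono
      rintro x ⟨y, hy, rfl⟩
      exact hy
    omega
  -- singular vectors in the kernel
  have hKS : ∀ a : U, Q (a : V) = 0 → a ≠ 0 → T a = 0 → ∀ b : U, pB Q (a : V) (b : V) = 0 → T b = 0 := by
    intro a ha ha0' hTa b hab
    have h1 : g (a : V) ∉ U := by
      intro h
      have h2 := hdisj _ h (hTW a hTa)
      apply ha0'
      apply Subtype.ext
      have h3 : g (a : V) = g 0 := by rw [h2, og_zero]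
      exact og_inj g h3
    have h2 := hkey a b ha h1 hab
    rw [← hT, ← hT, hTa, Submodule.span_zero_singleton, Submodule.mem_bot] at h2
    exact h2
  obtain ⟨a1, ha1K, ha10, ha1Q⟩ := exists_sing_sub (Q := resQ Q U) (LinearMap.ker T) (by omega)
  obtain ⟨a2, ha2K, ha2s, ha2Q⟩ := exists_sing_off (Q := resQ Q U) (LinearMap.ker T) (Submodule.span F {a1}) (by
    have := finrank_span_one_le (F := F) a1
    omega)
  have ha1Q' : Q (a1 : V) = 0 := ha1Q
  have ha2Q' : Q (a2 : V) = 0 := ha2Q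
  have ha20 : a2 ≠ 0 := by rintro rfl; exact ha2s (Submodule.zero_mem _)
  -- `T = 0`
  have hT0 : ∀ x : U, T x = 0 := by
    intro x
    -- `y ⟂ a1` with `B(a2, y) ≠ 0`
    obtain ⟨y, hy1, hy2⟩ : ∃ y : U, pB Q (a1 : V) (y : V) = 0 ∧ pB Q (a2 : V) (y : V) ≠ 0 := by
      by_contra hcon
      push Not at hcon
      apply ha2s
      rw [← oc_oc hndU (Submodule.span F {a1}), mem_oc]
      intro n hn
      rw [mem_oc] at hn
      rw [pB_symm]
      exact hcon n (hn a1 (Submodule.mem_span_singleton_self a1))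
    have h1 : T y = 0 := hKS a1 ha1Q' ha10 ha1K y hy1
    have h2 : T (x - (pB Q (a2 : V) (x : V) / pB Q (a2 : V) (y : V)) • y) = 0 := by
      apply hKS a2 ha2Q' ha20 ha2K
      show pB Q (a2 : V) ((x : V) - (pB Q (a2 : V) (x : V) / pB Q (a2 : V) (y : V)) • (y : V)) = 0
      rw [pr_sub, pr_smul, div_mul_cancel₀ _ hy2, sub_self]
    rw [map_sub, map_smul, h1, smul_zero, sub_zero] at h2
    exact h2
  obtain ⟨u, hu, hgu⟩ := hsw g (hME hg)
  exact hgu (hTW ⟨u, hu⟩ (hT0 _))

end main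

end Cfsg.Agent.H12
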