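import Mathlib
import Cfsg.Prelude.Def_GeometricClasses
import Cfsg.Agent.H12.OmND
import Cfsg.Agent.H17.QClass2

/-!
Maximality of stabilisers of nondegenerate subspaces: wrappers.
-/

set_option autoImplicit false
set_option linter.unusedSectionVars false

namespace Cfsg.Agent.H12

open Matrix Cfsg Cfsg.Agent.H5

section gen

variable {F V : Type*} [Field F] [AddCommGroup V] [Module F V] {Q : QuadraticForm F V}

lemma stO_oc [FiniteDimensional F V] (hnd : ND Q) (W : Submodule F V) : stO (Q := Q) (oc Q W) = stO (Q := Q) W := by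
  have key : ∀ W : Submodule F V, stO (Q := Q) W ≤ stO (Q := Q) (oc Q W) := by
    intro W g hg
    apply mem_stO_of_fin
    intro x hx
    rw [mem_oc] at hx ⊢
    intro n hn
    rw [pB_symm, og_p_inv, pB_symm]
    exact hx _ (hg.2 n hn)
  apply le_antisymm _ (key W)
  have := key (oc Q W)
  rwa [oc_oc hnd] at this

theorem nd_max_gen [Finite F] [FiniteDimensional F V] (hnd : ND Q) (hn : 13 ≤ Module.finrank F V) {W : Submodule F V}
    (hW : NDS Q W) (hW0 : W ≠ ⊥) (hW1 : W ≠ ⊤)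
    (hi1 : ¬ ((∀ c : F, c = 0 ∨ c = 1 ∨ c = -1) ∧ Module.finrank F W = 2 ∧ ∃ y ∈ W, y ≠ 0 ∧ Q y = 0))
    (hi2 : ¬ ((∀ c : F, c = 0 ∨ c = 1 ∨ c = -1) ∧ Module.finrank F (oc Q W) = 2 ∧ ∃ y ∈ oc Q W, y ≠ 0 ∧ Q y = 0))
    (hsw : 2 * Module.finrank F W = Module.finrank F V → ∀ g ∈ EG Q, ∃ u ∈ W, g u ∉ oc Q W) :
    Geo.IsMaximalIn (EG Q) (stO (Q := Q) W ⊓ EG Q) := by
  have hrg : RG Q = ⊤ := rg_top hnd (fun _ => by omega)
  have hfr := finrank_oc hnd W
  have hocne : oc Q W ≠ ⊥ := by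
    intro h
    rw [h, finrank_bot, zero_add] at hfr
    exact hW1 (Submodule.eq_top_of_finrank_eq hfr)
  by_cases hle : Module.finrank F (oc Q W) ≤ Module.finrank F W
  · apply nd_maximal hnd hrg hW (by omega) hocne hi2
    intro g hg
    rcases hle.lt_or_eq with hlt | heq
    · by_contra hcon
      push Not at hcon
      have h1 : W.map (g.1 : V →ₗ[F] V) ≤ oc Q W := by
        rintro _ ⟨x, hx, rfl⟩
        exact hcon x hx
      have h2 := Submodule.finrank_mono h1
      have h3 : Module.finrank F (W.map (g.1 : V →ₗ[F] V)) = Module.finrank F W :=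
        LinearEquiv.finrank_map_eq g.1 W
      omega
    · exact hsw (by omega) g hg
  · rw [← stO_oc hnd]
    apply nd_maximal hnd hrg (hW.oc hnd) (by omega)
    · rw [oc_oc hnd]; exact hW0
    · rw [oc_oc hnd]; exact hi1
    · intro g hg
      rw [oc_oc hnd]
      by_contra hcon
      push Not at hcon
      have h1 : (oc Q W).map (g.1 : V →ₗ[F] V) ≤ W := by
        rintro _ ⟨x, hx, rfl⟩
        exact hcon x hx
      have h2 := Submodule.finrank_mono h1
      have h3 : Module.finrank F ((oc Q W).map (g.1 : V →ₗ[F] V)) = Module.finrank F (oc Q W) :=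
        LinearEquiv.finrank_map_eq g.1 (oc Q W)
      omega

end gen

lemma card_le_three_of {F : Type*} [Field F] [Fintype F] (h : ∀ c : F, c = 0 ∨ c = 1 ∨ c = -1) : Fintype.card F ≤ 3 := by
  classical
  have h1 : (Finset.univ : Finset F) ⊆ {0, 1, -1} := by
    intro c _
    rcases h c with rfl | rfl | rfl <;> simp
  have h2 := Finset.card_le_card h1
  rw [Finset.card_univ] at h2
  exact h2.trans Finset.card_le_three

section mat

variable {F : Type*} [Field F] {ι : Type} [Fintype ι] [DecidableEq ι] {Q : QuadraticForm F (ι → F)}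

lemma nds_of {W : Submodule F (ι → F)} (h : Geo.IsNondegenerateOn (QuadraticMap.polar ⇑Q) W) : NDS Q W := by
  intro x hx hx'
  by_contra hne
  obtain ⟨-, y, hy, hyx⟩ := h x hx hne
  exact hyx (hx' y hy)

lemma plus_plane {W : Submodule F (ι → F)} (h2 : Module.finrank F W = 2) {y : ι → F} (hy : y ∈ W) (hy0 : y ≠ 0)
    (hQ : Q y = 0) : Geo.IsPlusTypeOn (⇑Q) W := by
  refine ⟨Submodule.span F {y}, ?_, ?_, ?_⟩
  · rw [Submodule.span_le]
    simpa using hy
  · intro w hw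
    obtain ⟨c, rfl⟩ := Submodule.mem_span_singleton.mp hw
    rw [q_smul, hQ, mul_zero]
  · rw [finrank_span_singleton hy0, h2]

lemma nonOn_of {W : Submodule F (ι → F)} (h : NDS Q W) : Geo.IsNondegenerateOn (QuadraticMap.polar ⇑Q) W := by
  intro x hx hx0
  have h1 : ∃ y ∈ W, pB Q x y ≠ 0 := by
    by_contra hcon
    push Not at hcon
    exact hx0 (h x hx hcon)
  obtain ⟨y, hy, hxy⟩ := h1
  exact ⟨⟨y, hy, by rw [QuadraticMap.polar_comm]; exact hxy⟩, ⟨y, hy, hxy⟩⟩

/-- the exclusion hypothesis of the even-dimensional statements -/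
lemma excl_of [Fintype F] (hnd : ND Q) {W : Submodule F (ι → F)} (hW : NDS Q W) {n : ℕ} (hn : Module.finrank F (ι → F) = n)
    (hex : ¬ (Fintype.card F ≤ 3 ∧ (∃ U : Submodule F (ι → F), Module.finrank F U = 2 ∧
      Geo.IsNondegenerateOn (QuadraticMap.polar ⇑Q) U ∧ Geo.IsPlusTypeOn (⇑Q) U ∧
      (U = W ∨ (Geo.AreOrthogonalFor (QuadraticMap.polar ⇑Q) U W ∧ Module.finrank F U + Module.finrank F W = n))))) :
    (¬ ((∀ c : F, c = 0 ∨ c = 1 ∨ c = -1) ∧ Module.finrank F W = 2 ∧ ∃ y ∈ W, y ≠ 0 ∧ Q y = 0)) ∧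
    (¬ ((∀ c : F, c = 0 ∨ c = 1 ∨ c = -1) ∧ Module.finrank F (oc Q W) = 2 ∧ ∃ y ∈ oc Q W, y ≠ 0 ∧ Q y = 0)) := by
  constructor
  · rintro ⟨h1, h2, y, hy, hy0, hQy⟩
    exact hex ⟨card_le_three_of h1, W, h2, nonOn_of hW, plus_plane h2 hy hy0 hQy, Or.inl rfl⟩
  · rintro ⟨h1, h2, y, hy, hy0, hQy⟩
    refine hex ⟨card_le_three_of h1, oc Q W, h2, nonOn_of (hW.oc hnd), plus_plane h2 hy hy0 hQy, Or.inr ⟨?_, ?_⟩⟩
    · intro u hu v hv
      rw [mem_oc] at hu
      rw [QuadraticMap.polar_comm]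
      exact hu v hv
    · rw [← hn]; exact finrank_oc hnd W

/-- two isometric orthogonal halves of even dimension: plus type -/
lemma plus_of_swap [Finite F] (hnd : ND Q) {W : Submodule F (ι → F)} (hW : NDS Q W) (hev : Even (Module.finrank F W))
    (hdim : 2 * Module.finrank F W = Module.finrank F (ι → F)) {g : OG Q} (hg : ∀ u ∈ W, g u ∈ oc Q W) :
    Geo.IsPlusTypeOn (⇑Q) ⊤ := by
  obtain ⟨k, hk⟩ := hev
  obtain ⟨φ, hφ⟩ := H17.class_even k hW.nd hW.nd (by omega) (by omega) rfl (c := (-1 : F)) (neg_ne_zero.2 one_ne_zero)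
  let ψ : W →ₗ[F] (ι → F) := W.subtype + (g.1 : (ι → F) →ₗ[F] (ι → F)) ∘ₗ W.subtype ∘ₗ φ
  have hψ : ∀ x : W, ψ x = (x : ι → F) + g (φ x : ι → F) := fun x => rfl
  have hinj : Function.Injective ψ := by
    rw [injective_iff_map_eq_zero]
    intro x hx
    rw [hψ] at hx
    have h1 : (x : ι → F) ∈ oc Q W := by
      rw [eq_neg_of_add_eq_zero_left hx]
      exact Submodule.neg_mem _ (hg _ (φ x).2)
    apply Subtype.ext
    apply hW x x.2
    intro y hy
    rw [mem_oc] at h1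
    rw [pB_symm]; exact h1 y hy
  refine ⟨LinearMap.range ψ, le_top, ?_, ?_⟩
  · rintro _ ⟨x, rfl⟩
    have h1 := hg _ (φ x).2
    rw [mem_oc] at h1
    have h2 := hφ x
    rw [hψ, q_add, og_q, h1 x x.2]
    rw [resQ_apply, resQ_apply] at h2
    rw [h2]; ring
  · rw [LinearMap.finrank_range_of_inj hinj, finrank_top, hdim]

end mat

end Cfsg.Agent.H12
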