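import Mathlib
import Cfsg.Prelude.Def_GeometricClasses
import Cfsg.Agent.H12.OmND2
import Cfsg.Agent.H5.OrthIndex2

/-!
Families of maximal totally singular subspaces; plus-type planes over small fields.
-/

set_option autoImplicit false
set_option linter.unusedSectionVars false

namespace Cfsg.Agent.H12

open Matrix Cfsg Cfsg.Agent.H5

variable {F V : Type*} [Field F] [AddCommGroup V] [Module F V] {Q : QuadraticForm F V}

/-- maximal totally singular subspaces of a space of plus type -/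
def IsMTS (Q : QuadraticForm F V) (Y : Submodule F V) : Prop :=
  (∀ x ∈ Y, Q x = 0) ∧ 2 * Module.finrank F Y = Module.finrank F V

/-- image of a subspace -/
def im (g : OG Q) (Y : Submodule F V) : Submodule F V := Y.map (g.1 : V →ₗ[F] V)

lemma mem_im {g : OG Q} {Y : Submodule F V} {x : V} : x ∈ im g Y ↔ (g⁻¹ : OG Q) x ∈ Y := by
  constructor
  · rintro ⟨y, hy, rfl⟩
    have : (g⁻¹ : OG Q) ((g.1 : V →ₗ[F] V) y) = y := og_inv g y
    rw [this]; exact hy
  · intro h
    exact ⟨_, h, og_inv' g x⟩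

lemma im_mul (g h : OG Q) (Y : Submodule F V) : im (g * h) Y = im g (im h Y) := by
  ext x
  rw [mem_im, mem_im, mem_im, _root_.mul_inv_rev, og_mul]

lemma im_one (Y : Submodule F V) : im (1 : OG Q) Y = Y := by
  ext x
  rw [mem_im, inv_one, og_one]

lemma im_mono {g : OG Q} {Y Z : Submodule F V} (h : Y ≤ Z) : im g Y ≤ im g Z := Submodule.map_mono h

lemma finrank_im (g : OG Q) (Y : Submodule F V) : Module.finrank F (im g Y) = Module.finrank F Y :=
  LinearEquiv.finrank_map_eq g.1 Y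

lemma IsMTS.im {Y : Submodule F V} (h : IsMTS Q Y) (g : OG Q) : IsMTS Q (im g Y) := by
  refine ⟨?_, by rw [finrank_im]; exact h.2⟩
  intro x hx
  rw [mem_im] at hx
  rw [← og_q (g⁻¹ : OG Q) x]
  exact h.1 _ hx

lemma ts_B {Y : Submodule F V} (h : ∀ x ∈ Y, Q x = 0) {x y : V} (hx : x ∈ Y) (hy : y ∈ Y) : pB Q x y = 0 := by
  have h2 := h _ (Y.add_mem hx hy)
  rw [q_add, h x hx, h y hy] at h2
  linear_combination h2

variable [FiniteDimensional F V]

lemma finrank_inf_ker (X : Submodule F V) (v : V) : (X ≤ LinearMap.ker (pB Q v) →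
    Module.finrank F (X ⊓ LinearMap.ker (pB Q v) : Submodule F V) = Module.finrank F X) ∧
    (¬ X ≤ LinearMap.ker (pB Q v) →
      Module.finrank F (X ⊓ LinearMap.ker (pB Q v) : Submodule F V) + 1 = Module.finrank F X) := by
  constructor
  · intro h
    rw [inf_eq_left.2 h]
  · intro h
    let L : X →ₗ[F] F := (pB Q v) ∘ₗ X.subtype
    have h1 := LinearMap.finrank_range_add_finrank_ker L
    have h2 : LinearMap.range L = ⊤ := by
      rw [LinearMap.range_eq_top]
      obtain ⟨x, hx, hx'⟩ := SetLike.not_le_iff_exists.1 h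
      have hne : pB Q v x ≠ 0 := hx'
      intro c
      refine ⟨(c / pB Q v x) • ⟨x, hx⟩, ?_⟩
      show pB Q v ((c / pB Q v x) • x) = c
      rw [pr_smul, div_mul_cancel₀ _ hne]
    rw [h2, finrank_top, Module.finrank_self] at h1
    have h3 : Module.finrank F (LinearMap.ker L) = Module.finrank F (X ⊓ LinearMap.ker (pB Q v) : Submodule F V) := by
      have : (LinearMap.ker L).map X.subtype = X ⊓ LinearMap.ker (pB Q v) := by
        ext y
        constructor
        · rintro ⟨z, hz, rfl⟩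
          exact ⟨z.2, hz⟩
        · rintro ⟨h4, h5⟩
          exact ⟨⟨y, h4⟩, h5, rfl⟩
      rw [← Submodule.finrank_map_subtype_eq X (LinearMap.ker L), this]
    omega

/-- a reflection changes the parity of the intersection dimension -/
theorem refl_parity (hnd : ND Q) {Y1 Y2 : Submodule F V} (h1 : IsMTS Q Y1) (h2 : IsMTS Q Y2) {v : V} (hv : Q v ≠ 0) :
    (Module.finrank F (Y1 ⊓ im (refl hv) Y2 : Submodule F V) + Module.finrank F (Y1 ⊓ Y2 : Submodule F V)) % 2 = 1 := by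
  set H := LinearMap.ker (pB Q v) with hH
  have hmemH : ∀ x, x ∈ H ↔ pB Q v x = 0 := fun x => Iff.rfl
  set r := refl hv with hr
  have hrr : (r⁻¹ : OG Q) = r := refl_inv hv
  have hint : (Y1 ⊓ Y2 : Submodule F V) ⊓ H = (Y1 ⊓ im r Y2) ⊓ H := by
    ext x
    simp only [Submodule.mem_inf, mem_im, hrr, hmemH]
    constructor
    · rintro ⟨⟨h3, h4⟩, h5⟩
      exact ⟨⟨h3, by rw [refl_fix hv h5]; exact h4⟩, h5⟩
    · rintro ⟨⟨h3, h4⟩, h5⟩
      exact ⟨⟨h3, by rw [refl_fix hv h5] at h4; exact h4⟩, h5⟩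
  have hX := finrank_inf_ker (Q := Q) (Y1 ⊓ Y2) v
  have hX' := finrank_inf_ker (Q := Q) (Y1 ⊓ im r Y2) v
  -- not both outside
  have hno : ¬ (¬ (Y1 ⊓ Y2 ≤ H) ∧ ¬ (Y1 ⊓ im r Y2 ≤ H)) := by
    rintro ⟨h3, h4⟩
    obtain ⟨x, ⟨hx1, hx2⟩, hxv⟩ := SetLike.not_le_iff_exists.1 h3
    obtain ⟨x', ⟨hx1', hx2'⟩, hxv'⟩ := SetLike.not_le_iff_exists.1 h4
    rw [hmemH] at hxv hxv'
    rw [SetLike.mem_coe, mem_im, hrr] at hx2'
    have h5 := ts_B h2.1 hx2' hx2
    rw [refl_apply, pl_sub, pl_smul, ts_B h1.1 hx1' hx1, zero_sub, neg_eq_zero] at h5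
    rcases mul_eq_zero.mp h5 with h6 | h6
    · exact mul_ne_zero (inv_ne_zero hv) hxv' h6
    · exact hxv h6
  -- not both inside
  have hyes : ∀ Y2 : Submodule F V, IsMTS Q Y2 → Y1 ⊓ Y2 ≤ H → ¬ (Y1 ⊓ im r Y2 ≤ H) := by
    intro Y2 h2 h3 h4
    have hv' : v ∈ Y1 ⊔ Y2 := by
      have h5 : Y1 ⊔ Y2 = oc Q (Y1 ⊓ Y2) := by
        apply Submodule.eq_of_le_of_finrank_eq
        · rw [sup_le_iff]
          constructor
          · intro x hx
            rw [mem_oc]
            intro n hn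
            exact ts_B h1.1 hn.1 hx
          · intro x hx
            rw [mem_oc]
            intro n hn
            exact ts_B h2.1 hn.2 hx
        · have h6 := finrank_oc hnd (Y1 ⊓ Y2)
          have h7 := Submodule.finrank_sup_add_finrank_inf_eq Y1 Y2
          have h8 := h1.2
          have h9 := h2.2
          omega
      rw [h5, mem_oc]
      intro n hn
      rw [pB_symm]
      exact h3 hn
    obtain ⟨y1, hy1, y2, hy2, hv12⟩ := Submodule.mem_sup.mp hv'
    have hQv : Q v = pB Q y1 y2 := by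
      rw [← hv12, q_add, h1.1 y1 hy1, h2.1 y2 hy2]; ring
    have hne : pB Q y1 y2 ≠ 0 := by rw [← hQv]; exact hv
    have hBvy2 : pB Q v y2 = pB Q y1 y2 := by
      rw [← hv12, pl_add, ts_B h2.1 hy2 hy2, add_zero]
    have hry2 : r y2 = -y1 := by
      rw [hr, refl_apply, hBvy2, hQv, inv_mul_cancel₀ hne, one_smul, ← hv12]
      abel
    have h5 : y1 ∈ Y1 ⊓ im r Y2 := by
      refine ⟨hy1, ?_⟩
      rw [SetLike.mem_coe, mem_im, hrr]
      have h6 : r (r y2) = y2 := by rw [← og_mul, hr, refl_mul_self, og_one]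
      rw [hry2, og_neg] at h6
      have h7 : r y1 = -y2 := by rw [← h6, neg_neg]
      rw [h7]
      exact Y2.neg_mem hy2
    have h6 := h4 h5
    rw [hmemH, ← hv12, pl_add, ts_B h1.1 hy1 hy1, zero_add, pB_symm] at h6
    exact hne h6
  by_cases hc : Y1 ⊓ Y2 ≤ H
  · have h3 := hyes Y2 h2 hc
    have h4 := hX.1 hc
    have h5 := hX'.2 h3
    rw [← hH] at h4 h5
    rw [hint] at h4
    omega
  · have h3 : Y1 ⊓ im r Y2 ≤ H := by
      by_contra h4
      exact hno ⟨hc, h4⟩
    have h4 := hX.2 hc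
    have h5 := hX'.1 h3
    rw [← hH] at h4 h5
    rw [hint] at h4
    omega

theorem dg_parity_mts (hnd : ND Q) {g : OG Q} (hg : g ∈ DG Q) : ∀ {Y1 Y2 : Submodule F V}, IsMTS Q Y1 → IsMTS Q Y2 →
    Module.finrank F (Y1 ⊓ im g Y2 : Submodule F V) % 2 = Module.finrank F (Y1 ⊓ Y2 : Submodule F V) % 2 := by
  rw [DG] at hg
  induction hg using Subgroup.closure_induction with
  | mem x hx =>
    intro Y1 Y2 h1 h2
    obtain ⟨u, v, hu, hv, rfl⟩ := hx
    rw [im_mul]
    have h3 := refl_parity hnd h1 (h2.im (refl hv)) hu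
    have h4 := refl_parity hnd h1 h2 hv
    omega
  | one =>
    intro Y1 Y2 h1 h2
    rw [im_one]
  | mul a b _ _ ha hb =>
    intro Y1 Y2 h1 h2
    rw [im_mul, ha h1 (h2.im b), hb h1 h2]
  | inv a _ ha =>
    intro Y1 Y2 h1 h2
    have h3 := ha h1 (h2.im a⁻¹)
    rw [← im_mul, mul_inv_cancel, im_one] at h3
    exact h3.symm

theorem eg_le_dg [Finite F] (hnd : ND Q) (hn : 5 ≤ Module.finrank F V) (hrg : RG Q = ⊤) : EG Q ≤ DG Q := by
  obtain ⟨v, hv⟩ := exists_ne_q hnd (by omega)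
  exact (eg_le_comm hnd hn).trans (comm_le_of_index_two (dg_index hnd hrg hv))

end Cfsg.Agent.H12
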