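import Mathlib
import Cfsg.Prelude.Def_GeometricClasses
import Cfsg.Agent.H12.OmPar

/-!
Stabilisers of pairs of complementary maximal totally singular subspaces.
-/

set_option autoImplicit false
set_option linter.unusedSectionVars false

namespace Cfsg.Agent.H12

open Matrix Cfsg Cfsg.Agent.H5

variable {F V : Type*} [Field F] [AddCommGroup V] [Module F V] {Q : QuadraticForm F V}

lemma sub_le_or_le {U X Y : Submodule F V} (h : ∀ u ∈ U, u ∈ X ∨ u ∈ Y) : U ≤ X ∨ U ≤ Y := by
  by_contra hcon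
  push Not at hcon
  obtain ⟨h1, h2⟩ := hcon
  obtain ⟨u, hu, hux⟩ := SetLike.not_le_iff_exists.mp h1
  obtain ⟨v, hv, hvy⟩ := SetLike.not_le_iff_exists.mp h2
  have huy := (h u hu).resolve_left hux
  have hvx := (h v hv).resolve_right hvy
  rcases h (u + v) (U.add_mem hu hv) with h3 | h3
  · apply hux
    have := X.sub_mem h3 hvx
    rwa [add_sub_cancel_right] at this
  · apply hvy
    have := Y.sub_mem h3 huy
    rwa [add_sub_cancel_left] at this

/-- the stabiliser of a pair of subspaces -/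
def stPair (U W : Submodule F V) : Subgroup (OG Q) where
  carrier := {g | (im g U = U ∧ im g W = W) ∨ (im g U = W ∧ im g W = U)}
  mul_mem' := by
    intro a b ha hb
    simp only [Set.mem_ofPred_eq, im_mul] at *
    rcases ha with ⟨h1, h2⟩ | ⟨h1, h2⟩ <;> rcases hb with ⟨h3, h4⟩ | ⟨h3, h4⟩
    · left; rw [h3, h4]; exact ⟨h1, h2⟩
    · right; rw [h3, h4]; exact ⟨h2, h1⟩
    · right; rw [h3, h4]; exact ⟨h1, h2⟩
    · left; rw [h3, h4]; exact ⟨h2, h1⟩
  one_mem' := by left; exact ⟨im_one U, im_one W⟩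
  inv_mem' := by
    intro a ha
    have key : ∀ X Y : Submodule F V, im a X = Y → im a⁻¹ Y = X := by
      intro X Y h
      rw [← h, ← im_mul, inv_mul_cancel, im_one]
    rcases ha with ⟨h1, h2⟩ | ⟨h1, h2⟩
    · left; exact ⟨key _ _ h1, key _ _ h2⟩
    · right; exact ⟨key _ _ h2, key _ _ h1⟩

variable [FiniteDimensional F V]

/-- the set-up -/
structure PairS (U W : Submodule F V) (M : Subgroup (OG Q)) : Prop where
  hnd : ND Q
  hU : IsMTS Q U
  hW : IsMTS Q W
  hUW : U ⊓ W = ⊥
  dim : 5 ≤ Module.finrank F U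
  hM : ∀ (a b : V) (ha : Q a = 0) (hab : pB Q a b = 0), a ∈ U → b ∈ W → eich ha hab ∈ M

namespace PairS

variable {U W : Submodule F V} {M : Subgroup (OG Q)}

lemma dimW (S : PairS U W M) : 5 ≤ Module.finrank F W := by
  have h1 := S.hU.2
  have h2 := S.hW.2
  have h3 := S.dim
  omega

lemma symm (S : PairS U W M) : PairS W U M where
  hnd := S.hnd
  hU := S.hW
  hW := S.hU
  hUW := by rw [inf_comm]; exact S.hUW
  dim := S.dimW
  hM := by
    intro a b ha hab haW hbU
    have hb := S.hU.1 b hbU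
    have h1 : pB Q (-b) a = 0 := by rw [pl_neg, pB_symm, hab, neg_zero]
    have h2 : Q (-b) = 0 := by rw [q_neg, hb]
    rw [eich_swap ha hb hab h1 h2]
    exact S.hM _ _ h2 h1 (U.neg_mem hbU) haW

lemma top (S : PairS U W M) : U ⊔ W = ⊤ := by
  apply Submodule.eq_top_of_finrank_eq
  have h1 := Submodule.finrank_sup_add_finrank_inf_eq U W
  have h2 := S.hU.2
  have h3 := S.hW.2
  rw [S.hUW, finrank_bot] at h1
  omega

lemma dec (S : PairS U W M) (x : V) : ∃ a ∈ U, ∃ b ∈ W, a + b = x := by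
  have : x ∈ U ⊔ W := by rw [S.top]; trivial
  exact Submodule.mem_sup.mp this

lemma BU (S : PairS U W M) {x y : V} (hx : x ∈ U) (hy : y ∈ U) : pB Q x y = 0 := ts_B S.hU.1 hx hy

lemma BW (S : PairS U W M) {x y : V} (hx : x ∈ W) (hy : y ∈ W) : pB Q x y = 0 := ts_B S.hW.1 hx hy

/-- a vector of `U` orthogonal to one vector of `W`, not to another -/
lemma exU (S : PairS U W M) {b b' : V} (hb : b ∈ W) (hb' : b' ∈ W) (h : b' ∉ Submodule.span F {b}) :
    ∃ a ∈ U, pB Q a b = 0 ∧ pB Q a b' = 1 := by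
  have h1 : ∃ x, pB Q b x = 0 ∧ pB Q b' x ≠ 0 := by
    by_contra hcon
    push Not at hcon
    apply h
    rw [← oc_oc S.hnd (Submodule.span F {b}), mem_oc]
    intro n hn
    rw [mem_oc] at hn
    rw [pB_symm]
    exact hcon n (hn b (Submodule.mem_span_singleton_self b))
  obtain ⟨x, hx1, hx2⟩ := h1
  obtain ⟨a, ha, c, hc, rfl⟩ := S.dec x
  rw [pr_add, S.BW hb hc, add_zero, pB_symm] at hx1
  rw [pr_add, S.BW hb' hc, add_zero, pB_symm] at hx2
  exact ⟨(pB Q a b')⁻¹ • a, U.smul_mem _ ha, by rw [pl_smul, hx1, mul_zero], by rw [pl_smul, inv_mul_cancel₀ hx2]⟩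

/-- a vector of `W` orthogonal to three vectors and outside a line -/
lemma exW3 (S : PairS U W M) (x y z : V) (c : V) :
    ∃ b ∈ W, pB Q x b = 0 ∧ pB Q y b = 0 ∧ pB Q z b = 0 ∧ b ∉ Submodule.span F {c} := by
  by_contra hcon
  push Not at hcon
  have h1 := finrank_inf_ker (Q := Q) W x
  have h2 := finrank_inf_ker (Q := Q) (W ⊓ LinearMap.ker (pB Q x)) y
  have h3 := finrank_inf_ker (Q := Q) (W ⊓ LinearMap.ker (pB Q x) ⊓ LinearMap.ker (pB Q y)) z
  have h4 : W ⊓ LinearMap.ker (pB Q x) ⊓ LinearMap.ker (pB Q y) ⊓ LinearMap.ker (pB Q z) ≤ Submodule.span F {c} := by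
    intro b hb
    exact hcon b hb.1.1.1 hb.1.1.2 hb.1.2 hb.2
  have h5 := Submodule.finrank_mono h4
  have h6 := finrank_span_one_le (F := F) c
  have h7 := S.dimW
  by_cases c1 : W ≤ LinearMap.ker (pB Q x)
  · have e1 := h1.1 c1
    by_cases c2 : W ⊓ LinearMap.ker (pB Q x) ≤ LinearMap.ker (pB Q y)
    · have e2 := h2.1 c2
      by_cases c3 : W ⊓ LinearMap.ker (pB Q x) ⊓ LinearMap.ker (pB Q y) ≤ LinearMap.ker (pB Q z)
      · have e3 := h3.1 c3
        omega
      · have e3 := h3.2 c3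
        omega
    · have e2 := h2.2 c2
      by_cases c3 : W ⊓ LinearMap.ker (pB Q x) ⊓ LinearMap.ker (pB Q y) ≤ LinearMap.ker (pB Q z)
      · have e3 := h3.1 c3
        omega
      · have e3 := h3.2 c3
        omega
  · have e1 := h1.2 c1
    by_cases c2 : W ⊓ LinearMap.ker (pB Q x) ≤ LinearMap.ker (pB Q y)
    · have e2 := h2.1 c2
      by_cases c3 : W ⊓ LinearMap.ker (pB Q x) ⊓ LinearMap.ker (pB Q y) ≤ LinearMap.ker (pB Q z)
      · have e3 := h3.1 c3
        omega
      · have e3 := h3.2 c3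
        omega
    · have e2 := h2.2 c2
      by_cases c3 : W ⊓ LinearMap.ker (pB Q x) ⊓ LinearMap.ker (pB Q y) ≤ LinearMap.ker (pB Q z)
      · have e3 := h3.1 c3
        omega
      · have e3 := h3.2 c3
        omega

/-- a Siegel element inside `U` gives a full vector -/
theorem full_of (S : PairS U W M) {a a' : V} (ha : a ∈ U) (ha' : a' ∈ U) (hne : a' ∉ Submodule.span F {a})
    (hQ : Q a = 0) (haa : pB Q a a' = 0) (h : eich hQ haa ∈ M) : Full M a := by
  -- first: all `c ∈ U` with `a' ∉ ⟨a, c⟩`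
  have h1 : ∀ c ∈ U, a' ∉ Submodule.span F ({a, c} : Set V) → ∀ hac : pB Q a c = 0, eich hQ hac ∈ M := by
    intro c hc hns hac
    -- `b ∈ W` with `b ⟂ a, c` and `B(b, a') = -1`
    obtain ⟨b, hb, hab, hcb, ha'b⟩ : ∃ b ∈ W, pB Q a b = 0 ∧ pB Q c b = 0 ∧ pB Q a' b ≠ 0 := by
      by_contra hcon
      push Not at hcon
      apply hns
      rw [← oc_oc S.hnd (Submodule.span F ({a, c} : Set V)), mem_oc]
      intro n hn
      rw [mem_oc_pair] at hn
      obtain ⟨x, hx, y, hy, rfl⟩ := S.dec n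
      rw [pr_add, pr_add, S.BU ha hx, S.BU hc hx, zero_add, zero_add] at hn
      rw [pl_add, S.BU hx ha', zero_add, pB_symm]
      exact hcon y hy hn.1 hn.2
    set b' := (-(pB Q a' b)⁻¹) • b with hb'
    have hb'W : b' ∈ W := W.smul_mem _ hb
    have hcb' : pB Q c b' = 0 := by rw [hb', pr_smul, hcb, mul_zero]
    have hb'a : pB Q b' a = 0 := by rw [hb', pl_smul, pB_symm Q b a, hab, mul_zero]
    have hb'a' : pB Q b' a' = -1 := by
      rw [hb', pl_smul, pB_symm Q b a', neg_mul, inv_mul_cancel₀ ha'b]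
    exact eich_comm_mem (S.hU.1 c hc) hcb' hQ haa (S.BU hc ha) hb'a (S.hM _ _ _ _ hc hb'W) h (c := c) (by
      rw [S.BU hc ha', hb'a']; simp) hac
  -- then all `c ∈ U`
  have h2 : ∀ c ∈ U, ∀ hac : pB Q a c = 0, eich hQ hac ∈ M := by
    intro c hc hac
    obtain ⟨c1, hc1, hc1s⟩ : ∃ c1 ∈ U, c1 ∉ Submodule.span F ({a, c} : Set V) ⊔ Submodule.span F {a'} := by
      by_contra hcon
      push Not at hcon
      have h3 := Submodule.finrank_mono (show U ≤ _ from hcon)
      have h4 := finrank_span_pair_le (F := F) a c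
      have h5 := finrank_span_one_le (F := F) a'
      have h6 := Submodule.finrank_add_le_finrank_add_finrank (Submodule.span F ({a, c} : Set V)) (Submodule.span F {a'})
      have h7 := S.dim
      omega
    have hax : ∀ x ∈ U, pB Q a x = 0 := fun x hx => S.BU ha hx
    -- `a' ∉ ⟨a, c1⟩` and `a' ∉ ⟨a, c - c1⟩`
    have key : ∀ x ∈ U, (∃ s : F, s ≠ 0 ∧ ∃ y ∈ Submodule.span F ({a, c} : Set V), x = y + s • c1) →
        a' ∉ Submodule.span F ({a, x} : Set V) := by
      rintro x hx ⟨s, hs, y, hy, rfl⟩ hmem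
      obtain ⟨p, q, hpq⟩ := Submodule.mem_span_pair.mp hmem
      have haS : a ∈ Submodule.span F ({a, c} : Set V) := Submodule.subset_span (by simp)
      by_cases hq : q = 0
      · rw [hq, zero_smul, add_zero] at hpq
        apply hne
        rw [← hpq]
        exact Submodule.smul_mem _ _ (Submodule.mem_span_singleton_self a)
      · apply hc1s
        have h8 : c1 = (q * s)⁻¹ • (-(p • a) - q • y) + (q * s)⁻¹ • a' := by
          rw [← hpq, ← smul_add]
          have : -(p • a) - q • y + (p • a + q • (y + s • c1)) = (q * s) • c1 := by module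
          rw [this, smul_smul, inv_mul_cancel₀ (mul_ne_zero hq hs), one_smul]
        rw [h8]
        apply Submodule.add_mem_sup
        · exact Submodule.smul_mem _ _ (Submodule.sub_mem _ (Submodule.neg_mem _ (Submodule.smul_mem _ _ haS))
            (Submodule.smul_mem _ _ hy))
        · exact Submodule.smul_mem _ _ (Submodule.mem_span_singleton_self a')
    have m1 := h1 c1 hc1 (key c1 hc1 ⟨1, one_ne_zero, 0, Submodule.zero_mem _, by module⟩) (hax c1 hc1)
    have m2 := h1 (c - c1) (U.sub_mem hc hc1) (key (c - c1) (U.sub_mem hc hc1)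
      ⟨-1, neg_ne_zero.2 one_ne_zero, c, Submodule.subset_span (by simp), by module⟩) (hax _ (U.sub_mem hc hc1))
    exact eich_congr hQ _ hac (by abel) (eich_add_mem hQ (hax c1 hc1) (hax _ (U.sub_mem hc hc1))
      (hax _ (U.add_mem hc1 (U.sub_mem hc hc1))) m1 m2)
  refine ⟨hQ, fun w hQ' hw => ?_⟩
  obtain ⟨x, hx, y, hy, rfl⟩ := S.dec w
  have hax := S.BU ha hx
  have hay : pB Q a y = 0 := by rw [pr_add, hax, zero_add] at hw; exact hw
  exact eich_add_mem hQ hax hay hw (h2 x hx hax) (S.hM _ _ _ _ ha hy)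

/-- with an element of `M` moving `U` to `W`, everything -/
theorem eg_le_of (S : PairS U W M) {a a' : V} (ha : a ∈ U) (ha0 : a ≠ 0) (ha' : a' ∈ U) (hne : a' ∉ Submodule.span F {a})
    (hQ : Q a = 0) (haa : pB Q a a' = 0) (h : eich hQ haa ∈ M) {s : OG Q} (hs : s ∈ M) (hsU : ∀ x ∈ U, s x ∈ W) :
    EG Q ≤ M := by
  have hf := S.full_of ha ha' hne hQ haa h
  have hfs := hf.conj hs
  have hsa := hsU a ha
  have hsa0 : s a ≠ 0 := by
    intro h0
    apply ha0
    have : s a = s 0 := by rw [h0, og_zero]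
    exact og_inj s this
  by_cases hB : pB Q a (s a) = 0
  swap
  · exact eg_le_of_full S.hnd hf hfs hB
  -- `c ∈ U` with `B(c, s a) ≠ 0`
  obtain ⟨c, hc, -, hcs⟩ := S.exU (b := 0) (b' := s a) (W.zero_mem) hsa (by simpa using hsa0)
  have hac : a ∉ Submodule.span F {c} := by
    intro hm
    obtain ⟨t, ht⟩ := Submodule.mem_span_singleton.mp hm
    have h3 : pB Q (t • c) (s a) = 0 := by rw [ht]; exact hB
    rw [pl_smul, hcs, mul_one] at h3
    apply ha0
    rw [← ht, h3, zero_smul]
  obtain ⟨b, hb, hbc, hba⟩ := S.symm.exU hc ha hac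
  have hQc := S.hU.1 c hc
  have hcb : pB Q c (-b) = 0 := by rw [pr_neg, pB_symm, hbc, neg_zero]
  have h1 := hf.conj (S.hM c (-b) hQc hcb hc (W.neg_mem hb))
  have h2 : (eich hQc hcb) a = a + c := by
    rw [eich_apply, S.BU hc ha, pl_neg, hba]
    module
  rw [h2] at h1
  exact eg_le_of_full S.hnd h1 hfs (by rw [pl_add, hB, zero_add, hcs]; exact one_ne_zero)

/-- no Siegel elements inside `U` or `W` -/
def No (U : Submodule F V) (M : Subgroup (OG Q)) : Prop :=
  ∀ (a a' : V) (hQ : Q a = 0) (haa : pB Q a a' = 0), a ∈ U → a' ∈ U → a ≠ 0 → a' ∉ Submodule.span F {a} → eich hQ haa ∉ M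

lemma L1 (S : PairS U W M) (hno : No (Q := Q) U M) {a y : V} (ha : a ∈ U) (ha0 : a ≠ 0) (hQ : Q a = 0) (hay : pB Q a y = 0)
    (hM : eich hQ hay ∈ M) : y ∈ W ⊔ Submodule.span F {a} := by
  obtain ⟨y0, hy0, y1, hy1, rfl⟩ := S.dec y
  have h0 := S.BU ha hy0
  have h1 : pB Q a y1 = 0 := by rw [pr_add, h0, zero_add] at hay; exact hay
  have h1' : pB Q a (-y1) = 0 := by rw [pr_neg, h1, neg_zero]
  have h2 : eich hQ h0 ∈ M := eich_congr hQ _ h0 (by abel) (eich_add_mem hQ hay h1' (by rw [pr_add, hay, h1', add_zero]) hM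
    (S.hM _ _ _ _ ha (W.neg_mem hy1)))
  have h3 : y0 ∈ Submodule.span F {a} := by
    by_contra h
    exact hno a y0 hQ h0 ha hy0 ha0 h h2
  rw [add_comm]
  exact Submodule.add_mem_sup hy1 h3

lemma L2 (S : PairS U W M) (hnoW : No (Q := Q) W M) {w0 w1 u0 u1 : V} (hw0 : w0 ∈ U) (hw1 : w1 ∈ W) (hu0 : u0 ∈ U)
    (hu1 : u1 ∈ W) (hQw : Q (w0 + w1) = 0) (hwu : pB Q (w0 + w1) (u0 + u1) = 0) (hM : eich hQw hwu ∈ M)
    (hne : u1 ∉ Submodule.span F {w1}) : w1 = 0 := by
  obtain ⟨a, ha, haw, hau⟩ := S.exU hw1 hu1 hne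
  have key : ∀ b ∈ W, b ≠ 0 → pB Q w0 b = 0 → pB Q a b = 0 → pB Q u0 b = 0 → w1 ∈ Submodule.span F {b} := by
    intro b hb hb0 hwb hab hub
    have haw' : pB Q a (w0 + w1) = 0 := by rw [pr_add, S.BU ha hw0, haw, add_zero]
    have hbw' : pB Q b (w0 + w1) = 0 := by rw [pr_add, S.BW hb hw1, add_zero, pB_symm, hwb]
    have hwb' : pB Q (w0 + w1) b = 0 := by rw [pB_symm]; exact hbw'
    have hau' : pB Q a (u0 + u1) = 1 := by rw [pr_add, S.BU ha hu0, hau, zero_add]
    have hbu' : pB Q b (u0 + u1) = 0 := by rw [pr_add, S.BW hb hu1, add_zero, pB_symm, hub]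
    have h1 := eich_comm_mem (S.hU.1 a ha) hab hQw hwu haw' hbw' (S.hM _ _ _ _ ha hb) hM (c := b) (by
      rw [hau', hbu', S.hW.1 b hb]; simp) hwb'
    -- `eich (w) b ∈ M`
    have hb' : Q (-b) = 0 := by rw [q_neg, S.hW.1 b hb]
    have hbw'' : pB Q (-b) (w0 + w1) = 0 := by rw [pl_neg, hbw', neg_zero]
    rw [eich_swap hQw (S.hW.1 b hb) hwb' hbw'' hb'] at h1
    have h2 := S.symm.L1 hnoW (W.neg_mem hb) (neg_ne_zero.2 hb0) hb' hbw'' h1
    obtain ⟨p, hp, q, hq, hpq⟩ := Submodule.mem_sup.mp h2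
    obtain ⟨t, ht⟩ := Submodule.mem_span_singleton.mp hq
    have hqW : q ∈ W := by rw [← ht]; exact W.smul_mem _ (W.neg_mem hb)
    have h3 : w1 - q ∈ U ⊓ W := by
      refine ⟨?_, W.sub_mem hw1 hqW⟩
      have h4 : w1 - q = p - w0 := by
        rw [sub_eq_sub_iff_add_eq_add, add_comm, ← hpq]
      rw [h4]
      exact U.sub_mem hp hw0
    rw [S.hUW, Submodule.mem_bot, sub_eq_zero] at h3
    rw [h3, ← ht]
    exact Submodule.smul_mem _ _ (Submodule.neg_mem _ (Submodule.mem_span_singleton_self b))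
  obtain ⟨b, hb, h1, h2, h3, hbs⟩ := S.exW3 w0 a u0 0
  have hb0 : b ≠ 0 := fun h => hbs (by rw [h]; exact Submodule.zero_mem _)
  obtain ⟨b', hb', h1', h2', h3', hbs'⟩ := S.exW3 w0 a u0 b
  have hb'0 : b' ≠ 0 := fun h => hbs' (by rw [h]; exact Submodule.zero_mem _)
  obtain ⟨s, hs⟩ := Submodule.mem_span_singleton.mp (key b hb hb0 h1 h2 h3)
  obtain ⟨t, ht⟩ := Submodule.mem_span_singleton.mp (key b' hb' hb'0 h1' h2' h3')
  by_cases ht0 : t = 0
  · rw [← ht, ht0, zero_smul]
  · exfalso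
    apply hbs'
    rw [Submodule.mem_span_singleton]
    exact ⟨t⁻¹ * s, by rw [mul_smul, hs, ← ht, smul_smul, inv_mul_cancel₀ ht0, one_smul]⟩

/-- the `W`-components of a root element are dependent -/
lemma L3 (S : PairS U W M) (hnoW : No (Q := Q) W M) {w0 w1 u0 u1 : V} (hw0 : w0 ∈ U) (hw1 : w1 ∈ W) (hu0 : u0 ∈ U)
    (hu1 : u1 ∈ W) (hQw : Q (w0 + w1) = 0) (hQu : Q (u0 + u1) = 0) (hwu : pB Q (w0 + w1) (u0 + u1) = 0)
    (hM : eich hQw hwu ∈ M) (hw10 : w1 ≠ 0) : u1 ∈ Submodule.span F {w1} := by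
  by_contra hne
  exact hw10 (S.L2 hnoW hw0 hw1 hu0 hu1 hQw hwu hM hne)

/-- vectors of `U` go to `U` or `W` -/
theorem L4 (S : PairS U W M) (hnoU : No (Q := Q) U M) (hnoW : No (Q := Q) W M) {g : OG Q} (hg : g ∈ M) {a : V}
    (ha : a ∈ U) : g a ∈ U ∨ g a ∈ W := by
  by_contra hcon
  push Not at hcon
  obtain ⟨hc1, hc2⟩ := hcon
  have ha0 : a ≠ 0 := by
    rintro rfl
    rw [og_zero] at hc1
    exact hc1 U.zero_mem
  obtain ⟨p, hp, q, hq, hpq⟩ := S.dec (g a)
  have hp0 : p ≠ 0 := by
    rintro rfl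
    apply hc2
    rw [← hpq, zero_add]; exact hq
  have hq0 : q ≠ 0 := by
    rintro rfl
    apply hc1
    rw [← hpq, add_zero]; exact hp
  -- all images of `b ∈ W ∩ a^⊥` lie in `⟨p, q⟩`
  have key : ∀ b ∈ W, pB Q a b = 0 → g b ∈ Submodule.span F ({p, q} : Set V) := by
    intro b hb hab
    obtain ⟨r, hr, s, hs, hrs⟩ := S.dec (g b)
    have hQa := S.hU.1 a ha
    have hQb := S.hW.1 b hb
    have hQga : Q (p + q) = 0 := by rw [hpq, og_q, hQa]
    have hQgb : Q (r + s) = 0 := by rw [hrs, og_q, hQb]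
    have hgg : pB Q (p + q) (r + s) = 0 := by rw [hpq, hrs, og_p, hab]
    have hM : eich hQga hgg ∈ M := by
      have h1 : ∀ (x y : V) (hx : Q x = 0) (hxy : pB Q x y = 0), x = g a → y = g b → eich hx hxy ∈ M := by
        rintro x y hx hxy rfl rfl
        rw [← eich_conj g hQa hab hx hxy]
        exact mul_mem (mul_mem hg (S.hM _ _ _ _ ha hb)) (inv_mem hg)
      exact h1 _ _ _ _ hpq hrs
    have h1 := S.L3 hnoW hp hq hr hs hQga hQgb hgg hM hq0
    have h2 : r ∈ Submodule.span F {p} := by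
      have hQga' : Q (q + p) = 0 := by rw [add_comm]; exact hQga
      have hQgb' : Q (s + r) = 0 := by rw [add_comm]; exact hQgb
      have hgg' : pB Q (q + p) (s + r) = 0 := by rw [add_comm q, add_comm s]; exact hgg
      have hM' : eich hQga' hgg' ∈ M := by
        have h3 : ∀ (x y : V) (hx : Q x = 0) (hxy : pB Q x y = 0), x = p + q → y = r + s → eich hx hxy ∈ M := by
          rintro x y hx hxy rfl rfl
          exact hM
        exact h3 _ _ _ _ (add_comm _ _) (add_comm _ _)
      exact S.symm.L3 hnoU hq hp hs hr hQga' hQgb' hgg' hM' hp0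
    rw [← hrs]
    apply Submodule.add_mem
    · exact Submodule.span_mono (by simp) h2
    · exact Submodule.span_mono (by simp) h1
  have h1 : (W ⊓ LinearMap.ker (pB Q a)).map (g.1 : V →ₗ[F] V) ≤ Submodule.span F ({p, q} : Set V) := by
    rintro _ ⟨b, hb, rfl⟩
    exact key b hb.1 hb.2
  have h2 := Submodule.finrank_mono h1
  have h3 : Module.finrank F ((W ⊓ LinearMap.ker (pB Q a)).map (g.1 : V →ₗ[F] V)) =
      Module.finrank F (W ⊓ LinearMap.ker (pB Q a) : Submodule F V) := LinearEquiv.finrank_map_eq g.1 _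
  have h4 := finrank_span_pair_le (F := F) p q
  have h5 := S.dimW
  have h6 := finrank_inf_ker (Q := Q) W a
  by_cases c : W ≤ LinearMap.ker (pB Q a)
  · have := h6.1 c
    omega
  · have := h6.2 c
    omega

theorem mem_stPair (S : PairS U W M) (hnoU : No (Q := Q) U M) (hnoW : No (Q := Q) W M) {g : OG Q} (hg : g ∈ M) :
    g ∈ stPair (Q := Q) U W := by
  have hk : Module.finrank F U = Module.finrank F W := by
    have h1 := S.hU.2
    have h2 := S.hW.2
    omega
  have hU5 := S.dim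
  have h1 : im g U = U ∨ im g U = W := by
    rcases sub_le_or_le (U := im g U) (X := U) (Y := W) (by
      rintro _ ⟨x, hx, rfl⟩
      exact S.L4 hnoU hnoW hg hx) with h | h
    · left; exact Submodule.eq_of_le_of_finrank_eq h (finrank_im g U)
    · right; exact Submodule.eq_of_le_of_finrank_eq h (by rw [finrank_im, hk])
  have h2 : im g W = U ∨ im g W = W := by
    rcases sub_le_or_le (U := im g W) (X := U) (Y := W) (by
      rintro _ ⟨x, hx, rfl⟩
      rcases S.symm.L4 hnoW hnoU hg hx with h | h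
      · exact Or.inr h
      · exact Or.inl h) with h | h
    · left; exact Submodule.eq_of_le_of_finrank_eq h (by rw [finrank_im, hk])
    · right; exact Submodule.eq_of_le_of_finrank_eq h (finrank_im g W)
  have hne : im g U ≠ im g W := by
    intro h
    have h3 : U = W := by
      have h4 := congrArg (im g⁻¹) h
      rwa [← im_mul, ← im_mul, inv_mul_cancel, im_one, im_one] at h4
    have h5 := S.hUW
    rw [h3, inf_idem] at h5
    rw [h3, h5, finrank_bot] at hU5
    omega
  rcases h1 with h1 | h1 <;> rcases h2 with h2 | h2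
  · exact absurd (h1.trans h2.symm) hne
  · exact Or.inl ⟨h1, h2⟩
  · exact Or.inr ⟨h1, h2⟩
  · exact absurd (h1.trans h2.symm) hne

end PairS

/-- dual families -/
lemma exists_dual_fam (hnd : ND Q) {U W : Submodule F V} (hU : IsMTS Q U) (hW : IsMTS Q W) (hUW : U ⊓ W = ⊥) :
    ∃ e f : Fin (Module.finrank F U) → V, (∀ i, e i ∈ U) ∧ (∀ i, f i ∈ W) ∧
      (∀ i j, pB Q (e i) (f j) = if i = j then 1 else 0) := by
  classical
  let b := Module.finBasis F U
  -- the map `W → Dual U`
  let L : W →ₗ[F] Module.Dual F U := (LinearMap.compl₁₂ (pB Q) W.subtype U.subtype)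
  have hL : ∀ (w : W) (u : U), L w u = pB Q (w : V) (u : V) := fun w u => rfl
  have htop : U ⊔ W = ⊤ := by
    apply Submodule.eq_top_of_finrank_eq
    have h1 := Submodule.finrank_sup_add_finrank_inf_eq U W
    have h2 := hU.2
    have h3 := hW.2
    rw [hUW, finrank_bot] at h1
    omega
  have hinj : Function.Injective L := by
    rw [injective_iff_map_eq_zero]
    intro w hw
    apply Subtype.ext
    apply hnd
    intro y
    have hy : y ∈ U ⊔ W := by rw [htop]; trivial
    obtain ⟨u, hu, w', hw', rfl⟩ := Submodule.mem_sup.mp hy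
    have h1 := hL w ⟨u, hu⟩
    rw [hw] at h1
    rw [pr_add, ts_B hW.1 w.2 hw', add_zero]
    exact h1.symm
  have hsur : Function.Surjective L := by
    rw [← LinearMap.injective_iff_surjective_of_finrank_eq_finrank]
    · exact hinj
    · rw [Subspace.dual_finrank_eq]
      have h2 := hU.2
      have h3 := hW.2
      omega
  choose f hf using fun j => hsur (b.coord j)
  refine ⟨fun i => b i, fun j => f j, fun i => (b i).2, fun j => (f j).2, ?_⟩
  intro i j
  have h1 := hL (f j) (b i)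
  rw [hf, Module.Basis.coord_apply, Module.Basis.repr_self, Finsupp.single_apply] at h1
  rw [pB_symm]
  exact h1.symm

/-- an isometry interchanging two complementary maximal totally singular subspaces -/
lemma exists_swap_mts (hnd : ND Q) {U W : Submodule F V} (hU : IsMTS Q U) (hW : IsMTS Q W) (hUW : U ⊓ W = ⊥) :
    ∃ g : OG Q, im g U = W ∧ im g W = U := by
  classical
  obtain ⟨e, f, he, hf, hef⟩ := exists_dual_fam hnd hU hW hUW
  have hfe : ∀ i j, pB Q (f i) (e j) = if i = j then 1 else 0 := by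
    intro i j
    rw [pB_symm, hef]
    simp only [eq_comm]
  have hee : ∀ i j, pB Q (e i) (e j) = 0 := fun i j => ts_B hU.1 (he i) (he j)
  have hff : ∀ i j, pB Q (f i) (f j) = 0 := fun i j => ts_B hW.1 (hf i) (hf j)
  have hind : ∀ e f : Fin (Module.finrank F U) → V, (∀ i j, pB Q (e i) (f j) = if i = j then 1 else 0) →
      (∀ i j, pB Q (f i) (e j) = if i = j then 1 else 0) → (∀ i j, pB Q (e i) (e j) = 0) →
      (∀ i j, pB Q (f i) (f j) = 0) → LinearIndependent F (Sum.elim e f) := by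
    intro e f hef hfe hee hff
    rw [Fintype.linearIndependent_iff]
    intro c hc i
    rcases i with i | i
    · have h1 := congrArg (fun x => pB Q x (f i)) hc
      simp only [Fintype.sum_sum_type, Sum.elim_inl, Sum.elim_inr] at h1
      rw [map_add, map_sum, map_sum, LinearMap.add_apply, LinearMap.sum_apply, LinearMap.sum_apply, map_zero,
        LinearMap.zero_apply] at h1
      simp only [pl_smul, hef, hff, mul_zero, Finset.sum_const_zero, add_zero, mul_ite, mul_one] at h1
      rw [Finset.sum_ite_eq' Finset.univ i] at h1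
      simpa using h1
    · have h1 := congrArg (fun x => pB Q x (e i)) hc
      simp only [Fintype.sum_sum_type, Sum.elim_inl, Sum.elim_inr] at h1
      rw [map_add, map_sum, map_sum, LinearMap.add_apply, LinearMap.sum_apply, LinearMap.sum_apply, map_zero,
        LinearMap.zero_apply] at h1
      simp only [pl_smul, hfe, hee, mul_zero, Finset.sum_const_zero, zero_add, mul_ite, mul_one] at h1
      rw [Finset.sum_ite_eq' Finset.univ i] at h1
      simpa using h1
  obtain ⟨g, hg⟩ := og_witt_family hnd (Sum.elim e f) (Sum.elim f e) (hind e f hef hfe hee hff)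
    (hind f e hfe hef hff hee) (by
      rintro (i | i) (j | j)
      · simp only [Sum.elim_inl]; rw [hff, hee]
      · simp only [Sum.elim_inl, Sum.elim_inr]; rw [hfe, hef]
      · simp only [Sum.elim_inl, Sum.elim_inr]; rw [hef, hfe]
      · simp only [Sum.elim_inr]; rw [hee, hff]) (by
      rintro (i | i)
      · simp only [Sum.elim_inl]; rw [hU.1 _ (he i), hW.1 _ (hf i)]
      · simp only [Sum.elim_inr]; rw [hU.1 _ (he i), hW.1 _ (hf i)])
  have hk : Module.finrank F U = Module.finrank F W := by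
    have h1 := hU.2
    have h2 := hW.2
    omega
  have hle : LinearIndependent F e := (hind e f hef hfe hee hff).comp Sum.inl Sum.inl_injective
  have hlf : LinearIndependent F f := (hind e f hef hfe hee hff).comp Sum.inr Sum.inr_injective
  have hUs : U = Submodule.span F (Set.range e) := by
    symm
    apply Submodule.eq_of_le_of_finrank_eq
    · rw [Submodule.span_le]
      rintro _ ⟨i, rfl⟩
      exact he i
    · rw [finrank_span_eq_card hle, Fintype.card_fin]
  have hWs : W = Submodule.span F (Set.range f) := by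
    symm
    apply Submodule.eq_of_le_of_finrank_eq
    · rw [Submodule.span_le]
      rintro _ ⟨i, rfl⟩
      exact hf i
    · rw [finrank_span_eq_card hlf, Fintype.card_fin, hk]
  refine ⟨g, ?_, ?_⟩
  · apply Submodule.eq_of_le_of_finrank_eq
    · have h1 : U ≤ W.comap (g.1 : V →ₗ[F] V) := by
        conv_lhs => rw [hUs]
        rw [Submodule.span_le]
        rintro _ ⟨i, rfl⟩
        have := hg (Sum.inl i)
        simp only [Sum.elim_inl] at this
        show g (e i) ∈ W
        rw [this]; exact hf i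
      exact Submodule.map_le_iff_le_comap.2 h1
    · rw [finrank_im, hk]
  · apply Submodule.eq_of_le_of_finrank_eq
    · have h1 : W ≤ U.comap (g.1 : V →ₗ[F] V) := by
        conv_lhs => rw [hWs]
        rw [Submodule.span_le]
        rintro _ ⟨i, rfl⟩
        have := hg (Sum.inr i)
        simp only [Sum.elim_inr] at this
        show g (f i) ∈ U
        rw [this]; exact he i
      exact Submodule.map_le_iff_le_comap.2 h1
    · rw [finrank_im, hk]

end Cfsg.Agent.H12
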