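import Mathlib
import Cfsg.Prelude.Def_GeometricClasses
import Cfsg.Agent.H12.OmND
import Cfsg.Agent.H12.OmPair

/-!
Stabilisers of orthogonal decompositions: Siegel elements in an overgroup.
-/

set_option autoImplicit false
set_option linter.unusedSectionVars false

namespace Cfsg.Agent.H12

open Matrix Cfsg Cfsg.Agent.H5

section inm

variable {F V : Type*} [Field F] [AddCommGroup V] [Module F V] {Q : QuadraticForm F V} {M : Subgroup (OG Q)}

/-- the Siegel element with centre `v` and direction `z` is in `M` -/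
def InM (M : Subgroup (OG Q)) (v z : V) : Prop := ∃ (hv : Q v = 0) (hz : pB Q v z = 0), eich hv hz ∈ M

lemma InM.q {v z : V} (h : InM M v z) : Q v = 0 := h.1

lemma InM.p {v z : V} (h : InM M v z) : pB Q v z = 0 := h.2.1

lemma InM.add {v z z' : V} (h : InM M v z) (h' : InM M v z') : InM M v (z + z') := by
  obtain ⟨hv, hz, hm⟩ := h
  obtain ⟨hv', hz', hm'⟩ := h'
  have hp : pB Q v (z + z') = 0 := by rw [pr_add, hz, hz', add_zero]
  refine ⟨hv, hp, ?_⟩
  rw [← eich_mul hv hz hz' hp]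
  exact M.mul_mem hm hm'

lemma InM.neg {v z : V} (h : InM M v z) : InM M v (-z) := by
  obtain ⟨hv, hz, hm⟩ := h
  have hp : pB Q v (-z) = 0 := by rw [pr_neg, hz, neg_zero]
  refine ⟨hv, hp, ?_⟩
  have h1 : eich hv hp = (eich hv hz)⁻¹ := by
    rw [eq_inv_iff_mul_eq_one, eich_mul hv hp hz (by rw [neg_add_cancel, map_zero])]
    apply og_ext
    intro x
    rw [eich_apply, og_one, neg_add_cancel, q_zero, map_zero, LinearMap.zero_apply]
    module
  rw [h1]
  exact M.inv_mem hm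

lemma InM.sub {v z z' : V} (h : InM M v z) (h' : InM M v z') : InM M v (z - z') := by
  rw [sub_eq_add_neg]
  exact h.add h'.neg

lemma InM.conj {v z : V} (h : InM M v z) {m : OG Q} (hm : m ∈ M) : InM M (m v) (m z) := by
  obtain ⟨hv, hz, hmz⟩ := h
  have h1 : Q (m v) = 0 := by rw [og_q, hv]
  have h2 : pB Q (m v) (m z) = 0 := by rw [og_p, hz]
  refine ⟨h1, h2, ?_⟩
  rw [← eich_conj m hv hz h1 h2]
  exact M.mul_mem (M.mul_mem hm hmz) (M.inv_mem hm)

lemma InM.congr {v z z' : V} (h : InM M v z) (hz : z = z') : InM M v z' := hz ▸ h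

lemma InM.to_center {v z : V} {c : F} (hc : c ≠ 0) (h : InM M v (c • z)) : InM M (c • v) z := by
  obtain ⟨hv, hz, hm⟩ := h
  have h1 : Q (c • v) = 0 := by rw [q_smul, hv, mul_zero]
  have h2 : pB Q (c • v) z = 0 := by
    rw [pl_smul]
    rw [pr_smul] at hz
    exact hz
  refine ⟨h1, h2, ?_⟩
  rw [eich_smul c hv ((mul_eq_zero.1 (by rw [pr_smul] at hz; exact hz)).resolve_left hc) h1 h2 hz]
  exact hm

lemma InM.of_center {v z : V} {c : F} (hc : c ≠ 0) (h : InM M (c • v) z) : InM M v (c • z) := by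
  obtain ⟨hv, hz, hm⟩ := h
  have h0 : pB Q v z = 0 := by
    rw [pl_smul] at hz
    exact (mul_eq_zero.1 hz).resolve_left hc
  have h1 : Q v = 0 := by
    rw [q_smul] at hv
    exact (mul_eq_zero.1 hv).resolve_left (mul_ne_zero hc hc)
  have h2 : pB Q v (c • z) = 0 := by rw [pr_smul, h0, mul_zero]
  refine ⟨h1, h2, ?_⟩
  rw [← eich_smul c h1 h0 hv hz h2]
  exact hm

lemma InM.self {v : V} (hv : Q v = 0) (c : F) : InM M v (c • v) := by
  have hp : pB Q v (c • v) = 0 := by rw [pr_smul, pB_self, hv]; ring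
  refine ⟨hv, hp, ?_⟩
  have : eich hv hp = 1 := by
    apply og_ext
    intro x
    rw [eich_apply, og_one, q_smul, hv, pl_smul]
    module
  rw [this]
  exact M.one_mem

/-- interchange of centre and singular direction -/
lemma InM.swap {v z : V} (h : InM M v z) (hz : Q z = 0) : InM M z (-v) := by
  obtain ⟨hv, hp, hm⟩ := h
  have h1 : pB Q (-z) v = 0 := by rw [pl_neg, pB_symm, hp, neg_zero]
  have h2 : Q (-z) = 0 := by rw [q_neg, hz]
  rw [eich_swap hv hz hp h1 h2] at hm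
  have h3 : InM M ((-1 : F) • z) v := by
    rw [neg_smul, one_smul]
    exact ⟨h2, h1, hm⟩
  have h4 := InM.of_center (neg_ne_zero.2 one_ne_zero) h3
  exact h4.congr (by rw [neg_smul, one_smul])

/-- the action of one Siegel element on the direction of another, same centre -/
lemma InM.act {u w x y : V} (hs : InM M u w) (ht : InM M x y) (hxu : pB Q u x = 0) (hwx : pB Q w x = 0) :
    InM M x (pB Q u y • w - pB Q w y • u - (Q w * pB Q u y) • u) := by
  obtain ⟨hu, huw, hm⟩ := hs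
  have h1 := ht.conj hm
  have h2 : eich hu huw x = x := by
    rw [eich_apply, hxu, hwx]; module
  rw [h2] at h1
  refine (h1.sub ht).congr ?_
  rw [eich_apply]
  abel

end inm

section facts

variable {F V : Type*} [Field F] [AddCommGroup V] [Module F V] {Q : QuadraticForm F V} [Finite F] [FiniteDimensional F V]

lemma pair_oc_ne {p f : V} (hnd : ND Q) (hn : 3 ≤ Module.finrank F V) : oc Q (Submodule.span F {p, f}) ≠ ⊥ := by
  intro h
  have h1 := finrank_oc hnd (Submodule.span F {p, f})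
  rw [h, finrank_bot] at h1
  have h2 := finrank_span_pair_le (F := F) p f
  omega

lemma fact1 (hnd : ND Q) (hn : 3 ≤ Module.finrank F V) {z : V} (hz : z ≠ 0) : ∃ p, Q p = 0 ∧ pB Q p z ≠ 0 := by
  obtain ⟨p, hp0, hp⟩ := exists_sing hnd hn
  by_cases h1 : pB Q p z = 0
  swap
  · exact ⟨p, hp, h1⟩
  obtain ⟨f, hf, hpf⟩ := exists_partner hnd hp0 hp
  by_cases h2 : pB Q f z = 0
  swap
  · exact ⟨f, hf, h2⟩
  have hz' : z ∈ oc Q (Submodule.span F {p, f}) := mem_oc_pair.2 ⟨h1, h2⟩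
  have hN := NDS.oc hnd (hyp_nds hp hf hpf)
  obtain ⟨w, hw, hwz⟩ : ∃ w ∈ oc Q (Submodule.span F {p, f}), pB Q z w ≠ 0 := by
    by_contra hcon
    push Not at hcon
    exact hz (hN z hz' hcon)
  obtain ⟨hpw, hfw⟩ := mem_oc_pair.1 hw
  refine ⟨eich hp hpw f, by rw [og_q, hf], ?_⟩
  rw [eich_apply, pl_sub, pl_sub, pl_add, pl_smul, pl_smul, pl_smul, h1, h2, hpf, pB_symm Q w z]
  intro h
  apply hwz
  linear_combination h

lemma fact2 (hnd : ND Q) (hn : 3 ≤ Module.finrank F V) {p : V} (hp : Q p = 0) (hp0 : p ≠ 0) :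
    ∃ r, pB Q p r = 0 ∧ Q r ≠ 0 := by
  obtain ⟨f, hf, hpf⟩ := exists_partner hnd hp0 hp
  obtain ⟨r, hr, hr'⟩ := (NDS.oc hnd (hyp_nds hp hf hpf)).exists_q (pair_oc_ne hnd hn)
  exact ⟨r, (mem_oc_pair.1 hr).1, hr'⟩

lemma fact3 (hnd : ND Q) (hn : 3 ≤ Module.finrank F V) {p p' : V} (hp : Q p = 0) (hp0 : p ≠ 0) (hp' : Q p' = 0)
    (hp0' : p' ≠ 0) : ∃ r, Q r = 0 ∧ pB Q p r ≠ 0 ∧ pB Q p' r ≠ 0 := by
  by_cases h : pB Q p p' = 0
  · obtain ⟨f, hf, hpf⟩ := exists_partner hnd hp0 hp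
    by_cases h2 : pB Q f p' = 0
    swap
    · exact ⟨f, hf, by rw [hpf]; exact one_ne_zero, by rw [pB_symm]; exact h2⟩
    have hz' : p' ∈ oc Q (Submodule.span F {p, f}) := mem_oc_pair.2 ⟨h, h2⟩
    have hN := NDS.oc hnd (hyp_nds hp hf hpf)
    obtain ⟨w, hw, hwz⟩ : ∃ w ∈ oc Q (Submodule.span F {p, f}), pB Q p' w ≠ 0 := by
      by_contra hcon
      push Not at hcon
      exact hp0' (hN p' hz' hcon)
    obtain ⟨hpw, hfw⟩ := mem_oc_pair.1 hw
    refine ⟨eich hp hpw f, by rw [og_q, hf], ?_, ?_⟩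
    · rw [eich_apply, pr_sub, pr_sub, pr_add, pr_smul, pr_smul, pr_smul, hpw, hpf, pB_self, hp]
      intro h3
      apply one_ne_zero (α := F)
      linear_combination h3
    · rw [eich_apply, pr_sub, pr_sub, pr_add, pr_smul, pr_smul, pr_smul, hpf, pB_symm Q p' f, h2, pB_symm Q p' p, h]
      intro h3
      apply hwz
      linear_combination h3
  · -- scale
    have hc : pB Q p ((pB Q p p')⁻¹ • p') = 1 := by rw [pr_smul, inv_mul_cancel₀ h]
    have hq : Q ((pB Q p p')⁻¹ • p') = 0 := by rw [q_smul, hp', mul_zero]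
    obtain ⟨r, hr, hr'⟩ := (NDS.oc hnd (hyp_nds hp hq hc)).exists_q (pair_oc_ne hnd hn)
    obtain ⟨h1, h2⟩ := mem_oc_pair.1 hr
    have h2' : pB Q p' r = 0 := by
      rw [pl_smul] at h2
      exact (mul_eq_zero.1 h2).resolve_left (inv_ne_zero h)
    refine ⟨eich hp h1 p', by rw [og_q, hp'], ?_, ?_⟩
    · rw [eich_apply, pr_sub, pr_sub, pr_add, pr_smul, pr_smul, pr_smul, h1, pB_self, hp]
      intro h3
      apply h
      linear_combination h3
    · rw [eich_apply, pr_sub, pr_sub, pr_add, pr_smul, pr_smul, pr_smul, h2', pB_self, hp', pB_symm Q p' p,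
        pB_symm Q r p', h2']
      intro h3
      apply mul_ne_zero hr' (mul_ne_zero h h)
      linear_combination -h3

variable {W : Submodule F V}

lemma fact1W (hW : NDS Q W) (hn : 3 ≤ Module.finrank F W) {z : V} (hzW : z ∈ W) (hz : z ≠ 0) :
    ∃ p ∈ W, Q p = 0 ∧ pB Q p z ≠ 0 := by
  obtain ⟨p, hp, hpz⟩ := fact1 (Q := resQ Q W) hW.nd hn (z := ⟨z, hzW⟩) (fun h => hz (congrArg Subtype.val h))
  exact ⟨p, p.2, hp, hpz⟩

lemma fact2W (hW : NDS Q W) (hn : 3 ≤ Module.finrank F W) {p : V} (hpW : p ∈ W) (hp : Q p = 0) (hp0 : p ≠ 0) :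
    ∃ r ∈ W, pB Q p r = 0 ∧ Q r ≠ 0 := by
  obtain ⟨r, hr, hr'⟩ := fact2 (Q := resQ Q W) hW.nd hn (p := ⟨p, hpW⟩) hp (fun h => hp0 (congrArg Subtype.val h))
  exact ⟨r, r.2, hr, hr'⟩

lemma fact3W (hW : NDS Q W) (hn : 3 ≤ Module.finrank F W) {p p' : V} (hpW : p ∈ W) (hp : Q p = 0) (hp0 : p ≠ 0)
    (hpW' : p' ∈ W) (hp' : Q p' = 0) (hp0' : p' ≠ 0) : ∃ r ∈ W, Q r = 0 ∧ pB Q p r ≠ 0 ∧ pB Q p' r ≠ 0 := by
  obtain ⟨r, hr, hr', hr''⟩ := fact3 (Q := resQ Q W) hW.nd hn (p := ⟨p, hpW⟩) hp (fun h => hp0 (congrArg Subtype.val h))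
    (p' := ⟨p', hpW'⟩) hp' (fun h => hp0' (congrArg Subtype.val h))
  exact ⟨r, r.2, hr, hr', hr''⟩

lemma exists_singW (hn : 3 ≤ Module.finrank F W) : ∃ p ∈ W, p ≠ 0 ∧ Q p = 0 := exists_sing_sub W hn

/-- representation of functionals -/
lemma repW (hW : NDS Q W) (u : V) : ∃ a ∈ W, ∀ v ∈ W, pB Q u v = pB Q a v := by
  obtain ⟨a, ha, b, hb, rfl⟩ := hW.decomp u
  refine ⟨a, ha, fun v hv => ?_⟩
  rw [pl_add, pB_symm Q b v, (mem_oc.1 hb) v hv, add_zero]

end facts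

end Cfsg.Agent.H12
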