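import Mathlib
import Cfsg.Prelude.Def_GeometricClasses
import Cfsg.Agent.H12.OmDec1

/-!
Stabilisers of orthogonal decompositions: two subspaces with Siegel elements in an overgroup.
-/

set_option autoImplicit false
set_option linter.unusedSectionVars false

namespace Cfsg.Agent.H12

open Matrix Cfsg Cfsg.Agent.H5

section cl

variable {F V : Type*} [Field F] [AddCommGroup V] [Module F V] {Q : QuadraticForm F V} {M : Subgroup (OG Q)}

/-- a nondegenerate subspace all of whose Siegel elements are in `M` -/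
structure Cl (M : Subgroup (OG Q)) (E : Submodule F V) : Prop where
  nds : NDS Q E
  inm : ∀ u ∈ E, Q u = 0 → ∀ w ∈ E, pB Q u w = 0 → InM M u w

lemma Cl.im {E : Submodule F V} (h : Cl M E) {m : OG Q} (hm : m ∈ M) : Cl M (im m E) := by
  constructor
  · intro x hx hx'
    rw [mem_im] at hx
    have h1 : (m⁻¹ : OG Q) x = 0 := by
      apply h.nds _ hx
      intro y hy
      have h2 := hx' (m y) (by rw [mem_im, og_inv]; exact hy)
      rw [og_p_inv, inv_inv, pB_symm, pB_symm] at *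
      exact h2
    have h3 := congrArg (fun y => m y) h1
    beta_reduce at h3
    rwa [og_inv', og_zero] at h3
  · intro u hu hq w hw huw
    rw [mem_im] at hu hw
    have h1 := (h.inm _ hu (by rw [og_q, hq]) _ hw (by rw [og_p, huw])).conj hm
    rwa [og_inv', og_inv'] at h1

lemma lem1A (h2 : (2 : F) ≠ 0) {D E : Submodule F V} (hD : Cl M D) (hE : Cl M E) {x u y w : V} (hx : x ∈ D)
    (hqx : Q x = 0) (hu : u ∈ E) (hqu : Q u = 0) (hxu : pB Q x u = 0) (hy : y ∈ D) (hxy : pB Q x y = 0)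
    (hyu : pB Q y u ≠ 0) (hw : w ∈ E) (huw : pB Q u w = 0) (hwx : pB Q w x = 0) (hqw : Q w ≠ 0) :
    ∃ c : F, c ≠ 0 ∧ InM M x (c • u) := by
  have hux : pB Q u x = 0 := by rw [pB_symm, hxu]
  have h1 := InM.act (hE.inm u hu hqu w hw huw) (hD.inm x hx hqx y hy hxy) hux hwx
  have h3 := InM.act (hE.inm u hu hqu (-w) (E.neg_mem hw) (by rw [pr_neg, huw, neg_zero])) (hD.inm x hx hqx y hy hxy)
    hux (by rw [pl_neg, hwx, neg_zero])
  refine ⟨-(2 * (Q w * pB Q u y)), neg_ne_zero.2 (mul_ne_zero h2 (mul_ne_zero hqw (by rw [pB_symm]; exact hyu))), ?_⟩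
  refine (h1.add h3).congr ?_
  rw [q_neg, pl_neg]
  module

lemma lem1A' (h2 : (2 : F) ≠ 0) {D E : Submodule F V} (hD : Cl M D) (hE : Cl M E) {x u y w : V} (hx : x ∈ D)
    (hqx : Q x = 0) (hu : u ∈ E) (hqu : Q u = 0) (hxu : pB Q x u = 0) (hy : y ∈ D) (hxy : pB Q x y = 0)
    (hyu : pB Q y u = 0) (hw : w ∈ E) (huw : pB Q u w = 0) (hwx : pB Q w x ≠ 0) (hqy : Q y ≠ 0) :
    ∃ c : F, c ≠ 0 ∧ InM M x (c • u) := by
  obtain ⟨c, hc, h⟩ := lem1A h2 hE hD hu hqu hx hqx (by rw [pB_symm, hxu]) hw huw hwx hy hxy hyu hqy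
  have h3 := h.swap (by rw [q_smul, hqx, mul_zero])
  have h4 := InM.of_center hc h3
  exact ⟨-c, neg_ne_zero.2 hc, h4.congr (by module)⟩

lemma lem1D {D E : Submodule F V} (hD : Cl M D) (hE : Cl M E) {x u y w : V} (hx : x ∈ D)
    (hqx : Q x = 0) (hu : u ∈ E) (hqu : Q u = 0) (hxu : pB Q x u = 0) (hy : y ∈ D) (hxy : pB Q x y = 0)
    (hyu : pB Q y u = 0) (hw : w ∈ E) (huw : pB Q u w = 0) (hwx : pB Q w x = 0) (hyw : pB Q y w ≠ 0) :
    ∃ c : F, c ≠ 0 ∧ InM M x (c • u) := by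
  have hux : pB Q u x = 0 := by rw [pB_symm, hxu]
  have h1 := InM.act (hE.inm u hu hqu w hw huw) (hD.inm x hx hqx y hy hxy) hux hwx
  refine ⟨-(pB Q w y), neg_ne_zero.2 (by rw [pB_symm]; exact hyw), h1.congr ?_⟩
  rw [pB_symm Q u y, hyu]
  module

/-- the case with a torus element -/
lemma lem1W {D E : Submodule F V} (hD : Cl M D) (hE : Cl M E) {x u y w : V} (hx : x ∈ D)
    (hqx : Q x = 0) (hu : u ∈ E) (hqu : Q u = 0) (hxu : pB Q x u = 0) (hy : y ∈ D) (hxy : pB Q x y = 0)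
    (hyu : pB Q y u ≠ 0) (hw : w ∈ E) (huw : pB Q u w = 0) (hwx : pB Q w x ≠ 0) (hqw : Q w ≠ 0) {a : F} (ha : a ≠ 0)
    (ha2 : a * a ≠ 1) : ∃ c : F, c ≠ 0 ∧ InM M x (c • u) := by
  have hux : pB Q u x = 0 := by rw [pB_symm, hxu]
  obtain ⟨α, hα⟩ : ∃ α, α = pB Q w x := ⟨_, rfl⟩
  obtain ⟨β, hβ⟩ : ∃ β, β = pB Q y u := ⟨_, rfl⟩
  obtain ⟨γ, hγ⟩ : ∃ γ, γ = pB Q y w := ⟨_, rfl⟩
  rw [← hα] at hwx
  rw [← hβ] at hyu
  have hxw : pB Q x w = α := by rw [pB_symm, hα]
  have huy : pB Q u y = β := by rw [pB_symm, hβ]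
  have hwy : pB Q w y = γ := by rw [pB_symm, hγ]
  have hxx : pB Q x x = 0 := by rw [pB_self, hqx, mul_zero]
  have huu : pB Q u u = 0 := by rw [pB_self, hqu, mul_zero]
  have hyx : pB Q y x = 0 := by rw [pB_symm, hxy]
  have hwu : pB Q w u = 0 := by rw [pB_symm, huw]
  -- the elements
  obtain ⟨q1, p1, m1⟩ := hD.inm x hx hqx y hy hxy
  obtain ⟨q2, p2, m2⟩ := hE.inm u hu hqu (((a - 1) / (α * β)) • w) (E.smul_mem _ hw) (by rw [pr_smul, huw, mul_zero])
  obtain ⟨q3, p3, m3⟩ := hD.inm x hx hqx ((-a⁻¹) • y) (D.smul_mem _ hy) (by rw [pr_smul, hxy, mul_zero])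
  set m : OG Q := eich q3 p3 * (eich q2 p2 * eich q1 p1) with hm
  have hmM : m ∈ M := M.mul_mem m3 (M.mul_mem m2 m1)
  have t1 : ∀ z, eich q1 p1 z = z + pB Q x z • y - pB Q y z • x - (Q y * pB Q x z) • x := fun z => eich_apply _ _ z
  have t2 : ∀ z, eich q2 p2 z = z + (pB Q u z * ((a - 1) / (α * β))) • w - (((a - 1) / (α * β)) * pB Q w z) • u -
      (((a - 1) / (α * β)) * ((a - 1) / (α * β)) * Q w * pB Q u z) • u := by
    intro z
    rw [eich_apply, q_smul, pl_smul, smul_smul]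
  have t3 : ∀ z, eich q3 p3 z = z + (pB Q x z * (-a⁻¹)) • y - ((-a⁻¹) * pB Q y z) • x -
      ((-a⁻¹) * (-a⁻¹) * Q y * pB Q x z) • x := by
    intro z
    rw [eich_apply, q_smul, pl_smul, smul_smul]
  have hmu : m u = a • u := by
    rw [hm, og_mul, og_mul, t1, hxu, ← hβ]
    have e1 : u + (0 : F) • y - β • x - (Q y * 0) • x = u - β • x := by module
    rw [e1, t2, pr_sub, pr_smul, huu, hux, pr_sub, pr_smul, hwu, ← hα]
    have e2 : u - β • x + ((0 - β * 0) * ((a - 1) / (α * β))) • w - ((a - 1) / (α * β) * (0 - β * α)) • u -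
        ((a - 1) / (α * β) * ((a - 1) / (α * β)) * Q w * (0 - β * 0)) • u = a • u - β • x := by
      have h3 : (a - 1) / (α * β) * (0 - β * α) = -(a - 1) := by field_simp; ring
      rw [h3]; module
    rw [e2, t3, pr_sub, pr_smul, pr_smul, hxu, hxx, pr_sub, pr_smul, pr_smul, ← hβ, hyx]
    have h3 : -a⁻¹ * (a * β - β * 0) = -β := by field_simp; ring
    rw [h3]; module
  obtain ⟨c1, c2, hmw⟩ : ∃ c1 c2 : F, m w = a • w + c1 • x + c2 • u := by
    rw [hm, og_mul, og_mul, t1, hxw, ← hγ]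
    set c := γ + Q y * α with hc
    have e1 : w + α • y - γ • x - (Q y * α) • x = w + α • y - c • x := by rw [hc]; module
    rw [e1, t2]
    have f1 : pB Q u (w + α • y - c • x) = α * β := by
      rw [pr_sub, pr_add, pr_smul, pr_smul, huw, huy, hux]; ring
    rw [f1]
    have f2 : α * β * ((a - 1) / (α * β)) = a - 1 := by field_simp
    rw [f2]
    set d := (a - 1) / (α * β) * pB Q w (w + α • y - c • x) + (a - 1) / (α * β) * ((a - 1) / (α * β)) * Q w * (α * β) with hd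
    have e2 : w + α • y - c • x + (a - 1) • w - ((a - 1) / (α * β) * pB Q w (w + α • y - c • x)) • u -
        ((a - 1) / (α * β) * ((a - 1) / (α * β)) * Q w * (α * β)) • u = a • w + α • y - c • x - d • u := by
      rw [hd]; module
    rw [e2, t3]
    have f3 : pB Q x (a • w + α • y - c • x - d • u) = a * α := by
      rw [pr_sub, pr_sub, pr_add, pr_smul, pr_smul, pr_smul, pr_smul, hxw, hxy, hxx, hxu]; ring
    rw [f3]
    have f4 : a * α * (-a⁻¹) = -α := by field_simp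
    rw [f4]
    exact ⟨-c - (-a⁻¹ * pB Q y (a • w + α • y - c • x - d • u)) - (-a⁻¹) * (-a⁻¹) * Q y * (a * α), -d, by module⟩
  have hc1 : a * c1 * α = (1 - a * a) * Q w := by
    have h3 := og_q m w
    rw [hmw, q_add, q_add, q_smul, q_smul, q_smul, hqx, hqu, pl_add, pl_smul, pl_smul, pr_smul, pr_smul, pl_smul, pr_smul,
      hwu, hxu, ← hα] at h3
    linear_combination h3
  have hc10 : c1 ≠ 0 := by
    intro h0
    rw [h0] at hc1
    have : (1 - a * a) * Q w = 0 := by rw [← hc1]; ring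
    rcases mul_eq_zero.1 this with h3 | h3
    · exact ha2 (by linear_combination -h3)
    · exact hqw h3
  have g1 := (hE.inm u hu hqu w hw huw).conj hmM
  rw [hmu] at g1
  have g2 := InM.of_center ha g1
  have g3 := g2.sub (hE.inm u hu hqu ((a * a) • w) (E.smul_mem _ hw) (by rw [pr_smul, huw, mul_zero]))
  have g4 : a • m w - (a * a) • w = (a * c1) • x + (a * c2) • u := by
    rw [hmw]; module
  rw [g4] at g3
  have g5 : InM M u ((a * c1) • x) := (g3.sub (InM.self hqu (a * c2))).congr (by abel)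
  have g6 := g5.swap (by rw [q_smul, hqx, mul_zero])
  have g7 := InM.of_center (mul_ne_zero ha hc10) g6
  exact ⟨-(a * c1), neg_ne_zero.2 (mul_ne_zero ha hc10), g7.congr (by module)⟩

end cl

end Cfsg.Agent.H12
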