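import Mathlib
import Cfsg.Prelude.Def_GeometricClasses
import Cfsg.Agent.H12.OmDec2

/-!
Stabilisers of orthogonal decompositions: one mixed Siegel element gives everything.
-/

set_option autoImplicit false
set_option linter.unusedSectionVars false

namespace Cfsg.Agent.H12

open Matrix Cfsg Cfsg.Agent.H5

section win

variable {F V : Type*} [Field F] [Finite F] [AddCommGroup V] [Module F V] [FiniteDimensional F V] {Q : QuadraticForm F V}
  {M : Subgroup (OG Q)}

/-- the set-up -/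
structure DecS {t : ℕ} (D : Fin t → Submodule F V) (M : Subgroup (OG Q)) : Prop where
  hnd : ND Q
  h2 : (2 : F) ≠ 0
  orth : ∀ i j, i ≠ j → ∀ x ∈ D i, ∀ y ∈ D j, pB Q x y = 0
  top : iSup D = ⊤
  cl : ∀ i, Cl M (D i)
  dim : ∀ i, 3 ≤ Module.finrank F (D i)
  swap : ∀ i j, i ≠ j → ∃ m ∈ M, im m (D i) = D j ∧ im m (D j) = D i ∧ ∀ l, l ≠ i → l ≠ j → im m (D l) = D l

/-- induction over sums of singular vectors -/
lemma sing_ind {W : Submodule F V} (hW : NDS Q W) (hn : 3 ≤ Module.finrank F W) {P : V → Prop}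
    (hadd : ∀ a b, P a → P b → P (a + b)) (hs : ∀ p ∈ W, Q p = 0 → P p) : ∀ z ∈ W, P z := by
  intro z hz
  obtain ⟨p, hpW, hp0, hp⟩ := exists_singW (Q := Q) hn
  obtain ⟨f', hf, hpf⟩ := exists_partner (Q := resQ Q W) hW.nd (u := ⟨p, hpW⟩) (fun h => hp0 (congrArg Subtype.val h)) hp
  obtain ⟨f, hfW⟩ := f'
  have hqf : Q f = 0 := hf
  have hpf' : pB Q p f = 1 := hpf
  set z' := z - pB Q f z • p - pB Q p z • f with hz'
  have hz'W : z' ∈ W := W.sub_mem (W.sub_mem hz (W.smul_mem _ hpW)) (W.smul_mem _ hfW)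
  have e1 : pB Q p z' = 0 := by
    rw [hz', pr_sub, pr_sub, pr_smul, pr_smul, pB_self, hp, hpf']; ring
  have e2 : pB Q f z' = 0 := by
    rw [hz', pr_sub, pr_sub, pr_smul, pr_smul, pB_self, hqf, pB_symm Q f p, hpf']; ring
  have e3 : Q (f + z' - Q z' • p) = 0 := by
    rw [q_sub, q_add, q_smul, hqf, hp, pr_smul, pl_add, e2, pB_symm Q f p, hpf', pB_symm Q z' p, e1]; ring
  have h1 : z = pB Q f z • p + (pB Q p z • f + ((f + z' - Q z' • p) + (-f + Q z' • p))) := by
    rw [hz']; abel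
  rw [h1]
  have sm : ∀ (c : F) (q : V), q ∈ W → Q q = 0 → P (c • q) := fun c q hq hq0 =>
    hs _ (W.smul_mem _ hq) (by rw [q_smul, hq0, mul_zero])
  refine hadd _ _ (sm _ _ hpW hp) (hadd _ _ (sm _ _ hfW hqf) (hadd _ _ (hs _ ?_ e3) (hadd _ _ (hs _ ?_ ?_) (sm _ _ hpW hp))))
  · exact W.sub_mem (W.add_mem hfW hz'W) (W.smul_mem _ hpW)
  · exact W.neg_mem hfW
  · rw [q_neg, hqf]

/-- a direction in a block gives the whole block -/
lemma stepC (h2 : (2 : F) ≠ 0) {W : Submodule F V} (hW : Cl M W) (hn : 3 ≤ Module.finrank F W) {x : V}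
    (hx : ∀ y ∈ W, pB Q y x = 0) {p : V} (hp : p ∈ W) (hqp : Q p = 0) (hp0 : p ≠ 0) {c : F} (hc : c ≠ 0)
    (h : InM M x (c • p)) : ∀ z ∈ W, InM M x z := by
  have hx0 : Q x = 0 := h.q
  have C1 : ∀ p ∈ W, ∀ c : F, c ≠ 0 → InM M x (c • p) → ∀ p' ∈ W, Q p' = 0 → pB Q p' p ≠ 0 →
      ∀ c' : F, InM M x (c' • p') := by
    intro p hp c hc h p' hp' hq' hpp c'
    have hp'0 : p' ≠ 0 := by
      rintro rfl
      exact hpp (by rw [map_zero, LinearMap.zero_apply])
    obtain ⟨r, hr, hpr, hqr⟩ := fact2W hW.nds hn hp' hq' hp'0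
    set κ := -(2 * (Q r * (c * pB Q p' p))) with hκ
    have hκ0 : κ ≠ 0 := neg_ne_zero.2 (mul_ne_zero h2 (mul_ne_zero hqr (mul_ne_zero hc hpp)))
    have key : ∀ l : F, InM M x ((κ * (l * l)) • p') := by
      intro l
      have a1 := InM.act (hW.inm p' hp' hq' (l • r) (W.smul_mem _ hr) (by rw [pr_smul, hpr, mul_zero])) h (hx _ hp')
        (hx _ (W.smul_mem _ hr))
      have a2 := InM.act (hW.inm p' hp' hq' (-(l • r)) (W.neg_mem (W.smul_mem _ hr))
        (by rw [pr_neg, pr_smul, hpr, mul_zero, neg_zero])) h (hx _ hp') (hx _ (W.neg_mem (W.smul_mem _ hr)))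
      refine (a1.add a2).congr ?_
      rw [q_neg, pl_neg, q_smul, pr_smul, hκ]
      module
    have k1 := key (c' / (2 * κ) + 1)
    have k2 := key (c' / (2 * κ))
    have k3 := key 1
    refine ((k1.sub k2).sub k3).congr ?_
    rw [← sub_smul, ← sub_smul]
    congr 1
    field_simp
    ring
  have C2 : ∀ p'' ∈ W, Q p'' = 0 → InM M x p'' := by
    intro p'' hp'' hq''
    by_cases h0 : p'' = 0
    · rw [h0]
      exact (h.sub h).congr (sub_self _)
    obtain ⟨r, hr, hqr, hpr, hpr'⟩ := fact3W hW.nds hn hp hqp hp0 hp'' hq'' h0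
    have b1 := C1 p hp c hc h r hr hqr (by rw [pB_symm]; exact hpr) 1
    have b2 := C1 r hr 1 one_ne_zero b1 p'' hp'' hq'' hpr' 1
    rwa [one_smul] at b2
  exact sing_ind hW.nds hn (fun a b ha hb => ha.add hb) C2

variable {t : ℕ} {D : Fin t → Submodule F V}

lemma DecS.zero_of (S : DecS D M) {v : V} (hv : ∀ i, ∀ y ∈ D i, pB Q v y = 0) : v = 0 := by
  apply S.hnd
  intro y
  have hy : y ∈ iSup D := by rw [S.top]; trivial
  refine Submodule.iSup_induction D (motive := fun y => pB Q v y = 0) hy (fun i y hy => hv i y hy) (map_zero _) ?_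
  intro y z hy hz
  rw [pr_add, hy, hz, add_zero]

lemma DecS.mem_of (S : DecS D M) {l : Fin t} {z : V} (hz : ∀ j, j ≠ l → ∀ y ∈ D j, pB Q z y = 0) : z ∈ D l := by
  obtain ⟨a, ha, b, hb, rfl⟩ := (S.cl l).nds.decomp z
  have hb0 : b = 0 := by
    apply S.zero_of
    intro i y hy
    by_cases hi : i = l
    · subst hi
      rw [pB_symm]; exact (mem_oc.1 hb) y hy
    · have h1 := hz i hi y hy
      rw [pl_add, S.orth l i (fun h => hi h.symm) a ha y hy, zero_add] at h1
      exact h1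
  rw [hb0, add_zero]
  exact ha

/-- one mixed Siegel element gives everything -/
theorem DecS.win (S : DecS D M) {l : Fin t} {x z : V} (hx : x ∈ D l) (hx0 : x ≠ 0) (hz : z ∉ D l) (h : InM M x z) :
    EG Q ≤ M := by
  have hqx : Q x = 0 := h.q
  -- a block where `z` has a component
  obtain ⟨j, hj, v, hv, hzv⟩ : ∃ j, j ≠ l ∧ ∃ v ∈ D j, pB Q z v ≠ 0 := by
    by_contra hcon
    push Not at hcon
    exact hz (S.mem_of hcon)
  obtain ⟨a, ha, haz⟩ := repW (S.cl j).nds z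
  have ha0 : a ≠ 0 := by
    rintro rfl
    exact hzv (by rw [haz v hv, map_zero, LinearMap.zero_apply])
  obtain ⟨p, hp, hqp, hpa⟩ := fact1W (S.cl j).nds (S.dim j) ha ha0
  have hp0 : p ≠ 0 := by
    rintro rfl
    exact hpa (by rw [map_zero, LinearMap.zero_apply])
  have hpz : pB Q p z ≠ 0 := by
    rw [pB_symm, haz p hp, pB_symm]; exact hpa
  obtain ⟨r, hr, hpr, hqr⟩ := fact2W (S.cl j).nds (S.dim j) hp hqp hp0
  have hjx : ∀ y ∈ D j, pB Q y x = 0 := fun y hy => S.orth j l hj y hy x hx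
  have h1 : ∃ c : F, c ≠ 0 ∧ InM M x (c • p) := by
    have a1 := InM.act ((S.cl j).inm p hp hqp r hr hpr) h (hjx _ hp) (hjx _ hr)
    have a2 := InM.act ((S.cl j).inm p hp hqp (-r) ((D j).neg_mem hr) (by rw [pr_neg, hpr, neg_zero])) h (hjx _ hp)
      (hjx _ ((D j).neg_mem hr))
    refine ⟨-(2 * (Q r * pB Q p z)), neg_ne_zero.2 (mul_ne_zero S.h2 (mul_ne_zero hqr hpz)), (a1.add a2).congr ?_⟩
    rw [q_neg, pl_neg]
    module
  obtain ⟨c, hc, h1⟩ := h1
  have hxj := stepC S.h2 (S.cl j) (S.dim j) hjx hp hqp hp0 hc h1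
  have hlj : ∀ p ∈ D j, Q p = 0 → p ≠ 0 → ∀ z ∈ D l, InM M p z := by
    intro p hp hqp hp0
    have b1 := (hxj p hp).swap hqp
    exact stepC S.h2 (S.cl l) (S.dim l) (fun y hy => S.orth l j hj.symm y hy p hp) hx hqx hx0
      (neg_ne_zero.2 one_ne_zero) (b1.congr (show -x = (-1 : F) • x by rw [neg_smul, one_smul]))
  have hjl : ∀ x ∈ D l, Q x = 0 → x ≠ 0 → ∀ z ∈ D j, InM M x z := by
    intro x' hx' hqx' hx0'
    have b1 := (hlj p hp hqp hp0 x' hx').swap hqx'
    exact stepC S.h2 (S.cl j) (S.dim j) (fun y hy => S.orth j l hj y hy x' hx') hp hqp hp0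
      (neg_ne_zero.2 one_ne_zero) (b1.congr (show -p = (-1 : F) • p by rw [neg_smul, one_smul]))
  have hall : ∀ i, i ≠ l → ∀ x ∈ D l, Q x = 0 → x ≠ 0 → ∀ z ∈ D i, InM M x z := by
    intro i hi
    by_cases hij : i = j
    · rw [hij]; exact hjl
    obtain ⟨m, hm, hm1, hm2, hm3⟩ := S.swap j i (fun h => hij h.symm)
    intro x hx hqx hx0 z hz
    have hxl : (m⁻¹ : OG Q) x ∈ D l := by
      rw [← mem_im, hm3 l hj.symm hi.symm]; exact hx
    have hzj : (m⁻¹ : OG Q) z ∈ D j := by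
      rw [← mem_im, hm1]; exact hz
    have b1 := (hjl _ hxl (by rw [og_q, hqx]) (by
      intro h0
      apply hx0
      have := congrArg (fun y => m y) h0
      beta_reduce at this
      rwa [og_inv', og_zero] at this) _ hzj).conj hm
    rwa [og_inv', og_inv'] at b1
  have hfull : ∀ x ∈ D l, Q x = 0 → x ≠ 0 → Full M x := by
    intro x hx hqx hx0
    refine ⟨hqx, fun w hq hw => ?_⟩
    have key : ∀ w : V, ∃ a ∈ D l, InM M x (w - a) := by
      intro w
      have hw : w ∈ iSup D := by rw [S.top]; trivial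
      refine Submodule.iSup_induction D (motive := fun w => ∃ a ∈ D l, InM M x (w - a)) hw ?_ ?_ ?_
      · intro i y hy
        by_cases hi : i = l
        · refine ⟨y, hi ▸ hy, ?_⟩
          exact (InM.self hqx (0 : F)).congr (by rw [zero_smul, sub_self])
        · exact ⟨0, (D l).zero_mem, (hall i hi x hx hqx hx0 y hy).congr (by rw [sub_zero])⟩
      · exact ⟨0, (D l).zero_mem, (InM.self hqx (0 : F)).congr (by rw [zero_smul, sub_self])⟩
      · intro y z hy hz
        obtain ⟨a, ha, ha'⟩ := hy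
        obtain ⟨b, hb, hb'⟩ := hz
        exact ⟨a + b, (D l).add_mem ha hb, (ha'.add hb').congr (by abel)⟩
    obtain ⟨a, ha, ha'⟩ := key w
    have hxa : pB Q x a = 0 := by
      have := ha'.p
      rw [pr_sub, hw] at this
      linear_combination -this
    have := (ha'.add ((S.cl l).inm x hx hqx a ha hxa)).congr (sub_add_cancel w a)
    obtain ⟨_, _, h3⟩ := this
    exact h3
  obtain ⟨f', hf, hxf⟩ := exists_partner (Q := resQ Q (D l)) (S.cl l).nds.nd (u := ⟨x, hx⟩)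
    (fun h => hx0 (congrArg Subtype.val h)) hqx
  obtain ⟨f, hfD⟩ := f'
  have hxf' : pB Q x f = 1 := hxf
  have hf0 : f ≠ 0 := by
    rintro rfl
    rw [map_zero] at hxf'
    exact zero_ne_one hxf'
  exact eg_le_of_full S.hnd (hfull x hx hqx hx0) (hfull f hfD hf hf0) (by rw [hxf']; exact one_ne_zero)

end win

end Cfsg.Agent.H12
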