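import Mathlib
import Cfsg.Prelude.Def_GeometricClasses
import Cfsg.Agent.H12.OmDec3

/-!
Stabilisers of orthogonal decompositions: blocks of dimension at least five.
-/

set_option autoImplicit false
set_option linter.unusedSectionVars false

namespace Cfsg.Agent.H12

open Matrix Cfsg Cfsg.Agent.H5

section aux

variable {F V : Type*} [Field F] [AddCommGroup V] [Module F V] {Q : QuadraticForm F V}

/-- proportional functionals on a subspace -/
lemma prop_fun {W : Submodule F V} {u w : V} (h : ∀ v ∈ W, pB Q u v = 0 → pB Q w v = 0) :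
    ∃ c : F, ∀ v ∈ W, pB Q w v = c * pB Q u v := by
  by_cases h0 : ∃ y ∈ W, pB Q u y ≠ 0
  · obtain ⟨y, hy, hy0⟩ := h0
    refine ⟨pB Q w y / pB Q u y, fun v hv => ?_⟩
    have h1 := h (v - (pB Q u v / pB Q u y) • y) (W.sub_mem hv (W.smul_mem _ hy)) (by
      rw [pr_sub, pr_smul, div_mul_cancel₀ _ hy0, sub_self])
    rw [pr_sub, pr_smul] at h1
    field_simp
    field_simp at h1
    linear_combination h1
  · push Not at h0
    exact ⟨0, fun v hv => by rw [h v hv (h0 v hv), zero_mul]⟩

/-- proportional vectors in a nondegenerate subspace -/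
lemma prop_of {W : Submodule F V} (hW : NDS Q W) {x a : V} (hx : x ∈ W) (ha : a ∈ W)
    (h : ∀ v ∈ W, pB Q x v = 0 → pB Q a v = 0) : ∃ c : F, a = c • x := by
  obtain ⟨c, hc⟩ := prop_fun h
  refine ⟨c, ?_⟩
  have h1 := hW (a - c • x) (W.sub_mem ha (W.smul_mem _ hx)) (fun y hy => by
    rw [pl_sub, pl_smul, hc y hy, sub_self])
  exact sub_eq_zero.1 h1

variable [FiniteDimensional F V]

lemma finrank_inf_oc {W : Submodule F V} (hnd : ND Q) (S : Submodule F V) {k : ℕ} (hS : Module.finrank F S ≤ k) :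
    Module.finrank F W ≤ Module.finrank F (W ⊓ oc Q S : Submodule F V) + k := by
  have h1 := finrank_oc hnd S
  have h2 := Submodule.finrank_sup_add_finrank_inf_eq W (oc Q S)
  have h3 : Module.finrank F (W ⊔ oc Q S : Submodule F V) ≤ Module.finrank F V := Submodule.finrank_le _
  omega

/-- totally singular subspaces of a nondegenerate subspace -/
lemma ts_finrank {W T : Submodule F V} (hW : NDS Q W) (hT : T ≤ W) (hs : ∀ x ∈ T, Q x = 0) :
    2 * Module.finrank F T ≤ Module.finrank F W := by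
  have h1 := finrank_oc (Q := resQ Q W) hW.nd (T.comap W.subtype)
  have h2 : T.comap W.subtype ≤ oc (resQ Q W) (T.comap W.subtype) := by
    intro x hx
    rw [mem_oc]
    intro n hn
    exact ts_B hs hn hx
  have h3 := Submodule.finrank_mono h2
  have h4 : Module.finrank F (T.comap W.subtype) = Module.finrank F T :=
    LinearEquiv.finrank_eq (Submodule.comapSubtypeEquivOfLe hT)
  omega

end aux

section five

variable {F V : Type*} [Field F] [Finite F] [AddCommGroup V] [Module F V] [FiniteDimensional F V] {Q : QuadraticForm F V}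
  {M : Subgroup (OG Q)} {t : ℕ} {D : Fin t → Submodule F V}

/-- a singular vector outside the blocks -/
lemma DecS.exists_off (S : DecS D M) {k : ℕ} (hk : ∀ i, Module.finrank F (D i) = k) {g : OG Q} {i : Fin t}
    (hne : ∀ l, im g (D i) ≠ D l) : ∃ u ∈ im g (D i), Q u = 0 ∧ ∀ l, u ∉ D l := by
  by_contra hcon
  push Not at hcon
  have h1 : ∀ u ∈ D i, Q u = 0 → ∃ l, g u ∈ D l := by
    intro u hu hq
    exact hcon (g u) (by rw [mem_im, og_inv]; exact hu) (by rw [og_q, hq])
  obtain ⟨e, he, he0, hqe⟩ := exists_singW (Q := Q) (S.dim i)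
  obtain ⟨l, hl⟩ := h1 e he hqe
  have h2 : ∀ u ∈ D i, Q u = 0 → g u ∈ D l := by
    intro u hu hq
    by_cases h0 : u = 0
    · rw [h0, og_zero]; exact (D l).zero_mem
    obtain ⟨r, hr, hqr, her, hur⟩ := fact3W (S.cl i).nds (S.dim i) he hqe he0 hu hq h0
    obtain ⟨l', hl'⟩ := h1 r hr hqr
    obtain ⟨l'', hl''⟩ := h1 u hu hq
    have e1 : l = l' := by
      by_contra hne
      apply her
      rw [← og_p g, S.orth l l' hne _ hl _ hl']
    have e2 : l'' = l' := by
      by_contra hne
      apply hur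
      rw [← og_p g, S.orth l'' l' hne _ hl'' _ hl']
    rw [e1, ← e2]; exact hl''
  have h3 : ∀ z ∈ D i, g z ∈ D l := sing_ind (S.cl i).nds (S.dim i) (P := fun z => g z ∈ D l)
    (fun a b ha hb => by rw [og_add]; exact (D l).add_mem ha hb) h2
  apply hne l
  apply Submodule.eq_of_le_of_finrank_eq
  · intro x hx
    rw [mem_im] at hx
    have := h3 _ hx
    rwa [og_inv'] at this
  · rw [finrank_im, hk, hk]

/-- blocks of dimension at least five -/
theorem DecS.five (S : DecS D M) (hk : ∀ i, 5 ≤ Module.finrank F (D i)) {E : Submodule F V} (hE : Cl M E)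
    (hE5 : 5 ≤ Module.finrank F E) {u : V} (hu : u ∈ E) (hqu : Q u = 0) (hoff : ∀ l, u ∉ D l) : EG Q ≤ M := by
  have hnd := S.hnd
  obtain ⟨l, y0, hy0, huy0⟩ : ∃ l, ∃ y ∈ D l, pB Q u y ≠ 0 := by
    by_contra hcon
    push Not at hcon
    have hu0 := S.zero_of hcon
    have ht : 0 < t := by
      by_contra h0
      have ht0 : t = 0 := by omega
      subst ht0
      have h1 := S.top
      rw [iSup_of_empty] at h1
      have h2 : (⊤ : Submodule F V) = ⊥ := h1.symm
      have h3 : Module.finrank F E ≤ 0 := by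
        rw [← finrank_bot F V, ← h2]
        exact Submodule.finrank_mono le_top
      omega
    exact hoff ⟨0, ht⟩ (by rw [hu0]; exact Submodule.zero_mem _)
  obtain ⟨a, ha, hua⟩ := repW (S.cl l).nds u
  have ha0 : a ≠ 0 := by
    rintro rfl
    exact huy0 (by rw [hua y0 hy0, map_zero, LinearMap.zero_apply])
  -- a singular vector
  have f1 := finrank_inf_oc (W := D l) hnd (Submodule.span F {a}) (k := 1) (by rw [finrank_span_singleton ha0])
  obtain ⟨x, hx, hxa, hqx⟩ := exists_sing_off (Q := Q) (D l ⊓ oc Q (Submodule.span F {a})) (Submodule.span F {a}) (by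
    rw [finrank_span_singleton ha0]
    have := hk l
    omega)
  obtain ⟨hxD, hx'⟩ := hx
  have hax : pB Q a x = 0 := (mem_oc.1 hx') a (Submodule.mem_span_singleton_self a)
  have hux : pB Q u x = 0 := by rw [hua x hxD, hax]
  have hx0 : x ≠ 0 := by
    rintro rfl
    exact hxa (Submodule.zero_mem _)
  obtain ⟨y, hy, hxy, hay⟩ : ∃ y ∈ D l, pB Q x y = 0 ∧ pB Q a y ≠ 0 := by
    by_contra hcon
    push Not at hcon
    obtain ⟨c, hc⟩ := prop_of (S.cl l).nds hxD ha hcon
    have hc0 : c ≠ 0 := by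
      rintro rfl
      rw [zero_smul] at hc
      exact ha0 hc
    apply hxa
    rw [Submodule.mem_span_singleton]
    exact ⟨c⁻¹, by rw [hc, smul_smul, inv_mul_cancel₀ hc0, one_smul]⟩
  obtain ⟨w, hw, hqw⟩ : ∃ w ∈ E ⊓ oc Q (Submodule.span F {u, x}), Q w ≠ 0 := by
    by_contra hcon
    push Not at hcon
    have h1 := ts_finrank hE.nds inf_le_left hcon
    have h2 := finrank_inf_oc (W := E) hnd (Submodule.span F {u, x}) (k := 2) (finrank_span_pair_le u x)
    omega
  obtain ⟨hwE, hw'⟩ := hw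
  obtain ⟨huw, hxw⟩ := mem_oc_pair.1 hw'
  obtain ⟨c, hc, h⟩ := lem1A S.h2 (S.cl l) hE hxD hqx hu hqu (by rw [pB_symm, hux]) hy hxy
    (by rw [pB_symm, hua y hy]; exact hay) hwE huw (by rw [pB_symm, hxw]) hqw
  refine S.win hxD hx0 (z := c • u) ?_ h
  intro hcu
  apply hoff l
  have := (D l).smul_mem c⁻¹ hcu
  rwa [smul_smul, inv_mul_cancel₀ hc, one_smul] at this

end five

end Cfsg.Agent.H12
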