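import Mathlib
import Cfsg.Prelude.Def_GeometricClasses
import Cfsg.Agent.H12.Transv

/-!
Subfield subgroups: the rational structure `emb P : F₀^ι → F^ι`, the homomorphism `rho P : GL ι F₀ → GL ι F`, and
the criterion for membership in `subfieldSubgroup` (`mem_subfield_of_lines`).
-/

set_option autoImplicit false
set_option linter.unusedSectionVars false

open scoped MatrixGroups Matrix

namespace Cfsg.Agent.H12

variable {ι : Type} [Fintype ι] [DecidableEq ι] {F : Type*} [Field F] {F₀ : Subfield F}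

/-- coercion of vectors -/
def cov (u : ι → F₀) : ι → F := fun i => (u i : F)

omit [Fintype ι] [DecidableEq ι] in
lemma cov_add (u v : ι → F₀) : cov (u + v) = cov u + cov v := by ext i; simp [cov]

omit [Fintype ι] [DecidableEq ι] in
lemma cov_smul (c : F₀) (u : ι → F₀) : cov (c • u) = (c : F) • cov u := by ext i; simp [cov]

omit [Fintype ι] [DecidableEq ι] in
lemma cov_inj {u v : ι → F₀} (h : cov u = cov v) : u = v := by
  ext i
  exact congrFun h i

/-- the rational structure given by the columns of `P` -/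
def emb (P : GL ι F) (u : ι → F₀) : ι → F := (P : Matrix ι ι F) *ᵥ cov u

lemma emb_add (P : GL ι F) (u v : ι → F₀) : emb P (u + v) = emb P u + emb P v := by
  rw [emb, cov_add, Matrix.mulVec_add]; rfl

lemma emb_smul (P : GL ι F) (c : F₀) (u : ι → F₀) : emb P (c • u) = (c : F) • emb P u := by
  rw [emb, cov_smul, Matrix.mulVec_smul]; rfl

lemma emb_inj (P : GL ι F) {u v : ι → F₀} (h : emb P u = emb P v) : u = v := by
  apply cov_inj
  rw [← gl_inv_mulVec_mulVec P (cov u), ← gl_inv_mulVec_mulVec P (cov v)]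
  exact congrArg _ h

lemma emb_zero (P : GL ι F) : emb P (0 : ι → F₀) = 0 := by
  have := emb_smul P (0 : F₀) (0 : ι → F₀)
  simpa using this

lemma emb_eq_zero (P : GL ι F) {u : ι → F₀} : emb P u = 0 ↔ u = 0 := by
  constructor
  · intro h
    apply emb_inj P
    rw [h, emb_zero]
  · rintro rfl; exact emb_zero P

lemma emb_neg (P : GL ι F) (u : ι → F₀) : emb P (-u) = -emb P u := by
  have := emb_smul P (-1 : F₀) u
  simpa using this

lemma emb_sub (P : GL ι F) (u v : ι → F₀) : emb P (u - v) = emb P u - emb P v := by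
  rw [sub_eq_add_neg, emb_add, emb_neg, sub_eq_add_neg]

lemma emb_sum (P : GL ι F) {κ : Type*} (s : Finset κ) (u : κ → ι → F₀) :
    emb P (∑ k ∈ s, u k) = ∑ k ∈ s, emb P (u k) := by
  classical
  induction s using Finset.induction_on with
  | empty => simp [emb_zero]
  | insert a s ha ih => rw [Finset.sum_insert ha, Finset.sum_insert ha, emb_add, ih]

/-- every vector is a combination of the rational basis -/
lemma exists_emb_comb (P : GL ι F) (x : ι → F) : ∃ c : ι → F, x = ∑ j, c j • emb P (Pi.single j (1 : F₀)) := by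
  refine ⟨((P⁻¹ : GL ι F) : Matrix ι ι F) *ᵥ x, ?_⟩
  set c := ((P⁻¹ : GL ι F) : Matrix ι ι F) *ᵥ x with hc
  have h1 : x = (P : Matrix ι ι F) *ᵥ c := by rw [hc, gl_mulVec_inv_mulVec]
  have h2 : c = ∑ j, c j • cov (Pi.single j (1 : F₀)) := by
    ext i
    simp only [Finset.sum_apply, Pi.smul_apply, cov, Pi.single_apply, smul_eq_mul]
    rw [Finset.sum_eq_single i]
    · simp
    · intro b _ hb
      simp [Ne.symm hb]
    · simp
  conv_lhs => rw [h1, h2]
  rw [Matrix.mulVec_sum]
  apply Finset.sum_congr rfl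
  intro j _
  rw [Matrix.mulVec_smul]; rfl

/-- two elements of `GL` agreeing on the rational structure are equal -/
lemma gl_ext_emb (P : GL ι F) {g h : GL ι F}
    (H : ∀ u : ι → F₀, (g : Matrix ι ι F) *ᵥ emb P u = (h : Matrix ι ι F) *ᵥ emb P u) : g = h := by
  apply gl_ext
  intro x
  obtain ⟨c, hc⟩ := exists_emb_comb (F₀ := F₀) P x
  rw [hc, Matrix.mulVec_sum, Matrix.mulVec_sum]
  apply Finset.sum_congr rfl
  intro j _
  rw [Matrix.mulVec_smul, Matrix.mulVec_smul, H]

/-- linear independence is preserved: `F`-linear relation among two embedded vectors -/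
lemma emb_smul_mem (P : GL ι F) {u v : ι → F₀} {c : F} (hu : u ≠ 0) (h : emb P v = c • emb P u) :
    ∃ c₀ : F₀, (c₀ : F) = c := by
  have h1 : cov v = c • cov u := by
    have := congrArg (fun y => ((P⁻¹ : GL ι F) : Matrix ι ι F) *ᵥ y) h
    simp only [emb, Matrix.mulVec_smul, gl_inv_mulVec_mulVec] at this
    exact this
  obtain ⟨i, hi⟩ : ∃ i, u i ≠ 0 := by
    by_contra hcon
    push Not at hcon
    exact hu (funext hcon)
  have h2 := congrFun h1 i
  simp only [cov, Pi.smul_apply, smul_eq_mul] at h2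
  refine ⟨v i / u i, ?_⟩
  have h3 : (u i : F) ≠ 0 := by
    intro h; apply hi; exact Subtype.ext h
  push_cast
  rw [h2]
  field_simp

/-- a relation `a emb u + b emb v = c emb w` with `u, v` independent gives rational ratios -/
lemma emb_ratio (P : GL ι F) {u v w : ι → F₀} {a b c : F} (hv : v ∉ Submodule.span F₀ {u}) (hu : u ≠ 0)
    (hc : c ≠ 0) (h : a • emb P u + b • emb P v = c • emb P w) :
    ∃ a₀ b₀ : F₀, (a₀ : F) = a / c ∧ (b₀ : F) = b / c := by
  -- in coordinates
  have h1 : a • cov u + b • cov v = c • cov w := by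
    have := congrArg (fun y => ((P⁻¹ : GL ι F) : Matrix ι ι F) *ᵥ y) h
    simp only [emb, Matrix.mulVec_add, Matrix.mulVec_smul, gl_inv_mulVec_mulVec] at this
    exact this
  -- find i, j with nonvanishing minor
  obtain ⟨i, hi⟩ : ∃ i, u i ≠ 0 := by
    by_contra hcon
    push Not at hcon
    exact hu (funext hcon)
  obtain ⟨j, hj⟩ : ∃ j, u i * v j - u j * v i ≠ 0 := by
    by_contra hcon
    push Not at hcon
    apply hv
    rw [Submodule.mem_span_singleton]
    refine ⟨v i / u i, ?_⟩
    ext j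
    have := hcon j
    simp only [Pi.smul_apply, smul_eq_mul]
    congr 1
    field_simp
    linear_combination -this
  have ei := congrFun h1 i
  have ej := congrFun h1 j
  simp only [cov, Pi.smul_apply, Pi.add_apply, smul_eq_mul] at ei ej
  have hD : ((u i : F) * v j - u j * v i) ≠ 0 := by
    intro h0; apply hj; apply Subtype.ext; push_cast; exact h0
  refine ⟨(w i * v j - w j * v i) / (u i * v j - u j * v i), (u i * w j - u j * w i) / (u i * v j - u j * v i), ?_, ?_⟩
  · push_cast
    rw [div_eq_div_iff hD hc]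
    linear_combination (-(v j : F)) * ei + (v i : F) * ej
  · push_cast
    rw [div_eq_div_iff hD hc]
    linear_combination (-(u i : F)) * ej + (u j : F) * ei

/-- the homomorphism `GL ι F₀ → GL ι F` -/
noncomputable def rho (P : GL ι F) : GL ι F₀ →* GL ι F :=
  (MulAut.conj P).toMonoidHom.comp (Matrix.GeneralLinearGroup.map (F₀.subtype : F₀ →+* F))

lemma cov_mulVec (g : Matrix ι ι F₀) (u : ι → F₀) : cov (g *ᵥ u) = (g.map (F₀.subtype)) *ᵥ cov u := by
  ext i
  simp only [cov, Matrix.mulVec, dotProduct, Matrix.map_apply]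
  push_cast
  rfl

lemma rho_mulVec_emb (P : GL ι F) (g : GL ι F₀) (u : ι → F₀) :
    ((rho P g : GL ι F) : Matrix ι ι F) *ᵥ emb P u = emb P ((g : Matrix ι ι F₀) *ᵥ u) := by
  change ((P * (Matrix.GeneralLinearGroup.map (F₀.subtype : F₀ →+* F) g) * P⁻¹ : GL ι F) : Matrix ι ι F) *ᵥ emb P u = _
  rw [gl_mul_mulVec, gl_mul_mulVec, emb, gl_inv_mulVec_mulVec, emb, cov_mulVec]
  rfl

lemma rho_mem (P : GL ι F) (g : GL ι F₀) : rho P g ∈ Geo.subfieldSubgroup F₀ P := by
  refine ⟨Matrix.GeneralLinearGroup.map (F₀.subtype : F₀ →+* F) g, ?_, rfl⟩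
  exact Subgroup.mem_sup_left ⟨g, rfl⟩

lemma mem_subfield_iff (P g : GL ι F) : g ∈ Geo.subfieldSubgroup F₀ P ↔
    ∃ (g₀ : GL ι F₀) (c : F), c ≠ 0 ∧ ∀ u : ι → F₀, (g : Matrix ι ι F) *ᵥ emb P u = c • emb P ((g₀ : Matrix ι ι F₀) *ᵥ u) := by
  constructor
  · rintro ⟨x, hx, rfl⟩
    obtain ⟨y, ⟨g₀, rfl⟩, z, hz, rfl⟩ := (Subgroup.mem_sup_of_normal_right).mp hx
    rw [Geo.mem_scalars_iff] at hz
    obtain ⟨c, hc⟩ := hz
    refine ⟨g₀, c, c.ne_zero, fun u => ?_⟩
    have h1 : ((MulAut.conj P).toMonoidHom ((Matrix.GeneralLinearGroup.map (F₀.subtype : F₀ →+* F)) g₀ * z) : GL ι F) =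
      (P * (Matrix.GeneralLinearGroup.map (F₀.subtype : F₀ →+* F) g₀) * P⁻¹) * (P * z * P⁻¹) := by
      change P * _ * P⁻¹ = _
      group
    rw [h1, gl_mul_mulVec]
    have h2 : ((P * z * P⁻¹ : GL ι F) : Matrix ι ι F) *ᵥ emb P u = (c : F) • emb P u := by
      rw [gl_mul_mulVec, gl_mul_mulVec, hc, Matrix.smul_mulVec, Matrix.one_mulVec, Matrix.mulVec_smul,
        gl_mulVec_inv_mulVec]
    rw [h2, Matrix.mulVec_smul]
    congr 1
    exact rho_mulVec_emb P g₀ u
  · rintro ⟨g₀, c, hc, h⟩
    have h1 : g = rho P g₀ * (Units.map (Matrix.scalar ι : F →+* Matrix ι ι F).toMonoidHom (Units.mk0 c hc)) := by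
      apply gl_ext_emb (F₀ := F₀) P
      intro u
      rw [h u, gl_mul_mulVec]
      have h2 : ((Units.map (Matrix.scalar ι : F →+* Matrix ι ι F).toMonoidHom (Units.mk0 c hc) : GL ι F) : Matrix ι ι F) *ᵥ
          emb P u = c • emb P u := by
        simp [← Matrix.smul_one_eq_diagonal, Matrix.smul_mulVec]
      rw [h2, Matrix.mulVec_smul, rho_mulVec_emb]
    rw [h1]
    apply mul_mem (rho_mem P g₀)
    refine ⟨Units.map (Matrix.scalar ι : F →+* Matrix ι ι F).toMonoidHom (Units.mk0 c hc), ?_, ?_⟩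
    · exact Subgroup.mem_sup_right ⟨Units.mk0 c hc, rfl⟩
    · change P * _ * P⁻¹ = _
      apply gl_ext
      intro x
      rw [gl_mul_mulVec, gl_mul_mulVec]
      simp [← Matrix.smul_one_eq_diagonal, Matrix.smul_mulVec, Matrix.mulVec_smul, gl_mulVec_inv_mulVec]

/-- criterion: an element mapping rational vectors to multiples of rational vectors is in the subfield group -/
lemma mem_subfield_of_lines (P : GL ι F) {g : GL ι F}
    (h : ∀ u : ι → F₀, ∃ (c : F) (u' : ι → F₀), (g : Matrix ι ι F) *ᵥ emb P u = c • emb P u') :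
    g ∈ Geo.subfieldSubgroup F₀ P := by
  classical
  -- trivial case
  by_cases hι : IsEmpty ι
  · rw [mem_subfield_iff]
    refine ⟨1, 1, one_ne_zero, fun u => ?_⟩
    ext i
    exact hι.elim i
  rw [not_isEmpty_iff] at hι
  obtain ⟨i0⟩ := hι
  choose c u' hu' using h
  -- the reference scalar
  set e : ι → F₀ := Pi.single i0 1 with he
  have he0 : e ≠ 0 := by
    intro h; have := congrFun h i0; simp [he] at this
  have hne : ∀ u : ι → F₀, u ≠ 0 → (g : Matrix ι ι F) *ᵥ emb P u ≠ 0 := fun u hu =>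
    gl_mulVec_ne_zero g (fun h => hu ((emb_eq_zero P).mp h))
  have hc0 : ∀ u, u ≠ 0 → c u ≠ 0 := by
    intro u hu hcu
    apply hne u hu
    rw [hu', hcu, zero_smul]
  have hu'0 : ∀ u, u ≠ 0 → u' u ≠ 0 := by
    intro u hu hcu
    apply hne u hu
    rw [hu', hcu, emb_zero, smul_zero]
  set C := c e with hC
  have hC0 : C ≠ 0 := hc0 e he0
  -- independent vectors have rational ratio
  have hratio : ∀ u v, u ≠ 0 → v ∉ Submodule.span F₀ {u} → ∃ r : F₀, (r : F) = c v / c u := by
    intro u v hu hv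
    have hv0 : v ≠ 0 := by rintro rfl; exact hv (Submodule.zero_mem _)
    have huv0 : u + v ≠ 0 := by
      intro h0
      apply hv
      rw [eq_neg_of_add_eq_zero_right h0]
      exact Submodule.neg_mem _ (Submodule.mem_span_singleton_self u)
    have h1 : c u • emb P (u' u) + c v • emb P (u' v) = c (u + v) • emb P (u' (u + v)) := by
      rw [← hu', ← hu', ← hu', emb_add, Matrix.mulVec_add]
    have h2 : u' v ∉ Submodule.span F₀ {u' u} := by
      intro hm
      obtain ⟨r, hr⟩ := Submodule.mem_span_singleton.mp hm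
      have h3 : (g : Matrix ι ι F) *ᵥ emb P v = (g : Matrix ι ι F) *ᵥ ((c v * r / c u) • emb P u) := by
        rw [hu', Matrix.mulVec_smul, hu', ← hr, emb_smul, smul_smul, smul_smul]
        congr 1
        field_simp [hc0 u hu]
      have h4 : emb P v = (c v * r / c u) • emb P u := by
        rw [← gl_inv_mulVec_mulVec g (emb P v), h3, gl_inv_mulVec_mulVec]
      obtain ⟨s, hs⟩ := emb_smul_mem P hu h4
      apply hv
      rw [Submodule.mem_span_singleton]
      refine ⟨s, ?_⟩
      apply emb_inj P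
      rw [emb_smul, hs, h4]
    obtain ⟨a₀, b₀, ha, hb⟩ := emb_ratio P h2 (hu'0 u hu) (hc0 _ huv0) h1
    refine ⟨b₀ / a₀, ?_⟩
    push_cast
    rw [ha, hb]
    have := hc0 u hu
    have := hc0 _ huv0
    field_simp
  -- every image is C times a rational vector
  have hall : ∀ u : ι → F₀, ∃ w : ι → F₀, (g : Matrix ι ι F) *ᵥ emb P u = C • emb P w := by
    intro u
    by_cases hu : u ∈ Submodule.span F₀ {e}
    · obtain ⟨r, rfl⟩ := Submodule.mem_span_singleton.mp hu
      refine ⟨r • u' e, ?_⟩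
      rw [emb_smul, Matrix.mulVec_smul, hu', emb_smul, smul_smul, smul_smul, mul_comm]
    · obtain ⟨r, hr⟩ := hratio e u he0 hu
      refine ⟨r • u' u, ?_⟩
      rw [hu', emb_smul, smul_smul, hr, ← hC]
      congr 1
      field_simp
  choose w hw using hall
  -- the linear map over F₀
  let T : (ι → F₀) →ₗ[F₀] (ι → F₀) :=
    { toFun := w
      map_add' := by
        intro x y
        apply emb_inj P
        have h1 : C • emb P (w (x + y)) = C • emb P (w x + w y) := by
          rw [← hw, emb_add, emb_add, Matrix.mulVec_add, hw, hw, smul_add]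
        have h2 := congrArg (fun z => C⁻¹ • z) h1
        simpa [smul_smul, inv_mul_cancel₀ hC0] using h2
      map_smul' := by
        intro r x
        apply emb_inj P
        have h1 : C • emb P (w (r • x)) = C • emb P (r • w x) := by
          rw [← hw, emb_smul, emb_smul, Matrix.mulVec_smul, hw, smul_smul, smul_smul, mul_comm]
        have h2 := congrArg (fun z => C⁻¹ • z) h1
        simpa [smul_smul, inv_mul_cancel₀ hC0] using h2 }
  have hTinj : Function.Injective T := by
    rw [injective_iff_map_eq_zero]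
    intro x hx
    by_contra hx0
    apply hne x hx0
    rw [hw]
    have : w x = 0 := hx
    rw [this, emb_zero, smul_zero]
  let eT := LinearEquiv.ofInjectiveEndo T hTinj
  rw [mem_subfield_iff]
  refine ⟨⟨LinearMap.toMatrix' (eT : (ι → F₀) →ₗ[F₀] (ι → F₀)), LinearMap.toMatrix' (eT.symm : (ι → F₀) →ₗ[F₀] (ι → F₀)),
    by rw [← LinearMap.toMatrix'_comp]; simp, by rw [← LinearMap.toMatrix'_comp]; simp⟩, C, hC0, fun u => ?_⟩
  rw [hw]
  congr 2
  change w u = LinearMap.toMatrix' (eT : (ι → F₀) →ₗ[F₀] (ι → F₀)) *ᵥ u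
  rw [LinearMap.toMatrix'_mulVec]
  rfl

end Cfsg.Agent.H12
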