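import Mathlib
import Cfsg.Prelude.Def_GeometricClasses
import Cfsg.Agent.H12.Subfield

/-!
Subfields of index 2: `F = F₀ ⊕ F₀ λ`, the fixed field of the `q`-power map.
-/

set_option autoImplicit false
set_option linter.unusedSectionVars false

open scoped MatrixGroups Matrix

namespace Cfsg.Agent.H12

variable {ι : Type} [Fintype ι] [DecidableEq ι] {F : Type*} [Field F] [Fintype F] {F₀ : Subfield F}

lemma card_sub_eq {q : ℕ} (hF : Fintype.card F = q ^ 2) (hcard : Fintype.card F = Nat.card F₀ ^ 2) :
    Nat.card F₀ = q := by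
  have h : Nat.card F₀ ^ 2 = q ^ 2 := by rw [← hcard, hF]
  exact Nat.pow_left_injective (n := 2) (by norm_num) h

lemma sub_pow_q {q : ℕ} (hF : Fintype.card F = q ^ 2) (hcard : Fintype.card F = Nat.card F₀ ^ 2) (x : F₀) :
    (x : F) ^ q = x := by
  classical
  have h1 := card_sub_eq hF hcard
  haveI : Fintype F₀ := Fintype.ofFinite F₀
  have h2 : x ^ Fintype.card F₀ = x := FiniteField.pow_card x
  rw [← Nat.card_eq_fintype_card, h1] at h2
  have := congrArg Subtype.val h2
  simpa using this

lemma mem_sub_of_pow_q {q : ℕ} (hF : Fintype.card F = q ^ 2) (hcard : Fintype.card F = Nat.card F₀ ^ 2) {x : F}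
    (hx : x ^ q = x) : x ∈ F₀ := by
  classical
  have h1 := card_sub_eq hF hcard
  haveI : Fintype F₀ := Fintype.ofFinite F₀
  have hq1 : 1 < q := by
    rw [← h1, Nat.card_eq_fintype_card]
    exact Fintype.one_lt_card
  have hne : (Polynomial.X ^ q - Polynomial.X : Polynomial F) ≠ 0 := FiniteField.X_pow_card_sub_X_ne_zero F hq1
  set R := (Polynomial.X ^ q - Polynomial.X : Polynomial F).roots.toFinset with hR
  have h2 : Finset.image (Subtype.val : F₀ → F) Finset.univ ⊆ R := by
    intro y hy
    obtain ⟨z, -, rfl⟩ := Finset.mem_image.mp hy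
    rw [hR, Multiset.mem_toFinset, Polynomial.mem_roots hne]
    have := sub_pow_q hF hcard z
    simp [this]
  have h3 : R.card ≤ q := by
    rw [hR]
    have h6 := Multiset.toFinset_card_le (Polynomial.X ^ q - Polynomial.X : Polynomial F).roots
    have h7 := Polynomial.card_roots' (Polynomial.X ^ q - Polynomial.X : Polynomial F)
    rw [FiniteField.X_pow_card_sub_X_natDegree_eq F hq1] at h7
    omega
  have h4 : (Finset.image (Subtype.val : F₀ → F) Finset.univ).card = q := by
    rw [Finset.card_image_of_injective _ Subtype.val_injective, Finset.card_univ, ← Nat.card_eq_fintype_card, h1]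
  have h5 := Finset.eq_of_subset_of_card_le h2 (by rw [h4]; exact h3)
  have h6 : x ∈ R := by
    rw [hR, Multiset.mem_toFinset, Polynomial.mem_roots hne]
    simp [hx]
  rw [← h5] at h6
  obtain ⟨z, -, rfl⟩ := Finset.mem_image.mp h6
  exact z.2

/-- `F = F₀ ⊕ F₀ λ` -/
lemma exists_quad_gen (hcard : Fintype.card F = Nat.card F₀ ^ 2) :
    ∃ l : F, l ∉ F₀ ∧ ∀ x : F, ∃ a b : F₀, x = a + b * l := by
  classical
  haveI : Fintype F₀ := Fintype.ofFinite F₀
  have h0 : 1 < Nat.card F₀ := by
    rw [Nat.card_eq_fintype_card]; exact Fintype.one_lt_card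
  obtain ⟨l, hl⟩ : ∃ l : F, l ∉ F₀ := by
    by_contra hcon
    push Not at hcon
    have h1 : Function.Injective (fun x : F => (⟨x, hcon x⟩ : F₀)) := by
      intro x y h; exact congrArg Subtype.val h
    have h2 := Fintype.card_le_of_injective _ h1
    rw [hcard, ← Nat.card_eq_fintype_card] at h2
    nlinarith
  refine ⟨l, hl, ?_⟩
  let φ : F₀ × F₀ → F := fun p => p.1 + p.2 * l
  have hφ : Function.Injective φ := by
    rintro ⟨a, b⟩ ⟨c, d⟩ h
    have h1 : (a : F) + b * l = c + d * l := h
    by_cases hbd : b = d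
    · subst hbd
      have : (a : F) = c := by linear_combination h1
      rw [Subtype.ext this]
    · exfalso
      apply hl
      have h2 : (b : F) - d ≠ 0 := by
        intro h3; apply hbd; exact Subtype.ext (sub_eq_zero.mp h3)
      have h3 : l = ((c - a) / (b - d) : F₀) := by
        push_cast
        field_simp
        linear_combination h1
      rw [h3]; exact SetLike.coe_mem _
  have hcardeq : Fintype.card (F₀ × F₀) = Fintype.card F := by
    rw [Fintype.card_prod, hcard, Nat.card_eq_fintype_card]; ring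
  have hbij := (Fintype.bijective_iff_injective_and_card φ).mpr ⟨hφ, hcardeq⟩
  intro x
  obtain ⟨⟨a, b⟩, hab⟩ := hbij.2 x
  exact ⟨a, b, hab.symm⟩

/-- every vector is `emb x + λ emb y` -/
lemma exists_emb_add (P : GL ι F) {l : F} (hl : ∀ x : F, ∃ a b : F₀, x = a + b * l) (w : ι → F) :
    ∃ x y : ι → F₀, w = emb P x + l • emb P y := by
  obtain ⟨c, hc⟩ := exists_emb_comb (F₀ := F₀) P w
  choose a b hab using fun j => hl (c j)
  refine ⟨∑ j, a j • Pi.single j 1, ∑ j, b j • Pi.single j 1, ?_⟩
  rw [hc, emb_sum, emb_sum, Finset.smul_sum, ← Finset.sum_add_distrib]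
  apply Finset.sum_congr rfl
  intro j _
  rw [hab, emb_smul, emb_smul, smul_smul, ← add_smul, mul_comm l]

/-- if `y ∈ span {x}` then `emb x + λ emb y` is a multiple of a rational vector -/
lemma emb_add_of_dep (P : GL ι F) (l : F) {x y : ι → F₀} (h : x = 0 ∨ y ∈ Submodule.span F₀ {x}) :
    ∃ (c : F) (u : ι → F₀), emb P x + l • emb P y = c • emb P u := by
  rcases h with h | h
  · exact ⟨l, y, by rw [h, emb_zero, zero_add]⟩
  · obtain ⟨r, rfl⟩ := Submodule.mem_span_singleton.mp h
    exact ⟨1 + l * r, x, by rw [emb_smul, smul_smul, add_smul, one_smul]⟩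

/-- a combination of independent rational vectors is not a multiple of a rational vector -/
lemma emb_add_not_rational (P : GL ι F) {l : F} (hl : l ∉ F₀) {x y : ι → F₀} (hx : x ≠ 0)
    (hy : y ∉ Submodule.span F₀ {x}) (c : F) (u : ι → F₀) : emb P x + l • emb P y ≠ c • emb P u := by
  intro h
  by_cases hc : c = 0
  · rw [hc, zero_smul] at h
    -- emb x = -l emb y
    have h1 : emb P x = (-l) • emb P y := by
      rw [neg_smul]; exact eq_neg_of_add_eq_zero_left h
    have hy0 : y ≠ 0 := by rintro rfl; exact hy (Submodule.zero_mem _)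
    obtain ⟨c₀, hc₀⟩ := emb_smul_mem P hy0 h1
    apply hl
    have : l = -(c₀ : F) := by rw [hc₀, neg_neg]
    rw [this]; exact F₀.neg_mem c₀.2
  · have h1 : (1 : F) • emb P x + l • emb P y = c • emb P u := by rw [one_smul]; exact h
    obtain ⟨a₀, b₀, ha, hb⟩ := emb_ratio P hy hx hc h1
    apply hl
    have h2 : l = (b₀ : F) / a₀ := by
      rw [ha, hb]; field_simp
    rw [h2]; exact F₀.div_mem b₀.2 a₀.2

end Cfsg.Agent.H12
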