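import Mathlib
import Cfsg.Prelude.Def_GeometricClasses
import Cfsg.Agent.H12.HermStd
import Cfsg.Agent.H12.Perp

/-!
Unitary Siegel elements `x ↦ x + f(x,w) v - f(x,v) w + λ f(x,w) w`.
-/

set_option autoImplicit false
set_option linter.unusedSectionVars false

open scoped MatrixGroups Matrix

namespace Cfsg.Agent.H12

variable {ι : Type} [Fintype ι] [DecidableEq ι] {F : Type*} [Field F]
variable {σ : F ≃+* F} {f : (ι → F) → (ι → F) → F}

/-- unitary Siegel element `x ↦ x + f(x,w) v - f(x,v) w + λ f(x,w) w` -/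
noncomputable def usieg (f : (ι → F) → (ι → F) → F) (w v : ι → F) (l : F) : GL ι F :=
  tv w (-gvec f v + (l + f v v) • gvec f w) * tv v (gvec f w)

lemma usieg_sl (w v : ι → F) (l : F) : usieg f w v l ∈ Geo.specialLinear ι F := mul_mem (det_tv _ _) (det_tv _ _)

lemma usieg_mulVec (h : ReflForm σ 1 f) {w v : ι → F} (hw : f w w = 0) (hvw : f v w = 0) (l : F) (x : ι → F) :
    ((usieg f w v l : GL ι F) : Matrix ι ι F) *ᵥ x = x + f x w • v + (l * f x w - f x v) • w := by
  have hwv : f w v = 0 := h.symm_zero.mp hvw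
  have h1 : gvec f w ⬝ᵥ v = 0 := by rw [h.gvec_dot, hvw]
  have h2 : (-gvec f v + (l + f v v) • gvec f w) ⬝ᵥ w = 0 := by
    rw [add_dotProduct, neg_dotProduct, smul_dotProduct, h.gvec_dot, h.gvec_dot, hw, hwv]; simp
  rw [usieg, gl_mul_mulVec, tv_mulVec h1, tv_mulVec h2]
  rw [h.gvec_dot, add_dotProduct, neg_dotProduct, smul_dotProduct, h.gvec_dot, h.gvec_dot, h.add_left, h.add_left,
    h.smul_left, h.smul_left, hvw, smul_eq_mul]
  module

lemma usieg_isom (h : ReflForm σ 1 f) {w v : ι → F} (hw : f w w = 0) (hvw : f v w = 0) {l : F}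
    (hl : l + σ l + f v v = 0) : IsIsom f (usieg f w v l) := by
  have hwv : f w v = 0 := h.symm_zero.mp hvw
  intro x y
  rw [usieg_mulVec h hw hvw, usieg_mulVec h hw hvw]
  simp only [h.add_left, h.add_right, h.smul_left, h.smul_right, hw, hvw, hwv, map_sub, map_mul]
  rw [herm' h w y, herm' h v y]
  linear_combination (f x w * σ (f y w)) * hl

lemma conj_usieg (h : ReflForm σ 1 f) {g : GL ι F} (hg : IsIsom f g) {w v : ι → F} (hw : f w w = 0)
    (hvw : f v w = 0) (l : F) :
    g * usieg f w v l * g⁻¹ = usieg f ((g : Matrix ι ι F) *ᵥ w) ((g : Matrix ι ι F) *ᵥ v) l := by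
  apply gl_ext
  intro x
  have e1 : f (((g⁻¹ : GL ι F) : Matrix ι ι F) *ᵥ x) w = f x ((g : Matrix ι ι F) *ᵥ w) := by
    rw [← hg, gl_mulVec_inv_mulVec]
  have e2 : f (((g⁻¹ : GL ι F) : Matrix ι ι F) *ᵥ x) v = f x ((g : Matrix ι ι F) *ᵥ v) := by
    rw [← hg, gl_mulVec_inv_mulVec]
  rw [gl_mul_mulVec, gl_mul_mulVec, usieg_mulVec h hw hvw, usieg_mulVec h (by rw [hg]; exact hw)
    (by rw [hg]; exact hvw), Matrix.mulVec_add, Matrix.mulVec_add, gl_mulVec_inv_mulVec,
    Matrix.mulVec_smul, Matrix.mulVec_smul, e1, e2]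

/-- the commutator of two Siegel elements with the same `w` is a unitary transvection -/
lemma usieg_comm (h : ReflForm σ 1 f) {w v v' : ι → F} (hw : f w w = 0) (hvw : f v w = 0) (hvw' : f v' w = 0)
    (l l' : F) : usieg f w v l * usieg f w v' l' = utv f w (f v v' - f v' v) * (usieg f w v' l' * usieg f w v l) := by
  have hwv : f w v = 0 := h.symm_zero.mp hvw
  have hwv' : f w v' = 0 := h.symm_zero.mp hvw'
  apply gl_ext
  intro x
  rw [gl_mul_mulVec (utv f w _), gl_mul_mulVec, gl_mul_mulVec, utv_mulVec h hw]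
  simp only [usieg_mulVec h hw hvw, usieg_mulVec h hw hvw', h.add_left, h.smul_left, hw, hvw, hvw', hwv, hwv']
  module

end Cfsg.Agent.H12
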