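import Mathlib
import Cfsg.Prelude.Def_GeometricClasses
import Cfsg.Agent.H12.UniSieg

/-!
More on unitary Siegel elements: products, inverses, change of parameters; dilatations of a hyperbolic
plane; Hilbert 90 for an involutive field automorphism.
-/

set_option autoImplicit false
set_option linter.unusedSectionVars false

open scoped MatrixGroups Matrix

namespace Cfsg.Agent.H12

variable {ι : Type} [Fintype ι] [DecidableEq ι] {F : Type*} [Field F]
variable {σ : F ≃+* F} {f : (ι → F) → (ι → F) → F}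

lemma utv_mul (h : ReflForm σ 1 f) {w : ι → F} (hw : f w w = 0) (a b : F) :
    utv f w a * utv f w b = utv f w (a + b) := by
  apply gl_ext
  intro x
  rw [gl_mul_mulVec, utv_mulVec h hw, utv_mulVec h hw, utv_mulVec h hw, h.add_left, h.smul_left, hw]
  module

lemma utv_zero (h : ReflForm σ 1 f) {w : ι → F} (hw : f w w = 0) : utv f w 0 = 1 := by
  apply gl_ext
  intro x
  rw [utv_mulVec h hw]
  simp

lemma utv_inv (h : ReflForm σ 1 f) {w : ι → F} (hw : f w w = 0) (a : F) :
    (utv f w a)⁻¹ = utv f w (-a) := by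
  rw [inv_eq_iff_mul_eq_one, utv_mul h hw, add_neg_cancel, utv_zero h hw]

lemma usieg_mul (h : ReflForm σ 1 f) {w v v' : ι → F} (hw : f w w = 0) (hvw : f v w = 0) (hvw' : f v' w = 0)
    (l l' : F) : usieg f w v l * usieg f w v' l' = usieg f w (v + v') (l + l' - f v' v) := by
  have hvv : f (v + v') w = 0 := by rw [h.add_left, hvw, hvw', add_zero]
  have hwv : f w v = 0 := h.symm_zero.mp hvw
  apply gl_ext
  intro x
  rw [gl_mul_mulVec, usieg_mulVec h hw hvw', usieg_mulVec h hw hvw, usieg_mulVec h hw hvv]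
  simp only [h.add_left, h.add_right, h.smul_left, hw, hvw, hvw', hwv]
  module

lemma usieg_zero_vec (h : ReflForm σ 1 f) {w : ι → F} (hw : f w w = 0) (l : F) :
    usieg f w 0 l = utv f w l := by
  apply gl_ext
  intro x
  rw [usieg_mulVec h hw (h.zero_left w), utv_mulVec h hw, h.zero_right]
  module

lemma usieg_inv (h : ReflForm σ 1 f) {w v : ι → F} (hw : f w w = 0) (hvw : f v w = 0) (l : F) :
    (usieg f w v l)⁻¹ = usieg f w (-v) (-l - f v v) := by
  rw [inv_eq_iff_mul_eq_one, usieg_mul h hw hvw (by rw [h.neg_left, hvw, neg_zero]), add_neg_cancel, h.neg_left]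
  have : l + (-l - f v v) - -f v v = 0 := by ring
  rw [this, usieg_zero_vec h hw, utv_zero h hw]

lemma usieg_smul_left (h : ReflForm σ 1 f) {w v : ι → F} (hw : f w w = 0) (hvw : f v w = 0) (c l : F) :
    usieg f (c • w) v l = usieg f w (σ c • v) (l * (c * σ c)) := by
  apply gl_ext
  intro x
  rw [usieg_mulVec h (by rw [h.smul_left, h.smul_right, hw, mul_zero, mul_zero]) (by rw [h.smul_right, hvw, mul_zero]),
    usieg_mulVec h hw (by rw [h.smul_left, hvw, mul_zero]), h.smul_right, h.smul_right, h.inv]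
  module

lemma usieg_swap (h : ReflForm σ 1 f) {a b : ι → F} (ha : f a a = 0) (hb : f b b = 0) (hba : f b a = 0) :
    usieg f a b 0 = usieg f b (-a) 0 := by
  have hab : f a b = 0 := h.symm_zero.mp hba
  apply gl_ext
  intro x
  rw [usieg_mulVec h ha hba, usieg_mulVec h hb (by rw [h.neg_left, hab, neg_zero]), h.neg_right]
  module

lemma usieg_add_self (h : ReflForm σ 1 f) {w v : ι → F} (hw : f w w = 0) (hvw : f v w = 0) (c l : F) :
    usieg f w (v + c • w) l = usieg f w v (l + c - σ c) := by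
  apply gl_ext
  intro x
  rw [usieg_mulVec h hw (by rw [h.add_left, h.smul_left, hw, hvw, mul_zero, add_zero]), usieg_mulVec h hw hvw,
    h.add_right, h.smul_right]
  module

/-- dilatation `x ↦ x + (c-1) f(x,b) e + (σ(c)⁻¹-1) f(x,e) b` of the hyperbolic plane spanned by `e`, `b`
(junk value 1) -/
noncomputable def udil (σ : F ≃+* F) (f : (ι → F) → (ι → F) → F) (e b : ι → F) (c : F) : GL ι F :=
  open Classical in
  if h : (tvm e ((c - 1) • gvec f b) * tvm b (((σ c)⁻¹ - 1) • gvec f e)).det ≠ 0 then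
    Matrix.GeneralLinearGroup.mkOfDetNeZero _ h else 1

lemma det_udil_aux (h : ReflForm σ 1 f) {e b : ι → F} (heb : f e b = 1) (c : F) :
    (tvm e ((c - 1) • gvec f b) * tvm b (((σ c)⁻¹ - 1) • gvec f e)).det = c * (σ c)⁻¹ := by
  have hbe : f b e = 1 := by rw [herm' h, heb, map_one]
  rw [Matrix.det_mul, det_tvm, det_tvm, smul_dotProduct, smul_dotProduct, h.gvec_dot, h.gvec_dot, heb, hbe,
    smul_eq_mul, smul_eq_mul]
  ring

lemma det_udil (h : ReflForm σ 1 f) {e b : ι → F} (heb : f e b = 1) {c : F} (hc : c ≠ 0) :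
    ((udil σ f e b c : GL ι F) : Matrix ι ι F).det = c * (σ c)⁻¹ := by
  have h0 : c * (σ c)⁻¹ ≠ 0 := mul_ne_zero hc (inv_ne_zero ((map_ne_zero σ).mpr hc))
  have h1 : (tvm e ((c - 1) • gvec f b) * tvm b (((σ c)⁻¹ - 1) • gvec f e)).det ≠ 0 := by
    rw [det_udil_aux h heb]; exact h0
  rw [udil, dif_pos h1]
  exact det_udil_aux h heb c

lemma udil_mulVec (h : ReflForm σ 1 f) {e b : ι → F} (he : f e e = 0) (hb : f b b = 0) (heb : f e b = 1)
    {c : F} (hc : c ≠ 0) (x : ι → F) :
    ((udil σ f e b c : GL ι F) : Matrix ι ι F) *ᵥ x =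
      x + ((c - 1) * f x b) • e + (((σ c)⁻¹ - 1) * f x e) • b := by
  have h0 : c * (σ c)⁻¹ ≠ 0 := mul_ne_zero hc (inv_ne_zero ((map_ne_zero σ).mpr hc))
  have h1 : (tvm e ((c - 1) • gvec f b) * tvm b (((σ c)⁻¹ - 1) • gvec f e)).det ≠ 0 := by
    rw [det_udil_aux h heb]; exact h0
  rw [udil, dif_pos h1]
  change (tvm e ((c - 1) • gvec f b) * tvm b (((σ c)⁻¹ - 1) • gvec f e)) *ᵥ x = _
  rw [← Matrix.mulVec_mulVec, tvm_mulVec, tvm_mulVec, smul_dotProduct, smul_dotProduct, h.gvec_dot, h.gvec_dot,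
    h.add_left, h.smul_left, hb, smul_eq_mul, smul_eq_mul]
  module

lemma udil_isom (h : ReflForm σ 1 f) {e b : ι → F} (he : f e e = 0) (hb : f b b = 0) (heb : f e b = 1)
    {c : F} (hc : c ≠ 0) : IsIsom f (udil σ f e b c) := by
  have hbe : f b e = 1 := by rw [herm' h, heb, map_one]
  have hσc : σ c ≠ 0 := (map_ne_zero σ).mpr hc
  intro x y
  rw [udil_mulVec h he hb heb hc, udil_mulVec h he hb heb hc]
  simp only [h.add_left, h.add_right, h.smul_left, h.smul_right, he, hb, heb, hbe, map_sub, map_mul, map_one,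
    map_inv₀, h.inv]
  rw [herm' h e y, herm' h b y]
  field_simp
  ring

/-- Hilbert 90 for an involution -/
lemma hilbert90 (hσ : σ ≠ RingEquiv.refl F) (hinv : ∀ a, σ (σ a) = a) {μ : F} (hμ : μ * σ μ = 1) :
    ∃ c : F, c ≠ 0 ∧ μ * σ c = c := by
  by_cases h1 : μ = -1
  · obtain ⟨b, hb⟩ := exists_moved hσ
    refine ⟨b - σ b, fun h => hb (sub_eq_zero.mp h).symm, ?_⟩
    rw [map_sub, hinv, h1]; ring
  · refine ⟨1 + μ, fun h => h1 (by linear_combination h), ?_⟩
    rw [map_add, map_one]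
    linear_combination hμ

end Cfsg.Agent.H12
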