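import Mathlib
import Cfsg.Prelude.Def_GeometricClasses
import Cfsg.Agent.H12.UniSieg2
import Cfsg.Agent.H12.SubfieldQuad

/-!
Non-degenerate symmetric bilinear forms over finite fields of odd order: values and singular vectors
orthogonal to a small set.  Also the product of four unitary transvections.
-/

set_option autoImplicit false
set_option linter.unusedSectionVars false

open scoped MatrixGroups Matrix

namespace Cfsg.Agent.H12

variable {ι : Type} [Fintype ι] [DecidableEq ι]

section sym

variable {K : Type*} [Field K] {b : (ι → K) → (ι → K) → K}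

lemma sym_comm (h : ReflForm (RingEquiv.refl K) 1 b) (x y : ι → K) : b x y = b y x := by
  have := h.herm x y
  rwa [one_mul] at this

lemma sym_add_self (h : ReflForm (RingEquiv.refl K) 1 b) (x y : ι → K) :
    b (x + y) (x + y) = b x x + 2 * b x y + b y y := by
  rw [h.add_left, h.add_right, h.add_right, sym_comm h y x]; ring

lemma sym_smul_right (h : ReflForm (RingEquiv.refl K) 1 b) (c : K) (x y : ι → K) :
    b x (c • y) = c * b x y := h.smul_right c x y

lemma sym_exists_perp_ne (h : ReflForm (RingEquiv.refl K) 1 b) (h2 : (2 : K) ≠ 0) (s : Finset (ι → K))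
    (hs : 2 * s.card < Fintype.card ι) : ∃ z ∈ h.perp s, b z z ≠ 0 := by
  classical
  by_contra hcon
  push Not at hcon
  have hti : ∀ x ∈ h.perp s, ∀ y ∈ h.perp s, b x y = 0 := by
    intro x hx y hy
    have h1 := hcon _ ((h.perp s).add_mem hx hy)
    rw [sym_add_self h, hcon x hx, hcon y hy, add_zero, zero_add] at h1
    exact (mul_eq_zero.mp h1).resolve_left h2
  have hle : h.perp s ≤ Submodule.span K (s : Set (ι → K)) := by
    intro x hx
    exact h.mem_span_of_perp s (fun y hy => hti y hy x hx)
  have h1 := Submodule.finrank_mono hle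
  have h3 := h.finrank_perp s
  have h4 := finrank_span_finset_le_card (R := K) s
  rw [Set.finrank] at h4
  omega

lemma two_ne_zero_of_odd_card [Fintype K] (hodd : Odd (Fintype.card K)) : (2 : K) ≠ 0 := by
  intro h7
  have : ringChar K = 2 := by
    apply CharP.ringChar_of_prime_eq_zero Nat.prime_two
    exact_mod_cast h7
  have h8 := FiniteField.even_card_of_char_two this
  rw [Nat.odd_iff] at hodd
  omega

lemma sum_two_sq [Fintype K] (hodd : Odd (Fintype.card K)) {α β : K} (hα : α ≠ 0) (hβ : β ≠ 0) (c : K) :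
    ∃ p q : K, p ^ 2 * α + q ^ 2 * β = c := by
  obtain ⟨p, q, hpq⟩ := FiniteField.exists_root_sum_quadratic
    (f := Polynomial.C α * Polynomial.X ^ 2) (g := Polynomial.C β * Polynomial.X ^ 2 + Polynomial.C (-c))
    (by rw [Polynomial.degree_C_mul hα, Polynomial.degree_X_pow]; rfl)
    (by
      rw [Polynomial.degree_add_C]
      · rw [Polynomial.degree_C_mul hβ, Polynomial.degree_X_pow]; rfl
      · rw [Polynomial.degree_C_mul hβ, Polynomial.degree_X_pow]; norm_num)
    (Nat.odd_iff.mp hodd)
  simp only [Polynomial.eval_add, Polynomial.eval_mul, Polynomial.eval_C, Polynomial.eval_pow, Polynomial.eval_X] at hpq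
  exact ⟨p, q, by linear_combination hpq⟩

lemma sym_exists_perp_eq [Fintype K] (h : ReflForm (RingEquiv.refl K) 1 b) (hodd : Odd (Fintype.card K))
    (s : Finset (ι → K)) (hs : 2 * (s.card + 1) < Fintype.card ι) (c : K) : ∃ z ∈ h.perp s, b z z = c := by
  classical
  have h2 := two_ne_zero_of_odd_card hodd
  obtain ⟨z1, hz1, hz1b⟩ := sym_exists_perp_ne h h2 s (by omega)
  obtain ⟨z2, hz2, hz2b⟩ := sym_exists_perp_ne h h2 (insert z1 s) (by
    have := Finset.card_insert_le z1 s
    omega)
  have hz21 : b z2 z1 = 0 := hz2 z1 (by simp)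
  have hz2s : z2 ∈ h.perp s := fun a ha => hz2 a (by simp [ha])
  obtain ⟨p, q, hpq⟩ := sum_two_sq hodd hz1b hz2b c
  refine ⟨p • z1 + q • z2, (h.perp s).add_mem ((h.perp s).smul_mem _ hz1) ((h.perp s).smul_mem _ hz2s), ?_⟩
  rw [sym_add_self h, h.smul_left, sym_smul_right h, h.smul_left, sym_smul_right h, h.smul_left, sym_smul_right h,
    sym_comm h z1 z2, hz21]
  linear_combination hpq

lemma sym_exists_sing_perp [Fintype K] (h : ReflForm (RingEquiv.refl K) 1 b) (hodd : Odd (Fintype.card K))
    (s : Finset (ι → K)) (hs : 2 * (s.card + 2) < Fintype.card ι) :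
    ∃ a ∈ h.perp s, b a a = 0 ∧ a ∉ Submodule.span K (s : Set (ι → K)) := by
  classical
  have h2 := two_ne_zero_of_odd_card hodd
  obtain ⟨z1, hz1, hz1b⟩ := sym_exists_perp_ne h h2 s (by omega)
  obtain ⟨z2, hz2, hz2b⟩ := sym_exists_perp_eq h hodd (insert z1 s) (by
    have := Finset.card_insert_le z1 s
    omega) (-(b z1 z1))
  have hz21 : b z2 z1 = 0 := hz2 z1 (by simp)
  have hz2s : z2 ∈ h.perp s := fun a ha => hz2 a (by simp [ha])
  refine ⟨z1 + z2, (h.perp s).add_mem hz1 hz2s, ?_, ?_⟩
  · rw [sym_add_self h, sym_comm h z1 z2, hz21, hz2b]; ring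
  · intro hm
    have hperp : ∀ x ∈ Submodule.span K (s : Set (ι → K)), b x z1 = 0 := by
      intro x hx
      induction hx using Submodule.span_induction with
      | mem x hx => rw [sym_comm h]; exact hz1 x hx
      | zero => exact h.zero_left z1
      | add x y _ _ hx hy => rw [h.add_left, hx, hy, add_zero]
      | smul c x _ hx => rw [h.smul_left, hx, mul_zero]
    have h3 := hperp _ hm
    rw [h.add_left, hz21, add_zero] at h3
    exact hz1b h3

end sym

section uni

variable {F : Type*} [Field F] {σ : F ≃+* F} {f : (ι → F) → (ι → F) → F}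

lemma iso_sub_smul (h : ReflForm σ 1 f) {w a : ι → F} (hww : f w w = 0) (haa : f a a = 0) (hwa : f w a = 0) (γ : F) :
    f (w - γ • a) (w - γ • a) = 0 := by
  rw [h.sub_left, h.sub_right, h.sub_right, h.smul_left, h.smul_left, h.smul_right, h.smul_right, hww, hwa,
    h.symm_zero.mp hwa, haa]
  simp

lemma utv_four (h : ReflForm σ 1 f) {w a : ι → F} (hww : f w w = 0) (haa : f a a = 0) (hwa : f w a = 0)
    (c γ γ' : F) : utv f (w - γ • a) c * (utv f (w - γ' • a) c *
      ((utv f (w - (γ + γ') • a) c)⁻¹ * (utv f w c)⁻¹)) = utv f a (-(c * (γ * σ γ' + γ' * σ γ))) := by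
  have f1 := iso_sub_smul h hww haa hwa γ
  have f2 := iso_sub_smul h hww haa hwa γ'
  have f3 := iso_sub_smul h hww haa hwa (γ + γ')
  have haw := h.symm_zero.mp hwa
  rw [utv_inv h f3, utv_inv h hww]
  apply gl_ext
  intro x
  rw [gl_mul_mulVec, gl_mul_mulVec, gl_mul_mulVec, utv_mulVec h haa, utv_mulVec h hww, utv_mulVec h f1,
    utv_mulVec h f2, utv_mulVec h f3]
  simp only [h.add_left, h.sub_left, h.sub_right, h.smul_right, h.smul_left, hww, haa, hwa, haw, map_add]
  module

end uni

end Cfsg.Agent.H12
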