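import Mathlib
import Cfsg.Prelude.Def_GeometricClasses
import Cfsg.Agent.H12.OmDec4
import Cfsg.Agent.H12.SymRep

/-!
Stabilisers of orthogonal decompositions: ternary blocks, the anisotropic case.
-/

set_option autoImplicit false
set_option linter.unusedSectionVars false

namespace Cfsg.Agent.H12

open Matrix Cfsg Cfsg.Agent.H5

section zeta

variable {F V : Type*} [Field F] [Fintype F] [AddCommGroup V] [Module F V] [FiniteDimensional F V] {Q : QuadraticForm F V}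
  {M : Subgroup (OG Q)}

/-- all directions in the anisotropic plane -/
lemma plane_all (h2 : (2 : F) ≠ 0) {a0 : F} (ha0 : a0 ≠ 0) (ha02 : a0 * a0 ≠ 1) {W : Submodule F V}
    (hrefl : ∀ p ∈ W, ∀ q ∈ W, ∀ (hp : Q p ≠ 0) (hq : Q q ≠ 0), Q p = Q q → refl hp * refl hq ∈ M)
    {u w ω b1 : V} (hinm : ∀ l : F, InM M u (l • w)) (hωW : ω ∈ W) (hb1W : b1 ∈ W)
    (huω : pB Q u ω = 0) (hub : pB Q u b1 = 0) (hωb : pB Q ω b1 = 0) (hqω : Q ω ≠ 0) (hqb : Q b1 ≠ 0)
    (hani : ∀ s t : F, Q (s • ω + t • b1) = 0 → s = 0 ∧ t = 0) (hwb : pB Q w b1 = 0) (hwω : pB Q w ω ≠ 0) :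
    ∀ s t : F, InM M u (s • ω + t • b1) := by
  have hbω : pB Q b1 ω = 0 := by rw [pB_symm, hωb]
  have hqc : ∀ θ : F, Q (b1 + θ • ω) = Q b1 + θ * θ * Q ω := by
    intro θ; rw [q_add, q_smul, pr_smul, hbω]; ring
  have hc0 : ∀ θ : F, Q (b1 + θ • ω) ≠ 0 := by
    intro θ h0
    have h1 := hani θ 1 (by rw [one_smul, add_comm]; exact h0)
    exact one_ne_zero h1.2
  -- the vectors
  have ha : ∀ θ : F, refl (hc0 θ) b1 = (1 - (Q (b1 + θ • ω))⁻¹ * (2 * Q b1)) • b1 -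
      ((Q (b1 + θ • ω))⁻¹ * (2 * Q b1) * θ) • ω := by
    intro θ
    rw [refl_apply, pl_add, pl_smul, hωb, pB_self]
    module
  have key : ∀ θ : F, θ ≠ 0 → ∀ μ : F, InM M u (μ • refl (hc0 θ) b1) := by
    intro θ hθ μ
    have hq : Q (refl (hc0 θ) b1) = Q b1 := og_q _ _
    have hq0 : Q (refl (hc0 θ) b1) ≠ 0 := by rw [hq]; exact hqb
    have haW : refl (hc0 θ) b1 ∈ W := by
      rw [ha]; exact W.sub_mem (W.smul_mem _ hb1W) (W.smul_mem _ hωW)
    have hm := hrefl _ haW _ hb1W hq0 hqb hq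
    have hau : pB Q (refl (hc0 θ) b1) u = 0 := by
      rw [pB_symm, ha, pr_sub, pr_smul, pr_smul, hub, huω]; ring
    have haw : pB Q (refl (hc0 θ) b1) w = -((Q (b1 + θ • ω))⁻¹ * (2 * Q b1) * θ * pB Q w ω) := by
      rw [pB_symm, ha, pr_sub, pr_smul, pr_smul, hwb]; ring
    have haw0 : pB Q (refl (hc0 θ) b1) w ≠ 0 := by
      rw [haw]
      exact neg_ne_zero.2 (mul_ne_zero (mul_ne_zero (mul_ne_zero (inv_ne_zero (hc0 θ)) (mul_ne_zero h2 hqb)) hθ) hwω)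
    set l : F := -(μ * Q b1 * (pB Q (refl (hc0 θ) b1) w)⁻¹) with hl
    have h1 := (hinm l).conj hm
    have e1 : (refl hq0 * refl hqb : OG Q) u = u := by
      rw [og_mul, refl_fix hqb (by rw [pB_symm, hub]), refl_fix hq0 hau]
    have e2 : (refl hq0 * refl hqb : OG Q) (l • w) = l • w + μ • refl (hc0 θ) b1 := by
      rw [og_mul, refl_fix hqb (by rw [pr_smul, pB_symm, hwb, mul_zero]), refl_apply, pr_smul, hq]
      have e3 : (Q b1)⁻¹ * (l * pB Q (refl (hc0 θ) b1) w) = -μ := by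
        rw [hl]; field_simp
      rw [e3]; module
    rw [e1, e2] at h1
    exact (h1.sub (hinm l)).congr (by abel)
  obtain ⟨θ, hθ, hθ2⟩ : ∃ θ : F, θ ≠ 0 ∧ θ * θ * Q ω ≠ Q b1 := by
    by_cases h1 : Q ω = Q b1
    · refine ⟨a0, ha0, fun h3 => ha02 ?_⟩
      rw [h1] at h3
      exact mul_right_cancel₀ hqb (by rw [h3, one_mul])
    · exact ⟨1, one_ne_zero, by rw [one_mul, one_mul]; exact h1⟩
  have hqm : Q (b1 + (-θ) • ω) = Q (b1 + θ • ω) := by rw [hqc, hqc]; ring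
  have hsame := ha (-θ)
  rw [hqm] at hsame
  set q := Q (b1 + θ • ω) with hq
  have hq0 : q ≠ 0 := hc0 θ
  have hω : ∀ s : F, InM M u (s • ω) := by
    intro s
    have k1 := key θ hθ (-(s * q) / (2 * (2 * Q b1) * θ))
    have k2 := key (-θ) (neg_ne_zero.2 hθ) (-(s * q) / (2 * (2 * Q b1) * θ))
    refine (k1.sub k2).congr ?_
    rw [hsame, ha, ← smul_sub]
    have e1 : (1 - q⁻¹ * (2 * Q b1)) • b1 - (q⁻¹ * (2 * Q b1) * θ) • ω - ((1 - q⁻¹ * (2 * Q b1)) • b1 -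
        (q⁻¹ * (2 * Q b1) * -θ) • ω) = (-(2 * (q⁻¹ * (2 * Q b1) * θ))) • ω := by module
    rw [e1, smul_smul]
    congr 1
    field_simp
  have hb : ∀ s : F, InM M u (s • b1) := by
    intro s
    have hne : 1 - q⁻¹ * (2 * Q b1) ≠ 0 := by
      intro h0
      apply hθ2
      have h3 : q = 2 * Q b1 := by
        field_simp at h0
        linear_combination h0
      rw [hqc] at hq
      linear_combination h3 - hq
    have k1 := key θ hθ (s * (1 - q⁻¹ * (2 * Q b1))⁻¹)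
    have k2 := (k1.add (hω (s * (1 - q⁻¹ * (2 * Q b1))⁻¹ * (q⁻¹ * (2 * Q b1) * θ))))
    refine k2.congr ?_
    rw [ha, smul_sub, smul_smul, smul_smul, mul_assoc, inv_mul_cancel₀ hne, mul_one]
    module
  intro s t
  exact (hω s).add (hb t)

/-- the final step of the anisotropic case -/
lemma zeta (h2 : (2 : F) ≠ 0) (hodd : Odd (Fintype.card F)) {W : Submodule F V} (hW : Cl M W) {u a ω b1 : V}
    (hqu : Q u = 0) (huW : u ∉ W) (haW : a ∈ W) (hωW : ω ∈ W) (hb1W : b1 ∈ W) (hua : ∀ v ∈ W, pB Q u v = pB Q a v)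
    (haω : pB Q a ω = 0) (hab : pB Q a b1 = 0) (hωb : pB Q ω b1 = 0) (hqa : Q a ≠ 0) (hqω : Q ω ≠ 0) (hqb : Q b1 ≠ 0)
    (hani : ∀ s t : F, Q (s • ω + t • b1) = 0 → s = 0 ∧ t = 0) (hall : ∀ s t : F, InM M u (s • ω + t • b1)) :
    ∃ x ∈ W, x ≠ 0 ∧ ∃ z, z ∉ W ∧ InM M x z := by
  set κ := Q a with hκ
  set δ := -(Q ω * Q b1) with hδ
  have hδns : ∀ s : F, s * s ≠ δ := by
    intro s hs
    have h1 := hani (s * (Q ω)⁻¹) 1 (by
      rw [q_add, q_smul, q_smul, pl_smul, pr_smul, hωb, one_mul, one_mul]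
      have : s * (Q ω)⁻¹ * (s * (Q ω)⁻¹) * Q ω = (s * s) * (Q ω)⁻¹ := by field_simp
      rw [this, hs, hδ]
      field_simp
      ring)
    exact one_ne_zero h1.2
  have hδ0 : δ ≠ 0 := neg_ne_zero.2 (mul_ne_zero hqω hqb)
  have hδ1 : δ - 1 ≠ 0 := by
    intro h0
    apply hδns 1
    linear_combination -h0
  set ζ := (κ * (δ - 1))⁻¹ with hζ
  have hζ0 : ζ ≠ 0 := inv_ne_zero (mul_ne_zero hqa hδ1)
  have hκζ : κ * ζ * (δ - 1) = 1 := by
    rw [hζ, mul_assoc, inv_mul_eq_div, mul_div_assoc']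
    exact div_self (mul_ne_zero hqa hδ1)
  obtain ⟨p, q, hpq⟩ := sum_two_sq hodd hqω hqb ζ
  set z := p • ω + q • b1 with hz
  set z' := (q * Q b1) • ω - (p * Q ω) • b1 with hz'
  have hzW : z ∈ W := W.add_mem (W.smul_mem _ hωW) (W.smul_mem _ hb1W)
  have hz'W : z' ∈ W := W.sub_mem (W.smul_mem _ hωW) (W.smul_mem _ hb1W)
  have hbω : pB Q b1 ω = 0 := by rw [pB_symm, hωb]
  have hqz : Q z = ζ := by
    rw [hz, q_add, q_smul, q_smul, pl_smul, pr_smul, hωb]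
    linear_combination hpq
  have hqz' : Q z' = -δ * ζ := by
    rw [hz', q_sub, q_smul, q_smul, pl_smul, pr_smul, hωb, hδ]
    linear_combination (Q ω * Q b1) * hpq
  have hzz' : pB Q z z' = 0 := by
    rw [hz, hz', pl_add, pr_sub, pr_sub, pl_smul, pl_smul, pl_smul, pl_smul, pr_smul, pr_smul, pr_smul, pr_smul, hωb, hbω,
      pB_self, pB_self]
    ring
  have haz : pB Q a z = 0 := by rw [hz, pr_add, pr_smul, pr_smul, haω, hab]; ring
  have haz' : pB Q a z' = 0 := by rw [hz', pr_sub, pr_smul, pr_smul, haω, hab]; ring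
  have hza : pB Q z a = 0 := by rw [pB_symm, haz]
  have hz'a : pB Q z' a = 0 := by rw [pB_symm, haz']
  have hz'z : pB Q z' z = 0 := by rw [pB_symm, hzz']
  have hInM : InM M u z := hall p q
  clear_value z z'
  set σ := δ / (δ - 1) with hσ
  have hσ' : σ * (δ - 1) = δ := by rw [hσ]; field_simp
  set x := (-δ * ζ) • (a - κ • z) + σ • z' with hx
  have hxW : x ∈ W := W.add_mem (W.smul_mem _ (W.sub_mem haW (W.smul_mem _ hzW))) (W.smul_mem _ hz'W)
  set n := z + ζ • a with hn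
  have hnW : n ∈ W := W.add_mem hzW (W.smul_mem _ haW)
  have hqa' : Q (a - κ • z) = κ + κ * κ * ζ := by
    rw [q_sub, q_smul, pr_smul, haz, hqz, ← hκ]; ring
  have hκσ : 1 + κ * ζ = σ := by
    apply mul_right_cancel₀ hδ1
    rw [hσ']
    linear_combination hκζ
  have hqx : Q x = 0 := by
    have e1 : pB Q (a - κ • z) z' = 0 := by rw [pl_sub, pl_smul, haz', hzz']; ring
    rw [hx, q_add, q_smul, q_smul, hqa', hqz', pl_smul, pr_smul, e1]
    have e2 : κ + κ * κ * ζ = κ * σ := by rw [← hκσ]; ring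
    rw [e2]
    have e3 : κ * ζ * δ = σ := by
      linear_combination hκζ + hκσ
    have : -δ * ζ * (-δ * ζ) * (κ * σ) + σ * σ * (-δ * ζ) + -δ * ζ * (σ * 0) = δ * ζ * σ * (κ * ζ * δ - σ) := by ring
    rw [this, e3, sub_self, mul_zero]
  have hnx : pB Q n x = 0 := by
    rw [hx, hn, pl_add, pl_smul, pr_add, pr_add, pr_smul, pr_smul, pr_smul, pr_smul, pr_sub, pr_sub, pr_smul, pr_smul,
      hza, haz, hzz', haz', pB_self, pB_self, hqz, ← hκ]
    ring
  have hqn : Q n = ζ * σ := by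
    rw [hn, q_add, q_smul, pr_smul, hza, hqz, ← hκ, ← hκσ]; ring
  have hσ0 : σ ≠ 0 := div_ne_zero hδ0 hδ1
  have hqn0 : Q n ≠ 0 := by rw [hqn]; exact mul_ne_zero hζ0 hσ0
  -- the element
  obtain ⟨q1, p1, m1⟩ := hInM
  have hact : ∀ v ∈ W, eich q1 p1 v = v + pB Q a v • z - pB Q n v • u := by
    intro v hv
    rw [eich_apply, hua v hv, hqz, hn, pl_add, pl_smul]
    module
  have hx1 : eich q1 p1 x ∈ W := by
    rw [hact x hxW, hnx, zero_smul, sub_zero]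
    exact W.add_mem hxW (W.smul_mem _ hzW)
  have hn1 : eich q1 p1 n ∉ W := by
    rw [hact n hnW, pB_self]
    intro h0
    have h3 : (2 * Q n) • u ∈ W := by
      have h4 := W.sub_mem (W.add_mem hnW (W.smul_mem (pB Q a n) hzW)) h0
      rwa [sub_sub_cancel] at h4
    have h5 := W.smul_mem (2 * Q n)⁻¹ h3
    rw [smul_smul, inv_mul_cancel₀ (mul_ne_zero h2 hqn0), one_smul] at h5
    exact huW h5
  have hx0 : x ≠ 0 := by
    intro h0
    have h3 : pB Q x a = -δ * ζ * (2 * κ) := by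
      rw [hx, pl_add, pl_smul, pl_smul, pl_sub, pl_smul, hza, hz'a, pB_self, ← hκ]; ring
    rw [h0, map_zero, LinearMap.zero_apply] at h3
    exact mul_ne_zero (mul_ne_zero (neg_ne_zero.2 hδ0) hζ0) (mul_ne_zero h2 hqa) h3.symm
  refine ⟨_, hx1, ?_, _, hn1, (hW.inm x hxW hqx n hnW (by rw [pB_symm, hnx])).conj m1⟩
  intro h0
  apply hx0
  rw [← og_inv (eich q1 p1) x, h0, og_zero]

end zeta

end Cfsg.Agent.H12
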