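import Mathlib
import Cfsg.Prelude.Def_GeometricClasses
import Cfsg.Agent.H12.OmDec5

/-!
Stabilisers of orthogonal decompositions: ternary blocks.
-/

set_option autoImplicit false
set_option linter.unusedSectionVars false

namespace Cfsg.Agent.H12

open Matrix Cfsg Cfsg.Agent.H5

section three

variable {F V : Type*} [Field F] [Fintype F] [AddCommGroup V] [Module F V] [FiniteDimensional F V] {Q : QuadraticForm F V}
  {M : Subgroup (OG Q)} {t : ℕ} {D : Fin t → Submodule F V}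

/-- the orthogonal space of a singular vector in a ternary space -/
lemma perp3 {W : Submodule F V} (hW : NDS Q W) (hk : Module.finrank F W = 3) {p r : V} (hp : p ∈ W) (hqp : Q p = 0)
    (hp0 : p ≠ 0) (hr : r ∈ W) (hpr : pB Q p r = 0) (hqr : Q r ≠ 0) {y : V} (hy : y ∈ W) (hpy : pB Q p y = 0) :
    ∃ c c' : F, y = c • p + c' • r := by
  have hli : LinearIndependent F ![p, r] := by
    rw [LinearIndependent.pair_iff' hp0]
    intro a ha
    apply hqr
    rw [← ha, q_smul, hqp, mul_zero]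
  have h1 : Submodule.span F {p, r} ≤ W ⊓ oc Q (Submodule.span F {p}) := by
    rw [Submodule.span_le]
    intro x hx
    rw [Set.mem_insert_iff, Set.mem_singleton_iff] at hx
    rcases hx with rfl | rfl
    · refine ⟨hp, ?_⟩
      rw [SetLike.mem_coe, mem_oc]
      intro n hn
      obtain ⟨c, rfl⟩ := Submodule.mem_span_singleton.1 hn
      rw [pl_smul, pB_self, hqp]; ring
    · refine ⟨hr, ?_⟩
      rw [SetLike.mem_coe, mem_oc]
      intro n hn
      obtain ⟨c, rfl⟩ := Submodule.mem_span_singleton.1 hn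
      rw [pl_smul, hpr, mul_zero]
  have hlt : W ⊓ oc Q (Submodule.span F {p}) < W := by
    refine lt_of_le_of_ne inf_le_left (fun heq => hp0 ?_)
    apply hW p hp
    intro y hy
    rw [← heq] at hy
    exact (mem_oc.1 hy.2) p (Submodule.mem_span_singleton_self p)
  have h2 := Submodule.finrank_lt_finrank_of_lt hlt
  have h3 := finrank_pair hli
  have h4 : Submodule.span F {p, r} = W ⊓ oc Q (Submodule.span F {p}) :=
    Submodule.eq_of_le_of_finrank_le h1 (by omega)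
  have hy' : y ∈ Submodule.span F {p, r} := by
    rw [h4]
    refine ⟨hy, ?_⟩
    rw [SetLike.mem_coe, mem_oc]
    intro n hn
    obtain ⟨c, rfl⟩ := Submodule.mem_span_singleton.1 hn
    rw [pl_smul, hpy, mul_zero]
  obtain ⟨c, c', h⟩ := Submodule.mem_span_pair.1 hy'
  exact ⟨c, c', h.symm⟩

/-- (a) -/
lemma DecS.k3a (S : DecS D M) (hk : ∀ i, Module.finrank F (D i) = 3) {a0 : F} (ha0 : a0 ≠ 0) (ha02 : a0 * a0 ≠ 1)
    (hnot : ¬ EG Q ≤ M) {E : Submodule F V} (hE : Cl M E) (hE3 : Module.finrank F E = 3) {u : V} (hu : u ∈ E)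
    (hqu : Q u = 0) {l : Fin t} (hul : u ∉ D l) {x : V} (hx : x ∈ D l) (hqx : Q x = 0) (hx0 : x ≠ 0)
    (hxu : pB Q x u = 0) {y : V} (hy : y ∈ D l) (hxy : pB Q x y = 0) {w : V} (hw : w ∈ E) (huw : pB Q u w = 0) :
    pB Q y u = 0 ∧ pB Q w x = 0 ∧ pB Q y w = 0 := by
  have hu0 : u ≠ 0 := by
    rintro rfl
    exact hul (D l).zero_mem
  have hcon : ∀ c : F, c ≠ 0 → ¬ InM M x (c • u) := by
    intro c hc h
    apply hnot
    refine S.win hx hx0 (z := c • u) ?_ h
    intro hcu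
    apply hul
    have := (D l).smul_mem c⁻¹ hcu
    rwa [smul_smul, inv_mul_cancel₀ hc, one_smul] at this
  obtain ⟨y0, hy0, hxy0, hqy0⟩ := fact2W (S.cl l).nds (S.dim l) hx hqx hx0
  obtain ⟨w0, hw0, huw0, hqw0⟩ := fact2W hE.nds (by rw [hE3]) hu hqu hu0
  have hα : pB Q w0 x = 0 := by
    by_contra hα
    by_cases hβ : pB Q y0 u = 0
    · obtain ⟨c, hc, h⟩ := lem1A' S.h2 (S.cl l) hE hx hqx hu hqu hxu hy0 hxy0 hβ hw0 huw0 hα hqy0
      exact hcon c hc h
    · obtain ⟨c, hc, h⟩ := lem1W (S.cl l) hE hx hqx hu hqu hxu hy0 hxy0 hβ hw0 huw0 hα hqw0 ha0 ha02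
      exact hcon c hc h
  have hβ : pB Q y0 u = 0 := by
    by_contra hβ
    obtain ⟨c, hc, h⟩ := lem1A S.h2 (S.cl l) hE hx hqx hu hqu hxu hy0 hxy0 hβ hw0 huw0 hα hqw0
    exact hcon c hc h
  have hγ : pB Q y0 w0 = 0 := by
    by_contra hγ
    obtain ⟨c, hc, h⟩ := lem1D (S.cl l) hE hx hqx hu hqu hxu hy0 hxy0 hβ hw0 huw0 hα hγ
    exact hcon c hc h
  obtain ⟨c1, c2, rfl⟩ := perp3 (S.cl l).nds (hk l) hx hqx hx0 hy0 hxy0 hqy0 hy hxy
  obtain ⟨d1, d2, rfl⟩ := perp3 hE.nds hE3 hu hqu hu0 hw0 huw0 hqw0 hw huw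
  refine ⟨?_, ?_, ?_⟩
  · rw [pl_add, pl_smul, pl_smul, hxu, hβ]; ring
  · rw [pl_add, pl_smul, pl_smul, hα, pB_symm Q u x, hxu]; ring
  · rw [pl_add, pr_add, pr_add, pl_smul, pl_smul, pl_smul, pl_smul, pr_smul, pr_smul, pr_smul, pr_smul, hxu, hβ, hγ,
      pB_symm Q x w0, hα]
    ring

/-- (b) -/
lemma DecS.k3b (S : DecS D M) (hodd : Odd (Fintype.card F)) (hk : ∀ i, Module.finrank F (D i) = 3) {a0 : F}
    (ha0 : a0 ≠ 0) (ha02 : a0 * a0 ≠ 1)
    (hrefl : ∀ i, ∀ p ∈ D i, ∀ q ∈ D i, ∀ (hp : Q p ≠ 0) (hq : Q q ≠ 0), Q p = Q q → refl hp * refl hq ∈ M)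
    (hnot : ¬ EG Q ≤ M) {E : Submodule F V} (hE : Cl M E) (hE3 : Module.finrank F E = 3) {u : V} (hu : u ∈ E)
    (hqu : Q u = 0) (l : Fin t) (hul : u ∉ D l) {w : V} (hw : w ∈ E) (huw : pB Q u w = 0) :
    ∃ c : F, ∀ v ∈ D l, pB Q w v = c * pB Q u v := by
  have hka := fun {x : V} (hx : x ∈ D l) (hqx : Q x = 0) (hx0 : x ≠ 0) (hxu : pB Q x u = 0) {y : V} (hy : y ∈ D l)
    (hxy : pB Q x y = 0) {w : V} (hw : w ∈ E) (huw : pB Q u w = 0) =>
    S.k3a hk ha0 ha02 hnot hE hE3 hu hqu hul hx hqx hx0 hxu hy hxy hw huw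
  obtain ⟨a, ha, hua⟩ := repW (S.cl l).nds u
  by_cases ha1 : a = 0
  · -- orthogonal to the block
    subst ha1
    have hu0 : ∀ v ∈ D l, pB Q v u = 0 := by
      intro v hv
      rw [pB_symm, hua v hv, map_zero, LinearMap.zero_apply]
    obtain ⟨e, he, he0, hqe⟩ := exists_singW (Q := Q) (S.dim l)
    obtain ⟨f', hf, hef⟩ := exists_partner (Q := resQ Q (D l)) (S.cl l).nds.nd (u := ⟨e, he⟩)
      (fun h => he0 (congrArg Subtype.val h)) hqe
    obtain ⟨f, hfD⟩ := f'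
    have hqf : Q f = 0 := hf
    have hef' : pB Q e f = 1 := hef
    have hf0 : f ≠ 0 := by
      rintro rfl
      rw [map_zero] at hef'
      exact zero_ne_one hef'
    refine ⟨0, fun v hv => ?_⟩
    have h1 := (hka he hqe he0 (hu0 e he) (y := v - pB Q e v • f) ((D l).sub_mem hv ((D l).smul_mem _ hfD))
      (by rw [pr_sub, pr_smul, hef', mul_one, sub_self]) hw huw).2.2
    have h2 := (hka hfD hqf hf0 (hu0 f hfD) (y := f) hfD (by rw [pB_self, hqf, mul_zero]) hw huw).2.2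
    rw [pl_sub, pl_smul, h2] at h1
    rw [pB_symm, zero_mul]
    linear_combination h1
  by_cases hqa : Q a = 0
  · -- singular component
    apply prop_fun
    intro y hy huy
    rw [hua y hy] at huy
    have h1 := (hka ha hqa ha1 (by rw [pB_symm, hua a ha, pB_self, hqa, mul_zero]) hy huy hw huw).2.2
    rw [pB_symm]; exact h1
  · by_contra hno
    -- anisotropic complement
    have hani : ∀ x ∈ D l, Q x = 0 → pB Q a x = 0 → x = 0 := by
      intro x hx hqx hax
      by_contra hx0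
      have h1 : ∀ y ∈ D l, pB Q x y = 0 → pB Q a y = 0 := by
        intro y hy hxy
        have h2 := (hka hx hqx hx0 (by rw [pB_symm, hua x hx, hax]) hy hxy hw huw).1
        rw [pB_symm, hua y hy] at h2
        exact h2
      obtain ⟨c, hc⟩ := prop_of (S.cl l).nds hx ha h1
      apply hqa
      rw [hc, q_smul, hqx, mul_zero]
    obtain ⟨b, hb, hwb⟩ := repW (S.cl l).nds w
    have h2 := S.h2
    set ω := b - (pB Q a b / (2 * Q a)) • a with hω
    have hωD : ω ∈ D l := (D l).sub_mem hb ((D l).smul_mem _ ha)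
    have haω : pB Q a ω = 0 := by
      rw [hω, pr_sub, pr_smul, pB_self]
      field_simp
      ring
    have hω0 : ω ≠ 0 := by
      intro h0
      apply hno
      refine ⟨pB Q a b / (2 * Q a), fun v hv => ?_⟩
      rw [hω, sub_eq_zero] at h0
      have h3 := congrArg (fun x => pB Q x v) h0
      beta_reduce at h3
      rw [pl_smul] at h3
      rw [hwb v hv, hua v hv, h3]
    have hqω : Q ω ≠ 0 := fun h0 => hω0 (hani ω hωD h0 haω)
    obtain ⟨b1, hb1, hb10⟩ : ∃ b1 ∈ D l ⊓ oc Q (Submodule.span F {a, ω}), b1 ≠ 0 := by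
      by_contra hcon
      push Not at hcon
      have h3 : D l ⊓ oc Q (Submodule.span F {a, ω}) = ⊥ := (Submodule.eq_bot_iff _).2 hcon
      have h4 := finrank_inf_oc (W := D l) S.hnd (Submodule.span F {a, ω}) (k := 2) (finrank_span_pair_le a ω)
      rw [h3, finrank_bot, hk] at h4
      omega
    obtain ⟨hb1D, hb1'⟩ := hb1
    obtain ⟨hab1, hωb1⟩ := mem_oc_pair.1 hb1'
    have hqb1 : Q b1 ≠ 0 := fun h0 => hb10 (hani b1 hb1D h0 hab1)
    have hani' : ∀ s t : F, Q (s • ω + t • b1) = 0 → s = 0 ∧ t = 0 := by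
      intro s t h0
      have h3 := hani _ ((D l).add_mem ((D l).smul_mem s hωD) ((D l).smul_mem t hb1D)) h0 (by
        rw [pr_add, pr_smul, pr_smul, haω, hab1]; ring)
      have h4 := congrArg (fun v => pB Q ω v) h3
      have h5 := congrArg (fun v => pB Q b1 v) h3
      beta_reduce at h4 h5
      rw [pr_add, pr_smul, pr_smul, hωb1, pB_self, map_zero, mul_zero, add_zero] at h4
      rw [pr_add, pr_smul, pr_smul, pB_symm Q b1 ω, hωb1, pB_self, map_zero, mul_zero, zero_add] at h5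
      exact ⟨(mul_eq_zero.1 h4).resolve_right (mul_ne_zero h2 hqω), (mul_eq_zero.1 h5).resolve_right (mul_ne_zero h2 hqb1)⟩
    have hb_eq : b = ω + (pB Q a b / (2 * Q a)) • a := by rw [hω]; abel
    have hwb1 : pB Q w b1 = 0 := by
      rw [hwb b1 hb1D, hb_eq, pl_add, pl_smul, hωb1, hab1]; ring
    have hwω : pB Q w ω ≠ 0 := by
      rw [hwb ω hωD]
      have : pB Q b ω = 2 * Q ω := by
        conv_lhs => rw [hb_eq]
        rw [pl_add, pl_smul, haω, pB_self]; ring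
      rw [this]
      exact mul_ne_zero h2 hqω
    have hall := plane_all (M := M) h2 ha0 ha02 (hrefl l) (u := u) (w := w) (ω := ω) (b1 := b1)
      (fun c => hE.inm u hu hqu (c • w) (E.smul_mem _ hw) (by rw [pr_smul, huw, mul_zero])) hωD hb1D
      (by rw [hua ω hωD, haω]) (by rw [hua b1 hb1D, hab1]) hωb1 hqω hqb1 hani' hwb1 hwω
    obtain ⟨x, hx, hx0, z, hz, h⟩ := zeta h2 hodd (S.cl l) hqu hul ha hωD hb1D hua haω hab1 hωb1 hqa hqω hqb1 hani' hall
    exact hnot (S.win hx hx0 hz h)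

/-- ternary blocks -/
theorem DecS.three (S : DecS D M) (hodd : Odd (Fintype.card F)) (hk : ∀ i, Module.finrank F (D i) = 3) {a0 : F}
    (ha0 : a0 ≠ 0) (ha02 : a0 * a0 ≠ 1)
    (hrefl : ∀ i, ∀ p ∈ D i, ∀ q ∈ D i, ∀ (hp : Q p ≠ 0) (hq : Q q ≠ 0), Q p = Q q → refl hp * refl hq ∈ M)
    {E : Submodule F V} (hE : Cl M E) (hE3 : Module.finrank F E = 3) {u : V} (hu : u ∈ E)
    (hqu : Q u = 0) (hoff : ∀ l, u ∉ D l) : EG Q ≤ M := by
  by_contra hnot
  have hb := fun {E : Submodule F V} (hE : Cl M E) (hE3 : Module.finrank F E = 3) {u : V} (hu : u ∈ E)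
    (hqu : Q u = 0) (l : Fin t) (hul : u ∉ D l) {w : V} (hw : w ∈ E) (huw : pB Q u w = 0) =>
    S.k3b hodd hk ha0 ha02 hrefl hnot hE hE3 hu hqu l hul hw huw
  have h2 := S.h2
  have hu0 : u ≠ 0 := by
    intro h0
    have ht : 0 < t := by
      by_contra h0'
      have ht0 : t = 0 := by omega
      subst ht0
      have h1 := S.top
      rw [iSup_of_empty] at h1
      have h2 : (⊤ : Submodule F V) = ⊥ := h1.symm
      have h3 : Module.finrank F E ≤ 0 := by
        rw [← finrank_bot F V, ← h2]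
        exact Submodule.finrank_mono le_top
      omega
    exact hoff ⟨0, ht⟩ (by rw [h0]; exact Submodule.zero_mem _)
  obtain ⟨l, y0, hy0, huy0⟩ : ∃ l, ∃ y ∈ D l, pB Q u y ≠ 0 := by
    by_contra hcon
    push Not at hcon
    exact hu0 (S.zero_of hcon)
  obtain ⟨j, hj, y1, hy1, huy1⟩ : ∃ j, j ≠ l ∧ ∃ y ∈ D j, pB Q u y ≠ 0 := by
    by_contra hcon
    push Not at hcon
    exact hoff l (S.mem_of hcon)
  obtain ⟨w, hw, huw, hqw⟩ := fact2W hE.nds (by rw [hE3]) hu hqu hu0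
  obtain ⟨cl, hcl⟩ := hb hE hE3 hu hqu l (hoff l) hw huw
  obtain ⟨cj, hcj⟩ := hb hE hE3 hu hqu j (hoff j) hw huw
  obtain ⟨lam, hlam, hlam'⟩ : ∃ lam : F, lam ≠ 0 ∧ lam * Q w ≠ cj - cl := by
    by_cases h1 : Q w = cj - cl
    · refine ⟨-1, neg_ne_zero.2 one_ne_zero, fun h3 => hqw ?_⟩
      have : 2 * Q w = 0 := by linear_combination h1 - h3
      exact (mul_eq_zero.1 this).resolve_left h2
    · exact ⟨1, one_ne_zero, by rw [one_mul]; exact h1⟩
  obtain ⟨q1, p1, m1⟩ := hE.inm u hu hqu (lam • w) (E.smul_mem _ hw) (by rw [pr_smul, huw, mul_zero])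
  obtain ⟨a, ha, hua⟩ := repW (S.cl l).nds u
  have ha0' : a ≠ 0 := by
    rintro rfl
    exact huy0 (by rw [hua y0 hy0, map_zero, LinearMap.zero_apply])
  obtain ⟨x, hx, hqx, hxa⟩ := fact1W (S.cl l).nds (S.dim l) ha ha0'
  have hux : pB Q u x ≠ 0 := by rw [hua x hx, pB_symm]; exact hxa
  set s := eich q1 p1 with hs
  have hsact : ∀ v ∈ D l, s v = v + (pB Q u v * lam) • w - (lam * (cl * pB Q u v)) • u -
      (lam * lam * Q w * pB Q u v) • u := by
    intro v hv
    rw [hs, eich_apply, q_smul, pl_smul, smul_smul, hcl v hv]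
  have hE' := (S.cl l).im m1
  have hE'3 : Module.finrank F (im s (D l)) = 3 := by rw [finrank_im, hk]
  have hsx : s x ∈ im s (D l) := by rw [mem_im, og_inv]; exact hx
  -- pairings with the blocks
  have hpl : ∀ v ∈ D l, ∀ v' ∈ D l, pB Q (s v) v' = pB Q v v' - lam * lam * Q w * pB Q u v * pB Q u v' := by
    intro v hv v' hv'
    rw [hsact v hv, pl_sub, pl_sub, pl_add, pl_smul, pl_smul, pl_smul, hcl v' hv']; ring
  have hpj : ∀ v' ∈ D j, pB Q (s x) v' = pB Q u x * lam * (cj - cl - lam * Q w) * pB Q u v' := by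
    intro v' hv'
    rw [hsact x hx, pl_sub, pl_sub, pl_add, pl_smul, pl_smul, pl_smul, hcj v' hv', S.orth l j hj.symm x hx v' hv']; ring
  have hj0 : pB Q (s x) y1 ≠ 0 := by
    rw [hpj y1 hy1]
    refine mul_ne_zero (mul_ne_zero (mul_ne_zero hux hlam) ?_) huy1
    intro h0
    apply hlam'
    linear_combination -h0
  have hl0 : ∃ v ∈ D l, pB Q (s x) v ≠ 0 := by
    refine ⟨x, hx, ?_⟩
    rw [hpl x hx x hx, pB_self, hqx]
    have : lam * lam * Q w * pB Q u x * pB Q u x ≠ 0 :=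
      mul_ne_zero (mul_ne_zero (mul_ne_zero (mul_ne_zero hlam hlam) hqw) hux) hux
    intro h0
    apply this
    linear_combination -h0
  have hoff' : s x ∉ D l := by
    intro h0
    exact hj0 (S.orth l j hj.symm _ h0 _ hy1)
  -- a vector orthogonal to `x` and `u`
  obtain ⟨y, hy, hy0'⟩ : ∃ y ∈ D l ⊓ oc Q (Submodule.span F {x, u}), y ≠ 0 := by
    by_contra hcon
    push Not at hcon
    have h3 : D l ⊓ oc Q (Submodule.span F {x, u}) = ⊥ := (Submodule.eq_bot_iff _).2 hcon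
    have h4 := finrank_inf_oc (W := D l) S.hnd (Submodule.span F {x, u}) (k := 2) (finrank_span_pair_le x u)
    rw [h3, finrank_bot, hk] at h4
    omega
  obtain ⟨hyD, hy'⟩ := hy
  obtain ⟨hxy, huy⟩ := mem_oc_pair.1 hy'
  obtain ⟨c, hc⟩ := hb hE' hE'3 hsx (by rw [og_q, hqx]) l hoff' (w := s y) (by rw [mem_im, og_inv]; exact hyD)
    (by rw [og_p, hxy])
  have h5 := hc x hx
  rw [hpl y hyD x hx, hpl x hx x hx, huy, pB_symm Q y x, hxy, pB_self, hqx] at h5
  have hc0 : c = 0 := by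
    have h6 : c * (lam * lam * Q w * pB Q u x * pB Q u x) = 0 := by linear_combination h5
    exact (mul_eq_zero.1 h6).resolve_right
      (mul_ne_zero (mul_ne_zero (mul_ne_zero (mul_ne_zero hlam hlam) hqw) hux) hux)
  apply hy0'
  apply (S.cl l).nds y hyD
  intro v hv
  have h6 := hc v hv
  rw [hpl y hyD v hv, huy, hc0] at h6
  linear_combination h6

end three

end Cfsg.Agent.H12
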