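import Mathlib
import Cfsg.Prelude.Def_GeometricClasses
import Cfsg.Agent.H12.Transv

/-!
# Tensor decompositions of matrix spaces
-/

set_option autoImplicit false
set_option linter.unusedSectionVars false

open scoped MatrixGroups Matrix Kronecker

namespace Cfsg.Agent.H12

open Cfsg

variable {ι : Type} [Fintype ι] [DecidableEq ι] {F : Type*} [Field F] {n₁ n₂ : ℕ}

/-- the pure tensor -/
def ten (e : ι ≃ Fin n₁ × Fin n₂) (P : GL ι F) (α : Fin n₁ → F) (β : Fin n₂ → F) : ι → F :=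
  (P : Matrix ι ι F) *ᵥ (fun k => α (e k).1 * β (e k).2)

/-- the coordinates -/
def tc (e : ι ≃ Fin n₁ × Fin n₂) (P : GL ι F) (v : ι → F) (i : Fin n₁) (j : Fin n₂) : F :=
  (((P⁻¹ : GL ι F) : Matrix ι ι F) *ᵥ v) (e.symm (i, j))

variable (e : ι ≃ Fin n₁ × Fin n₂) (P : GL ι F)

theorem tc_ten (α : Fin n₁ → F) (β : Fin n₂ → F) (i : Fin n₁) (j : Fin n₂) : tc e P (ten e P α β) i j = α i * β j := by
  rw [tc, ten, gl_inv_mulVec_mulVec]
  simp

theorem tc_add (v w : ι → F) (i : Fin n₁) (j : Fin n₂) : tc e P (v + w) i j = tc e P v i j + tc e P w i j := by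
  rw [tc, Matrix.mulVec_add]; rfl

theorem tc_smul (c : F) (v : ι → F) (i : Fin n₁) (j : Fin n₂) : tc e P (c • v) i j = c * tc e P v i j := by
  rw [tc, Matrix.mulVec_smul]; rfl

theorem tc_zero (i : Fin n₁) (j : Fin n₂) : tc e P (0 : ι → F) i j = 0 := by
  rw [tc, Matrix.mulVec_zero]; rfl

theorem tc_ext {v w : ι → F} (h : ∀ i j, tc e P v i j = tc e P w i j) : v = w := by
  have h1 : ((P⁻¹ : GL ι F) : Matrix ι ι F) *ᵥ v = ((P⁻¹ : GL ι F) : Matrix ι ι F) *ᵥ w := by
    funext k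
    have := h (e k).1 (e k).2
    simpa [tc] using this
  have h2 := congrArg (fun x => (P : Matrix ι ι F) *ᵥ x) h1
  simpa only [gl_mulVec_inv_mulVec] using h2

theorem exists_tc (c : Fin n₁ → Fin n₂ → F) : ∃ v, ∀ i j, tc e P v i j = c i j := by
  refine ⟨(P : Matrix ι ι F) *ᵥ (fun k => c (e k).1 (e k).2), fun i j => ?_⟩
  rw [tc, gl_inv_mulVec_mulVec]
  simp

/-- the coordinate functionals -/
theorem exists_tc_dot (i : Fin n₁) (j : Fin n₂) : ∃ φ : ι → F, ∀ v, φ ⬝ᵥ v = tc e P v i j := by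
  refine ⟨Pi.single (e.symm (i, j)) 1 ᵥ* ((P⁻¹ : GL ι F) : Matrix ι ι F), fun v => ?_⟩
  rw [← Matrix.dotProduct_mulVec, single_dotProduct, one_mul]
  rfl

theorem ten_add_left (α α' : Fin n₁ → F) (β : Fin n₂ → F) : ten e P (α + α') β = ten e P α β + ten e P α' β := by
  apply tc_ext e P
  intro i j
  rw [tc_add, tc_ten, tc_ten, tc_ten, Pi.add_apply, add_mul]

theorem ten_add_right (α : Fin n₁ → F) (β β' : Fin n₂ → F) : ten e P α (β + β') = ten e P α β + ten e P α β' := by
  apply tc_ext e P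
  intro i j
  rw [tc_add, tc_ten, tc_ten, tc_ten, Pi.add_apply, mul_add]

theorem ten_smul_left (c : F) (α : Fin n₁ → F) (β : Fin n₂ → F) : ten e P (c • α) β = c • ten e P α β := by
  apply tc_ext e P
  intro i j
  rw [tc_smul, tc_ten, tc_ten, Pi.smul_apply, smul_eq_mul, mul_assoc]

theorem ten_smul_right (c : F) (α : Fin n₁ → F) (β : Fin n₂ → F) : ten e P α (c • β) = c • ten e P α β := by
  apply tc_ext e P
  intro i j
  rw [tc_smul, tc_ten, tc_ten, Pi.smul_apply, smul_eq_mul]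
  ring

theorem ten_zero_left (β : Fin n₂ → F) : ten e P 0 β = 0 := by
  apply tc_ext e P
  intro i j
  rw [tc_ten, tc_zero, Pi.zero_apply, zero_mul]

theorem ten_zero_right (α : Fin n₁ → F) : ten e P α 0 = 0 := by
  apply tc_ext e P
  intro i j
  rw [tc_ten, tc_zero, Pi.zero_apply, mul_zero]

theorem ten_ne_zero {α : Fin n₁ → F} {β : Fin n₂ → F} (hα : α ≠ 0) (hβ : β ≠ 0) : ten e P α β ≠ 0 := by
  intro h
  obtain ⟨i, hi⟩ := Function.ne_iff.1 hα
  obtain ⟨j, hj⟩ := Function.ne_iff.1 hβ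
  have h1 := tc_ten e P α β i j
  rw [h, tc_zero] at h1
  exact mul_ne_zero hi hj h1.symm

theorem tc_sum {κ : Type*} (s : Finset κ) (v : κ → ι → F) (i : Fin n₁) (j : Fin n₂) :
    tc e P (∑ k ∈ s, v k) i j = ∑ k ∈ s, tc e P (v k) i j := by
  classical
  induction s using Finset.induction_on with
  | empty => simp [tc_zero]
  | insert a s ha ih => rw [Finset.sum_insert ha, Finset.sum_insert ha, tc_add, ih]

/-- expansion in pure tensors -/
theorem eq_sum_ten (v : ι → F) : v = ∑ i, ten e P (Pi.single i 1) (fun j => tc e P v i j) := by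
  apply tc_ext e P
  intro i j
  rw [tc_sum, Finset.sum_eq_single i]
  · rw [tc_ten]; simp
  · intro k _ hk
    rw [tc_ten, Pi.single_eq_of_ne hk.symm, zero_mul]
  · intro h; exact absurd (Finset.mem_univ i) h

/-- expansion in pure tensors, right version -/
theorem eq_sum_ten' (v : ι → F) : v = ∑ j, ten e P (fun i => tc e P v i j) (Pi.single j 1) := by
  apply tc_ext e P
  intro i j
  rw [tc_sum, Finset.sum_eq_single j]
  · rw [tc_ten]; simp
  · intro k _ hk
    rw [tc_ten, Pi.single_eq_of_ne hk.symm, mul_zero]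
  · intro h; exact absurd (Finset.mem_univ j) h

/-- matrices agreeing on pure tensors are equal -/
theorem mat_ext {A B : Matrix ι ι F} (h : ∀ α β, A *ᵥ ten e P α β = B *ᵥ ten e P α β) : A = B := by
  apply Matrix.ext_of_mulVec_single
  intro k
  rw [eq_sum_ten e P (Pi.single k 1), Matrix.mulVec_sum, Matrix.mulVec_sum]
  exact Finset.sum_congr rfl (fun i _ => h _ _)

/-- the operator `A ⊗ B` -/
def kop (A : Matrix (Fin n₁) (Fin n₁) F) (B : Matrix (Fin n₂) (Fin n₂) F) : Matrix ι ι F :=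
  (P : Matrix ι ι F) * Matrix.reindex e.symm e.symm (A ⊗ₖ B) * ((P⁻¹ : GL ι F) : Matrix ι ι F)

theorem kop_ten (A : Matrix (Fin n₁) (Fin n₁) F) (B : Matrix (Fin n₂) (Fin n₂) F) (α : Fin n₁ → F) (β : Fin n₂ → F) :
    kop e P A B *ᵥ ten e P α β = ten e P (A *ᵥ α) (B *ᵥ β) := by
  rw [kop, ten, ← Matrix.mulVec_mulVec, gl_inv_mulVec_mulVec, ← Matrix.mulVec_mulVec, ten]
  congr 1
  funext k
  simp only [Matrix.mulVec, dotProduct, Matrix.reindex_apply, Matrix.submatrix_apply, Equiv.symm_symm]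
  rw [← Equiv.sum_comp e.symm]
  simp only [Equiv.apply_symm_apply, Fintype.sum_prod_type, Matrix.kroneckerMap_apply, Finset.sum_mul_sum]
  apply Finset.sum_congr rfl
  intro i _
  apply Finset.sum_congr rfl
  intro j _
  ring

theorem kop_mul (A A' : Matrix (Fin n₁) (Fin n₁) F) (B B' : Matrix (Fin n₂) (Fin n₂) F) :
    kop e P A B * kop e P A' B' = kop e P (A * A') (B * B') := by
  apply mat_ext e P
  intro α β
  rw [← Matrix.mulVec_mulVec, kop_ten, kop_ten, kop_ten, Matrix.mulVec_mulVec, Matrix.mulVec_mulVec]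

theorem kop_one : kop e P 1 1 = 1 := by
  apply mat_ext e P
  intro α β
  rw [kop_ten, Matrix.one_mulVec, Matrix.one_mulVec, Matrix.one_mulVec]

/-- the invertible `a ⊗ b` -/
def kgl (a : GL (Fin n₁) F) (b : GL (Fin n₂) F) : GL ι F :=
  ⟨kop e P a b, kop e P (a⁻¹ : GL (Fin n₁) F) (b⁻¹ : GL (Fin n₂) F),
    by rw [kop_mul, ← Units.val_mul, ← Units.val_mul, mul_inv_cancel, mul_inv_cancel, Units.val_one, Units.val_one, kop_one],
    by rw [kop_mul, ← Units.val_mul, ← Units.val_mul, inv_mul_cancel, inv_mul_cancel, Units.val_one, Units.val_one, kop_one]⟩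

theorem kgl_ten (a : GL (Fin n₁) F) (b : GL (Fin n₂) F) (α : Fin n₁ → F) (β : Fin n₂ → F) :
    ((kgl e P a b : GL ι F) : Matrix ι ι F) *ᵥ ten e P α β =
      ten e P ((a : Matrix (Fin n₁) (Fin n₁) F) *ᵥ α) ((b : Matrix (Fin n₂) (Fin n₂) F) *ᵥ β) := kop_ten e P _ _ α β

theorem mem_tensor {g : GL ι F} : g ∈ Geo.tensorProductSubgroup n₁ n₂ e P ↔ ∃ a b, g = kgl e P a b := by
  constructor
  · rintro ⟨_, ⟨k, ⟨a, b, hk⟩, rfl⟩, rfl⟩
    refine ⟨a, b, ?_⟩
    apply Units.ext
    simp only [MulEquiv.coe_toMonoidHom, MulAut.conj_apply, Units.val_mul]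
    show _ = kop e P _ _
    rw [kop]
    congr 2
    show (Matrix.reindexAlgEquiv F F e.symm) (k : Matrix _ _ F) = _
    rw [hk]
    rfl
  · rintro ⟨a, b, rfl⟩
    have hab : ((a : Matrix (Fin n₁) (Fin n₁) F) ⊗ₖ (b : Matrix (Fin n₂) (Fin n₂) F)) *
      (((a⁻¹ : GL (Fin n₁) F) : Matrix (Fin n₁) (Fin n₁) F) ⊗ₖ ((b⁻¹ : GL (Fin n₂) F) : Matrix (Fin n₂) (Fin n₂) F)) = 1 := by
      rw [← Matrix.mul_kronecker_mul, ← Units.val_mul, ← Units.val_mul, mul_inv_cancel, mul_inv_cancel,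
        Units.val_one, Units.val_one, Matrix.one_kronecker_one]
    have hba : (((a⁻¹ : GL (Fin n₁) F) : Matrix (Fin n₁) (Fin n₁) F) ⊗ₖ ((b⁻¹ : GL (Fin n₂) F) : Matrix (Fin n₂) (Fin n₂) F)) *
      ((a : Matrix (Fin n₁) (Fin n₁) F) ⊗ₖ (b : Matrix (Fin n₂) (Fin n₂) F)) = 1 := by
      rw [← Matrix.mul_kronecker_mul, ← Units.val_mul, ← Units.val_mul, inv_mul_cancel, inv_mul_cancel,
        Units.val_one, Units.val_one, Matrix.one_kronecker_one]
    refine ⟨_, ⟨⟨_, _, hab, hba⟩, ⟨a, b, rfl⟩, rfl⟩, ?_⟩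
    apply Units.ext
    simp only [MulEquiv.coe_toMonoidHom, MulAut.conj_apply, Units.val_mul]
    show _ = kop e P _ _
    rw [kop]
    rfl

theorem kgl_eq_iff {g : GL ι F} {a : GL (Fin n₁) F} {b : GL (Fin n₂) F} (h : ∀ α β, (g : Matrix ι ι F) *ᵥ ten e P α β =
      ten e P ((a : Matrix (Fin n₁) (Fin n₁) F) *ᵥ α) ((b : Matrix (Fin n₂) (Fin n₂) F) *ᵥ β)) : g = kgl e P a b := by
  apply Units.ext
  apply mat_ext e P
  intro α β
  rw [h, kgl_ten]

/-- a sum of two pure tensors with independent factors is not pure -/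
theorem not_pure {α α' : Fin n₁ → F} {β β' : Fin n₂ → F} (hα : LinearIndependent F ![α, α'])
    (hβ : LinearIndependent F ![β, β']) (γ : Fin n₁ → F) (δ : Fin n₂ → F) :
    ten e P α β + ten e P α' β' ≠ ten e P γ δ := by
  intro h
  rw [LinearIndependent.pair_iff] at hα hβ
  have h1 : ∀ i j, α i * β j + α' i * β' j = γ i * δ j := by
    intro i j
    have := congrArg (fun v => tc e P v i j) h
    simpa only [tc_add, tc_ten] using this
  -- the columns
  have h2 : ∀ j, β j • α + β' j • α' = δ j • γ := by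
    intro j
    funext i
    simp only [Pi.add_apply, Pi.smul_apply, smul_eq_mul]
    linear_combination h1 i j
  have h3 : ∀ j k, δ k • (β j • α + β' j • α') = δ j • (β k • α + β' k • α') := by
    intro j k
    rw [h2, h2, smul_smul, smul_smul, mul_comm]
  have h4 : ∀ j k, δ k * β j = δ j * β k ∧ δ k * β' j = δ j * β' k := by
    intro j k
    have h5 := h3 j k
    have h6 : (δ k * β j - δ j * β k) • α + (δ k * β' j - δ j * β' k) • α' = 0 := by
      have h7 : (δ k * β j - δ j * β k) • α + (δ k * β' j - δ j * β' k) • α' =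
        δ k • (β j • α + β' j • α') - δ j • (β k • α + β' k • α') := by
        simp only [smul_add, smul_smul, sub_smul]; abel
      rw [h7, h5, sub_self]
    have h8 := hα _ _ h6
    exact ⟨sub_eq_zero.1 h8.1, sub_eq_zero.1 h8.2⟩
  by_cases hδ : δ = 0
  · subst hδ
    have h9 : ∀ j, β j = 0 := by
      intro j
      have h10 := h2 j
      rw [Pi.zero_apply, zero_smul] at h10
      exact (hα _ _ h10).1
    have h10 := hβ 1 0 (by
      rw [one_smul, zero_smul, add_zero]
      funext j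
      exact h9 j)
    exact one_ne_zero h10.1
  · obtain ⟨k, hk⟩ := Function.ne_iff.1 hδ
    rw [Pi.zero_apply] at hk
    have h9 : (β' k) • β + (- β k) • β' = 0 := by
      funext j
      simp only [Pi.add_apply, Pi.smul_apply, smul_eq_mul, Pi.zero_apply]
      have h10 := h4 j k
      have h11 : δ k * (β' k * β j + -β k * β' j) = 0 := by
        linear_combination β' k * h10.1 - β k * h10.2
      exact (mul_eq_zero.1 h11).resolve_left hk
    have h10 := hβ _ _ h9
    have h11 := h2 k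
    rw [neg_eq_zero.1 h10.2, h10.1, zero_smul, zero_smul, add_zero] at h11
    have hγ : γ = 0 := (smul_eq_zero.1 h11.symm).resolve_left hk
    have h12 : ∀ j, β j = 0 := by
      intro j
      have h13 := h2 j
      rw [hγ, smul_zero] at h13
      exact (hα _ _ h13).1
    have h14 := hβ 1 0 (by
      rw [one_smul, zero_smul, add_zero]
      funext j
      exact h12 j)
    exact one_ne_zero h14.1

end Cfsg.Agent.H12
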