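import Mathlib
import Cfsg.Prelude.Def_GeometricClasses
import Cfsg.Agent.H12.Tensor
import Cfsg.Agent.H12.Transv

/-!
Tensor products of forms; the frame of a ternary form over the field with three elements.
-/

set_option autoImplicit false
set_option linter.unusedSectionVars false

open scoped MatrixGroups Matrix Kronecker

namespace Cfsg.Agent.H12

open Cfsg

section gram

variable {F : Type*} [Field F]

/-- forms are determined by the Gram matrix -/
lemma form_gram {k : ℕ} {σ : F → F} (f : (Fin k → F) → (Fin k → F) → F) (h1 : ∀ x y v, f (x + y) v = f x v + f y v)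
    (h2 : ∀ (c : F) x v, f (c • x) v = c * f x v) (h3 : ∀ v x y, f v (x + y) = f v x + f v y)
    (h4 : ∀ (c : F) v x, f v (c • x) = σ c * f v x) (x y : Fin k → F) :
    f x y = Geo.formOfGram σ (Geo.gramMatrix f) x y := by
  have hs1 : ∀ (s : Finset (Fin k)) (u : Fin k → Fin k → F) (v : Fin k → F), f (∑ i ∈ s, u i) v = ∑ i ∈ s, f (u i) v := by
    intro s u v
    have h0 : f 0 v = 0 := by
      have := h1 0 0 v
      rw [add_zero] at this
      exact left_eq_add.mp this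
    induction s using Finset.induction_on with
    | empty => simpa using h0
    | insert a s ha ih => rw [Finset.sum_insert ha, Finset.sum_insert ha, h1, ih]
  have hs2 : ∀ (s : Finset (Fin k)) (u : Fin k → Fin k → F) (v : Fin k → F), f v (∑ i ∈ s, u i) = ∑ i ∈ s, f v (u i) := by
    intro s u v
    have h0 : f v 0 = 0 := by
      have := h3 v 0 0
      rw [add_zero] at this
      exact left_eq_add.mp this
    induction s using Finset.induction_on with
    | empty => simpa using h0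
    | insert a s ha ih => rw [Finset.sum_insert ha, Finset.sum_insert ha, h3, ih]
  have hx : x = ∑ i, x i • (Pi.single i (1 : F) : Fin k → F) := by
    funext j
    simp [Finset.sum_apply, Pi.single_apply]
  have hy : y = ∑ i, y i • (Pi.single i (1 : F) : Fin k → F) := by
    funext j
    simp [Finset.sum_apply, Pi.single_apply]
  unfold Geo.formOfGram Geo.gramMatrix
  conv_lhs => rw [hx, hy]
  rw [hs1]
  refine Finset.sum_congr rfl (fun i _ => ?_)
  rw [hs2]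
  refine Finset.sum_congr rfl (fun j _ => ?_)
  rw [h2, h4]; ring

/-- Gram matrices of tensor products -/
lemma tens_gram {n₁ n₂ : ℕ} {σ : F → F} (hσ : ∀ x y, σ (x * y) = σ x * σ y) (G₁ : Matrix (Fin n₁) (Fin n₁) F)
    (G₂ : Matrix (Fin n₂) (Fin n₂) F) (α β : Fin n₁ → F) (γ δ : Fin n₂ → F) :
    Geo.formOfGram σ (G₁ ⊗ₖ G₂) (fun a => α a.1 * γ a.2) (fun a => β a.1 * δ a.2) =
      Geo.formOfGram σ G₁ α β * Geo.formOfGram σ G₂ γ δ := by
  unfold Geo.formOfGram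
  rw [Finset.sum_mul_sum, Fintype.sum_prod_type]
  refine Finset.sum_congr rfl (fun a _ => Finset.sum_congr rfl (fun c _ => ?_))
  rw [Finset.sum_mul_sum, Fintype.sum_prod_type]
  refine Finset.sum_congr rfl (fun b _ => Finset.sum_congr rfl (fun d _ => ?_))
  rw [Matrix.kroneckerMap_apply, hσ]
  ring

variable {ι : Type} [Fintype ι] [DecidableEq ι] {n₁ n₂ : ℕ}

lemma ten_eq (e : ι ≃ Fin n₁ × Fin n₂) (P : GL ι F) (α : Fin n₁ → F) (β : Fin n₂ → F) :
    ten e P α β = (P : Matrix ι ι F) *ᵥ ((fun a : Fin n₁ × Fin n₂ => α a.1 * β a.2) ∘ e) := rfl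

/-- the form on pure tensors -/
lemma form_ten {σ : F → F} (hσ : ∀ x y, σ (x * y) = σ x * σ y) {f : (ι → F) → (ι → F) → F}
    {f₁ : (Fin n₁ → F) → (Fin n₁ → F) → F} {f₂ : (Fin n₂ → F) → (Fin n₂ → F) → F} {e : ι ≃ Fin n₁ × Fin n₂} {P : GL ι F}
    (hf₁ : ∀ x y, f₁ x y = Geo.formOfGram σ (Geo.gramMatrix f₁) x y)
    (hf₂ : ∀ x y, f₂ x y = Geo.formOfGram σ (Geo.gramMatrix f₂) x y)
    (hT : Geo.IsTensorFormStructure σ f f₁ f₂ e P) :
    ∃ c : F, c ≠ 0 ∧ ∀ α γ β δ, f (ten e P α β) (ten e P γ δ) = c * (f₁ α γ * f₂ β δ) := by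
  obtain ⟨c, hc, h⟩ := hT
  refine ⟨c, hc, fun α γ β δ => ?_⟩
  rw [ten_eq, ten_eq, h, tens_gram hσ, ← hf₁, ← hf₂]

end gram

section con

variable {ι : Type} [Fintype ι] [DecidableEq ι] {F : Type*} [Field F] {n₁ n₂ : ℕ} (e : ι ≃ Fin n₁ × Fin n₂) (P : GL ι F)

/-- contraction with a functional on the first factor -/
def con (φ : Fin n₁ → F) (v : ι → F) : Fin n₂ → F := fun j => ∑ i, φ i * tc e P v i j

lemma con_add (φ : Fin n₁ → F) (v w : ι → F) : con e P φ (v + w) = con e P φ v + con e P φ w := by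
  funext j
  show ∑ i, φ i * tc e P (v + w) i j = ∑ i, φ i * tc e P v i j + ∑ i, φ i * tc e P w i j
  rw [← Finset.sum_add_distrib]
  exact Finset.sum_congr rfl (fun i _ => by rw [tc_add]; ring)

lemma con_ten (φ α : Fin n₁ → F) (β : Fin n₂ → F) : con e P φ (ten e P α β) = (φ ⬝ᵥ α) • β := by
  funext j
  show ∑ i, φ i * tc e P (ten e P α β) i j = (φ ⬝ᵥ α) * β j
  rw [dotProduct, Finset.sum_mul]
  exact Finset.sum_congr rfl (fun i _ => by rw [tc_ten]; ring)

/-- the map `β ↦ w ⊗ β` -/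
noncomputable def tenL (w : Fin n₁ → F) : (Fin n₂ → F) →ₗ[F] (ι → F) where
  toFun β := ten e P w β
  map_add' := ten_add_right e P w
  map_smul' := fun c β => by rw [ten_smul_right]; rfl

/-- the subspace `w ⊗ V₂` -/
noncomputable def DL (w : Fin n₁ → F) : Submodule F (ι → F) := LinearMap.range (tenL (n₂ := n₂) e P w)

lemma mem_DL {w : Fin n₁ → F} {x : ι → F} : x ∈ DL e P w ↔ ∃ β, ten e P w β = x := Iff.rfl

lemma finrank_DL {w : Fin n₁ → F} (hw : w ≠ 0) : Module.finrank F (DL e P w) = n₂ := by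
  have h1 : Function.Injective (tenL (n₂ := n₂) e P w) := by
    rw [injective_iff_map_eq_zero]
    intro β hβ
    by_contra h
    exact ten_ne_zero e P hw h hβ
  rw [DL, LinearMap.finrank_range_of_inj h1, Module.finrank_fintype_fun_eq_card, Fintype.card_fin]

lemma dec_mem {t : ℕ} {w : Fin t → Fin n₁ → F} (hw : ∀ j, w j ≠ 0) {g : GL ι F} (σ : Equiv.Perm (Fin t))
    (h : ∀ j β, ∃ γ, (g : Matrix ι ι F) *ᵥ ten e P (w j) β = ten e P (w (σ j)) γ) :
    g ∈ Geo.decompositionStabilizer (fun j => DL (n₂ := n₂) e P (w j)) := by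
  refine ⟨σ, fun j => ?_⟩
  apply Submodule.eq_of_le_of_finrank_eq
  · rintro _ ⟨x, ⟨β, rfl⟩, rfl⟩
    obtain ⟨γ, hγ⟩ := h j β
    rw [mem_DL]
    refine ⟨γ, ?_⟩
    rw [← hγ]; rfl
  · have h1 : Function.Injective (Matrix.toLin' (g : Matrix ι ι F)) := by
      intro x y hxy
      rw [Matrix.toLin'_apply, Matrix.toLin'_apply] at hxy
      have h2 := congrArg (fun z => ((g⁻¹ : GL ι F) : Matrix ι ι F) *ᵥ z) hxy
      beta_reduce at h2
      rw [Matrix.mulVec_mulVec, Matrix.mulVec_mulVec, ← Units.val_mul, inv_mul_cancel, Units.val_one,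
        Matrix.one_mulVec, Matrix.one_mulVec] at h2
      exact h2
    have h2 : Module.finrank F ((DL (n₂ := n₂) e P (w j)).map (Matrix.toLin' (g : Matrix ι ι F))) =
        Module.finrank F (DL (n₂ := n₂) e P (w j)) :=
      ((DL (n₂ := n₂) e P (w j)).equivMapOfInjective _ h1).symm.finrank_eq
    rw [h2, finrank_DL e P (hw _), finrank_DL e P (hw _)]

/-- an element not in the tensor group -/
lemma not_tensor {w₀ w₁ : Fin n₁ → F} (hw₀ : w₀ ≠ 0) (hw₁ : w₁ ≠ 0) {g : GL ι F}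
    (h1 : ∀ γ, (g : Matrix ι ι F) *ᵥ ten e P w₁ γ = ten (n₂ := n₂) e P w₁ γ) {β β' : Fin n₂ → F}
    (h2 : (g : Matrix ι ι F) *ᵥ ten e P w₀ β = ten e P w₀ β') (hβ : ∀ c : F, β' ≠ c • β) :
    g ∉ Geo.tensorProductSubgroup n₁ n₂ e P := by
  intro hg
  obtain ⟨a, b, rfl⟩ := (mem_tensor e P).1 hg
  obtain ⟨i, hi⟩ := Function.ne_iff.1 hw₁
  obtain ⟨i₀, hi₀⟩ := Function.ne_iff.1 hw₀
  rw [Pi.zero_apply] at hi hi₀
  have h3 : ∀ γ j, ((a : Matrix (Fin n₁) (Fin n₁) F) *ᵥ w₁) i * ((b : Matrix (Fin n₂) (Fin n₂) F) *ᵥ γ) j = w₁ i * γ j := by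
    intro γ j
    have h4 := congrArg (fun v => tc e P v i j) (h1 γ)
    beta_reduce at h4
    rw [kgl_ten, tc_ten, tc_ten] at h4
    exact h4
  have hai : ((a : Matrix (Fin n₁) (Fin n₁) F) *ᵥ w₁) i ≠ 0 := by
    intro h4
    have hβ0 : β ≠ 0 := by
      rintro rfl
      have h5 := h2
      rw [ten_zero_right, Matrix.mulVec_zero] at h5
      by_cases h6 : β' = 0
      · exact hβ 0 (by rw [h6, smul_zero])
      · exact ten_ne_zero e P hw₀ h6 h5.symm
    obtain ⟨j, hj⟩ := Function.ne_iff.1 hβ0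
    rw [Pi.zero_apply] at hj
    have h5 := h3 β j
    rw [h4, zero_mul] at h5
    exact mul_ne_zero hi hj h5.symm
  have h4 : ∀ j, w₀ i₀ * β' j =
      (((a : Matrix (Fin n₁) (Fin n₁) F) *ᵥ w₀) i₀ * (w₁ i / ((a : Matrix (Fin n₁) (Fin n₁) F) *ᵥ w₁) i)) * β j := by
    intro j
    have h5 := congrArg (fun v => tc e P v i₀ j) h2
    beta_reduce at h5
    rw [kgl_ten, tc_ten, tc_ten] at h5
    rw [← h5]
    have h6 := h3 β j
    have h7 : ((b : Matrix (Fin n₂) (Fin n₂) F) *ᵥ β) j = w₁ i / ((a : Matrix (Fin n₁) (Fin n₁) F) *ᵥ w₁) i * β j := by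
      field_simp
      linear_combination h6
    rw [h7]; ring
  apply hβ ((((a : Matrix (Fin n₁) (Fin n₁) F) *ᵥ w₀) i₀ * (w₁ i / ((a : Matrix (Fin n₁) (Fin n₁) F) *ᵥ w₁) i)) / w₀ i₀)
  funext j
  rw [Pi.smul_apply, smul_eq_mul]
  have h5 := h4 j
  field_simp
  field_simp at h5
  linear_combination h5

/-- an element not in the stabiliser of the decomposition -/
lemma not_dec {t : ℕ} {w φ : Fin t → Fin n₁ → F} (hφ : ∀ i j, i ≠ j → φ i ⬝ᵥ w j = 0) {j₀ j₁ : Fin t} (hne : j₀ ≠ j₁)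
    {g : GL ι F} {j : Fin t} {β : Fin n₂ → F} (h0 : con e P (φ j₀) ((g : Matrix ι ι F) *ᵥ ten e P (w j) β) ≠ 0)
    (h1 : con e P (φ j₁) ((g : Matrix ι ι F) *ᵥ ten e P (w j) β) ≠ 0) :
    g ∉ Geo.decompositionStabilizer (fun j => DL (n₂ := n₂) e P (w j)) := by
  rintro ⟨σ, hσ⟩
  have h2 : (g : Matrix ι ι F) *ᵥ ten e P (w j) β ∈ DL (n₂ := n₂) e P (w (σ j)) := by
    have h3 : Submodule.map (Matrix.toLin' (g : Matrix ι ι F)) (DL e P (w j)) = DL e P (w (σ j)) := hσ j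
    rw [← h3]
    refine ⟨ten e P (w j) β, ⟨β, rfl⟩, ?_⟩
    rw [Matrix.toLin'_apply]
  obtain ⟨γ, hγ⟩ := h2
  have hγ' : ten e P (w (σ j)) γ = (g : Matrix ι ι F) *ᵥ ten e P (w j) β := hγ
  rw [← hγ', con_ten] at h0 h1
  by_cases h3 : σ j = j₀
  · apply h1
    rw [h3, hφ j₁ j₀ hne.symm, zero_smul]
  · apply h0
    rw [hφ j₀ (σ j) (fun h => h3 h.symm), zero_smul]

end con

end Cfsg.Agent.H12
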