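import Mathlib
import Cfsg.Prelude.Def_GeometricClasses
import Cfsg.Agent.H12.TenForm
import Cfsg.Agent.H12.ReflForm

/-!
Frames and similitudes; a subgroup between the stabiliser of a tensor decomposition and the isometry group.
-/

set_option autoImplicit false
set_option linter.unusedSectionVars false

open scoped MatrixGroups Matrix Kronecker

namespace Cfsg.Agent.H12

open Cfsg

section frame

variable {F : Type*} [Field F] {n₁ : ℕ}

/-- a frame -/
def IsFrm (f₁ : (Fin n₁ → F) → (Fin n₁ → F) → F) (ε : F) (w : Fin n₁ → Fin n₁ → F) : Prop :=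
  ε ≠ 0 ∧ ∀ i j, f₁ (w i) (w j) = if i = j then ε else 0

variable {σ : F ≃+* F} {ε₁ : F} {f₁ : (Fin n₁ → F) → (Fin n₁ → F) → F} {ε : F} {w : Fin n₁ → Fin n₁ → F}

/-- dual functionals -/
def frmDual (f₁ : (Fin n₁ → F) → (Fin n₁ → F) → F) (ε : F) (w : Fin n₁ → Fin n₁ → F) (i : Fin n₁) : Fin n₁ → F :=
  ε⁻¹ • gvec f₁ (w i)

lemma frmDual_dot (h₁ : ReflForm σ ε₁ f₁) (i : Fin n₁) (x : Fin n₁ → F) :
    frmDual f₁ ε w i ⬝ᵥ x = ε⁻¹ * f₁ x (w i) := by
  rw [frmDual, smul_dotProduct, h₁.gvec_dot, smul_eq_mul]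

lemma frmDual_w (h₁ : ReflForm σ ε₁ f₁) (hw : IsFrm f₁ ε w) (i j : Fin n₁) :
    frmDual f₁ ε w i ⬝ᵥ w j = if i = j then 1 else 0 := by
  rw [frmDual_dot h₁, hw.2]
  by_cases h : i = j
  · rw [if_pos h, if_pos h.symm, inv_mul_cancel₀ hw.1]
  · rw [if_neg h, if_neg (fun h' => h h'.symm), mul_zero]

lemma frm_expand (h₁ : ReflForm σ ε₁ f₁) (hw : IsFrm f₁ ε w) (x : Fin n₁ → F) :
    x = ∑ i, (frmDual f₁ ε w i ⬝ᵥ x) • w i := by
  have h1 : (Matrix.of (fun i => frmDual f₁ ε w i)) * (Matrix.of w)ᵀ = 1 := by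
    ext i j
    rw [Matrix.mul_apply]
    have := frmDual_w h₁ hw i j
    rw [Matrix.one_apply, ← this]
    rfl
  have h2 := mul_eq_one_comm.1 h1
  have h3 : (((Matrix.of w)ᵀ * (Matrix.of (fun i => frmDual f₁ ε w i))) *ᵥ x) = x := by rw [h2, Matrix.one_mulVec]
  rw [← Matrix.mulVec_mulVec] at h3
  conv_lhs => rw [← h3]
  funext k
  rw [Finset.sum_apply]
  show ∑ i, ((Matrix.of w)ᵀ k i) * ((Matrix.of (fun i => frmDual f₁ ε w i)) *ᵥ x) i = _
  refine Finset.sum_congr rfl (fun i _ => ?_)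
  rw [Pi.smul_apply, smul_eq_mul, mul_comm]
  rfl

lemma frm_form (h₁ : ReflForm σ ε₁ f₁) (hw : IsFrm f₁ ε w) (x y : Fin n₁ → F) :
    f₁ x y = ε * ∑ i, (frmDual f₁ ε w i ⬝ᵥ x) * σ (frmDual f₁ ε w i ⬝ᵥ y) := by
  have hs1 : ∀ (s : Finset (Fin n₁)) (u : Fin n₁ → Fin n₁ → F) (v : Fin n₁ → F), f₁ (∑ i ∈ s, u i) v = ∑ i ∈ s, f₁ (u i) v := by
    intro s u v
    induction s using Finset.induction_on with
    | empty => simpa using h₁.zero_left v
    | insert a s ha ih => rw [Finset.sum_insert ha, Finset.sum_insert ha, h₁.add_left, ih]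
  have hs2 : ∀ (s : Finset (Fin n₁)) (u : Fin n₁ → Fin n₁ → F) (v : Fin n₁ → F), f₁ v (∑ i ∈ s, u i) = ∑ i ∈ s, f₁ v (u i) := by
    intro s u v
    induction s using Finset.induction_on with
    | empty => simpa using h₁.zero_right v
    | insert a s ha ih => rw [Finset.sum_insert ha, Finset.sum_insert ha, h₁.add_right, ih]
  conv_lhs => rw [frm_expand h₁ hw x, frm_expand h₁ hw y]
  rw [hs1, Finset.mul_sum]
  refine Finset.sum_congr rfl (fun i _ => ?_)
  rw [hs2, Finset.sum_eq_single i]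
  · rw [h₁.smul_left, h₁.smul_right, hw.2, if_pos rfl]; ring
  · intro j _ hj
    rw [h₁.smul_left, h₁.smul_right, hw.2, if_neg (fun h => hj h.symm)]; ring
  · intro h; exact absurd (Finset.mem_univ i) h

/-- isometries permute the lines of the frame -/
lemma perm_of_col (h₁ : ReflForm σ ε₁ f₁) (hw : IsFrm f₁ ε w)
    (hcol : ∀ v : Fin n₁ → F, ∑ i, v i * σ (v i) = 1 → ∃ i₀, v i₀ ≠ 0 ∧ ∀ i, i ≠ i₀ → v i = 0)
    (a : GL (Fin n₁) F)
    (ha : ∀ x y, f₁ ((a : Matrix (Fin n₁) (Fin n₁) F) *ᵥ x) ((a : Matrix (Fin n₁) (Fin n₁) F) *ᵥ y) = f₁ x y) :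
    ∃ (τ : Equiv.Perm (Fin n₁)) (c : Fin n₁ → F), ∀ j, (a : Matrix (Fin n₁) (Fin n₁) F) *ᵥ w j = c j • w (τ j) := by
  classical
  have h1 : ∀ j k, ε * ∑ i, (frmDual f₁ ε w i ⬝ᵥ ((a : Matrix (Fin n₁) (Fin n₁) F) *ᵥ w j)) *
      σ (frmDual f₁ ε w i ⬝ᵥ ((a : Matrix (Fin n₁) (Fin n₁) F) *ᵥ w k)) = if j = k then ε else 0 := by
    intro j k
    rw [← frm_form h₁ hw, ha, hw.2]
  have h2 : ∀ j, ∃ i₀, frmDual f₁ ε w i₀ ⬝ᵥ ((a : Matrix (Fin n₁) (Fin n₁) F) *ᵥ w j) ≠ 0 ∧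
      ∀ i, i ≠ i₀ → frmDual f₁ ε w i ⬝ᵥ ((a : Matrix (Fin n₁) (Fin n₁) F) *ᵥ w j) = 0 := by
    intro j
    apply hcol (fun i => frmDual f₁ ε w i ⬝ᵥ ((a : Matrix (Fin n₁) (Fin n₁) F) *ᵥ w j))
    have := h1 j j
    rw [if_pos rfl] at this
    exact mul_left_cancel₀ hw.1 (by rw [this, mul_one])
  choose τ hτ hτ' using h2
  have hinj : Function.Injective τ := by
    intro j k hjk
    by_contra hne
    have := h1 j k
    rw [if_neg hne, Finset.sum_eq_single (τ j)] at this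
    · rcases mul_eq_zero.1 this with h3 | h3
      · exact hw.1 h3
      · rcases mul_eq_zero.1 h3 with h4 | h4
        · exact hτ j h4
        · rw [hjk] at h4
          exact hτ k ((map_eq_zero σ).1 h4)
    · intro i _ hi
      rw [hτ' j i hi, zero_mul]
    · intro h; exact absurd (Finset.mem_univ _) h
  refine ⟨Equiv.ofBijective τ (Finite.injective_iff_bijective.1 hinj),
    fun j => frmDual f₁ ε w (τ j) ⬝ᵥ ((a : Matrix (Fin n₁) (Fin n₁) F) *ᵥ w j), fun j => ?_⟩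
  conv_lhs => rw [frm_expand h₁ hw ((a : Matrix (Fin n₁) (Fin n₁) F) *ᵥ w j)]
  rw [Finset.sum_eq_single (τ j)]
  · rfl
  · intro i _ hi
    rw [hτ' j i hi, zero_smul]
  · intro h; exact absurd (Finset.mem_univ _) h

end frame

section small

lemma z3_cases : ∀ z : ZMod 3, z = 0 ∨ z = 1 ∨ z = -1 := by decide

lemma z3_col : ∀ v : Fin 3 → ZMod 3, ∑ i, v i * v i = 1 → ∃ i₀, v i₀ ≠ 0 ∧ ∀ i, i ≠ i₀ → v i = 0 := by decide

variable {F : Type*} [Field F] [Fintype F]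

lemma three_cases (hF : Fintype.card F = 3) (x : F) : x = 0 ∨ x = 1 ∨ x = -1 := by
  have : Fact (Nat.Prime 3) := ⟨Nat.prime_three⟩
  let ψ : F ≃+* ZMod 3 := FiniteField.ringEquivOfCardEq (by rw [hF, ZMod.card])
  rcases z3_cases (ψ x) with h | h | h
  · left; exact (map_eq_zero ψ).1 h
  · right; left; exact ψ.injective (by rw [h, map_one])
  · right; right; exact ψ.injective (by rw [h, map_neg, map_one])

lemma three_zero (hF : Fintype.card F = 3) : (3 : F) = 0 := by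
  have := FiniteField.cast_card_eq_zero F
  rw [hF] at this
  exact_mod_cast this

lemma col_three (hF : Fintype.card F = 3) (v : Fin 3 → F) (h : ∑ i, v i * (RingEquiv.refl F) (v i) = 1) :
    ∃ i₀, v i₀ ≠ 0 ∧ ∀ i, i ≠ i₀ → v i = 0 := by
  have : Fact (Nat.Prime 3) := ⟨Nat.prime_three⟩
  let ψ : F ≃+* ZMod 3 := FiniteField.ringEquivOfCardEq (by rw [hF, ZMod.card])
  have h1 : ∑ i, ψ (v i) * ψ (v i) = 1 := by
    have := congrArg ψ h
    rw [map_sum, map_one] at this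
    rw [← this]
    exact Finset.sum_congr rfl (fun i _ => by rw [map_mul]; rfl)
  obtain ⟨i₀, h2, h3⟩ := z3_col (fun i => ψ (v i)) h1
  exact ⟨i₀, fun h => h2 (by rw [h, map_zero]), fun i hi => (map_eq_zero ψ).1 (h3 i hi)⟩

/-- a similitude of a ternary form over the field with three elements is an isometry -/
lemma mult_one {f₁ : (Fin 3 → F) → (Fin 3 → F) → F} {ε ε₁ : F} {w : Fin 3 → Fin 3 → F} (hF : Fintype.card F = 3)
    (h₁ : ReflForm (RingEquiv.refl F) ε₁ f₁) (hw : IsFrm f₁ ε w) (a : GL (Fin 3) F) (l : F) (hl : l ≠ 0)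
    (ha : ∀ x y, f₁ ((a : Matrix (Fin 3) (Fin 3) F) *ᵥ x) ((a : Matrix (Fin 3) (Fin 3) F) *ᵥ y) = l * f₁ x y) :
    l = 1 := by
  rcases three_cases hF l with h | h | h
  · exact absurd h hl
  · exact h
  · exfalso
    set X : Matrix (Fin 3) (Fin 3) F := fun i j => frmDual f₁ ε w i ⬝ᵥ ((a : Matrix (Fin 3) (Fin 3) F) *ᵥ w j) with hX
    have h1 : Xᵀ * X = l • (1 : Matrix (Fin 3) (Fin 3) F) := by
      ext j k
      rw [Matrix.mul_apply, Matrix.smul_apply, Matrix.one_apply]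
      apply mul_left_cancel₀ hw.1
      have := frm_form h₁ hw ((a : Matrix (Fin 3) (Fin 3) F) *ᵥ w j) ((a : Matrix (Fin 3) (Fin 3) F) *ᵥ w k)
      rw [ha, hw.2] at this
      simp only [Matrix.transpose_apply]
      have h2 : ε * ∑ x, X x j * X x k = l * if j = k then ε else 0 := this.symm
      rw [h2]
      split_ifs <;> simp <;> ring
    have h2 := congrArg Matrix.det h1
    rw [Matrix.det_mul, Matrix.det_transpose, Matrix.det_smul, Matrix.det_one, Fintype.card_fin, h] at h2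
    have h3 := three_zero hF
    rcases three_cases hF X.det with h4 | h4 | h4
    · rw [h4] at h2
      have : (1 : F) = 0 := by linear_combination h2
      exact one_ne_zero this
    · rw [h4] at h2
      have : (1 : F) = 0 := by linear_combination h3 - h2
      exact one_ne_zero this
    · rw [h4] at h2
      have : (1 : F) = 0 := by linear_combination h3 - h2
      exact one_ne_zero this

end small

section betw

variable {ι : Type} [Fintype ι] [DecidableEq ι] {F : Type*} [Field F] {n₁ n₂ : ℕ} (e : ι ≃ Fin n₁ × Fin n₂) (P : GL ι F)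

theorem betw {I : Subgroup (GL ι F)} {w : Fin n₁ → Fin n₁ → F} (hw : ∀ j, w j ≠ 0)
    (hperm : ∀ a b, kgl e P a b ∈ I → ∃ (τ : Equiv.Perm (Fin n₁)) (c : Fin n₁ → F),
      ∀ j, (a : Matrix (Fin n₁) (Fin n₁) F) *ᵥ w j = c j • w (τ j))
    {g₁ : GL ι F} (h1 : g₁ ∈ I) (h1' : ∀ j β, ∃ γ, (g₁ : Matrix ι ι F) *ᵥ ten e P (w j) β = ten e P (w j) γ)
    (h1'' : g₁ ∉ Geo.tensorProductSubgroup n₁ n₂ e P)
    {g₂ : GL ι F} (h2 : g₂ ∈ I) (h2' : g₂ ∉ Geo.decompositionStabilizer (fun j => DL (n₂ := n₂) e P (w j))) :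
    ∃ K : Subgroup (GL ι F), Geo.tensorProductSubgroup n₁ n₂ e P ⊓ I < K ∧ K < I := by
  refine ⟨Geo.decompositionStabilizer (fun j => DL (n₂ := n₂) e P (w j)) ⊓ I, ?_, ?_⟩
  · refine lt_of_le_of_ne ?_ ?_
    · rintro g ⟨hg, hgI⟩
      refine ⟨?_, hgI⟩
      obtain ⟨a, b, rfl⟩ := (mem_tensor e P).1 hg
      obtain ⟨τ, c, hc⟩ := hperm a b hgI
      refine dec_mem e P hw τ (fun j β => ?_)
      rw [kgl_ten, hc, ten_smul_left, ← ten_smul_right]
      exact ⟨_, rfl⟩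
    · intro heq
      apply h1''
      have : g₁ ∈ Geo.decompositionStabilizer (fun j => DL (n₂ := n₂) e P (w j)) ⊓ I :=
        ⟨dec_mem e P hw 1 (fun j β => h1' j β), h1⟩
      rw [← heq] at this
      exact this.1
  · refine lt_of_le_of_ne inf_le_right ?_
    intro heq
    rw [← heq] at h2
    exact h2' h2.1

end betw

end Cfsg.Agent.H12
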