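import Mathlib
import Cfsg.Prelude.Def_GeometricClasses
import Cfsg.Agent.H12.OmND2
import Cfsg.Agent.H12.OmTS
import Cfsg.Agent.H12.SymRep
import Cfsg.Agent.H12.TenForm2

/-!
Stabilisers of frames: non-maximality of some stabilisers of orthogonal decompositions.
-/

set_option autoImplicit false
set_option linter.unusedSectionVars false

namespace Cfsg.Agent.H12

open Matrix Cfsg Cfsg.Agent.H5

section stS

variable {F V : Type*} [Field F] [AddCommGroup V] [Module F V] {Q : QuadraticForm F V}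

/-- stabiliser of a set of vectors -/
def stS (S : Set V) : Subgroup (OG Q) where
  carrier := {g | (∀ x ∈ S, g x ∈ S) ∧ (∀ x ∈ S, (g⁻¹ : OG Q) x ∈ S)}
  mul_mem' := by
    intro a b ha hb
    refine ⟨fun x hx => ?_, fun x hx => ?_⟩
    · rw [og_mul]; exact ha.1 _ (hb.1 _ hx)
    · rw [_root_.mul_inv_rev, og_mul]; exact hb.2 _ (ha.2 _ hx)
  one_mem' := by
    refine ⟨fun x hx => ?_, fun x hx => ?_⟩
    · rw [og_one]; exact hx
    · rw [inv_one, og_one]; exact hx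
  inv_mem' := by
    intro a ha
    refine ⟨ha.2, fun x hx => ?_⟩
    rw [inv_inv]; exact ha.1 _ hx

lemma mem_stS {S : Set V} {g : OG Q} :
    g ∈ stS (Q := Q) S ↔ (∀ x ∈ S, g x ∈ S) ∧ (∀ x ∈ S, (g⁻¹ : OG Q) x ∈ S) := Iff.rfl

lemma refl_mem_stS {S : Set V} {v : V} (hv : Q v ≠ 0) (h : ∀ x ∈ S, refl hv x ∈ S) : refl hv ∈ stS (Q := Q) S :=
  ⟨h, fun x hx => by rw [refl_inv]; exact h x hx⟩

/-- frame data for a decomposition -/
structure FrmD (Q : QuadraticForm F V) {t k : ℕ} (D : Fin t → Submodule F V) (w : Fin t → Fin k → V) : Prop where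
  mem : ∀ i j, w i j ∈ D i
  ne : ∀ i j, Q (w i j) ≠ 0
  orth : ∀ i j i' j', (i, j) ≠ (i', j') → pB Q (w i j) (w i' j') = 0
  eq : ∀ i i' j, Q (w i j) = Q (w i' j)
  char : ∀ i, ∀ x ∈ D i, ∀ i' j', Q x = Q (w i' j') → ∃ j, x = w i j ∨ x = - w i j

/-- the vectors of the frame up to sign -/
def SF {t k : ℕ} (w : Fin t → Fin k → V) : Set V := {x | ∃ i j, x = w i j ∨ x = - w i j}

variable {t k : ℕ} {D : Fin t → Submodule F V} {w : Fin t → Fin k → V}

lemma swap_mem (h : FrmD Q D w) (h2 : (2 : F) ≠ 0) {i j i' j'} (hne : (i, j) ≠ (i', j'))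
    (hq : Q (w i j) = Q (w i' j')) (hv : Q (w i j - w i' j') ≠ 0) : refl hv ∈ stS (Q := Q) (SF w) := by
  have key : ∀ a b, refl hv (w a b) ∈ SF w := by
    intro a b
    by_cases h1 : (a, b) = (i, j)
    · obtain ⟨rfl, rfl⟩ := Prod.mk.inj h1
      rw [refl_move hq hv]
      exact ⟨i', j', Or.inl rfl⟩
    by_cases h3 : (a, b) = (i', j')
    · obtain ⟨rfl, rfl⟩ := Prod.mk.inj h3
      have h4 : refl hv (w i j) = w a b := refl_move hq hv
      have h5 : refl hv (refl hv (w i j)) = w i j := by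
        rw [← og_mul, refl_mul_self, og_one]
      rw [h4] at h5
      rw [h5]
      exact ⟨i, j, Or.inl rfl⟩
    · rw [refl_fix hv]
      · exact ⟨a, b, Or.inl rfl⟩
      · rw [pl_sub, h.orth i j a b (fun h => h1 h.symm), h.orth i' j' a b (fun h => h3 h.symm), sub_zero]
  apply refl_mem_stS
  rintro x ⟨a, b, rfl | rfl⟩
  · exact key a b
  · rw [og_neg]
    obtain ⟨c, d, h1 | h1⟩ := key a b
    · exact ⟨c, d, Or.inr (by rw [h1])⟩
    · exact ⟨c, d, Or.inl (by rw [h1, neg_neg])⟩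

variable [Fintype F] [FiniteDimensional F V]

theorem frame_between (hnd : ND Q) (hn : 5 ≤ Module.finrank F V) (hodd : Odd (Fintype.card F)) (ht : 5 ≤ t) (hk : 2 ≤ k)
    (h : FrmD Q D w) (hD : ∀ i j, i ≠ j → ∀ x ∈ D i, ∀ y ∈ D j, pB Q x y = 0) {T : Subgroup (OG Q)}
    (hT : ∀ g ∈ T, ∃ σ : Equiv.Perm (Fin t), ∀ i, ∀ x ∈ D i, g x ∈ D (σ i)) :
    ∃ K : Subgroup (OG Q), T ⊓ EG Q < K ∧ K < EG Q := by
  classical
  have h2 : (2 : F) ≠ 0 := two_ne_zero_of_odd_card hodd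
  have hT' : ∀ g ∈ T, ∀ x ∈ SF w, g x ∈ SF w := by
    intro g hg x hx
    obtain ⟨σ, hσ⟩ := hT g hg
    have key : ∀ i j, ∀ x ∈ D i, Q x = Q (w i j) → g x ∈ SF w := by
      intro i j x hx hq
      obtain ⟨j', hj'⟩ := h.char (σ i) (g x) (hσ i x hx) i j (by rw [og_q, hq])
      exact ⟨_, _, hj'⟩
    obtain ⟨i, j, rfl | rfl⟩ := hx
    · exact key i j _ (h.mem i j) rfl
    · exact key i j _ ((D i).neg_mem (h.mem i j)) (by rw [q_neg])
  have hle : T ⊓ EG Q ≤ stS (Q := Q) (SF w) ⊓ EG Q := by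
    rintro g ⟨hg, hgE⟩
    exact ⟨⟨hT' g hg, hT' g⁻¹ (T.inv_mem hg)⟩, hgE⟩
  have z0 : (⟨0, by omega⟩ : Fin t) ≠ ⟨1, by omega⟩ := by simp
  have z1 : (⟨0, by omega⟩ : Fin t) ≠ ⟨2, by omega⟩ := by simp
  have z2 : (⟨1, by omega⟩ : Fin t) ≠ ⟨2, by omega⟩ := by simp
  have z3 : (⟨0, by omega⟩ : Fin t) ≠ ⟨3, by omega⟩ := by simp
  have z4 : (⟨1, by omega⟩ : Fin t) ≠ ⟨3, by omega⟩ := by simp
  have z5 : (⟨2, by omega⟩ : Fin t) ≠ ⟨3, by omega⟩ := by simp
  generalize hi0 : (⟨0, by omega⟩ : Fin t) = i0 at z0 z1 z3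
  generalize hi1 : (⟨1, by omega⟩ : Fin t) = i1 at z0 z2 z4
  generalize hi2 : (⟨2, by omega⟩ : Fin t) = i2 at z1 z2 z5
  generalize hi3 : (⟨3, by omega⟩ : Fin t) = i3 at z3 z4 z5
  have y0 : (⟨0, by omega⟩ : Fin k) ≠ ⟨1, by omega⟩ := by simp
  generalize hj0 : (⟨0, by omega⟩ : Fin k) = j0 at y0
  generalize hj1 : (⟨1, by omega⟩ : Fin k) = j1 at y0
  have pne : ∀ {i i' : Fin t} {j j' : Fin k}, i ≠ i' → (i, j) ≠ (i', j') := fun hi hp => hi (Prod.mk.inj hp).1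
  have qsub : ∀ {i i' : Fin t}, i ≠ i' → Q (w i j0 - w i' j0) ≠ 0 := by
    intro i i' hi
    rw [q_sub, h.orth _ _ _ _ (pne hi), h.eq i' i, sub_zero, ← two_mul]
    exact mul_ne_zero h2 (h.ne _ _)
  refine ⟨stS (Q := Q) (SF w) ⊓ EG Q, lt_of_le_of_ne hle ?_, lt_of_le_of_ne inf_le_right ?_⟩
  · intro heq
    have hs1 := swap_mem h h2 (pne (j := j0) (j' := j0) z0) (h.eq _ _ _) (qsub z0)
    have hs2 := swap_mem h h2 (pne (j := j0) (j' := j0) z2) (h.eq _ _ _) (qsub z2)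
    set s1 := refl (qsub z0) with hs1'
    set s2 := refl (qsub z2) with hs2'
    have hgE : s1 * s2 * s1⁻¹ * s2⁻¹ ∈ EG Q := by
      rw [eg_eq_comm hnd hn (exists_sing hnd (by omega))]
      exact Subgroup.commutator_mem_commutator (Subgroup.mem_top s1) (Subgroup.mem_top s2)
    have hgK : s1 * s2 * s1⁻¹ * s2⁻¹ ∈ T ⊓ EG Q := by
      rw [heq]
      exact ⟨Subgroup.mul_mem _ (Subgroup.mul_mem _ (Subgroup.mul_mem _ hs1 hs2) (Subgroup.inv_mem _ hs1))
        (Subgroup.inv_mem _ hs2), hgE⟩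
    obtain ⟨σ, hσ⟩ := hT _ hgK.1
    have e1 : s1 (w i0 j0) = w i1 j0 := refl_move (h.eq _ _ _) (qsub z0)
    have e2 : s2 (w i1 j0) = w i2 j0 := refl_move (h.eq _ _ _) (qsub z2)
    have e3 : s1 (w i2 j0) = w i2 j0 := by
      apply refl_fix
      rw [pl_sub, h.orth _ _ _ _ (pne z1), h.orth _ _ _ _ (pne z2), sub_zero]
    have e4 : s2 (w i0 j0) = w i0 j0 := by
      apply refl_fix
      rw [pl_sub, h.orth _ _ _ _ (pne z0.symm), h.orth _ _ _ _ (pne z1.symm), sub_zero]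
    have e5 : s1 (w i0 j1) = w i0 j1 := by
      apply refl_fix
      rw [pl_sub, h.orth _ _ _ _ (fun hp => y0 (Prod.mk.inj hp).2), h.orth _ _ _ _ (pne z0.symm), sub_zero]
    have e6 : s2 (w i0 j1) = w i0 j1 := by
      apply refl_fix
      rw [pl_sub, h.orth _ _ _ _ (pne z0.symm), h.orth _ _ _ _ (pne z1.symm), sub_zero]
    have f1 : (s1 * s2 * s1⁻¹ * s2⁻¹ : OG Q) (w i0 j0) = w i2 j0 := by
      rw [hs1', hs2', refl_inv, refl_inv, ← hs1', ← hs2', og_mul, og_mul, og_mul, e4, e1, e2, e3]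
    have f2 : (s1 * s2 * s1⁻¹ * s2⁻¹ : OG Q) (w i0 j1) = w i0 j1 := by
      rw [hs1', hs2', refl_inv, refl_inv, ← hs1', ← hs2', og_mul, og_mul, og_mul, e6, e5, e6, e5]
    have g1 := hσ i0 _ (h.mem i0 j0)
    rw [f1] at g1
    have g2 := hσ i0 _ (h.mem i0 j1)
    rw [f2] at g2
    have uniq : ∀ a b i j, w i j ∈ D a → w i j ∈ D b → a = b := by
      intro a b i j ha hb
      by_contra hne
      have h3 := hD a b hne _ ha _ hb
      rw [pB_self] at h3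
      exact mul_ne_zero h2 (h.ne i j) h3
    have g3 := uniq _ _ _ _ g1 (h.mem i2 j0)
    have g4 := uniq _ _ _ _ g2 (h.mem i0 j1)
    exact z1 (g4.symm.trans g3)
  · intro heq
    obtain ⟨p, q, hpq⟩ := sum_two_sq hodd (h.ne i0 j0) (h.ne i1 j0) (-(Q (w i2 j0)))
    have hu : Q (p • w i0 j0 + q • w i1 j0 + w i2 j0) = 0 := by
      rw [q_add, q_add, q_smul, q_smul, pl_smul, pr_smul, pl_add, pl_smul, pl_smul, h.orth _ _ _ _ (pne z0),
        h.orth _ _ _ _ (pne z1), h.orth _ _ _ _ (pne z2)]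
      linear_combination hpq
    have huw : pB Q (p • w i0 j0 + q • w i1 j0 + w i2 j0) (w i3 j0) = 0 := by
      rw [pl_add, pl_add, pl_smul, pl_smul, h.orth _ _ _ _ (pne z3), h.orth _ _ _ _ (pne z4), h.orth _ _ _ _ (pne z5)]
      ring
    have huc : pB Q (p • w i0 j0 + q • w i1 j0 + w i2 j0) (w i2 j0) = 2 * Q (w i2 j0) := by
      rw [pl_add, pl_add, pl_smul, pl_smul, h.orth _ _ _ _ (pne z1), h.orth _ _ _ _ (pne z2), pB_self]
      ring
    have hm : eich hu huw ∈ stS (Q := Q) (SF w) ⊓ EG Q := by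
      rw [heq]; exact eg_mem hu huw
    obtain ⟨i, j, hy⟩ := hm.1.1 (w i2 j0) ⟨i2, j0, Or.inl rfl⟩
    have hy' : ∀ a b, pB Q (w a b) (eich hu huw (w i2 j0)) ≠ 0 → (a, b) = (i, j) := by
      intro a b hab
      by_contra hne
      apply hab
      rcases hy with hy | hy
      · rw [hy, h.orth _ _ _ _ hne]
      · rw [hy, pr_neg, h.orth _ _ _ _ hne, neg_zero]
    have e0 : ∀ x, pB Q x (eich hu huw (w i2 j0)) = pB Q x (w i2 j0) + 2 * Q (w i2 j0) * pB Q x (w i3 j0) -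
        Q (w i3 j0) * (2 * Q (w i2 j0)) * pB Q x (p • w i0 j0 + q • w i1 j0 + w i2 j0) := by
      intro x
      rw [eich_apply, huc, h.orth _ _ _ _ (pne z5.symm), pr_sub, pr_sub, pr_add, pr_smul, pr_smul, pr_smul]
      ring
    have c2 := mul_ne_zero h2 (h.ne i2 j0)
    have e1 : pB Q (w i3 j0) (eich hu huw (w i2 j0)) ≠ 0 := by
      rw [e0, h.orth _ _ _ _ (pne z5.symm), pB_self, pr_add, pr_add, pr_smul, pr_smul, h.orth _ _ _ _ (pne z3.symm),
        h.orth _ _ _ _ (pne z4.symm), h.orth _ _ _ _ (pne z5.symm)]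
      have : 2 * Q (w i2 j0) * (2 * Q (w i3 j0)) ≠ 0 := mul_ne_zero c2 (mul_ne_zero h2 (h.ne _ _))
      intro h0; apply this; linear_combination h0
    have hpq' : p ≠ 0 ∨ q ≠ 0 := by
      by_contra hcon
      push Not at hcon
      rw [hcon.1, hcon.2] at hpq
      apply h.ne i2 j0
      linear_combination hpq
    rcases hpq' with hp | hq
    · have e2 : pB Q (w i0 j0) (eich hu huw (w i2 j0)) ≠ 0 := by
        rw [e0, h.orth _ _ _ _ (pne z1), h.orth _ _ _ _ (pne z3), pr_add, pr_add, pr_smul, pr_smul, pB_self,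
          h.orth _ _ _ _ (pne z0), h.orth _ _ _ _ (pne z1)]
        have : Q (w i3 j0) * (2 * Q (w i2 j0)) * (p * (2 * Q (w i0 j0))) ≠ 0 :=
          mul_ne_zero (mul_ne_zero (h.ne _ _) c2) (mul_ne_zero hp (mul_ne_zero h2 (h.ne _ _)))
        intro h0; apply this; linear_combination -h0
      exact pne z3 ((hy' _ _ e2).trans (hy' _ _ e1).symm)
    · have e2 : pB Q (w i1 j0) (eich hu huw (w i2 j0)) ≠ 0 := by
        rw [e0, h.orth _ _ _ _ (pne z2), h.orth _ _ _ _ (pne z4), pr_add, pr_add, pr_smul, pr_smul, pB_self,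
          h.orth _ _ _ _ (pne z0.symm), h.orth _ _ _ _ (pne z2)]
        have : Q (w i3 j0) * (2 * Q (w i2 j0)) * (q * (2 * Q (w i1 j0))) ≠ 0 :=
          mul_ne_zero (mul_ne_zero (h.ne _ _) c2) (mul_ne_zero hq (mul_ne_zero h2 (h.ne _ _)))
        intro h0; apply this; linear_combination -h0
      exact pne z4 ((hy' _ _ e2).trans (hy' _ _ e1).symm)

end stS

end Cfsg.Agent.H12
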