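import Mathlib
import Cfsg.Prelude.Def_GeometricClasses
import Cfsg.Agent.H12.OmFrame
import Cfsg.Agent.H12.OmBridge
import Cfsg.Agent.H12.DecProj

/-!
Existence of frames.
-/

set_option autoImplicit false
set_option linter.unusedSectionVars false

namespace Cfsg.Agent.H12

open Matrix Cfsg Cfsg.Agent.H5

section base

variable {F V : Type*} [Field F] [AddCommGroup V] [Module F V] {Q : QuadraticForm F V}

/-- base frame -/
structure BFrm (Q : QuadraticForm F V) (W : Submodule F V) {k : ℕ} (v : Fin k → V) : Prop where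
  mem : ∀ j, v j ∈ W
  ne : ∀ j, Q (v j) ≠ 0
  orth : ∀ j j', j ≠ j' → pB Q (v j) (v j') = 0
  char : ∀ x ∈ W, ∀ j', Q x = Q (v j') → ∃ j, x = v j ∨ x = - v j

/-- an orthogonal basis of a subspace -/
lemma exists_orth_sub [FiniteDimensional F V] (h2 : (2 : F) ≠ 0) {W : Submodule F V} (hW : NDS Q W) {k : ℕ}
    (hk : Module.finrank F W = k) :
    ∃ v : Fin k → V, (∀ j, v j ∈ W) ∧ (∀ i j, i ≠ j → pB Q (v i) (v j) = 0) ∧ ∀ i, Q (v i) ≠ 0 := by
  have : Invertible (2 : F) := invertibleOfNonzero h2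
  have hsym : LinearMap.IsSymm (pB (resQ Q W)) := ⟨fun x y => pB_symm _ _ _⟩
  obtain ⟨b', hb'⟩ := LinearMap.BilinForm.exists_orthogonal_basis hsym
  let b := b'.reindex (finCongr hk)
  have hB : ∀ x y : W, pB (resQ Q W) x y = pB Q (x : V) (y : V) := fun x y => rfl
  have hb : ∀ i j, i ≠ j → pB (resQ Q W) (b i) (b j) = 0 := by
    intro i j hij
    have := hb' (show (finCongr hk).symm i ≠ (finCongr hk).symm j from fun h => hij ((finCongr hk).symm.injective h))
    rw [Module.Basis.reindex_apply, Module.Basis.reindex_apply]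
    exact this
  refine ⟨fun i => (b i : V), fun i => (b i).2, fun i j hij => by rw [← hB]; exact hb i j hij, fun i hi => ?_⟩
  apply b.ne_zero i
  apply Subtype.ext
  apply hW _ (b i).2
  intro y hy
  have h3 : pB (resQ Q W) (b i) ⟨y, hy⟩ = 0 := by
    rw [← b.sum_repr ⟨y, hy⟩, map_sum]
    refine Finset.sum_eq_zero (fun j _ => ?_)
    rw [map_smul]
    by_cases hj : i = j
    · rw [← hj, pB_self, resQ_apply, hi, mul_zero, smul_zero]
    · rw [hb i j hj, smul_zero]
  exact h3

/-- expansion in an orthogonal family -/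
lemma orth_expand [FiniteDimensional F V] (h2 : (2 : F) ≠ 0) {W : Submodule F V} {k : ℕ} (hk : Module.finrank F W = k)
    {v : Fin k → V} (hm : ∀ j, v j ∈ W) (ho : ∀ i j, i ≠ j → pB Q (v i) (v j) = 0) (hn : ∀ i, Q (v i) ≠ 0) {x : V}
    (hx : x ∈ W) : ∃ c : Fin k → F, x = ∑ j, c j • v j ∧ Q x = ∑ j, c j ^ 2 * Q (v j) := by
  have hli : LinearIndependent F v := by
    rw [Fintype.linearIndependent_iff]
    intro g hg i
    have h3 := congrArg (fun y => pB Q (v i) y) hg
    beta_reduce at h3
    rw [map_sum, map_zero, Finset.sum_eq_single i] at h3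
    · rw [map_smul, pB_self, smul_eq_mul] at h3
      exact (mul_eq_zero.1 h3).resolve_right (mul_ne_zero h2 (hn i))
    · intro j _ hj
      rw [map_smul, ho i j hj.symm, smul_zero]
    · intro h; exact absurd (Finset.mem_univ _) h
  have hspan : Submodule.span F (Set.range v) = W := by
    apply Submodule.eq_of_le_of_finrank_eq
    · rw [Submodule.span_le]
      rintro _ ⟨j, rfl⟩
      exact hm j
    · rw [finrank_span_eq_card hli, Fintype.card_fin, hk]
  rw [← hspan, Submodule.mem_span_range_iff_exists_fun] at hx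
  obtain ⟨c, hc⟩ := hx
  refine ⟨c, hc.symm, ?_⟩
  rw [← hc]
  have h4 : ∀ s : Finset (Fin k), Q (∑ j ∈ s, c j • v j) = ∑ j ∈ s, c j ^ 2 * Q (v j) := by
    intro s
    induction s using Finset.induction_on with
    | empty => simp
    | insert a s ha ih =>
      rw [Finset.sum_insert ha, Finset.sum_insert ha, q_add, ih, q_smul, pl_smul, map_sum,
        Finset.sum_eq_zero (s := s) (f := fun j => pB Q (v a) (c j • v j))]
      · ring
      · intro j hj
        rw [map_smul, ho a j (fun h => ha (h ▸ hj)), smul_zero]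
  exact h4 Finset.univ

lemma bfrm_of [FiniteDimensional F V] (h2 : (2 : F) ≠ 0) {W : Submodule F V} {k : ℕ} (hk : Module.finrank F W = k)
    {v : Fin k → V} (hm : ∀ j, v j ∈ W) (ho : ∀ i j, i ≠ j → pB Q (v i) (v j) = 0) (hn : ∀ i, Q (v i) ≠ 0)
    (hc : ∀ (c : Fin k → F) (j' : Fin k), ∑ j, c j ^ 2 * Q (v j) = Q (v j') →
      ∃ j, (c j = 1 ∨ c j = -1) ∧ ∀ i, i ≠ j → c i = 0) : BFrm Q W v := by
  refine ⟨hm, hn, ho, fun x hx j' hq => ?_⟩
  obtain ⟨c, h3, h4⟩ := orth_expand h2 hk hm ho hn hx
  rw [h4] at hq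
  obtain ⟨j, hj, hj'⟩ := hc c j' hq
  refine ⟨j, ?_⟩
  rw [h3, Finset.sum_eq_single j]
  · rcases hj with hj | hj
    · left; rw [hj, one_smul]
    · right; rw [hj, neg_smul, one_smul]
  · intro i _ hi
    rw [hj' i hi, zero_smul]
  · intro h; exact absurd (Finset.mem_univ _) h

/-- transport of a base frame -/
lemma frmD_of {t k : ℕ} {D : Fin t → Submodule F V} {i0 : Fin t} {v : Fin k → V} (hv : BFrm Q (D i0) v)
    (he : ∀ i j, ∃ e : D i ≃ₗ[F] D j, ∀ w : D i, Q ((e w : D j) : V) = Q (w : V))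
    (hD : ∀ i j, i ≠ j → ∀ x ∈ D i, ∀ y ∈ D j, pB Q x y = 0) : ∃ w : Fin t → Fin k → V, FrmD Q D w := by
  choose e he using fun i => he i0 i
  have hp : ∀ i (x y : D i0), pB Q ((e i x : D i) : V) (e i y) = pB Q (x : V) y := by
    intro i x y
    have h1 := he i (x + y)
    rw [map_add] at h1
    rw [Submodule.coe_add, Submodule.coe_add, q_add, q_add, he, he] at h1
    linear_combination h1
  refine ⟨fun i j => e i ⟨v j, hv.mem j⟩, ?_, ?_, ?_, ?_, ?_⟩
  · intro i j; exact (e i _).2
  · intro i j; rw [he]; exact hv.ne j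
  · intro i j i' j' hne
    by_cases hi : i = i'
    · subst hi
      rw [hp]
      exact hv.orth j j' (fun h => hne (by rw [h]))
    · exact hD i i' hi _ (e i _).2 _ (e i' _).2
  · intro i i' j; rw [he, he]
  · intro i x hx i' j' hq
    rw [he] at hq
    have h1 := he i ((e i).symm ⟨x, hx⟩)
    rw [LinearEquiv.apply_symm_apply] at h1
    obtain ⟨j, hj⟩ := hv.char _ ((e i).symm ⟨x, hx⟩).2 j' (by rw [← h1]; exact hq)
    refine ⟨j, ?_⟩
    rcases hj with hj | hj
    · left
      have h2 : (e i).symm ⟨x, hx⟩ = ⟨v j, hv.mem j⟩ := Subtype.ext hj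
      rw [← h2, LinearEquiv.apply_symm_apply]
    · right
      have h2 : (e i).symm ⟨x, hx⟩ = -⟨v j, hv.mem j⟩ := Subtype.ext hj
      have h3 : (⟨x, hx⟩ : D i) = - (e i ⟨v j, hv.mem j⟩) := by
        rw [← map_neg, ← h2, LinearEquiv.apply_symm_apply]
      exact congrArg Subtype.val h3

end base

section three

variable {F V : Type*} [Field F] [Fintype F] [AddCommGroup V] [Module F V] [FiniteDimensional F V] {Q : QuadraticForm F V}

lemma two_ne_of_three (hF : Fintype.card F = 3) : (2 : F) ≠ 0 := by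
  intro h2
  have h3 := three_zero hF
  have : (1 : F) = 0 := by linear_combination h3 - h2
  exact one_ne_zero this

/-- a base frame for planes -/
lemma base_two (hF : Fintype.card F = 3) {W : Submodule F V} (hW : NDS Q W) (hk : Module.finrank F W = 2) :
    ∃ v : Fin 2 → V, BFrm Q W v := by
  have h2 := two_ne_of_three hF
  have h3 := three_zero hF
  obtain ⟨v, hm, ho, hn⟩ := exists_orth_sub h2 hW hk
  refine ⟨v, bfrm_of h2 hk hm ho hn ?_⟩
  intro c j' hc
  rw [Fin.sum_univ_two] at hc
  have h10 : (1 : F) ≠ 0 := one_ne_zero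
  have hj' : j' = 0 ∨ j' = 1 := by omega
  have hsq : ∀ x : F, x = 0 ∨ x ^ 2 = 1 := by
    intro x
    rcases three_cases hF x with h | h | h
    · left; exact h
    · right; rw [h]; ring
    · right; rw [h]; ring
  have hpm : ∀ x : F, x ^ 2 = 1 → x = 1 ∨ x = -1 := fun x hx => mul_self_eq_one_iff.1 (by rw [← pow_two]; exact hx)
  have good : (c 0 = 0 ∧ c 1 ^ 2 = 1) ∨ (c 1 = 0 ∧ c 0 ^ 2 = 1) →
      ∃ j, (c j = 1 ∨ c j = -1) ∧ ∀ i, i ≠ j → c i = 0 := by
    rintro (⟨h, h'⟩ | ⟨h, h'⟩)
    · exact ⟨1, hpm _ h', fun i hi => by rw [show i = 0 by omega]; exact h⟩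
    · exact ⟨0, hpm _ h', fun i hi => by rw [show i = 1 by omega]; exact h⟩
  rcases hsq (c 0) with h0 | h0 <;> rcases hsq (c 1) with h1 | h1
  · exfalso
    rw [h0, h1] at hc
    apply hn j'
    rw [← hc]; ring
  · exact good (Or.inl ⟨h0, h1⟩)
  · exact good (Or.inr ⟨h1, h0⟩)
  · exfalso
    rw [h0, h1] at hc
    rcases hj' with rfl | rfl
    · apply hn 1; linear_combination hc
    · apply hn 0; linear_combination hc

/-- a base frame in dimension three -/
lemma base_three (hF : Fintype.card F = 3) {W : Submodule F V} (hW : NDS Q W) (hk : Module.finrank F W = 3) :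
    ∃ v : Fin 3 → V, BFrm Q W v := by
  have h2 := two_ne_of_three hF
  have h3 := three_zero hF
  obtain ⟨v, hm, ho, hn⟩ := exists_orth_sub h2 hW hk
  have fin : ∀ v : Fin 3 → V, (∀ j, v j ∈ W) → (∀ i j, i ≠ j → pB Q (v i) (v j) = 0) → (∀ i, Q (v i) ≠ 0) →
      (∀ i, Q (v i) = Q (v 0)) → ∃ v : Fin 3 → V, BFrm Q W v := by
    intro v hm ho hn he
    refine ⟨v, bfrm_of h2 hk hm ho hn ?_⟩
    intro c j' hc
    have h4 : ∑ i, c i * (RingEquiv.refl F) (c i) = 1 := by
      apply mul_right_cancel₀ (hn 0)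
      rw [he j'] at hc
      rw [one_mul, Finset.sum_mul]
      refine Eq.trans (Finset.sum_congr rfl (fun i _ => ?_)) hc
      rw [he i]
      show c i * c i * _ = _
      rw [pow_two]
    obtain ⟨j, hj, hj'⟩ := col_three hF c h4
    refine ⟨j, ?_, hj'⟩
    rcases three_cases hF (c j) with h | h | h
    · exact absurd h hj
    · exact Or.inl h
    · exact Or.inr h
  have key : ∀ i j k : Fin 3, i ≠ j → i ≠ k → j ≠ k → Q (v i) = Q (v j) → ∃ v : Fin 3 → V, BFrm Q W v := by
    intro i j k hij hik hjk heq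
    by_cases hk : Q (v k) = Q (v i)
    · refine fin v hm ho hn (fun a => ?_)
      have h4 : ∀ a : Fin 3, Q (v a) = Q (v i) := by
        intro a
        have : a = i ∨ a = j ∨ a = k := by omega
        rcases this with h | h | h
        · rw [h]
        · rw [h, heq]
        · rw [h, hk]
      rw [h4 a, h4 0]
    · have hk' : Q (v k) = - Q (v i) := by
        rcases three_cases hF (Q (v k)) with h | h | h
        · exact absurd h (hn k)
        · rcases three_cases hF (Q (v i)) with h' | h' | h'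
          · exact absurd h' (hn i)
          · exact absurd (h.trans h'.symm) hk
          · rw [h, h', neg_neg]
        · rcases three_cases hF (Q (v i)) with h' | h' | h'
          · exact absurd h' (hn i)
          · rw [h, h']
          · exact absurd (h.trans h'.symm) hk
      have e1 : Q (v i + v j) = - Q (v i) := by
        rw [q_add, ho i j hij, ← heq]; linear_combination Q (v i) * h3
      have e2 : Q (v i - v j) = - Q (v i) := by
        rw [q_sub, ho i j hij, ← heq]; linear_combination Q (v i) * h3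
      have e3 : pB Q (v i + v j) (v i - v j) = 0 := by
        rw [pl_add, pr_sub, pr_sub, ho i j hij, ho j i hij.symm, pB_self, pB_self, ← heq]; ring
      have e4 : pB Q (v i - v j) (v i + v j) = 0 := by rw [pB_symm, e3]
      have e5 : pB Q (v i + v j) (v k) = 0 := by rw [pl_add, ho i k hik, ho j k hjk, add_zero]
      have e6 : pB Q (v i - v j) (v k) = 0 := by rw [pl_sub, ho i k hik, ho j k hjk, sub_zero]
      have e7 : pB Q (v k) (v i + v j) = 0 := by rw [pB_symm, e5]
      have e8 : pB Q (v k) (v i - v j) = 0 := by rw [pB_symm, e6]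
      refine fin ![v i + v j, v i - v j, v k] ?_ ?_ ?_ ?_
      · intro a
        fin_cases a
        · exact W.add_mem (hm i) (hm j)
        · exact W.sub_mem (hm i) (hm j)
        · exact hm k
      · intro a b hab
        fin_cases a <;> fin_cases b <;> first | exact absurd rfl hab | exact e3 | exact e4 | exact e5 | exact e6 | exact e7 | exact e8
      · intro a
        have hne : - Q (v i) ≠ 0 := neg_ne_zero.2 (hn i)
        fin_cases a
        · show Q (v i + v j) ≠ 0
          rw [e1]; exact hne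
        · show Q (v i - v j) ≠ 0
          rw [e2]; exact hne
        · show Q (v k) ≠ 0
          rw [hk']; exact hne
      · intro a
        fin_cases a
        · rfl
        · show Q (v i - v j) = Q (v i + v j)
          rw [e1, e2]
        · show Q (v k) = Q (v i + v j)
          rw [e1, hk']
  by_cases h01 : Q (v 0) = Q (v 1)
  · exact key 0 1 2 (by decide) (by decide) (by decide) h01
  by_cases h02 : Q (v 0) = Q (v 2)
  · exact key 0 2 1 (by decide) (by decide) (by decide) h02
  apply key 1 2 0 (by decide) (by decide) (by decide)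
  rcases three_cases hF (Q (v 0)) with h | h | h
  · exact absurd h (hn 0)
  · rcases three_cases hF (Q (v 1)) with h' | h' | h'
    · exact absurd h' (hn 1)
    · exact absurd (h.trans h'.symm) h01
    · rcases three_cases hF (Q (v 2)) with h'' | h'' | h''
      · exact absurd h'' (hn 2)
      · exact absurd (h.trans h''.symm) h02
      · rw [h', h'']
  · rcases three_cases hF (Q (v 1)) with h' | h' | h'
    · exact absurd h' (hn 1)
    · rcases three_cases hF (Q (v 2)) with h'' | h'' | h''
      · exact absurd h'' (hn 2)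
      · rw [h', h'']
      · exact absurd (h.trans h''.symm) h02
    · exact absurd (h.trans h'.symm) h01

end three

section mat

variable {F : Type*} [Field F] [Fintype F] {ι : Type} [Fintype ι] [DecidableEq ι] {Q : QuadraticForm F (ι → F)}

lemma dec_hT {t : ℕ} {D : Fin t → Submodule F (ι → F)} {g : OG Q}
    (hg : g ∈ (Geo.decompositionStabilizer D).comap (ogGL Q)) :
    ∃ σ : Equiv.Perm (Fin t), ∀ i, ∀ x ∈ D i, g x ∈ D (σ i) := by
  obtain ⟨σ, hσ⟩ := hg
  refine ⟨σ, fun i x hx => ?_⟩
  have h1 : Submodule.map (Matrix.toLin' ((ogGL Q g : GL ι F) : Matrix ι ι F)) (D i) = D (σ i) := hσ i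
  rw [← h1]
  refine ⟨x, hx, ?_⟩
  rw [Matrix.toLin'_apply, ogGL_apply]

lemma frm_nm (hnd : ND Q) (hodd : Odd (Fintype.card F)) {t k : ℕ} {D : Fin t → Submodule F (ι → F)}
    (hD : Geo.IsOrthogonalMDecomposition (⇑Q) k D) (ht : 5 ≤ t) (hk : 2 ≤ k)
    (hb : ∀ i, ∃ v : Fin k → (ι → F), BFrm Q (D i) v) :
    ∃ K : Subgroup (GL ι F), Geo.decompositionStabilizer D ⊓ Geo.omegaGL (⇑Q) < K ∧ K < Geo.omegaGL (⇑Q) := by
  have hc := card_decomp hD.decomp.decomp
  have hn : 5 ≤ Fintype.card ι := by
    rw [← hc]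
    calc 5 ≤ t * 1 := by omega
      _ ≤ t * k := Nat.mul_le_mul_left _ (by omega)
  apply between_of hnd hn
  have hort : ∀ i j, i ≠ j → ∀ x ∈ D i, ∀ y ∈ D j, pB Q x y = 0 := fun i j hij x hx y hy =>
    hD.decomp.orthogonal i j hij x hx y hy
  obtain ⟨v, hv⟩ := hb ⟨0, by omega⟩
  obtain ⟨w, hw⟩ := frmD_of hv (fun i j => hD.isometric i j) hort
  exact frame_between hnd (by rw [Module.finrank_fintype_fun_eq_card]; exact hn) hodd ht hk hw hort (fun g hg => dec_hT hg)

theorem nm_three (hnd : ND Q) (hF : Fintype.card F = 3) (hn : 13 ≤ Fintype.card ι) {t k : ℕ} (hk : k = 2 ∨ k = 3)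
    {D : Fin t → Submodule F (ι → F)} (hD : Geo.IsOrthogonalMDecomposition (⇑Q) k D) :
    ∃ K : Subgroup (GL ι F), Geo.decompositionStabilizer D ⊓ Geo.omegaGL (⇑Q) < K ∧ K < Geo.omegaGL (⇑Q) := by
  have hc := card_decomp hD.decomp.decomp
  have hodd : Odd (Fintype.card F) := by rw [hF]; decide
  rcases hk with rfl | rfl
  · exact frm_nm hnd hodd hD (by omega) le_rfl
      (fun i => base_two hF (nds_of (hD.decomp.nondegenerate i)) (hD.decomp.decomp.finrank_eq i))
  · exact frm_nm hnd hodd hD (by omega) (by omega)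
      (fun i => base_three hF (nds_of (hD.decomp.nondegenerate i)) (hD.decomp.decomp.finrank_eq i))

end mat

end Cfsg.Agent.H12
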