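import Mathlib
import Cfsg.Prelude.Def_GeometricClasses
import Cfsg.Agent.H12.OmDec6
import Cfsg.Agent.H12.OmFrame2

/-!
Stabilisers of orthogonal decompositions into blocks of dimension at least three: maximality.
-/

set_option autoImplicit false
set_option linter.unusedSectionVars false

namespace Cfsg.Agent.H12

open Matrix Cfsg Cfsg.Agent.H5

section assembly

variable {F V : Type*} [Field F] [Fintype F] [AddCommGroup V] [Module F V] [FiniteDimensional F V] {Q : QuadraticForm F V}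

lemma im_eq_of {g : OG Q} {Y Z : Submodule F V} (h : ∀ x ∈ Y, g x ∈ Z) (hf : Module.finrank F Z ≤ Module.finrank F Y) :
    im g Y = Z := by
  apply Submodule.eq_of_le_of_finrank_le
  · rintro _ ⟨x, hx, rfl⟩
    exact h x hx
  · rw [finrank_im]; exact hf

/-- products of two reflections of the same norm -/
lemma refl_mul_mem (hnd : ND Q) (hn : 5 ≤ Module.finrank F V) {p q : V} (hp : Q p ≠ 0) (hq : Q q ≠ 0) (h : Q p = Q q) :
    H5.refl hp * H5.refl hq ∈ EG Q := by
  have hp0 : p ≠ 0 := by rintro rfl; exact hp (map_zero Q)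
  have hq0 : q ≠ 0 := by rintro rfl; exact hq (map_zero Q)
  obtain ⟨m, hm⟩ := og_witt1 hnd hp0 hq0 h.symm
  have h1 : H5.refl hq = m * H5.refl hp * m⁻¹ := by
    have h2 := refl_conj m hp (by rw [hm]; exact hq)
    rw [h2]
    subst hm
    rfl
  have h3 : H5.refl hp * H5.refl hq = H5.refl hp * m * (H5.refl hp)⁻¹ * m⁻¹ := by
    rw [h1, refl_inv]; simp only [mul_assoc]
  rw [h3, eg_eq_comm hnd hn (exists_sing hnd (by omega))]
  exact Subgroup.commutator_mem_commutator (Subgroup.mem_top _) (Subgroup.mem_top m)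

variable {t : ℕ} {D : Fin t → Submodule F V}

/-- the interchange of two isometric orthogonal subspaces -/
lemma exists_swapD (hnd : ND Q) {A B : Submodule F V} (hA : NDS Q A) (hB : NDS Q B)
    (hAB : ∀ x ∈ A, ∀ y ∈ B, pB Q x y = 0) (e : A ≃ₗ[F] B) (he : ∀ w : A, Q ((e w : B) : V) = Q (w : V)) :
    ∃ g : OG Q, (∀ x ∈ A, g x ∈ B) ∧ (∀ x ∈ B, g x ∈ A) ∧ ∀ x, x ∈ oc Q A → x ∈ oc Q B → g x = x := by
  let f : V →ₗ[F] V := LinearMap.id - A.subtype ∘ₗ nproj hA - B.subtype ∘ₗ nproj hB +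
    B.subtype ∘ₗ (e : A →ₗ[F] B) ∘ₗ nproj hA + A.subtype ∘ₗ (e.symm : B →ₗ[F] A) ∘ₗ nproj hB
  have hf : ∀ x, f x = x - (nproj hA x : V) - (nproj hB x : V) + (e (nproj hA x) : V) + (e.symm (nproj hB x) : V) :=
    fun x => rfl
  have hB0 : ∀ x ∈ A, nproj hB x = 0 := fun x hx => nproj_of_oc hB (mem_oc.2 (fun n hn => by
    rw [pB_symm]; exact hAB x hx n hn))
  have hA0 : ∀ x ∈ B, nproj hA x = 0 := fun x hx => nproj_of_oc hA (mem_oc.2 (fun n hn => hAB n hn x hx))
  have hq : ∀ x, Q (f x) = Q x := by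
    intro x
    set a := nproj hA x with ha
    set b := nproj hB x with hb
    set x' := x - (a : V) - (b : V) with hx'
    have h1 := nproj_sub hA x
    have h2 := nproj_sub hB x
    rw [← ha] at h1
    rw [← hb] at h2
    have hxA : ∀ n ∈ A, pB Q x' n = 0 := by
      intro n hn
      have := mem_oc.1 h1 n hn
      rw [pr_sub] at this
      rw [hx', pl_sub, pl_sub, pB_symm Q x n, pB_symm Q (a : V) n, pB_symm Q (b : V) n, hAB n hn b b.2]
      linear_combination this
    have hxB : ∀ n ∈ B, pB Q x' n = 0 := by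
      intro n hn
      have := mem_oc.1 h2 n hn
      rw [pr_sub] at this
      rw [hx', pl_sub, pl_sub, pB_symm Q x n, pB_symm Q (b : V) n, hAB a a.2 n hn]
      linear_combination this
    have e1 : Q x = Q x' + Q (a : V) + Q (b : V) := by
      have : x = x' + (a : V) + (b : V) := by rw [hx']; abel
      conv_lhs => rw [this]
      rw [q_add, q_add, pl_add, hxA _ a.2, hxB _ b.2, hAB _ a.2 _ b.2]; ring
    have e2 : Q (f x) = Q x' + Q ((e a : B) : V) + Q ((e.symm b : A) : V) := by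
      rw [hf, ← ha, ← hb, ← hx', q_add, q_add, pl_add, hxB _ (e a).2, hxA _ (e.symm b).2, pB_symm Q (e a : V),
        hAB _ (e.symm b).2 _ (e a).2]; ring
    have e3 := he (e.symm b)
    rw [LinearEquiv.apply_symm_apply] at e3
    rw [e1, e2, he, ← e3]
  refine ⟨mkOG hnd f hq, ?_, ?_, ?_⟩
  · intro x hx
    rw [mkOG_apply, hf, hB0 x hx, nproj_of_mem hA hx, map_zero]
    have : x - x - ((0 : B) : V) + (e ⟨x, hx⟩ : V) + ((0 : A) : V) = (e ⟨x, hx⟩ : V) := by
      rw [Submodule.coe_zero, Submodule.coe_zero]; abel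
    rw [this]
    exact (e ⟨x, hx⟩).2
  · intro x hx
    rw [mkOG_apply, hf, hA0 x hx, nproj_of_mem hB hx, map_zero]
    have : x - ((0 : A) : V) - x + ((0 : B) : V) + (e.symm ⟨x, hx⟩ : V) = (e.symm ⟨x, hx⟩ : V) := by
      rw [Submodule.coe_zero, Submodule.coe_zero]; abel
    rw [this]
    exact (e.symm ⟨x, hx⟩).2
  · intro x hxA hxB
    rw [mkOG_apply, hf, nproj_of_oc hA hxA, nproj_of_oc hB hxB, map_zero, map_zero]
    rw [Submodule.coe_zero, Submodule.coe_zero]; abel

/-- the stabiliser of the decomposition -/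
def stD (Q : QuadraticForm F V) (D : Fin t → Submodule F V) : Subgroup (OG Q) where
  carrier := {g | ∃ σ : Equiv.Perm (Fin t), ∀ i, im g (D i) = D (σ i)}
  mul_mem' := by
    rintro a b ⟨σ, hσ⟩ ⟨τ, hτ⟩
    exact ⟨τ.trans σ, fun i => by rw [im_mul, hτ, hσ]; rfl⟩
  one_mem' := ⟨1, fun i => by rw [im_one]; rfl⟩
  inv_mem' := by
    rintro a ⟨σ, hσ⟩
    refine ⟨σ.symm, fun i => ?_⟩
    have h1 := hσ (σ.symm i)
    rw [Equiv.apply_symm_apply] at h1
    rw [← h1, ← im_mul, inv_mul_cancel, im_one]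

lemma mem_stD {g : OG Q} : g ∈ stD Q D ↔ ∃ σ : Equiv.Perm (Fin t), ∀ i, im g (D i) = D (σ i) := Iff.rfl

theorem dec_maximal (hnd : ND Q) (h2 : (2 : F) ≠ 0) (hodd : Odd (Fintype.card F)) (ht : 2 ≤ t) {k : ℕ}
    (hk : ∀ i, Module.finrank F (D i) = k) (hk5 : 5 ≤ k ∨ (k = 3 ∧ 4 ≤ Fintype.card F))
    (hND : ∀ i, NDS Q (D i)) (orth : ∀ i j, i ≠ j → ∀ x ∈ D i, ∀ y ∈ D j, pB Q x y = 0) (top : iSup D = ⊤)
    (iso : ∀ i j, ∃ e : D i ≃ₗ[F] D j, ∀ w : D i, Q ((e w : D j) : V) = Q (w : V)) :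
    Geo.IsMaximalIn (EG Q) (stD Q D ⊓ EG Q) := by
  have hk3 : 3 ≤ k := by omega
  have z01 : (⟨0, by omega⟩ : Fin t) ≠ ⟨1, by omega⟩ := by simp
  generalize hi0 : (⟨0, by omega⟩ : Fin t) = i0 at z01
  generalize hi1 : (⟨1, by omega⟩ : Fin t) = i1 at z01
  -- dimension
  have hn : 5 ≤ Module.finrank F V := by
    have h1 : D i0 ⊓ D i1 = ⊥ := by
      rw [Submodule.eq_bot_iff]
      intro x hx
      exact hND i0 x hx.1 (fun y hy => by rw [pB_symm]; exact orth i0 i1 z01 y hy x hx.2)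
    have h3 := Submodule.finrank_sup_add_finrank_inf_eq (D i0) (D i1)
    rw [h1, finrank_bot, hk, hk] at h3
    have h4 : Module.finrank F (D i0 ⊔ D i1 : Submodule F V) ≤ Module.finrank F V := Submodule.finrank_le _
    omega
  have hocl : ∀ i j, i ≠ j → ∀ x ∈ D i, x ∈ oc Q (D j) := by
    intro i j hij x hx
    rw [mem_oc]
    intro n hn
    exact orth j i hij.symm n hn x hx
  have hTr : ∀ i, ∀ g : OG Q, (∀ x ∈ D i, g x ∈ D i) → (∀ j, j ≠ i → ∀ x ∈ D j, g x = x) → g ∈ stD Q D := by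
    intro i g h1 h3
    refine ⟨1, fun j => ?_⟩
    by_cases hj : j = i
    · subst hj
      exact im_eq_of h1 le_rfl
    · exact im_eq_of (fun x hx => by rw [h3 j hj x hx]; exact hx) le_rfl
  have heich : ∀ i, ∀ u ∈ D i, ∀ w ∈ D i, ∀ (hu : Q u = 0) (huw : pB Q u w = 0), eich hu huw ∈ stD Q D ⊓ EG Q := by
    intro i u hu w hw hqu huw
    refine ⟨hTr i _ (eich_mem_stO_nd hqu huw hu hw).1 ?_, eg_mem hqu huw⟩
    intro j hj x hx
    rw [eich_apply, orth i j hj.symm u hu x hx, orth i j hj.symm w hw x hx]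
    module
  -- the set-up for an overgroup
  have setup : ∀ M : Subgroup (OG Q), stD Q D ⊓ EG Q ≤ M → DecS D M := by
    intro M hM
    refine ⟨hnd, h2, orth, top, fun i => ⟨hND i, fun u hu hqu w hw huw => ⟨hqu, huw, hM (heich i u hu w hw hqu huw)⟩⟩,
      fun i => by rw [hk]; exact hk3, ?_⟩
    intro i j hij
    obtain ⟨e, he⟩ := iso i j
    obtain ⟨g, hg1, hg2, hg3⟩ := exists_swapD hnd (hND i) (hND j) (fun x hx y hy => orth i j hij x hx y hy) e he
    obtain ⟨p, hp, hp0, hqp⟩ := exists_singW (Q := Q) (W := D i) (by rw [hk]; exact hk3)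
    obtain ⟨f', hf, hpf⟩ := exists_partner (Q := resQ Q (D i)) (hND i).nd (u := ⟨p, hp⟩)
      (fun h => hp0 (congrArg Subtype.val h)) hqp
    obtain ⟨f, hfD⟩ := f'
    obtain ⟨r, hr, hgr⟩ := exists_corr (rg_top hnd (fun _ => by omega)) hqp hf hpf g
    have hrfix : ∀ x ∈ oc Q (D i), r x = x := by
      intro x hx
      exact hr x (mem_oc.1 hx p hp) (mem_oc.1 hx f hfD)
    have hrf : r ∈ Cfsg.Agent.H5.fixer Q (oc Q (D i)) := hrfix
    have hri : ∀ x ∈ D i, r x ∈ D i := fun x hx => fixer_maps hnd hrf hx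
    have hrj : ∀ l, l ≠ i → ∀ x ∈ D l, r x = x := fun l hl x hx => hrfix x (hocl l i hl x hx)
    have b1 : im (g * r) (D i) = D j := im_eq_of (fun x hx => by rw [og_mul]; exact hg1 _ (hri x hx)) (by rw [hk, hk])
    have b2 : im (g * r) (D j) = D i := im_eq_of (fun x hx => by
      rw [og_mul, hrj j hij.symm x hx]; exact hg2 _ hx) (by rw [hk, hk])
    have b3 : ∀ l, l ≠ i → l ≠ j → im (g * r) (D l) = D l := fun l hli hlj => im_eq_of (fun x hx => by
      rw [og_mul, hrj l hli x hx, hg3 x (hocl l i hli x hx) (hocl l j hlj x hx)]; exact hx) le_rfl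
    refine ⟨g * r, hM ⟨⟨Equiv.swap i j, fun l => ?_⟩, hgr⟩, b1, b2, b3⟩
    by_cases h3 : l = i
    · rw [h3, Equiv.swap_apply_left, b1]
    by_cases h4 : l = j
    · rw [h4, Equiv.swap_apply_right, b2]
    · rw [Equiv.swap_apply_of_ne_of_ne h3 h4, b3 l h3 h4]
  refine ⟨lt_of_le_of_ne inf_le_right ?_, ?_⟩
  · intro heq
    obtain ⟨u, hu, hu0, hqu⟩ := exists_singW (Q := Q) (W := D i0) (by rw [hk]; exact hk3)
    obtain ⟨w, hw, hw0, hqw⟩ := exists_singW (Q := Q) (W := D i1) (by rw [hk]; exact hk3)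
    obtain ⟨f', hf, huf⟩ := exists_partner (Q := resQ Q (D i0)) (hND i0).nd (u := ⟨u, hu⟩)
      (fun h => hu0 (congrArg Subtype.val h)) hqu
    obtain ⟨f, hfD⟩ := f'
    have huf' : pB Q u f = 1 := huf
    have huw : pB Q u w = 0 := orth i0 i1 z01 u hu w hw
    have hg : eich hqu huw ∈ stD Q D ⊓ EG Q := by rw [heq]; exact eg_mem hqu huw
    obtain ⟨σ, hσ⟩ := hg.1
    have h1 : eich hqu huw u ∈ D (σ i0) := by rw [← hσ, mem_im, og_inv]; exact hu
    have h3 : eich hqu huw f ∈ D (σ i0) := by rw [← hσ, mem_im, og_inv]; exact hfD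
    have hwu : pB Q w u = 0 := by rw [pB_symm, huw]
    have hwf : pB Q w f = 0 := orth i1 i0 z01.symm w hw f hfD
    have h4 : eich hqu huw u = u := by
      rw [eich_apply, pB_self, hqu, hwu]; module
    have h5 : eich hqu huw f = f + w := by
      rw [eich_apply, huf', hwf, hqw]; module
    rw [h4] at h1
    rw [h5] at h3
    have h6 : σ i0 = i0 := by
      by_contra hne
      have h7 := orth i0 (σ i0) (fun h => hne h.symm) f hfD u h1
      rw [pB_symm, huf'] at h7
      exact one_ne_zero h7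
    rw [h6] at h3
    have h7 : w ∈ D i0 := by
      have := (D i0).sub_mem h3 hfD
      rwa [add_sub_cancel_left] at this
    exact hw0 (hND i0 w h7 (fun y hy => orth i1 i0 z01.symm w hw y hy))
  · intro M hM1 hM2
    by_cases hMT : M ≤ stD Q D
    · left
      exact le_antisymm (le_inf hMT hM2) hM1
    right
    apply le_antisymm hM2
    obtain ⟨g, hg, hgT⟩ := Set.not_subset.1 hMT
    have S := setup M hM1
    obtain ⟨i, hi⟩ : ∃ i, ∀ l, im g (D i) ≠ D l := by
      by_contra hcon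
      push Not at hcon
      choose σ hσ using hcon
      have hinj : Function.Injective σ := by
        intro a b hab
        by_contra hne
        have h1 : im g (D a) = im g (D b) := by rw [hσ, hσ, hab]
        have h3 : D a = D b := by
          have := congrArg (im g⁻¹) h1
          rwa [← im_mul, ← im_mul, inv_mul_cancel, im_one, im_one] at this
        obtain ⟨w, hw, hw0, -⟩ := exists_singW (Q := Q) (W := D a) (by rw [hk]; exact hk3)
        exact hw0 (hND a w hw (fun y hy => orth b a (fun h => hne h.symm) w (h3 ▸ hw) y hy))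
      exact hgT ⟨Equiv.ofBijective σ (Finite.injective_iff_bijective.1 hinj), hσ⟩
    obtain ⟨u, hu, hqu, hoff⟩ := S.exists_off hk hi
    rcases hk5 with hk5 | ⟨hk3', hq⟩
    · exact S.five (fun i => by rw [hk]; exact hk5) ((S.cl i).im hg) (by rw [finrank_im, hk]; exact hk5) hu hqu hoff
    · obtain ⟨a0, ha0⟩ : ∃ a0 : F, a0 ≠ 0 ∧ a0 ≠ 1 ∧ a0 ≠ -1 := by
        classical
        by_contra hcon
        push Not at hcon
        have h1 : (Finset.univ : Finset F) ⊆ {0, 1, -1} := fun x _ => by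
          simp only [Finset.mem_insert, Finset.mem_singleton]
          by_cases hx0 : x = 0
          · left; exact hx0
          by_cases hx1 : x = 1
          · right; left; exact hx1
          · right; right; exact hcon x hx0 hx1
        have h3 := Finset.card_le_card h1
        rw [Finset.card_univ] at h3
        have h4 := Finset.card_le_three (a := (0 : F)) (b := 1) (c := -1)
        omega
      refine S.three hodd (fun i => by rw [hk, hk3']) ha0.1 (fun h => ?_) ?_ ((S.cl i).im hg)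
        (by rw [finrank_im, hk, hk3']) hu hqu hoff
      · rcases mul_self_eq_one_iff.1 h with h | h
        · exact ha0.2.1 h
        · exact ha0.2.2 h
      · intro i p hp q hq' hqp hqq hpq
        apply hM1
        refine ⟨hTr i _ ?_ ?_, refl_mul_mem hnd hn hqp hqq hpq⟩
        · intro x hx
          rw [og_mul, refl_apply, refl_apply]
          exact (D i).sub_mem ((D i).sub_mem hx ((D i).smul_mem _ hq')) ((D i).smul_mem _ hp)
        · intro j hj x hx
          rw [og_mul, refl_fix hqq (orth i j hj.symm q hq' x hx), refl_fix hqp (orth i j hj.symm p hp x hx)]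

end assembly

section mat

variable {F : Type*} [Field F] [Fintype F] {ι : Type} [Fintype ι] [DecidableEq ι] {Q : QuadraticForm F (ι → F)}

lemma comap_dec {t : ℕ} {D : Fin t → Submodule F (ι → F)} :
    (Geo.decompositionStabilizer D).comap (ogGL Q) = stD Q D := by
  have key : ∀ (g : OG Q) (Y : Submodule F (ι → F)),
      Submodule.map (Matrix.toLin' ((ogGL Q g : GL ι F) : Matrix ι ι F)) Y = im g Y := by
    intro g Y
    ext x
    constructor
    · rintro ⟨y, hy, rfl⟩
      rw [Matrix.toLin'_apply, ogGL_apply, mem_im, og_inv]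
      exact hy
    · intro hx
      rw [mem_im] at hx
      exact ⟨_, hx, by rw [Matrix.toLin'_apply, ogGL_apply, og_inv']⟩
  ext g
  constructor
  · rintro ⟨σ, hσ⟩
    exact ⟨σ, fun i => by rw [← key]; exact hσ i⟩
  · rintro ⟨σ, hσ⟩
    refine ⟨σ, fun i => ?_⟩
    show Submodule.map (Matrix.toLin' ((ogGL Q g : GL ι F) : Matrix ι ι F)) (D i) = D (σ i)
    rw [key]; exact hσ i

theorem dec_maximal_mat (hnd : ND Q) (hodd : Odd (Fintype.card F)) (hn : 5 ≤ Fintype.card ι) {t k : ℕ}
    {D : Fin t → Submodule F (ι → F)} (hD : Geo.IsOrthogonalMDecomposition (⇑Q) k D)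
    (hk5 : 5 ≤ k ∨ (k = 3 ∧ 4 ≤ Fintype.card F)) :
    Geo.IsMaximalIn (Geo.omegaGL (⇑Q)) (Geo.decompositionStabilizer D ⊓ Geo.omegaGL (⇑Q)) := by
  apply maxIn_of hnd hn
  rw [comap_dec]
  exact dec_maximal hnd (two_ne_zero_of_odd_card hodd) hodd hD.decomp.decomp.two_le hD.decomp.decomp.finrank_eq hk5
    (fun i => nds_of (hD.decomp.nondegenerate i)) (fun i j hij x hx y hy => hD.decomp.orthogonal i j hij x hx y hy)
    hD.decomp.decomp.iSup_eq_top (fun i j => hD.isometric i j)

end mat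

end Cfsg.Agent.H12
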