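import Mathlib
import Cfsg.Prelude.Def_GeometricClasses
import Cfsg.Agent.H12.OmPar

/-!
Some non-maximal stabilisers in `EG Q`.
-/

set_option autoImplicit false
set_option linter.unusedSectionVars false

namespace Cfsg.Agent.H12

open Matrix Cfsg Cfsg.Agent.H5

variable {F V : Type*} [Field F] [AddCommGroup V] [Module F V] {Q : QuadraticForm F V}

lemma small_field {F : Type*} [Field F] [Fintype F] (h : Fintype.card F ≤ 3) (c : F) (hc : c ≠ 0) : c = 1 ∨ c = -1 := by
  have h1 := FiniteField.pow_card_sub_one_eq_one c hc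
  have h2 : 1 < Fintype.card F := Fintype.one_lt_card
  have h3 : Fintype.card F = 2 ∨ Fintype.card F = 3 := by omega
  rcases h3 with h3 | h3
  · rw [h3] at h1
    left; simpa using h1
  · rw [h3] at h1
    have h4 : (c - 1) * (c + 1) = 0 := by
      have : c ^ 2 = 1 := h1
      linear_combination this
    rcases mul_eq_zero.mp h4 with h5 | h5
    · exact Or.inl (sub_eq_zero.mp h5)
    · exact Or.inr (eq_neg_of_add_eq_zero_left h5)

variable [FiniteDimensional F V]

theorem plane_between [Finite F] (hnd : ND Q) (hn : 7 ≤ Module.finrank F V) (hF : ∀ c : F, c ≠ 0 → c = 1 ∨ c = -1)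
    {e f : V} (he : Q e = 0) (hf : Q f = 0) (hef : pB Q e f = 1) :
    ∃ K : Subgroup (OG Q), stO (Q := Q) (Submodule.span F {e, f}) ⊓ EG Q < K ∧ K < EG Q := by
  have hfe : pB Q f e = 1 := by rw [pB_symm]; exact hef
  have hee : pB Q e e = 0 := by rw [pB_self, he, mul_zero]
  have hff : pB Q f f = 0 := by rw [pB_self, hf, mul_zero]
  -- a singular vector orthogonal to the plane
  have hfr := finrank_oc hnd (Submodule.span F {e, f})
  have h2 := finrank_span_pair_le (F := F) e f
  obtain ⟨u, hu, hu0, hQu⟩ := exists_sing_sub (Q := Q) (oc Q (Submodule.span F {e, f})) (by omega)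
  rw [mem_oc_pair] at hu
  obtain ⟨hue, huf⟩ := hu
  have hue' : pB Q u e = 0 := by rw [pB_symm]; exact hue
  have huf' : pB Q u f = 0 := by rw [pB_symm]; exact huf
  have hunot : u ∉ Submodule.span F {e, f} := by
    intro h
    obtain ⟨a, b, hab⟩ := Submodule.mem_span_pair.mp h
    rw [← hab, pr_add, pr_smul, pr_smul, hee, hef] at hue
    rw [← hab, pr_add, pr_smul, pr_smul, hfe, hff] at huf
    apply hu0
    have ha : a = 0 := by linear_combination huf
    have hb : b = 0 := by linear_combination hue
    rw [← hab, ha, hb, zero_smul, zero_smul, add_zero]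
  have hvQ : Q (e + f) = 1 := by rw [q_add, he, hf, hef]; ring
  refine ⟨stO (Q := Q) (Submodule.span F {e + f}) ⊓ EG Q, ?_, ?_⟩
  · refine lt_of_le_of_ne ?_ ?_
    · intro g hg
      obtain ⟨h1, h3⟩ := Subgroup.mem_inf.1 hg
      refine Subgroup.mem_inf.2 ⟨mem_stO_of_fin ?_, h3⟩
      intro x hx
      obtain ⟨c, rfl⟩ := Submodule.mem_span_singleton.mp hx
      rw [og_smul]
      apply Submodule.smul_mem
      have h4 := h1.1 (e + f) (by
        apply Submodule.add_mem <;> apply Submodule.subset_span <;> simp)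
      obtain ⟨a, b, hab⟩ := Submodule.mem_span_pair.mp h4
      have h5 := og_q g (e + f)
      rw [hvQ, ← hab, q_add, q_smul, q_smul, he, hf, pl_smul, pr_smul, hef] at h5
      have h6 : a * b = 1 := by linear_combination h5
      have ha : a ≠ 0 := left_ne_zero_of_mul (by rw [h6]; exact one_ne_zero)
      have hb : b = a := by
        rcases hF a ha with h7 | h7
        · rw [h7] at h6 ⊢
          linear_combination h6
        · rw [h7] at h6 ⊢
          linear_combination -h6
      rw [← hab, hb, ← smul_add]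
      exact Submodule.smul_mem _ _ (Submodule.mem_span_singleton_self _)
    · intro heq
      have huw : pB Q u (e - f) = 0 := by rw [pr_sub, hue', huf', sub_zero]
      have h1 : eich hQu huw ∈ stO (Q := Q) (Submodule.span F {e + f}) ⊓ EG Q := by
        refine Subgroup.mem_inf.2 ⟨mem_stO_of_fin ?_, eg_mem _ _⟩
        intro x hx
        obtain ⟨c, rfl⟩ := Submodule.mem_span_singleton.mp hx
        have h3 : (eich hQu huw) (e + f) = e + f := by
          rw [eich_apply, pr_add, hue', huf', pl_sub, pr_add, pr_add, hee, hef, hfe, hff]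
          simp
        rw [og_smul, h3]
        exact hx
      rw [← heq, Subgroup.mem_inf] at h1
      have h3 := h1.1.1 e (Submodule.subset_span (by simp))
      rw [eich_apply, hue', pl_sub, hee, hfe] at h3
      apply hunot
      have h4 : u = (e + (0 : F) • (e - f) - ((0 : F) - 1) • u - (Q (e - f) * 0) • u) - e := by module
      rw [h4]
      exact Submodule.sub_mem _ h3 (Submodule.subset_span (by simp))
  · refine lt_of_le_of_ne inf_le_right ?_
    intro heq
    have h1 : EG Q ≤ stO (Q := Q) (Submodule.span F {e + f}) := by rw [← heq]; exact inf_le_left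
    have h3 := (h1 (eg_mem hQu hue')).1 (e + f) (Submodule.mem_span_singleton_self _)
    rw [eich_apply, pr_add, hue', huf', pr_add, hee, hef] at h3
    apply hunot
    have h4 : u = (e + f) - ((e + f) + ((0 : F) + 0) • e - ((0 : F) + 1) • u - (Q e * (0 + 0)) • u) := by module
    rw [h4]
    apply Submodule.sub_mem
    · apply Submodule.add_mem <;> apply Submodule.subset_span <;> simp
    · have h5 : Submodule.span F {e + f} ≤ Submodule.span F {e, f} := by
        rw [Submodule.span_le]
        intro x hx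
        rw [Set.mem_singleton_iff] at hx
        rw [hx]
        apply Submodule.add_mem <;> apply Submodule.subset_span <;> simp
      exact h5 h3

/-- a hyperbolic pair in a nondegenerate plane containing a singular vector -/
lemma plane_hyp {W : Submodule F V} (hW : NDS Q W) (h2 : Module.finrank F W = 2) {y : V} (hy : y ∈ W) (hy0 : y ≠ 0)
    (hQ : Q y = 0) : ∃ e f : V, Q e = 0 ∧ Q f = 0 ∧ pB Q e f = 1 ∧ W = Submodule.span F {e, f} := by
  obtain ⟨f, hf, hyf⟩ := exists_partner (Q := resQ Q W) hW.nd (u := ⟨y, hy⟩) (fun h => hy0 (congrArg Subtype.val h)) hQ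
  have hf' : Q (f : V) = 0 := hf
  have hyf' : pB Q y (f : V) = 1 := hyf
  refine ⟨y, f, hQ, hf', hyf', ?_⟩
  symm
  apply Submodule.eq_of_le_of_finrank_eq
  · rw [Submodule.span_le]
    intro x hx
    rw [Set.mem_insert_iff, Set.mem_singleton_iff] at hx
    rcases hx with rfl | rfl
    · exact hy
    · exact f.2
  · rw [finrank_pair (indep_sing hQ hf' (by rw [hyf']; exact one_ne_zero)), h2]

/-- maximal totally singular subspaces containing a given one -/
lemma exists_mts (hnd : ND Q) {U W : Submodule F V} (hU : IsMTS Q U) (hW : ∀ x ∈ W, Q x = 0) :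
    ∃ Y : Submodule F V, IsMTS Q Y ∧ W ≤ Y := by
  have hUU : U = oc Q U := by
    apply Submodule.eq_of_le_of_finrank_eq
    · intro x hx
      rw [mem_oc]
      intro n hn
      exact ts_B hU.1 hn hx
    · have := finrank_oc hnd U
      have h2 := hU.2
      omega
  refine ⟨(U ⊓ oc Q W) ⊔ W, ⟨?_, ?_⟩, le_sup_right⟩
  · intro x hx
    obtain ⟨a, ha, b, hb, rfl⟩ := Submodule.mem_sup.mp hx
    have h1 := ha.2
    rw [SetLike.mem_coe, mem_oc] at h1
    rw [q_add, hU.1 a ha.1, hW b hb, pB_symm, h1 b hb]; ring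
  · have h1 : U ⊓ oc Q W = oc Q (U ⊔ W) := by
      ext x
      rw [mem_oc, Submodule.mem_inf]
      constructor
      · rintro ⟨h2, h3⟩ n hn
        obtain ⟨a, ha, b, hb, rfl⟩ := Submodule.mem_sup.mp hn
        rw [mem_oc] at h3
        rw [pl_add, ts_B hU.1 ha h2, h3 b hb, add_zero]
      · intro h2
        refine ⟨?_, ?_⟩
        · rw [hUU, mem_oc]
          exact fun n hn => h2 n (Submodule.mem_sup_left hn)
        · rw [mem_oc]
          exact fun n hn => h2 n (Submodule.mem_sup_right hn)
    have h2 : (U ⊓ oc Q W) ⊓ W = U ⊓ W := by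
      ext x
      simp only [Submodule.mem_inf, mem_oc]
      constructor
      · rintro ⟨⟨h3, -⟩, h4⟩
        exact ⟨h3, h4⟩
      · rintro ⟨h3, h4⟩
        exact ⟨⟨h3, fun n hn => ts_B hW hn h4⟩, h4⟩
    have h3 := Submodule.finrank_sup_add_finrank_inf_eq (U ⊓ oc Q W) W
    have h4 := Submodule.finrank_sup_add_finrank_inf_eq U W
    have h5 := finrank_oc hnd (U ⊔ W)
    have h6 := hU.2
    rw [h2] at h3
    rw [h1] at h3 ⊢
    omega

theorem submax_between [Finite F] (hnd : ND Q) (hn : 5 ≤ Module.finrank F V) (hrg : RG Q = ⊤) {U W : Submodule F V}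
    (hU : IsMTS Q U) (hW : ∀ x ∈ W, Q x = 0) (hdim : 2 * (Module.finrank F W + 1) = Module.finrank F V) :
    ∃ K : Subgroup (OG Q), stO (Q := Q) W ⊓ EG Q < K ∧ K < EG Q := by
  obtain ⟨Y, hY, hWY⟩ := exists_mts hnd hU hW
  have hYd := hY.2
  refine ⟨stO (Q := Q) Y ⊓ EG Q, ?_, ?_⟩
  · refine lt_of_le_of_ne ?_ ?_
    · intro g hg
      obtain ⟨h1, h3⟩ := Subgroup.mem_inf.1 hg
      refine Subgroup.mem_inf.2 ⟨?_, h3⟩
      have h4 := dg_parity_mts hnd (eg_le_dg hnd hn hrg h3) hY hY
      rw [inf_idem] at h4
      have h5 : W ≤ Y ⊓ im g Y := by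
        intro x hx
        refine ⟨hWY hx, ?_⟩
        rw [SetLike.mem_coe, mem_im]
        exact hWY (h1.2 x hx)
      have h6 := Submodule.finrank_mono h5
      have h7 : Module.finrank F (Y ⊓ im g Y : Submodule F V) ≤ Module.finrank F Y := Submodule.finrank_mono inf_le_left
      have h8 : Y ⊓ im g Y = Y := Submodule.eq_of_le_of_finrank_eq inf_le_left (by omega)
      have h9 : Y = im g Y := Submodule.eq_of_le_of_finrank_eq (inf_eq_left.1 h8) (finrank_im g Y).symm
      apply mem_stO_of_fin
      intro x hx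
      rw [h9]
      exact ⟨x, hx, rfl⟩
    · intro heq
      have hlt : W < Y := lt_of_le_of_ne hWY (fun h => by rw [h] at hdim; omega)
      obtain ⟨y, hy, hyW⟩ := SetLike.exists_of_lt hlt
      have hW0 : W ≠ ⊥ := by
        intro h
        rw [h, finrank_bot] at hdim
        omega
      obtain ⟨x, hx, hx0⟩ := (Submodule.ne_bot_iff _).mp hW0
      have hind : LinearIndependent F ![y, x] := by
        rw [LinearIndependent.pair_iff]
        intro a b hab
        have ha : a = 0 := by
          by_contra ha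
          apply hyW
          have h4 : y = -(a⁻¹ • (b • x)) := by
            have h5 : a • y = -(b • x) := eq_neg_of_add_eq_zero_left hab
            rw [← smul_neg, ← h5, smul_smul, inv_mul_cancel₀ ha, one_smul]
          rw [h4]
          exact W.neg_mem (W.smul_mem _ (W.smul_mem _ hx))
        rw [ha, zero_smul, zero_add] at hab
        exact ⟨ha, (smul_eq_zero.mp hab).resolve_right hx0⟩
      obtain ⟨z, hz1, hz2⟩ := exists_prescribed hnd hind 0 1
      have hQy := hY.1 y hy
      have h1 : eich hQy hz1 ∈ stO (Q := Q) Y ⊓ EG Q :=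
        Subgroup.mem_inf.2 ⟨eich_mem_stO hY.1 hy hQy hz1, eg_mem _ _⟩
      rw [← heq, Subgroup.mem_inf] at h1
      have h3 := h1.1.1 x hx
      rw [eich_apply, ts_B hY.1 hy (hWY hx), pB_symm Q z x, hz2] at h3
      apply hyW
      have h4 : y = x - (x + (0 : F) • z - (1 : F) • y - (Q z * 0) • y) := by module
      rw [h4]
      exact W.sub_mem hx h3
  · have hY0 : Y ≠ ⊥ := by
      intro h
      rw [h, finrank_bot] at hYd
      omega
    exact (ts_maximal hnd hn hY0 hY.1 (fun _ Z hZ => exists_ns hnd (by
      have := Submodule.finrank_lt_finrank_of_lt hZ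
      omega))).1

theorem pair_between [Finite F] (hnd : ND Q) (hn : 5 ≤ Module.finrank F V) (hrg : RG Q = ⊤) {U W : Submodule F V}
    (hU : IsMTS Q U) (hW : IsMTS Q W) (hUW : U ⊓ W = ⊥) (hodd : Odd (Module.finrank F U)) (S : Subgroup (OG Q))
    (hS : ∀ g ∈ S, (im g U = U ∧ im g W = W) ∨ im g U = W) :
    ∃ K : Subgroup (OG Q), S ⊓ EG Q < K ∧ K < EG Q := by
  have hUd := hU.2
  have hle : ∀ g ∈ S ⊓ EG Q, im g U = U ∧ im g W = W := by
    intro g hg
    obtain ⟨h1, h3⟩ := Subgroup.mem_inf.1 hg
    rcases hS g h1 with h4 | h4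
    · exact h4
    · exfalso
      have h5 := dg_parity_mts hnd (eg_le_dg hnd hn hrg h3) hU hU
      rw [inf_idem, h4, hUW, finrank_bot] at h5
      obtain ⟨j, hj⟩ := hodd
      omega
  refine ⟨stO (Q := Q) U ⊓ EG Q, ?_, ?_⟩
  · refine lt_of_le_of_ne ?_ ?_
    · intro g hg
      refine Subgroup.mem_inf.2 ⟨?_, (Subgroup.mem_inf.1 hg).2⟩
      apply mem_stO_of_fin
      intro x hx
      rw [← (hle g hg).1]
      exact ⟨x, hx, rfl⟩
    · intro heq
      -- two independent vectors of `U`
      have hU0 : U ≠ ⊥ := by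
        intro h
        rw [h, finrank_bot] at hUd
        omega
      obtain ⟨y, hy, hy0⟩ := (Submodule.ne_bot_iff _).mp hU0
      obtain ⟨z, hz, hzy⟩ : ∃ z ∈ U, z ∉ Submodule.span F {y} := by
        by_contra hcon
        push Not at hcon
        have h1 := Submodule.finrank_mono (show U ≤ Submodule.span F {y} from hcon)
        have h2 := finrank_span_one_le (F := F) y
        omega
      -- `x ∈ W` with `B(y,x) ≠ 0`
      obtain ⟨x, hx, hyx⟩ : ∃ x ∈ W, pB Q y x ≠ 0 := by
        by_contra hcon
        push Not at hcon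
        have hWW : W = oc Q W := by
          apply Submodule.eq_of_le_of_finrank_eq
          · intro x hx
            rw [mem_oc]
            intro n hn
            exact ts_B hW.1 hn hx
          · have := finrank_oc hnd W
            have h2 := hW.2
            omega
        have h1 : y ∈ U ⊓ W := by
          refine ⟨hy, ?_⟩
          rw [SetLike.mem_coe, hWW, mem_oc]
          intro n hn
          rw [pB_symm]; exact hcon n hn
        rw [hUW, Submodule.mem_bot] at h1
        exact hy0 h1
      have hyz := ts_B hU.1 hy hz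
      have h1 : eich (hU.1 y hy) hyz ∈ stO (Q := Q) U ⊓ EG Q :=
        Subgroup.mem_inf.2 ⟨eich_mem_stO hU.1 hy _ hyz, eg_mem _ _⟩
      rw [← heq] at h1
      have h3 := (hle _ h1).2
      have h4 : (eich (hU.1 y hy) hyz) x ∈ W := by
        rw [← h3]
        exact ⟨x, hx, rfl⟩
      rw [eich_apply] at h4
      have h5 : pB Q y x • z - pB Q z x • y - (Q z * pB Q y x) • y ∈ U ⊓ W := by
        refine ⟨U.sub_mem (U.sub_mem (U.smul_mem _ hz) (U.smul_mem _ hy)) (U.smul_mem _ hy), ?_⟩
        have h6 := W.sub_mem h4 hx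
        have h7 : x + pB Q y x • z - pB Q z x • y - (Q z * pB Q y x) • y - x =
            pB Q y x • z - pB Q z x • y - (Q z * pB Q y x) • y := by abel
        rwa [h7] at h6
      rw [hUW, Submodule.mem_bot, hU.1 z hz] at h5
      apply hzy
      rw [Submodule.mem_span_singleton]
      refine ⟨(pB Q y x)⁻¹ * pB Q z x, ?_⟩
      have h6 : pB Q y x • z = pB Q z x • y := by
        rw [← sub_eq_zero, ← h5]
        module
      rw [mul_smul, ← h6, smul_smul, inv_mul_cancel₀ hyx, one_smul]
  · have hY0 : U ≠ ⊥ := by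
      intro h
      rw [h, finrank_bot] at hUd
      omega
    exact (ts_maximal hnd hn hY0 hU.1 (fun _ Z hZ => exists_ns hnd (by
      have := Submodule.finrank_lt_finrank_of_lt hZ
      omega))).1

end Cfsg.Agent.H12
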