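import Mathlib
import Cfsg.Prelude.Def_GeometricClasses
import Cfsg.Agent.H12.OmFrame2
import Cfsg.Agent.H12.OmNM

/-!
Non-maximality of stabilisers of orthogonal decompositions, even characteristic.
-/

set_option autoImplicit false
set_option linter.unusedSectionVars false

namespace Cfsg.Agent.H12

open Matrix Cfsg Cfsg.Agent.H5

section two

variable {F V : Type*} [Field F] [AddCommGroup V] [Module F V] {Q : QuadraticForm F V}

lemma mem_stS_of_fin [Finite F] [FiniteDimensional F V] {S : Set V} {g : OG Q} (h : ∀ x ∈ S, g x ∈ S) :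
    g ∈ stS (Q := Q) S := by
  refine ⟨h, fun x hx => ?_⟩
  have : Finite V := Module.finite_of_finite F
  have h1 : Function.Injective (fun y : S => (⟨g y.1, h _ y.2⟩ : S)) := by
    intro y z hyz
    exact Subtype.ext (og_inj g (congrArg Subtype.val hyz))
  obtain ⟨y, hy⟩ := (Finite.injective_iff_surjective.1 h1) ⟨x, hx⟩
  have hy' : g y.1 = x := congrArg Subtype.val hy
  rw [← hy', og_inv]
  exact y.2

variable {t : ℕ} {D : Fin t → Submodule F V}

lemma not_in_D (hD : ∀ i j, i ≠ j → ∀ x ∈ D i, ∀ y ∈ D j, pB Q x y = 0) {x y z : V} {i j : Fin t} (hij : i ≠ j)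
    (hy : y ∈ D i) (hz : z ∈ D j) (h1 : pB Q x y ≠ 0) (h2 : pB Q x z ≠ 0) (l : Fin t) : x ∉ D l := by
  intro hx
  by_cases hl : l = i
  · exact h2 (hD l j (fun h => hij (hl.symm.trans h)) x hx z hz)
  · exact h1 (hD l i hl x hx y hy)

/-- the vectors of value one in the members of the decomposition -/
def S1 (Q : QuadraticForm F V) (D : Fin t → Submodule F V) : Set V := {x | ∃ i, x ∈ D i ∧ Q x = 1}

variable [Finite F] [FiniteDimensional F V]

lemma T_S1 {T : Subgroup (OG Q)} (hT : ∀ g ∈ T, ∃ σ : Equiv.Perm (Fin t), ∀ i, ∀ x ∈ D i, g x ∈ D (σ i)) :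
    ∀ g ∈ T, ∀ x ∈ S1 Q D, g x ∈ S1 Q D := by
  rintro g hg x ⟨i, hx, hq⟩
  obtain ⟨σ, hσ⟩ := hT g hg
  exact ⟨σ i, hσ i x hx, by rw [og_q, hq]⟩

/-- planes of plus type over the fields with two and four elements -/
theorem two_between (h20 : (2 : F) = 0) (ht : 4 ≤ t)
    (hD : ∀ i j, i ≠ j → ∀ x ∈ D i, ∀ y ∈ D j, pB Q x y = 0)
    (hyp : ∀ i, ∃ e f : V, e ∈ D i ∧ f ∈ D i ∧ Q e = 0 ∧ Q f = 0 ∧ pB Q e f = 1) {A : AddSubgroup F}
    (hA : ∀ i, ∀ x ∈ D i, ∀ y ∈ D i, Q x = 1 → Q y = 1 → pB Q x y ∈ A) (hA1 : ∀ a ∈ A, a = 0 ∨ a = 1) {c : F}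
    (hc : c * c ∉ A) {T : Subgroup (OG Q)}
    (hT : ∀ g ∈ T, ∃ σ : Equiv.Perm (Fin t), ∀ i, ∀ x ∈ D i, g x ∈ D (σ i)) :
    ∃ K : Subgroup (OG Q), T ⊓ EG Q < K ∧ K < EG Q := by
  choose e f he hf hqe hqf hef using hyp
  obtain ⟨s, hsd⟩ : ∃ s : Fin t → V, ∀ i, s i = e i + f i := ⟨_, fun _ => rfl⟩
  have hs : ∀ i, Q (s i) = 1 := by
    intro i; rw [hsd, q_add, hqe, hqf, hef]; ring
  have hsm : ∀ i, s i ∈ D i := fun i => by rw [hsd]; exact (D i).add_mem (he i) (hf i)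
  have ee : ∀ i, pB Q (s i) (e i) = 1 := by
    intro i
    rw [hsd, pl_add, pB_self, hqe, pB_symm, hef]; ring
  set W : AddSubgroup V := AddSubgroup.closure (S1 Q D) with hW
  have hAA : ∀ x ∈ S1 Q D, ∀ y ∈ S1 Q D, pB Q x y ∈ A := by
    rintro x ⟨i, hx, hqx⟩ y ⟨j, hy, hqy⟩
    by_cases hij : i = j
    · subst hij
      exact hA i x hx y hy hqx hqy
    · rw [hD i j hij x hx y hy]; exact A.zero_mem
  have hAW1 : ∀ x ∈ S1 Q D, ∀ y ∈ W, pB Q x y ∈ A := by
    intro x hx y hy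
    induction hy using AddSubgroup.closure_induction with
    | mem y hy => exact hAA x hx y hy
    | zero => rw [map_zero]; exact A.zero_mem
    | add y z _ _ hy hz => rw [pr_add]; exact A.add_mem hy hz
    | neg y _ hy => rw [pr_neg]; exact A.neg_mem hy
  have hAW : ∀ x ∈ W, ∀ y ∈ W, pB Q x y ∈ A := by
    intro x hx y hy
    induction hx using AddSubgroup.closure_induction with
    | mem x hx => exact hAW1 x hx y hy
    | zero => rw [map_zero, LinearMap.zero_apply]; exact A.zero_mem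
    | add y z _ _ hy hz => rw [pl_add]; exact A.add_mem hy hz
    | neg y _ hy => rw [pl_neg]; exact A.neg_mem hy
  have hTW : ∀ g ∈ T, ∀ x ∈ (W : Set V), g x ∈ (W : Set V) := by
    intro g hg x hx
    have hx' : x ∈ AddSubgroup.closure (S1 Q D) := hx
    clear hx
    show g x ∈ W
    induction hx' using AddSubgroup.closure_induction with
    | mem x hx => exact AddSubgroup.subset_closure (T_S1 hT g hg x hx)
    | zero => rw [og_zero]; exact W.zero_mem
    | add y z _ _ hy hz => rw [og_add]; exact W.add_mem hy hz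
    | neg y _ hy => rw [og_neg]; exact W.neg_mem hy
  have hle : T ⊓ EG Q ≤ stS (Q := Q) (W : Set V) ⊓ EG Q := fun g hg =>
    ⟨mem_stS_of_fin (hTW g hg.1), hg.2⟩
  have z01 : (⟨0, by omega⟩ : Fin t) ≠ ⟨1, by omega⟩ := by simp
  have z02 : (⟨0, by omega⟩ : Fin t) ≠ ⟨2, by omega⟩ := by simp
  have z03 : (⟨0, by omega⟩ : Fin t) ≠ ⟨3, by omega⟩ := by simp
  have z12 : (⟨1, by omega⟩ : Fin t) ≠ ⟨2, by omega⟩ := by simp
  have z13 : (⟨1, by omega⟩ : Fin t) ≠ ⟨3, by omega⟩ := by simp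
  have z23 : (⟨2, by omega⟩ : Fin t) ≠ ⟨3, by omega⟩ := by simp
  generalize hi0 : (⟨0, by omega⟩ : Fin t) = i0 at z01 z02 z03
  generalize hi1 : (⟨1, by omega⟩ : Fin t) = i1 at z01 z12 z13
  generalize hi2 : (⟨2, by omega⟩ : Fin t) = i2 at z02 z12 z23
  generalize hi3 : (⟨3, by omega⟩ : Fin t) = i3 at z03 z13 z23
  have sW : ∀ i, s i ∈ W := fun i => AddSubgroup.subset_closure ⟨i, hsm i, hs i⟩
  have ss : ∀ i j, i ≠ j → pB Q (s i) (s j) = 0 := fun i j hij => hD i j hij _ (hsm i) _ (hsm j)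
  have q1 : Q (s i0 + s i1) = 0 := by
    rw [q_add, hs, hs, ss _ _ z01]; linear_combination h20
  have q2 : Q (s i2 + s i3) = 0 := by
    rw [q_add, hs, hs, ss _ _ z23]; linear_combination h20
  have p1 : pB Q (s i0 + s i1) (s i2 + s i3) = 0 := by
    rw [pl_add, pr_add, pr_add, ss _ _ z02, ss _ _ z03, ss _ _ z12, ss _ _ z13]; ring
  refine ⟨stS (Q := Q) (W : Set V) ⊓ EG Q, lt_of_le_of_ne hle ?_, lt_of_le_of_ne inf_le_right ?_⟩
  · intro heq
    have hg : eich q1 p1 ∈ T ⊓ EG Q := by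
      rw [heq]
      refine ⟨mem_stS_of_fin (fun x hx => ?_), eg_mem q1 p1⟩
      have hx' : x ∈ W := hx
      have uW := W.add_mem (sW i0) (sW i1)
      have wW := W.add_mem (sW i2) (sW i3)
      have sm : ∀ a ∈ A, ∀ y ∈ W, a • y ∈ W := by
        intro a ha y hy
        rcases hA1 a ha with rfl | rfl
        · rw [zero_smul]; exact W.zero_mem
        · rw [one_smul]; exact hy
      show eich q1 p1 x ∈ W
      rw [eich_apply, q2, zero_mul, zero_smul, sub_zero]
      exact W.sub_mem (W.add_mem hx' (sm _ (hAW _ uW _ hx') _ wW)) (sm _ (hAW _ wW _ hx') _ uW)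
    obtain ⟨σ, hσ⟩ := hT _ hg.1
    have h1 := hσ i0 _ (he i0)
    have eD : ∀ i j, i ≠ j → pB Q (s i) (e j) = 0 := fun i j hij => hD i j hij _ (hsm i) _ (he j)
    have h2 : eich q1 p1 (e i0) = e i0 + (s i2 + s i3) := by
      have w1 : pB Q (s i0 + s i1) (e i0) = 1 := by
        rw [pl_add, ee, eD _ _ z01.symm, add_zero]
      have w2 : pB Q (s i2 + s i3) (e i0) = 0 := by
        rw [pl_add, eD _ _ z02.symm, eD _ _ z03.symm, add_zero]
      rw [eich_apply, w1, w2, q2]; module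
    rw [h2] at h1
    refine not_in_D hD z23 (he i2) (he i3) ?_ ?_ _ h1
    · rw [pl_add, pl_add, hD _ _ z02 _ (he i0) _ (he i2), ee, eD _ _ z23.symm, zero_add, add_zero]
      exact one_ne_zero
    · rw [pl_add, pl_add, hD _ _ z03 _ (he i0) _ (he i3), ee, eD _ _ z23, zero_add, zero_add]
      exact one_ne_zero
  · intro heq
    have q3 : Q (c • e i0) = 0 := by rw [q_smul, hqe, mul_zero]
    have p3 : pB Q (c • e i0) (s i1) = 0 := by
      rw [pl_smul, hD _ _ z01 _ (he i0) _ (hsm i1), mul_zero]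
    have hm : eich q3 p3 ∈ stS (Q := Q) (W : Set V) ⊓ EG Q := by rw [heq]; exact eg_mem q3 p3
    have h1 : eich q3 p3 (s i0) ∈ W := hm.1.1 _ (sW i0)
    have h2 := hAW _ (sW i0) _ h1
    have w1 : pB Q (c • e i0) (s i0) = c := by
      rw [pl_smul, pB_symm, ee]; ring
    rw [eich_apply, w1, ss _ _ z01.symm, hs, pr_sub, pr_sub, pr_add, pr_smul, pr_smul, pr_smul, pB_self, hs, ss _ _ z01,
      pr_smul, pr_smul, ee] at h2
    apply hc
    have h3 := A.neg_mem h2
    convert h3 using 1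
    linear_combination h20

end two

end Cfsg.Agent.H12
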