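import Mathlib
import Cfsg.Prelude.Def_GeometricClasses
import Cfsg.Agent.H12.OmFrame3

/-!
Non-maximality of stabilisers of orthogonal decompositions: the remaining small cases.
-/

set_option autoImplicit false
set_option linter.unusedSectionVars false

namespace Cfsg.Agent.H12

open Matrix Cfsg Cfsg.Agent.H5

lemma z2_cases : ∀ z : ZMod 2, z = 0 ∨ z = 1 := by decide

section four

variable {F V : Type*} [Field F] [AddCommGroup V] [Module F V] {Q : QuadraticForm F V}

/-- four vectors in a space of plus type over the field with two elements -/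
structure Four (Q : QuadraticForm F V) (W : Submodule F V) (a1 a2 c1 c2 : V) : Prop where
  m1 : a1 ∈ W
  m2 : a2 ∈ W
  m3 : c1 ∈ W
  m4 : c2 ∈ W
  qa1 : Q a1 = 1
  qa2 : Q a2 = 1
  qc1 : Q c1 = 1
  qc2 : Q c2 = 1
  aa : pB Q a1 a2 = 1
  cc : pB Q c1 c2 = 1
  ac1 : pB Q a1 c1 = 0
  ac2 : pB Q a1 c2 = 0
  ac3 : pB Q a2 c1 = 0
  ac4 : pB Q a2 c2 = 0

variable [Finite F] [FiniteDimensional F V]

lemma bit_cases [Fintype F] (hF : Fintype.card F = 2) (x : F) : x = 0 ∨ x = 1 := by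
  have : Fact (Nat.Prime 2) := ⟨Nat.prime_two⟩
  let ψ : F ≃+* ZMod 2 := FiniteField.ringEquivOfCardEq (by rw [hF, ZMod.card])
  rcases z2_cases (ψ x) with h | h
  · left; exact (map_eq_zero ψ).1 h
  · right; exact ψ.injective (by rw [h, map_one])

lemma Four.char [Fintype F] (hF : Fintype.card F = 2) (h20 : (2 : F) = 0) {W : Submodule F V}
    (hk : Module.finrank F W = 4) {a1 a2 c1 c2 : V} (h : Four Q W a1 a2 c1 c2) {x : V} (hx : x ∈ W) (hq : Q x = 1) :
    (x = a1 ∨ x = a2 ∨ x = a1 + a2) ∨ (pB Q a1 x = 0 ∧ pB Q a2 x = 0) := by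
  have hself : ∀ v : V, pB Q v v = 0 := by
    intro v; rw [pB_self]; linear_combination (Q v) * h20
  have e21 : pB Q a2 a1 = 1 := by rw [pB_symm, h.aa]
  have e43 : pB Q c2 c1 = 1 := by rw [pB_symm, h.cc]
  have e31 : pB Q c1 a1 = 0 := by rw [pB_symm, h.ac1]
  have e41 : pB Q c2 a1 = 0 := by rw [pB_symm, h.ac2]
  have e32 : pB Q c1 a2 = 0 := by rw [pB_symm, h.ac3]
  have e42 : pB Q c2 a2 = 0 := by rw [pB_symm, h.ac4]
  have hli : LinearIndependent F ![a1, a2, c1, c2] := by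
    rw [Fintype.linearIndependent_iff]
    intro g hg
    rw [Fin.sum_univ_four] at hg
    have hg' : g 0 • a1 + g 1 • a2 + g 2 • c1 + g 3 • c2 = 0 := hg
    have f1 := congrArg (fun y => pB Q a2 y) hg'
    have f2 := congrArg (fun y => pB Q a1 y) hg'
    have f3 := congrArg (fun y => pB Q c2 y) hg'
    have f4 := congrArg (fun y => pB Q c1 y) hg'
    beta_reduce at f1 f2 f3 f4
    simp only [map_add, map_smul, map_zero, smul_eq_mul, hself, e21, h.aa, h.ac1, h.ac2, h.ac3, h.ac4, e31, e41, e32, e42,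
      e43, h.cc, mul_zero, mul_one, add_zero, zero_add] at f1 f2 f3 f4
    intro i
    fin_cases i
    · exact f1
    · exact f2
    · exact f3
    · exact f4
  have hspan : Submodule.span F (Set.range ![a1, a2, c1, c2]) = W := by
    apply Submodule.eq_of_le_of_finrank_eq
    · rw [Submodule.span_le]
      rintro _ ⟨j, rfl⟩
      fin_cases j
      · exact h.m1
      · exact h.m2
      · exact h.m3
      · exact h.m4
    · rw [finrank_span_eq_card hli, Fintype.card_fin, hk]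
  rw [← hspan, Submodule.mem_span_range_iff_exists_fun] at hx
  obtain ⟨c, hc⟩ := hx
  rw [Fin.sum_univ_four] at hc
  have hc' : x = c 0 • a1 + c 1 • a2 + c 2 • c1 + c 3 • c2 := hc.symm
  have hqx : Q x = c 0 * c 0 + c 1 * c 1 + c 0 * c 1 + (c 2 * c 2 + c 3 * c 3 + c 2 * c 3) := by
    rw [hc']
    simp only [q_add, q_smul, pl_add, LinearMap.smul_apply, map_smul, smul_eq_mul, h.qa1, h.qa2, h.qc1, h.qc2, h.aa, h.ac1, h.ac2, h.ac3,
      h.ac4, h.cc]
    ring
  rw [hq] at hqx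
  have p1 : pB Q a1 x = c 1 := by
    rw [hc']
    simp only [map_add, map_smul, smul_eq_mul, hself, h.aa, h.ac1, h.ac2]
    ring
  have p2 : pB Q a2 x = c 0 := by
    rw [hc']
    simp only [map_add, map_smul, smul_eq_mul, hself, e21, h.ac3, h.ac4]
    ring
  rw [p1, p2]
  rcases bit_cases hF (c 0) with h0 | h0 <;> rcases bit_cases hF (c 1) with h1 | h1
  · right; exact ⟨h1, h0⟩
  · left
    rcases bit_cases hF (c 2) with h2 | h2 <;> rcases bit_cases hF (c 3) with h3 | h3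
    · right; left; rw [hc', h0, h1, h2, h3]; module
    · exfalso; rw [h0, h1, h2, h3] at hqx; apply one_ne_zero (α := F); linear_combination hqx + h20
    · exfalso; rw [h0, h1, h2, h3] at hqx; apply one_ne_zero (α := F); linear_combination hqx + h20
    · exfalso; rw [h0, h1, h2, h3] at hqx; apply one_ne_zero (α := F); linear_combination hqx + 2 * h20
  · left
    rcases bit_cases hF (c 2) with h2 | h2 <;> rcases bit_cases hF (c 3) with h3 | h3
    · left; rw [hc', h0, h1, h2, h3]; module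
    · exfalso; rw [h0, h1, h2, h3] at hqx; apply one_ne_zero (α := F); linear_combination hqx + h20
    · exfalso; rw [h0, h1, h2, h3] at hqx; apply one_ne_zero (α := F); linear_combination hqx + h20
    · exfalso; rw [h0, h1, h2, h3] at hqx; apply one_ne_zero (α := F); linear_combination hqx + 2 * h20
  · left
    rcases bit_cases hF (c 2) with h2 | h2 <;> rcases bit_cases hF (c 3) with h3 | h3
    · right; right; rw [hc', h0, h1, h2, h3]; module
    · exfalso; rw [h0, h1, h2, h3] at hqx; apply one_ne_zero (α := F); linear_combination hqx + 2 * h20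
    · exfalso; rw [h0, h1, h2, h3] at hqx; apply one_ne_zero (α := F); linear_combination hqx + 2 * h20
    · exfalso; rw [h0, h1, h2, h3] at hqx; apply one_ne_zero (α := F); linear_combination hqx + 3 * h20

theorem four_between [Fintype F] (hF : Fintype.card F = 2) {t : ℕ} {D : Fin t → Submodule F V} (ht : 3 ≤ t)
    (hD : ∀ i j, i ≠ j → ∀ x ∈ D i, ∀ y ∈ D j, pB Q x y = 0) (hk : ∀ i, Module.finrank F (D i) = 4)
    (h4 : ∀ i, ∃ a1 a2 c1 c2 : V, Four Q (D i) a1 a2 c1 c2) {T : Subgroup (OG Q)}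
    (hT : ∀ g ∈ T, ∃ σ : Equiv.Perm (Fin t), ∀ i, ∀ x ∈ D i, g x ∈ D (σ i)) :
    ∃ K : Subgroup (OG Q), T ⊓ EG Q < K ∧ K < EG Q := by
  have h20 : (2 : F) = 0 := by
    have := FiniteField.cast_card_eq_zero F
    rw [hF] at this
    exact_mod_cast this
  have hself : ∀ v : V, pB Q v v = 0 := by
    intro v; rw [pB_self]; linear_combination (Q v) * h20
  have hneg : ∀ v : V, -v = v := by
    intro v
    have : (2 : F) • v = 0 := by rw [h20, zero_smul]
    rw [two_smul] at this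
    exact neg_eq_of_add_eq_zero_left this
  choose a1 a2 c1 c2 h using h4
  have hle : T ⊓ EG Q ≤ stS (Q := Q) (S1 Q D) ⊓ EG Q := fun g hg => ⟨mem_stS_of_fin (T_S1 hT g hg.1), hg.2⟩
  have z01 : (⟨0, by omega⟩ : Fin t) ≠ ⟨1, by omega⟩ := by simp
  have z02 : (⟨0, by omega⟩ : Fin t) ≠ ⟨2, by omega⟩ := by simp
  have z12 : (⟨1, by omega⟩ : Fin t) ≠ ⟨2, by omega⟩ := by simp
  generalize hi0 : (⟨0, by omega⟩ : Fin t) = i0 at z01 z02
  generalize hi1 : (⟨1, by omega⟩ : Fin t) = i1 at z01 z12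
  generalize hi2 : (⟨2, by omega⟩ : Fin t) = i2 at z02 z12
  have q1 : Q (a1 i0 + a1 i1) = 0 := by
    rw [q_add, (h _).qa1, (h _).qa1, hD _ _ z01 _ (h _).m1 _ (h _).m1]; linear_combination h20
  have q2 : Q (a2 i0 + a2 i1) = 0 := by
    rw [q_add, (h _).qa2, (h _).qa2, hD _ _ z01 _ (h _).m2 _ (h _).m2]; linear_combination h20
  have p1 : pB Q (a1 i0 + a1 i1) (a2 i0 + a2 i1) = 0 := by
    rw [pl_add, pr_add, pr_add, (h _).aa, (h _).aa, hD _ _ z01 _ (h _).m1 _ (h _).m2,
      hD _ _ z01.symm _ (h _).m1 _ (h _).m2]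
    linear_combination h20
  have e21 : ∀ i, pB Q (a2 i) (a1 i) = 1 := fun i => by rw [pB_symm, (h i).aa]
  refine ⟨stS (Q := Q) (S1 Q D) ⊓ EG Q, lt_of_le_of_ne hle ?_, lt_of_le_of_ne inf_le_right ?_⟩
  · intro heq
    -- the swap
    have hsw : ∀ i j, i ≠ j → ∀ (q1 : Q (a1 i + a1 j) = 0) (_ : Q (a2 i + a2 j) = 0)
        (p1 : pB Q (a1 i + a1 j) (a2 i + a2 j) = 0), eich q1 p1 (a1 i) = a1 j ∧ eich q1 p1 (a2 i) = a2 j := by
      intro i j hij q1 q2 p1
      have r1 : pB Q (a1 i + a1 j) (a1 i) = 0 := by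
        rw [pl_add, hself, hD _ _ hij.symm _ (h _).m1 _ (h _).m1, add_zero]
      have r2 : pB Q (a2 i + a2 j) (a1 i) = 1 := by
        rw [pl_add, e21, hD _ _ hij.symm _ (h _).m2 _ (h _).m1, add_zero]
      have r3 : pB Q (a1 i + a1 j) (a2 i) = 1 := by
        rw [pl_add, (h _).aa, hD _ _ hij.symm _ (h _).m1 _ (h _).m2, add_zero]
      have r4 : pB Q (a2 i + a2 j) (a2 i) = 0 := by
        rw [pl_add, hself, hD _ _ hij.symm _ (h _).m2 _ (h _).m2, add_zero]
      constructor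
      · rw [eich_apply, r1, r2, q2]
        have : a1 i + (0 : F) • (a2 i + a2 j) - (1 : F) • (a1 i + a1 j) - ((0 : F) * 0) • (a1 i + a1 j) = - a1 j := by
          module
        rw [this, hneg]
      · rw [eich_apply, r3, r4, q2]
        have : a2 i + (1 : F) • (a2 i + a2 j) - (0 : F) • (a1 i + a1 j) - ((0 : F) * 1) • (a1 i + a1 j) =
            (2 : F) • a2 i + a2 j := by module
        rw [this, h20, zero_smul, zero_add]
    have hfix : ∀ x, pB Q (a1 i0 + a1 i1) x = 0 → pB Q (a2 i0 + a2 i1) x = 0 → eich q1 p1 x = x := by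
      intro x h1 h2
      rw [eich_apply, h1, h2]
      module
    obtain ⟨s1, s2⟩ := hsw i0 i1 z01 q1 q2 p1
    have hex : eich q1 p1 = eich (u := a1 i1 + a1 i0) (w := a2 i1 + a2 i0) (by rw [add_comm]; exact q1)
        (by rw [add_comm, add_comm (a2 i1)]; exact p1) := by
      apply og_ext
      intro x
      rw [eich_apply, eich_apply, add_comm (a1 i1), add_comm (a2 i1)]
    obtain ⟨s3, s4⟩ := hsw i1 i0 z01.symm (by rw [add_comm]; exact q1) (by rw [add_comm]; exact q2)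
      (by rw [add_comm, add_comm (a2 i1)]; exact p1)
    rw [← hex] at s3 s4
    have hg : eich q1 p1 ∈ T ⊓ EG Q := by
      rw [heq]
      refine ⟨mem_stS_of_fin ?_, eg_mem q1 p1⟩
      rintro x ⟨l, hx, hq⟩
      by_cases hl0 : l = i0
      · subst hl0
        rcases (h l).char hF h20 (hk l) hx hq with (rfl | rfl | rfl) | ⟨h1, h2⟩
        · rw [s1]; exact ⟨i1, (h _).m1, (h _).qa1⟩
        · rw [s2]; exact ⟨i1, (h _).m2, (h _).qa2⟩
        · refine ⟨i1, ?_, by rw [og_q, hq]⟩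
          rw [og_add, s1, s2]; exact (D i1).add_mem (h _).m1 (h _).m2
        · rw [hfix x]
          · exact ⟨l, hx, hq⟩
          · rw [pl_add, h1, hD _ _ z01.symm _ (h _).m1 _ hx, add_zero]
          · rw [pl_add, h2, hD _ _ z01.symm _ (h _).m2 _ hx, add_zero]
      by_cases hl1 : l = i1
      · subst hl1
        rcases (h l).char hF h20 (hk l) hx hq with (rfl | rfl | rfl) | ⟨h1, h2⟩
        · rw [s3]; exact ⟨i0, (h _).m1, (h _).qa1⟩
        · rw [s4]; exact ⟨i0, (h _).m2, (h _).qa2⟩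
        · refine ⟨i0, ?_, by rw [og_q, hq]⟩
          rw [og_add, s3, s4]; exact (D i0).add_mem (h _).m1 (h _).m2
        · rw [hfix x]
          · exact ⟨l, hx, hq⟩
          · rw [pl_add, h1, hD _ _ z01 _ (h _).m1 _ hx, add_zero]
          · rw [pl_add, h2, hD _ _ z01 _ (h _).m2 _ hx, add_zero]
      · rw [hfix x]
        · exact ⟨l, hx, hq⟩
        · rw [pl_add, hD _ _ (fun h => hl0 h.symm) _ (h _).m1 _ hx, hD _ _ (fun h => hl1 h.symm) _ (h _).m1 _ hx,
            add_zero]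
        · rw [pl_add, hD _ _ (fun h => hl0 h.symm) _ (h _).m2 _ hx, hD _ _ (fun h => hl1 h.symm) _ (h _).m2 _ hx,
            add_zero]
    obtain ⟨σ, hσ⟩ := hT _ hg.1
    have h1 := hσ i0 _ ((D i0).add_mem (h i0).m1 (h i0).m3)
    have f1 : eich q1 p1 (c1 i0) = c1 i0 := by
      apply hfix
      · rw [pl_add, (h _).ac1, hD _ _ z01.symm _ (h _).m1 _ (h _).m3, add_zero]
      · rw [pl_add, (h _).ac3, hD _ _ z01.symm _ (h _).m2 _ (h _).m3, add_zero]
    rw [og_add, s1, f1] at h1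
    refine not_in_D hD z01 (h i0).m4 (h i1).m2 ?_ ?_ _ h1
    · rw [pl_add, (h _).cc, hD _ _ z01.symm _ (h _).m1 _ (h _).m4, zero_add]
      exact one_ne_zero
    · rw [pl_add, (h _).aa, hD _ _ z01 _ (h _).m3 _ (h _).m2, add_zero]
      exact one_ne_zero
  · intro heq
    have p3 : pB Q (a1 i0 + a1 i1) (a1 i2) = 0 := by
      rw [pl_add, hD _ _ z02 _ (h _).m1 _ (h _).m1, hD _ _ z12 _ (h _).m1 _ (h _).m1, add_zero]
    have hm : eich q1 p3 ∈ stS (Q := Q) (S1 Q D) ⊓ EG Q := by rw [heq]; exact eg_mem q1 p3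
    obtain ⟨l, hl, -⟩ := hm.1.1 (a2 i0) ⟨i0, (h _).m2, (h _).qa2⟩
    have r1 : pB Q (a1 i0 + a1 i1) (a2 i0) = 1 := by
      rw [pl_add, (h _).aa, hD _ _ z01.symm _ (h _).m1 _ (h _).m2, add_zero]
    have r2 : pB Q (a1 i2) (a2 i0) = 0 := hD _ _ z02.symm _ (h _).m1 _ (h _).m2
    have e0 : eich q1 p3 (a2 i0) = a2 i0 + a1 i2 - (a1 i0 + a1 i1) := by
      rw [eich_apply, r1, r2, (h _).qa1]; module
    rw [e0] at hl
    refine not_in_D hD z01 (h i0).m2 (h i1).m2 ?_ ?_ _ hl
    · rw [pl_sub, pl_add, pl_add, hself, hD _ _ z02.symm _ (h _).m1 _ (h _).m2, (h _).aa,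
        hD _ _ z01.symm _ (h _).m1 _ (h _).m2]
      intro h0
      apply one_ne_zero (α := F)
      linear_combination -h0
    · rw [pl_sub, pl_add, pl_add, hD _ _ z01 _ (h _).m2 _ (h _).m2, hD _ _ z12.symm _ (h _).m1 _ (h _).m2,
        hD _ _ z01 _ (h _).m1 _ (h _).m2, (h _).aa]
      intro h0
      apply one_ne_zero (α := F)
      linear_combination -h0

end four

end Cfsg.Agent.H12
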