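import Mathlib
import Cfsg.Prelude.Def_GeometricClasses
import Cfsg.Agent.H12.TenForm2
import Cfsg.Agent.H12.UniForm

/-!
Existence of frames.
-/

set_option autoImplicit false
set_option linter.unusedSectionVars false

open scoped MatrixGroups Matrix Kronecker

namespace Cfsg.Agent.H12

open Cfsg

section symf

variable {ι : Type} [Fintype ι] [DecidableEq ι] {F : Type*} [Field F]

lemma refl_symm {f : (ι → F) → (ι → F) → F} (hf : Geo.IsSymmetricForm f) : ReflForm (RingEquiv.refl F) 1 f where
  inv := fun _ => rfl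
  eps := one_mul 1
  seps := rfl
  add_left := hf.bilinear.add_left
  smul_left := hf.bilinear.smul_left
  herm := fun v w => by rw [one_mul]; exact hf.symm v w
  nondeg := fun v hv => (hf.nondegenerate v hv).1

variable [Fintype F]

/-- an orthogonal basis -/
lemma exists_orth (h2 : (2 : F) ≠ 0) {k : ℕ} {f : (Fin k → F) → (Fin k → F) → F} (h : ReflForm (RingEquiv.refl F) 1 f) :
    ∃ v : Fin k → (Fin k → F), LinearIndependent F v ∧ (∀ i j, i ≠ j → f (v i) (v j) = 0) ∧ ∀ i, f (v i) (v i) ≠ 0 := by
  let B : LinearMap.BilinForm F (Fin k → F) := LinearMap.mk₂ F f h.add_left h.smul_left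
    (fun m n₁ n₂ => h.add_right m n₁ n₂) (fun c m n => h.smul_right c m n)
  have hB : ∀ x y, B x y = f x y := fun x y => rfl
  have : Invertible (2 : F) := invertibleOfNonzero h2
  have hsym : LinearMap.IsSymm B := ⟨fun x y => by
    rw [hB, hB, h.herm y x, one_mul]; rfl⟩
  obtain ⟨v, hv⟩ := LinearMap.BilinForm.exists_orthogonal_basis hsym
  have hk : Module.finrank F (Fin k → F) = k := by rw [Module.finrank_fintype_fun_eq_card, Fintype.card_fin]
  let b := v.reindex (finCongr hk)
  have hb : ∀ i j, i ≠ j → f (b i) (b j) = 0 := by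
    intro i j hij
    have := hv (show (finCongr hk).symm i ≠ (finCongr hk).symm j from fun h => hij ((finCongr hk).symm.injective h))
    rw [← hB, Module.Basis.reindex_apply, Module.Basis.reindex_apply]
    exact this
  refine ⟨b, b.linearIndependent, hb, fun i hi => ?_⟩
  obtain ⟨x, hx⟩ := h.nondeg (b i) (b.ne_zero i)
  apply hx
  have h3 : B x (b i) = 0 := by
    rw [← b.sum_repr x, map_sum, LinearMap.sum_apply]
    refine Finset.sum_eq_zero (fun j _ => ?_)
    rw [map_smul, LinearMap.smul_apply, hB]
    by_cases hj : j = i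
    · rw [hj, hi, smul_zero]
    · rw [hb j i hj, smul_zero]
  exact h3

lemma exists_frm3 (hF : Fintype.card F = 3) {f₁ : (Fin 3 → F) → (Fin 3 → F) → F} (h : ReflForm (RingEquiv.refl F) 1 f₁) :
    ∃ ε w, IsFrm f₁ ε w := by
  have h3 := three_zero hF
  have h2 : (2 : F) ≠ 0 := by
    intro h2
    have : (1 : F) = 0 := by linear_combination h3 - h2
    exact one_ne_zero this
  obtain ⟨v, -, hv, hv0⟩ := exists_orth h2 h
  -- main construction
  have key : ∀ i j k : Fin 3, i ≠ j → i ≠ k → j ≠ k → f₁ (v i) (v i) = f₁ (v j) (v j) → ∃ ε w, IsFrm f₁ ε w := by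
    intro i j k hij hik hjk heq
    by_cases hk : f₁ (v k) (v k) = f₁ (v i) (v i)
    · refine ⟨f₁ (v i) (v i), v, hv0 i, fun a b => ?_⟩
      by_cases hab : a = b
      · rw [if_pos hab, hab]
        have : b = i ∨ b = j ∨ b = k := by omega
        rcases this with h | h | h
        · rw [h]
        · rw [h, heq]
        · rw [h, hk]
      · rw [if_neg hab]; exact hv a b hab
    · have hk' : f₁ (v k) (v k) = - f₁ (v i) (v i) := by
        rcases three_cases hF (f₁ (v k) (v k)) with h | h | h
        · exact absurd h (hv0 k)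
        · rcases three_cases hF (f₁ (v i) (v i)) with h' | h' | h'
          · exact absurd h' (hv0 i)
          · exact absurd (h.trans h'.symm) hk
          · rw [h, h', neg_neg]
        · rcases three_cases hF (f₁ (v i) (v i)) with h' | h' | h'
          · exact absurd h' (hv0 i)
          · rw [h, h']
          · exact absurd (h.trans h'.symm) hk
      have e1 : f₁ (v i + v j) (v i + v j) = - f₁ (v i) (v i) := by
        rw [h.add_left, h.add_right, h.add_right, hv i j hij, hv j i hij.symm, ← heq]
        linear_combination (f₁ (v i) (v i)) * h3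
      have e2 : f₁ (v i - v j) (v i - v j) = - f₁ (v i) (v i) := by
        rw [h.sub_left, h.sub_right, h.sub_right, hv i j hij, hv j i hij.symm, ← heq]
        linear_combination (f₁ (v i) (v i)) * h3
      have e3 : f₁ (v i + v j) (v i - v j) = 0 := by
        rw [h.add_left, h.sub_right, h.sub_right, hv i j hij, hv j i hij.symm, ← heq]
        ring
      have e4 : f₁ (v i - v j) (v i + v j) = 0 := by
        rw [h.sub_left, h.add_right, h.add_right, hv i j hij, hv j i hij.symm, ← heq]
        ring
      have e5 : f₁ (v i + v j) (v k) = 0 := by rw [h.add_left, hv i k hik, hv j k hjk, add_zero]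
      have e6 : f₁ (v i - v j) (v k) = 0 := by rw [h.sub_left, hv i k hik, hv j k hjk, sub_zero]
      have e7 : f₁ (v k) (v i + v j) = 0 := by rw [h.add_right, hv k i hik.symm, hv k j hjk.symm, add_zero]
      have e8 : f₁ (v k) (v i - v j) = 0 := by rw [h.sub_right, hv k i hik.symm, hv k j hjk.symm, sub_zero]
      refine ⟨- f₁ (v i) (v i), ![v i + v j, v i - v j, v k], neg_ne_zero.2 (hv0 i), fun a b => ?_⟩
      fin_cases a <;> fin_cases b <;> simp [e1, e2, e3, e4, e5, e6, e7, e8, hk']
  -- pigeonhole
  by_cases h01 : f₁ (v 0) (v 0) = f₁ (v 1) (v 1)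
  · exact key 0 1 2 (by decide) (by decide) (by decide) h01
  by_cases h02 : f₁ (v 0) (v 0) = f₁ (v 2) (v 2)
  · exact key 0 2 1 (by decide) (by decide) (by decide) h02
  apply key 1 2 0 (by decide) (by decide) (by decide)
  rcases three_cases hF (f₁ (v 0) (v 0)) with h | h | h
  · exact absurd h (hv0 0)
  · rcases three_cases hF (f₁ (v 1) (v 1)) with h' | h' | h'
    · exact absurd h' (hv0 1)
    · exact absurd (h.trans h'.symm) h01
    · rcases three_cases hF (f₁ (v 2) (v 2)) with h'' | h'' | h''
      · exact absurd h'' (hv0 2)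
      · exact absurd (h.trans h''.symm) h02
      · rw [h', h'']
  · rcases three_cases hF (f₁ (v 1) (v 1)) with h' | h' | h'
    · exact absurd h' (hv0 1)
    · rcases three_cases hF (f₁ (v 2) (v 2)) with h'' | h'' | h''
      · exact absurd h'' (hv0 2)
      · rw [h', h'']
      · exact absurd (h.trans h''.symm) h02
    · exact absurd (h.trans h'.symm) h01

end symf

section herf

variable {F : Type*} [Field F] [Fintype F]

lemma four_cube (hF : Fintype.card F = 4) {x : F} (hx : x ≠ 0) : x * x ^ 2 = 1 := by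
  have := FiniteField.pow_card_sub_one_eq_one x hx
  rw [hF] at this
  rw [← this]; ring

lemma four_two (hF : Fintype.card F = 4) : (2 : F) = 0 := by
  have := FiniteField.cast_card_eq_zero F
  rw [hF] at this
  have h4 : (2 : F) * 2 = 0 := by
    have : ((4 : ℕ) : F) = 2 * 2 := by norm_num
    rw [← this]; assumption
  exact (mul_self_eq_zero).1 h4

lemma refl_unit {ι : Type} [Fintype ι] [DecidableEq ι] {q : ℕ} {f : (ι → F) → (ι → F) → F}
    {σ : F ≃+* F} (hσ : ∀ x, σ x = x ^ q) (hinv : ∀ a, σ (σ a) = a) (hf : Geo.IsUnitaryFormPow q f) : ReflForm σ 1 f where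
  inv := hinv
  eps := one_mul 1
  seps := map_one σ
  add_left := hf.add_left
  smul_left := hf.smul_left
  herm := fun v w => by rw [one_mul, hσ]; exact hf.herm v w
  nondeg := fun v hv => (hf.nondegenerate v hv).1

lemma col_four (hF : Fintype.card F = 4) {σ : F ≃+* F} (hσ : ∀ x, σ x = x ^ 2) (v : Fin 2 → F)
    (h : ∑ i, v i * σ (v i) = 1) : ∃ i₀, v i₀ ≠ 0 ∧ ∀ i, i ≠ i₀ → v i = 0 := by
  rw [Fin.sum_univ_two, hσ, hσ] at h
  have h2 := four_two hF
  by_cases h0 : v 0 = 0
  · refine ⟨1, ?_, ?_⟩
    · intro h1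
      rw [h0, h1] at h
      apply zero_ne_one (α := F)
      rw [← h]; ring
    · intro i hi
      have : i = 0 := by omega
      rw [this, h0]
  · refine ⟨0, h0, ?_⟩
    intro i hi
    have : i = 1 := by omega
    rw [this]
    by_contra h1
    rw [four_cube hF h0, four_cube hF h1] at h
    apply one_ne_zero (α := F)
    linear_combination h2 - h

lemma exists_frm2 (hF : Fintype.card F = 4) {σ : F ≃+* F} (hσ : ∀ x, σ x = x ^ 2) (hne : σ ≠ RingEquiv.refl F)
    {f₁ : (Fin 2 → F) → (Fin 2 → F) → F} (h : ReflForm σ 1 f₁) : ∃ ε w, IsFrm f₁ ε w := by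
  have hval : ∀ v, f₁ v v ≠ 0 → f₁ v v = 1 := by
    intro v hv
    have h1 := h.herm v v
    rw [one_mul, hσ] at h1
    have h2 := four_cube hF hv
    rw [← h1] at h2
    rcases mul_self_eq_one_iff.1 h2 with h3 | h3
    · exact h3
    · rw [h3]
      linear_combination (-1 : F) * four_two hF
  obtain ⟨v0, hv0⟩ : ∃ v, f₁ v v ≠ 0 := by
    by_contra hcon
    push Not at hcon
    obtain ⟨x, hx⟩ := h.nondeg (Pi.single 0 1) (by
      intro h0
      have := congrFun h0 0
      rw [Pi.single_eq_same, Pi.zero_apply] at this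
      exact one_ne_zero this)
    exact hx (tot_iso h hne (Y := ⊤) (fun y _ => hcon y) x trivial _ trivial)
  -- the orthogonal vector
  have h2 : Module.finrank F (h.perp {v0}) ≥ 1 := by
    have := h.finrank_perp {v0}
    rw [Fintype.card_fin, Finset.card_singleton] at this
    omega
  obtain ⟨v1, hv1, hv10⟩ : ∃ v ∈ h.perp {v0}, v ≠ 0 := by
    by_contra hcon
    push Not at hcon
    have : h.perp {v0} = ⊥ := (Submodule.eq_bot_iff _).2 hcon
    rw [this, finrank_bot] at h2
    omega
  rw [ReflForm.mem_perp] at hv1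
  have h10 : f₁ v1 v0 = 0 := hv1 v0 (Finset.mem_singleton_self _)
  have h01 : f₁ v0 v1 = 0 := h.symm_zero.1 h10
  have hli : LinearIndependent F ![v0, v1] := by
    rw [LinearIndependent.pair_iff]
    intro s t hst
    have h3 := congrArg (fun x => f₁ x v0) hst
    beta_reduce at h3
    rw [h.add_left, h.smul_left, h.smul_left, h10, mul_zero, add_zero, h.zero_left] at h3
    have hs : s = 0 := (mul_eq_zero.1 h3).resolve_right hv0
    refine ⟨hs, ?_⟩
    rw [hs, zero_smul, zero_add] at hst
    exact (smul_eq_zero.1 hst).resolve_right hv10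
  have hspan : ∀ x : Fin 2 → F, ∃ s t : F, x = s • v0 + t • v1 := by
    intro x
    have htop : Submodule.span F (Set.range ![v0, v1]) = ⊤ := hli.span_eq_top_of_card_eq_finrank (by simp)
    have hx : x ∈ Submodule.span F (Set.range ![v0, v1]) := by rw [htop]; trivial
    rw [Matrix.range_cons, Matrix.range_cons, Matrix.range_empty, Set.union_empty, Set.singleton_union,
      Submodule.mem_span_pair] at hx
    obtain ⟨s, t, hst⟩ := hx
    exact ⟨s, t, hst.symm⟩
  have h11 : f₁ v1 v1 ≠ 0 := by
    intro h0
    obtain ⟨x, hx⟩ := h.nondeg v1 hv10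
    obtain ⟨s, t, rfl⟩ := hspan x
    apply hx
    rw [h.add_left, h.smul_left, h.smul_left, h01, h0]; ring
  refine ⟨1, ![v0, v1], one_ne_zero, fun i j => ?_⟩
  fin_cases i <;> fin_cases j <;> simp [hval _ hv0, hval _ h11, h10, h01]

end herf

end Cfsg.Agent.H12
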