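import Mathlib
import Cfsg.Prelude.Def_GeometricClasses
import Cfsg.Agent.H12.OmFrame4
import Cfsg.Agent.H12.TenForm3

/-!
Non-maximality of stabilisers of orthogonal decompositions: assembly.
-/

set_option autoImplicit false
set_option linter.unusedSectionVars false

namespace Cfsg.Agent.H12

open Matrix Cfsg Cfsg.Agent.H5

section hyp

variable {F V : Type*} [Field F] [AddCommGroup V] [Module F V] [FiniteDimensional F V] {Q : QuadraticForm F V}

lemma hyp_four {W : Submodule F V} (hW : NDS Q W) {U : Submodule F V} (hUW : U ≤ W) (hU : ∀ x ∈ U, Q x = 0)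
    (hk : 2 ≤ Module.finrank F U) : ∃ e1 f1 e2 f2 : V, (e1 ∈ W ∧ f1 ∈ W ∧ e2 ∈ W ∧ f2 ∈ W) ∧
      (Q e1 = 0 ∧ Q f1 = 0 ∧ Q e2 = 0 ∧ Q f2 = 0) ∧ pB Q e1 f1 = 1 ∧ pB Q e2 f2 = 1 ∧
      pB Q e1 e2 = 0 ∧ pB Q e1 f2 = 0 ∧ pB Q f1 e2 = 0 ∧ pB Q f1 f2 = 0 := by
  have hB : ∀ x ∈ U, ∀ y ∈ U, pB Q x y = 0 := fun x hx y hy => ts_B hU hx hy
  obtain ⟨u1, hu1, hu10⟩ : ∃ u ∈ U, u ≠ 0 := by
    have : U ≠ ⊥ := by
      intro h; rw [h, finrank_bot] at hk; omega
    exact (Submodule.ne_bot_iff _).mp this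
  obtain ⟨u2, hu2, hu2n⟩ : ∃ u ∈ U, u ∉ Submodule.span F {u1} := by
    by_contra hcon
    push Not at hcon
    have h1 : U ≤ Submodule.span F {u1} := hcon
    have h2 := Submodule.finrank_mono h1
    rw [finrank_span_singleton hu10] at h2
    omega
  obtain ⟨f1', hf1, hf1'⟩ := exists_partner (Q := resQ Q W) hW.nd (u := ⟨u1, hUW hu1⟩)
    (fun h => hu10 (congrArg Subtype.val h)) (hU u1 hu1)
  obtain ⟨f1, hf1W⟩ := f1'
  have hqf1 : Q f1 = 0 := hf1
  have huf1 : pB Q u1 f1 = 1 := hf1'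
  set v := u2 - pB Q u2 f1 • u1 with hv
  have hvU : v ∈ U := U.sub_mem hu2 (U.smul_mem _ hu1)
  have hv0 : v ≠ 0 := by
    intro h0
    apply hu2n
    rw [hv, sub_eq_zero] at h0
    rw [h0]
    exact Submodule.smul_mem _ _ (Submodule.mem_span_singleton_self _)
  have hvf1 : pB Q v f1 = 0 := by
    rw [hv, pl_sub, pl_smul, huf1]; ring
  obtain ⟨g', hg, hg'⟩ := exists_partner (Q := resQ Q W) hW.nd (u := ⟨v, hUW hvU⟩)
    (fun h => hv0 (congrArg Subtype.val h)) (hU v hvU)
  obtain ⟨g, hgW⟩ := g'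
  have hvg : pB Q v g = 1 := hg'
  set g1 := g - pB Q g f1 • u1 - pB Q g u1 • f1 with hg1
  have hg1W : g1 ∈ W := W.sub_mem (W.sub_mem hgW (W.smul_mem _ (hUW hu1))) (W.smul_mem _ hf1W)
  have e1 : pB Q u1 g1 = 0 := by
    rw [hg1, pr_sub, pr_sub, pr_smul, pr_smul, hB u1 hu1 u1 hu1, huf1, pB_symm Q u1 g]; ring
  have e2 : pB Q f1 g1 = 0 := by
    rw [hg1, pr_sub, pr_sub, pr_smul, pr_smul, pB_symm Q f1 u1, huf1, pB_self, hqf1, pB_symm Q f1 g]; ring
  have e3 : pB Q v g1 = 1 := by
    rw [hg1, pr_sub, pr_sub, pr_smul, pr_smul, hB v hvU u1 hu1, hvf1, hvg]; ring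
  refine ⟨u1, f1, v, g1 - Q g1 • v, ⟨hUW hu1, hf1W, hUW hvU, W.sub_mem hg1W (W.smul_mem _ (hUW hvU))⟩,
    ⟨hU u1 hu1, hqf1, hU v hvU, ?_⟩, huf1, ?_, hB u1 hu1 v hvU, ?_, ?_, ?_⟩
  · rw [q_sub, q_smul, hU v hvU, pr_smul, pB_symm Q g1 v, e3]; ring
  · rw [pr_sub, pr_smul, e3, hB v hvU v hvU]; ring
  · rw [pr_sub, pr_smul, e1, hB u1 hu1 v hvU]; ring
  · rw [pB_symm, hvf1]
  · rw [pr_sub, pr_smul, e2, pB_symm Q f1 v, hvf1]; ring

lemma four_of_hyp (h20 : (2 : F) = 0) {W : Submodule F V} {e1 f1 e2 f2 : V} (hm : e1 ∈ W ∧ f1 ∈ W ∧ e2 ∈ W ∧ f2 ∈ W)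
    (hq : Q e1 = 0 ∧ Q f1 = 0 ∧ Q e2 = 0 ∧ Q f2 = 0) (h1 : pB Q e1 f1 = 1) (h2 : pB Q e2 f2 = 1)
    (h3 : pB Q e1 e2 = 0) (h4 : pB Q e1 f2 = 0) (h5 : pB Q f1 e2 = 0) (h6 : pB Q f1 f2 = 0) :
    Four Q W (e1 + f1) (e1 + (e2 + f2)) (e2 + f2) (e2 + (e1 + f1)) := by
  obtain ⟨m1, m2, m3, m4⟩ := hm
  obtain ⟨q1, q2, q3, q4⟩ := hq
  have s1 : pB Q f1 e1 = 1 := by rw [pB_symm, h1]
  have s2 : pB Q f2 e2 = 1 := by rw [pB_symm, h2]
  have s3 : pB Q e2 e1 = 0 := by rw [pB_symm, h3]
  have s4 : pB Q f2 e1 = 0 := by rw [pB_symm, h4]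
  have s5 : pB Q e2 f1 = 0 := by rw [pB_symm, h5]
  have s6 : pB Q f2 f1 = 0 := by rw [pB_symm, h6]
  have t1 : pB Q e1 e1 = 0 := by rw [pB_self, q1, mul_zero]
  have t2 : pB Q f1 f1 = 0 := by rw [pB_self, q2, mul_zero]
  have t3 : pB Q e2 e2 = 0 := by rw [pB_self, q3, mul_zero]
  have t4 : pB Q f2 f2 = 0 := by rw [pB_self, q4, mul_zero]
  refine ⟨W.add_mem m1 m2, W.add_mem m1 (W.add_mem m3 m4), W.add_mem m3 m4, W.add_mem m3 (W.add_mem m1 m2),
    ?_, ?_, ?_, ?_, ?_, ?_, ?_, ?_, ?_, ?_⟩ <;>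
  simp only [q_add, q1, q2, q3, q4, pl_add, pr_add, h1, h2, h3, h4, h5, h6, s1, s2, s3, s4, s5, s6, t1, t2, t3, t4] <;>
  first | ring1 | linear_combination h20

/-- coordinates in a hyperbolic plane -/
lemma plane_coord {W : Submodule F V} {e f x : V} (hW : W = Submodule.span F {e, f}) (he : Q e = 0) (hf : Q f = 0)
    (hef : pB Q e f = 1) (hx : x ∈ W) : ∃ a b : F, x = a • e + b • f ∧ Q x = a * b := by
  rw [hW, Submodule.mem_span_pair] at hx
  obtain ⟨a, b, hab⟩ := hx
  refine ⟨a, b, hab.symm, ?_⟩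
  rw [← hab, q_add, q_smul, q_smul, he, hf, pl_smul, pr_smul, hef]; ring

end hyp

section final

variable {F : Type*} [Field F] [Fintype F] {ι : Type} [Fintype ι] [DecidableEq ι] {Q : QuadraticForm F (ι → F)}

lemma z5_sq : ∀ x y : ZMod 5, x ^ 2 + y ^ 2 = 1 → (y = 0 ∧ (x = 1 ∨ x = -1)) ∨ (x = 0 ∧ (y = 1 ∨ y = -1)) := by decide

lemma base_five (hF : Fintype.card F = 5) {W : Submodule F (ι → F)} (hk : Module.finrank F W = 2) {e f : ι → F}
    (hW : W = Submodule.span F {e, f}) (he : Q e = 0) (hf : Q f = 0) (hef : pB Q e f = 1) :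
    ∃ v : Fin 2 → (ι → F), BFrm Q W v := by
  have h5 : (5 : F) = 0 := by
    have := FiniteField.cast_card_eq_zero F
    rw [hF] at this
    exact_mod_cast this
  have h2 : (2 : F) ≠ 0 := by
    intro h2
    apply one_ne_zero (α := F)
    linear_combination h5 - 2 * h2
  have heW : e ∈ W := by rw [hW]; exact Submodule.subset_span (by simp)
  have hfW : f ∈ W := by rw [hW]; exact Submodule.subset_span (by simp)
  have hfe : pB Q f e = 1 := by rw [pB_symm, hef]
  have q0 : Q (e + f) = 1 := by rw [q_add, he, hf, hef]; ring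
  have q1 : Q ((2 : F) • e + (3 : F) • f) = 1 := by
    rw [q_add, q_smul, q_smul, he, hf, pl_smul, pr_smul, hef]; linear_combination h5
  have b01 : pB Q (e + f) ((2 : F) • e + (3 : F) • f) = 0 := by
    rw [pl_add, pr_add, pr_add, pr_smul, pr_smul, pr_smul, pr_smul, pB_self, pB_self, he, hf, hef, hfe]
    linear_combination h5
  have hq : ∀ i, Q (![e + f, (2 : F) • e + (3 : F) • f] i) = 1 := by
    intro i
    fin_cases i
    · exact q0
    · exact q1
  refine ⟨![e + f, (2 : F) • e + (3 : F) • f], bfrm_of h2 hk ?_ ?_ (fun i => by rw [hq]; exact one_ne_zero) ?_⟩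
  · intro i
    fin_cases i
    · exact W.add_mem heW hfW
    · exact W.add_mem (W.smul_mem _ heW) (W.smul_mem _ hfW)
  · intro i j hij
    fin_cases i <;> fin_cases j
    · exact absurd rfl hij
    · exact b01
    · show pB Q ((2 : F) • e + (3 : F) • f) (e + f) = 0
      rw [pB_symm, b01]
    · exact absurd rfl hij
  · intro c j' hc
    rw [Fin.sum_univ_two, hq, hq, hq, mul_one, mul_one] at hc
    have : Fact (Nat.Prime 5) := ⟨Nat.prime_five⟩
    let ψ : F ≃+* ZMod 5 := FiniteField.ringEquivOfCardEq (by rw [hF, ZMod.card])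
    have h3 : ψ (c 0) ^ 2 + ψ (c 1) ^ 2 = 1 := by rw [← map_pow, ← map_pow, ← map_add, hc, map_one]
    have pm : ∀ x : F, ψ x = 1 ∨ ψ x = -1 → x = 1 ∨ x = -1 := by
      rintro x (h | h)
      · left; exact ψ.injective (by rw [h, map_one])
      · right; exact ψ.injective (by rw [h, map_neg, map_one])
    rcases z5_sq _ _ h3 with ⟨h4, h6⟩ | ⟨h4, h6⟩
    · refine ⟨0, pm _ h6, fun i hi => ?_⟩
      rw [show i = 1 by omega]
      exact (map_eq_zero ψ).1 h4
    · refine ⟨1, pm _ h6, fun i hi => ?_⟩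
      rw [show i = 0 by omega]
      exact (map_eq_zero ψ).1 h4

/-- the subgroup `{0, 1}` in characteristic two -/
def bits (h20 : (2 : F) = 0) : AddSubgroup F where
  carrier := {a | a = 0 ∨ a = 1}
  add_mem' := by
    rintro a b (rfl | rfl) (rfl | rfl)
    · left; ring
    · right; ring
    · right; ring
    · left; show (1 : F) + 1 = 0; linear_combination h20
  zero_mem' := Or.inl rfl
  neg_mem' := by
    rintro a (rfl | rfl)
    · left; ring
    · right; linear_combination -h20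

lemma mem_bits {h20 : (2 : F) = 0} {a : F} : a ∈ bits h20 ↔ a = 0 ∨ a = 1 := Iff.rfl

theorem nm_plus (hnd : ND Q) (hn : 13 ≤ Fintype.card ι) {t k : ℕ} {D : Fin t → Submodule F (ι → F)}
    (hD : Geo.IsOrthogonalMDecomposition (⇑Q) k D)
    (hcase : ((k = 2 ∧ (Fintype.card F = 3 ∨ ((∀ i, Geo.IsPlusTypeOn (⇑Q) (D i)) ∧
      (Fintype.card F = 2 ∨ Fintype.card F = 4 ∨ Fintype.card F = 5)))) ∨ (k = 3 ∧ Fintype.card F = 3) ∨
      (k = 4 ∧ Fintype.card F = 2 ∧ ∀ i, Geo.IsPlusTypeOn (⇑Q) (D i)))) :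
    ∃ K : Subgroup (GL ι F), Geo.decompositionStabilizer D ⊓ Geo.omegaGL (⇑Q) < K ∧ K < Geo.omegaGL (⇑Q) := by
  have hc := card_decomp hD.decomp.decomp
  have hort : ∀ i j, i ≠ j → ∀ x ∈ D i, ∀ y ∈ D j, pB Q x y = 0 := fun i j hij x hx y hy =>
    hD.decomp.orthogonal i j hij x hx y hy
  -- hyperbolic planes
  have hpl : k = 2 → (∀ i, Geo.IsPlusTypeOn (⇑Q) (D i)) → ∀ i, ∃ e f : ι → F, Q e = 0 ∧ Q f = 0 ∧ pB Q e f = 1 ∧
      D i = Submodule.span F {e, f} := by
    intro hk hp i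
    obtain ⟨U, hU, hUs, hUf⟩ := hp i
    rw [hD.decomp.decomp.finrank_eq i] at hUf
    have hne : U ≠ ⊥ := by
      intro h; rw [h, finrank_bot] at hUf; omega
    obtain ⟨y, hy, hy0⟩ := (Submodule.ne_bot_iff _).mp hne
    exact plane_hyp (nds_of (hD.decomp.nondegenerate i)) (by rw [hD.decomp.decomp.finrank_eq i, hk]) (hU hy) hy0
      (hUs y hy)
  rcases hcase with ⟨hk, h3 | ⟨hp, hq⟩⟩ | ⟨hk, h3⟩ | ⟨hk, h2, hp⟩
  · exact nm_three hnd h3 hn (Or.inl hk) hD
  · have hpl' := hpl hk hp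
    have ht : 7 ≤ t := by
      rw [hk] at hc; omega
    rcases hq with hq | hq | hq
    · -- the field with two elements
      have h20 : (2 : F) = 0 := by
        have := FiniteField.cast_card_eq_zero F
        rw [hq] at this
        exact_mod_cast this
      apply between_of hnd (by omega)
      refine two_between h20 (by omega) hort ?_ (A := ⊥) ?_ ?_ (c := 1) ?_ (fun g hg => dec_hT hg)
      · intro i
        obtain ⟨e, f, he, hf, hef, hW⟩ := hpl' i
        exact ⟨e, f, by rw [hW]; exact Submodule.subset_span (by simp),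
          by rw [hW]; exact Submodule.subset_span (by simp), he, hf, hef⟩
      · intro i x hx y hy hqx hqy
        obtain ⟨e, f, he, hf, hef, hW⟩ := hpl' i
        obtain ⟨a, b, hab, h1⟩ := plane_coord hW he hf hef hx
        obtain ⟨a', b', hab', h1'⟩ := plane_coord hW he hf hef hy
        rw [AddSubgroup.mem_bot]
        have e1 : ∀ a b : F, a * b = 1 → a = 1 ∧ b = 1 := by
          intro a b hab
          rcases bit_cases hq a with h | h
          · rw [h, zero_mul] at hab; exact absurd hab zero_ne_one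
          · rw [h, one_mul] at hab; exact ⟨h, hab⟩
        obtain ⟨ha, hb⟩ := e1 a b (h1.symm.trans hqx)
        obtain ⟨ha', hb'⟩ := e1 a' b' (h1'.symm.trans hqy)
        have hxy : x = y := by rw [hab, hab', ha, hb, ha', hb']
        rw [hxy, pB_self]
        linear_combination (Q y) * h20
      · intro a ha
        left; exact (AddSubgroup.mem_bot).1 ha
      · rw [AddSubgroup.mem_bot, mul_one]; exact one_ne_zero
    · -- the field with four elements
      have h20 : (2 : F) = 0 := four_two hq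
      apply between_of hnd (by omega)
      obtain ⟨c, hc01⟩ : ∃ c : F, ¬ (c = 0 ∨ c = 1) := by
        classical
        by_contra hcon
        push Not at hcon
        have h1 : (Finset.univ : Finset F) ⊆ {0, 1} := by
          intro x _
          rcases hcon x with h | h
          · simp [h]
          · simp [h]
        have h2 := Finset.card_le_card h1
        rw [Finset.card_univ, hq] at h2
        have h3 := Finset.card_le_two (a := (0 : F)) (b := 1)
        omega
      refine two_between h20 (by omega) hort ?_ (A := bits h20) ?_ ?_ (c := c) ?_ (fun g hg => dec_hT hg)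
      · intro i
        obtain ⟨e, f, he, hf, hef, hW⟩ := hpl' i
        exact ⟨e, f, by rw [hW]; exact Submodule.subset_span (by simp),
          by rw [hW]; exact Submodule.subset_span (by simp), he, hf, hef⟩
      · intro i x hx y hy hqx hqy
        obtain ⟨e, f, he, hf, hef, hW⟩ := hpl' i
        obtain ⟨a, b, hab, h1⟩ := plane_coord hW he hf hef hx
        obtain ⟨a', b', hab', h1'⟩ := plane_coord hW he hf hef hy
        have hfe : pB Q f e = 1 := by rw [pB_symm, hef]
        have hB : pB Q x y = a * b' + b * a' := by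
          rw [hab, hab', pl_add, pr_add, pr_add, pl_smul, pl_smul, pl_smul, pl_smul, pr_smul, pr_smul, pr_smul, pr_smul,
            pB_self, pB_self, he, hf, hef, hfe]
          ring
        have h2 : a * b = 1 := h1.symm.trans hqx
        have h3 : a' * b' = 1 := h1'.symm.trans hqy
        have h4 : a ≠ 0 := fun h => by rw [h, zero_mul] at h2; exact zero_ne_one h2
        have h5 : b' ≠ 0 := fun h => by rw [h, mul_zero] at h3; exact zero_ne_one h3
        have h6 := four_cube hq (mul_ne_zero h4 h5)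
        have h7 : b * a' = (a * b') ^ 2 := by
          have h8 : (a * b') * (b * a') = 1 := by linear_combination h2 * a' * b' + h3
          apply mul_left_cancel₀ (mul_ne_zero h4 h5)
          rw [h8, h6]
        rw [hB, h7, mem_bits]
        set τ := a * b' with hτ
        have h9 : (τ - 1) * (τ + τ ^ 2 - 1) = 0 := by linear_combination h6 + (1 - τ) * h20
        rcases mul_eq_zero.1 h9 with h10 | h10
        · left
          rw [sub_eq_zero.1 h10]
          linear_combination h20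
        · right; exact sub_eq_zero.1 h10
      · intro a ha; exact ha
      · rw [mem_bits]
        rintro (h | h)
        · exact hc01 (Or.inl (mul_self_eq_zero.1 h))
        · apply hc01
          right
          rcases mul_self_eq_one_iff.1 h with h | h
          · exact h
          · rw [h]; linear_combination -h20
    · -- the field with five elements
      have hodd : Odd (Fintype.card F) := by rw [hq]; decide
      subst hk
      exact frm_nm hnd hodd hD (by omega) le_rfl (fun i => by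
        obtain ⟨e, f, he, hf, hef, hW⟩ := hpl' i
        exact base_five hq (hD.decomp.decomp.finrank_eq i) hW he hf hef)
  · exact nm_three hnd h3 hn (Or.inr hk) hD
  · have h20 : (2 : F) = 0 := by
      have := FiniteField.cast_card_eq_zero F
      rw [h2] at this
      exact_mod_cast this
    apply between_of hnd (by omega)
    refine four_between h2 (by rw [hk] at hc; omega) hort (fun i => by rw [hD.decomp.decomp.finrank_eq i, hk]) ?_
      (fun g hg => dec_hT hg)
    intro i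
    obtain ⟨U, hU, hUs, hUf⟩ := hp i
    rw [hD.decomp.decomp.finrank_eq i, hk] at hUf
    obtain ⟨e1, f1, e2, f2, hm, hq, a1, a2, a3, a4, a5, a6⟩ :=
      hyp_four (nds_of (hD.decomp.nondegenerate i)) hU hUs (by omega)
    exact ⟨_, _, _, _, four_of_hyp h20 hm hq a1 a2 a3 a4 a5 a6⟩

end final

end Cfsg.Agent.H12
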