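import Mathlib
import Cfsg.Prelude.Def_GeometricClasses
import Cfsg.Agent.H12.OmPair

/-!
Stabilisers of pairs of complementary maximal totally singular subspaces: maximality.
-/

set_option autoImplicit false
set_option linter.unusedSectionVars false

namespace Cfsg.Agent.H12

open Matrix Cfsg Cfsg.Agent.H5

variable {F V : Type*} [Field F] [Finite F] [AddCommGroup V] [Module F V] [FiniteDimensional F V] {Q : QuadraticForm F V}

lemma exists_swap_eg (hnd : ND Q) (hn : 5 ≤ Module.finrank F V) (hrg : RG Q = ⊤) {U W : Submodule F V} (hU : IsMTS Q U)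
    (hW : IsMTS Q W) (hUW : U ⊓ W = ⊥) (hev : Even (Module.finrank F U)) : ∃ s ∈ EG Q, im s U = W ∧ im s W = U := by
  classical
  have hk : Module.finrank F U = Module.finrank F W := by
    have h1 := hU.2
    have h2 := hW.2
    omega
  have hkpos : 0 < Module.finrank F U := by
    have h1 := hU.2
    omega
  obtain ⟨g, hg1, hg2⟩ := exists_swap_mts hnd hU hW hUW
  obtain ⟨e', f', he', hf', hef'⟩ := exists_dual_fam hnd hU hW hUW
  obtain ⟨e, f, he, hf, hef⟩ : ∃ e f : V, e ∈ U ∧ f ∈ W ∧ pB Q e f = 1 :=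
    ⟨e' ⟨0, hkpos⟩, f' ⟨0, hkpos⟩, he' _, hf' _, by rw [hef', if_pos rfl]⟩
  have hQe := hU.1 e he
  have hQf := hW.1 f hf
  have hfe : pB Q f e = 1 := by rw [pB_symm]; exact hef
  obtain ⟨r, hr, hgr⟩ := exists_corr hrg hQe hQf hef g
  have hrfix : r ∈ Cfsg.Agent.H5.fixer Q (oc Q (Submodule.span F {e, f})) := by
    intro x hx
    rw [mem_oc_pair] at hx
    exact hr x hx.1 hx.2
  have hre := fixer_maps hnd hrfix (x := e) (Submodule.subset_span (by simp))
  have hrf := fixer_maps hnd hrfix (x := f) (Submodule.subset_span (by simp))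
  obtain ⟨α, β, hab⟩ := Submodule.mem_span_pair.mp hre
  obtain ⟨γ, δ, hcd⟩ := Submodule.mem_span_pair.mp hrf
  have hee : pB Q e e = 0 := by rw [pB_self, hQe, mul_zero]
  have hff : pB Q f f = 0 := by rw [pB_self, hQf, mul_zero]
  have h1 : α * β = 0 := by
    have := og_q r e
    rw [← hab, q_add, q_smul, q_smul, hQe, hQf, pl_smul, pr_smul, hef] at this
    linear_combination this
  have h2 : γ * δ = 0 := by
    have := og_q r f
    rw [← hcd, q_add, q_smul, q_smul, hQe, hQf, pl_smul, pr_smul, hef] at this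
    linear_combination this
  have h3 : α * δ + β * γ = 1 := by
    have := og_p r e f
    rw [← hab, ← hcd, pl_add, pr_add, pr_add, pl_smul, pl_smul, pl_smul, pl_smul, pr_smul, pr_smul, pr_smul, pr_smul,
      hee, hef, hfe, hff] at this
    linear_combination this
  -- decomposition of vectors of `U` and `W`
  have hdU : ∀ x ∈ U, r (x - pB Q f x • e) = x - pB Q f x • e := by
    intro x hx
    apply hr
    · rw [pr_sub, pr_smul, ts_B hU.1 he hx, hee, mul_zero, sub_zero]
    · rw [pr_sub, pr_smul, hfe, mul_one, sub_self]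
  have hdW : ∀ x ∈ W, r (x - pB Q e x • f) = x - pB Q e x • f := by
    intro x hx
    apply hr
    · rw [pr_sub, pr_smul, hef, mul_one, sub_self]
    · rw [pr_sub, pr_smul, ts_B hW.1 hf hx, hff, mul_zero, sub_zero]
  by_cases hβ : β = 0
  · have hα : α ≠ 0 := by
      rintro rfl
      rw [hβ, zero_mul, zero_mul, add_zero] at h3
      exact zero_ne_one h3
    have hδ : δ ≠ 0 := by
      rintro rfl
      rw [hβ, mul_zero, zero_mul, add_zero] at h3
      exact zero_ne_one h3
    have hγ : γ = 0 := (mul_eq_zero.mp h2).resolve_right hδ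
    have hrU : im r U = U := by
      apply Submodule.eq_of_le_of_finrank_eq _ (finrank_im r U)
      rintro _ ⟨x, hx, rfl⟩
      show r x ∈ U
      have h4 : x = (x - pB Q f x • e) + pB Q f x • e := by abel
      rw [h4, og_add, hdU x hx, og_smul, ← hab, hβ, zero_smul, add_zero]
      exact U.add_mem (U.sub_mem hx (U.smul_mem _ he)) (U.smul_mem _ (U.smul_mem _ he))
    have hrW : im r W = W := by
      apply Submodule.eq_of_le_of_finrank_eq _ (finrank_im r W)
      rintro _ ⟨x, hx, rfl⟩
      show r x ∈ W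
      have h4 : x = (x - pB Q e x • f) + pB Q e x • f := by abel
      rw [h4, og_add, hdW x hx, og_smul, ← hcd, hγ, zero_smul, zero_add]
      exact W.add_mem (W.sub_mem hx (W.smul_mem _ hf)) (W.smul_mem _ (W.smul_mem _ hf))
    exact ⟨g * r, hgr, by rw [im_mul, hrU, hg1], by rw [im_mul, hrW, hg2]⟩
  · exfalso
    have hα : α = 0 := (mul_eq_zero.mp h1).resolve_right hβ
    have hre' : r e = β • f := by rw [← hab, hα, zero_smul, zero_add]
    have hgf : g f ∈ U := by rw [← hg2]; exact ⟨f, hf, rfl⟩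
    have hgf0 : g f ≠ 0 := by
      intro h
      have h5 : g f = g 0 := by rw [h, og_zero]
      have h6 := og_inj g h5
      rw [h6] at hef
      simp at hef
    have h5 := dg_parity_mts hnd (eg_le_dg hnd hn hrg hgr) hU hU
    rw [inf_idem] at h5
    have h6 : U ⊓ im (g * r) U = Submodule.span F {g f} := by
      apply le_antisymm
      · rintro y ⟨hy1, hy2⟩
        obtain ⟨x, hx, rfl⟩ := hy2
        have h7 : (g * r : OG Q) x = g (x - pB Q f x • e) + (pB Q f x * β) • g f := by
          rw [og_mul]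
          have h4 : r x = (x - pB Q f x • e) + (pB Q f x * β) • f := by
            have h8 : x = (x - pB Q f x • e) + pB Q f x • e := by abel
            conv_lhs => rw [h8]
            rw [og_add, hdU x hx, og_smul, hre', smul_smul]
          rw [h4, og_add, og_smul]
        have h8 : g (x - pB Q f x • e) ∈ U ⊓ W := by
          refine ⟨?_, ?_⟩
          · have h9 : g (x - pB Q f x • e) = (g * r : OG Q) x - (pB Q f x * β) • g f := by rw [h7]; abel
            rw [SetLike.mem_coe, h9]
            exact U.sub_mem hy1 (U.smul_mem _ hgf)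
          · rw [SetLike.mem_coe, ← hg1]
            exact ⟨_, U.sub_mem hx (U.smul_mem _ he), rfl⟩
        rw [hUW, Submodule.mem_bot] at h8
        rw [Submodule.mem_span_singleton]
        refine ⟨pB Q f x * β, ?_⟩
        show _ = (g * r : OG Q) x
        rw [h7, h8, zero_add]
      · rw [Submodule.span_le, Set.singleton_subset_iff]
        refine ⟨hgf, ?_⟩
        refine ⟨β⁻¹ • e, U.smul_mem _ he, ?_⟩
        show (g * r : OG Q) (β⁻¹ • e) = g f
        rw [og_mul, og_smul, hre', smul_smul, inv_mul_cancel₀ hβ, one_smul]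
    rw [h6, finrank_span_singleton hgf0] at h5
    obtain ⟨j, hj⟩ := hev
    omega

omit [Finite F] in
lemma mem_stPair_def {U W : Submodule F V} {g : OG Q} : g ∈ stPair (Q := Q) U W ↔
    ((im g U = U ∧ im g W = W) ∨ (im g U = W ∧ im g W = U)) := Iff.rfl

theorem pair_maximal (hnd : ND Q) (hrg : RG Q = ⊤) {U W : Submodule F V} (hU : IsMTS Q U)
    (hW : IsMTS Q W) (hUW : U ⊓ W = ⊥) (hdim : 5 ≤ Module.finrank F U) (hev : Even (Module.finrank F U)) :
    Geo.IsMaximalIn (EG Q) (stPair (Q := Q) U W ⊓ EG Q) := by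
  have hn : 5 ≤ Module.finrank F V := by have := hU.2; omega
  have hmem : ∀ (a b : V) (ha : Q a = 0) (hab : pB Q a b = 0), a ∈ U → b ∈ W → eich ha hab ∈ stPair (Q := Q) U W ⊓ EG Q := by
    intro a b ha hab haU hbW
    refine Subgroup.mem_inf.2 ⟨mem_stPair_def.2 (Or.inl ⟨?_, ?_⟩), eg_mem _ _⟩
    · apply Submodule.eq_of_le_of_finrank_eq _ (finrank_im (eich ha hab) U)
      rintro _ ⟨x, hx, rfl⟩
      have h1 : pB Q a x = 0 := ts_B hU.1 haU hx
      have h2 : (eich ha hab) x = x - pB Q b x • a := by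
        rw [eich_apply, h1]
        module
      have h3 : (eich ha hab) x ∈ U := by
        rw [h2]
        exact U.sub_mem hx (U.smul_mem _ haU)
      exact h3
    · apply Submodule.eq_of_le_of_finrank_eq _ (finrank_im (eich ha hab) W)
      rintro _ ⟨x, hx, rfl⟩
      have h1 : pB Q b x = 0 := ts_B hW.1 hbW hx
      have h2 : (eich ha hab) x = x + pB Q a x • b := by
        rw [eich_apply, h1, hW.1 b hbW]
        module
      have h3 : (eich ha hab) x ∈ W := by
        rw [h2]
        exact W.add_mem hx (W.smul_mem _ hbW)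
      exact h3
  -- two independent vectors of a subspace
  have hind : ∀ X : Submodule F V, 5 ≤ Module.finrank F X → ∃ a a' : V, a ∈ X ∧ a' ∈ X ∧ a ≠ 0 ∧ a' ∉ Submodule.span F {a} := by
    intro X hX
    have hX0 : X ≠ ⊥ := by
      intro h
      rw [h, finrank_bot] at hX
      omega
    obtain ⟨a, ha, ha0⟩ := (Submodule.ne_bot_iff _).mp hX0
    by_contra hcon
    push Not at hcon
    have h1 := Submodule.finrank_mono (show X ≤ Submodule.span F {a} from fun x hx => hcon a x ha hx ha0)
    have h2 := finrank_span_one_le (F := F) a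
    omega
  obtain ⟨s, hsE, hs1, hs2⟩ := exists_swap_eg hnd hn hrg hU hW hUW hev
  refine ⟨lt_of_le_of_ne inf_le_right ?_, ?_⟩
  · intro heq
    obtain ⟨a, a', ha, ha', ha0, hne⟩ := hind U hdim
    have hQa := hU.1 a ha
    have haa := ts_B hU.1 ha ha'
    have h1 : eich hQa haa ∈ stPair (Q := Q) U W ⊓ EG Q := by rw [heq]; exact eg_mem _ _
    have h2 : (eich hQa haa) a = a := by
      rw [eich_apply, ts_B hU.1 ha ha, ts_B hU.1 ha' ha]; simp
    rcases mem_stPair_def.1 (Subgroup.mem_inf.1 h1).1 with ⟨-, h3⟩ | ⟨h3, -⟩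
    · -- moves `W`
      have S : PairS U W (stPair (Q := Q) U W ⊓ EG Q) := ⟨hnd, hU, hW, hUW, hdim, hmem⟩
      obtain ⟨x, hx, -, hax⟩ := S.symm.exU (U.zero_mem) ha (by simpa using ha0)
      have h4 : (eich hQa haa) x ∈ W := by rw [← h3]; exact ⟨x, hx, rfl⟩
      rw [eich_apply, pB_symm Q a x, hax] at h4
      have h5 : (1 : F) • a' - pB Q a' x • a - (Q a' * 1) • a ∈ U ⊓ W := by
        refine ⟨U.sub_mem (U.sub_mem (U.smul_mem _ ha') (U.smul_mem _ ha)) (U.smul_mem _ ha), ?_⟩
        have h6 := W.sub_mem h4 hx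
        have h7 : x + (1 : F) • a' - pB Q a' x • a - (Q a' * 1) • a - x =
            (1 : F) • a' - pB Q a' x • a - (Q a' * 1) • a := by abel
        rwa [h7] at h6
      rw [hUW, Submodule.mem_bot] at h5
      apply hne
      rw [Submodule.mem_span_singleton]
      refine ⟨pB Q a' x + Q a', ?_⟩
      rw [eq_comm, ← sub_eq_zero, ← h5]
      module
    · have h4 : a ∈ U ⊓ W := by
        refine ⟨ha, ?_⟩
        rw [SetLike.mem_coe, ← h3]
        exact ⟨a, ha, h2⟩
      rw [hUW, Submodule.mem_bot] at h4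
      exact ha0 h4
  intro M hHM hME
  have S : PairS U W M := ⟨hnd, hU, hW, hUW, hdim, fun a b ha hab haU hbW => hHM (hmem a b ha hab haU hbW)⟩
  have hsM : s ∈ M := hHM (Subgroup.mem_inf.2 ⟨mem_stPair_def.2 (Or.inr ⟨hs1, hs2⟩), hsE⟩)
  by_cases hU' : PairS.No (Q := Q) U M
  · by_cases hW' : PairS.No (Q := Q) W M
    · left
      apply le_antisymm _ hHM
      intro g hg
      exact Subgroup.mem_inf.2 ⟨S.mem_stPair hU' hW' hg, hME hg⟩
    · right
      unfold PairS.No at hW'
      push Not at hW'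
      obtain ⟨a, a', hQ, haa, ha, ha', ha0, hne, hM⟩ := hW'
      exact le_antisymm hME (S.symm.eg_le_of ha ha0 ha' hne hQ haa hM hsM (fun x hx => by rw [← hs2]; exact ⟨x, hx, rfl⟩))
  · right
    unfold PairS.No at hU'
    push Not at hU'
    obtain ⟨a, a', hQ, haa, ha, ha', ha0, hne, hM⟩ := hU'
    exact le_antisymm hME (S.eg_le_of ha ha0 ha' hne hQ haa hM hsM (fun x hx => by rw [← hs1]; exact ⟨x, hx, rfl⟩))

end Cfsg.Agent.H12
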