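import Mathlib
import Cfsg.Prelude.Def_GeometricClasses
import Cfsg.Agent.H12.TenForm3
import Cfsg.Agent.H12.OmTS
import Cfsg.Agent.H12.OmBridge
import Cfsg.Agent.H12.SpGen
import Cfsg.Agent.H12.SymForm
import Cfsg.Agent.H12.HermStd

/-!
Non-maximality of some tensor product stabilisers.
-/

set_option autoImplicit false
set_option linter.unusedSectionVars false

open scoped MatrixGroups Matrix Kronecker

namespace Cfsg.Agent.H12

open Cfsg Cfsg.Agent.H5

section simil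

variable {ι : Type} [Fintype ι] [DecidableEq ι] {F : Type*} [Field F] {n₁ n₂ : ℕ} {e : ι ≃ Fin n₁ × Fin n₂} {P : GL ι F}

lemma simil {f : (ι → F) → (ι → F) → F} {f₁ : (Fin n₁ → F) → (Fin n₁ → F) → F} {f₂ : (Fin n₂ → F) → (Fin n₂ → F) → F}
    {c : F} (hc : c ≠ 0) (hten : ∀ α γ β δ, f (ten e P α β) (ten e P γ δ) = c * (f₁ α γ * f₂ β δ))
    (hn₁ : ∃ α γ, f₁ α γ ≠ 0) (hn₂ : ∃ β δ, f₂ β δ ≠ 0) {a : GL (Fin n₁) F} {b : GL (Fin n₂) F}
    (hg : ∀ x y, f (((kgl e P a b : GL ι F) : Matrix ι ι F) *ᵥ x) (((kgl e P a b : GL ι F) : Matrix ι ι F) *ᵥ y) = f x y) :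
    ∃ l : F, l ≠ 0 ∧ ∀ x y, f₁ ((a : Matrix (Fin n₁) (Fin n₁) F) *ᵥ x) ((a : Matrix (Fin n₁) (Fin n₁) F) *ᵥ y) = l * f₁ x y := by
  obtain ⟨β, δ, hβ⟩ := hn₂
  obtain ⟨α, γ, hα⟩ := hn₁
  have h1 : ∀ x y, f₁ ((a : Matrix (Fin n₁) (Fin n₁) F) *ᵥ x) ((a : Matrix (Fin n₁) (Fin n₁) F) *ᵥ y) *
      f₂ ((b : Matrix (Fin n₂) (Fin n₂) F) *ᵥ β) ((b : Matrix (Fin n₂) (Fin n₂) F) *ᵥ δ) = f₁ x y * f₂ β δ := by
    intro x y
    have h2 := hg (ten e P x β) (ten e P y δ)
    rw [kgl_ten, kgl_ten, hten, hten] at h2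
    exact mul_left_cancel₀ hc h2
  have h2 : f₂ ((b : Matrix (Fin n₂) (Fin n₂) F) *ᵥ β) ((b : Matrix (Fin n₂) (Fin n₂) F) *ᵥ δ) ≠ 0 := by
    intro h0
    have h3 := h1 α γ
    rw [h0, mul_zero] at h3
    exact mul_ne_zero hα hβ h3.symm
  refine ⟨f₂ β δ / f₂ ((b : Matrix (Fin n₂) (Fin n₂) F) *ᵥ β) ((b : Matrix (Fin n₂) (Fin n₂) F) *ᵥ δ),
    div_ne_zero hβ h2, fun x y => ?_⟩
  have h3 := h1 x y
  field_simp
  linear_combination h3

end simil

section ortho

variable {ι : Type} [Fintype ι] [DecidableEq ι] {F : Type*} [Field F] [Fintype F] {n₂ : ℕ} {e : ι ≃ Fin 3 × Fin n₂}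
  {P : GL ι F}

/-- isotropic vectors -/
lemma sym_iso_pair {k : ℕ} (hk : 4 ≤ k) {f : (Fin k → F) → (Fin k → F) → F} (h : ReflForm (RingEquiv.refl F) 1 f) :
    ∃ β β' : Fin k → F, β ≠ 0 ∧ f β β = 0 ∧ f β β' = 0 ∧ β' ∉ Submodule.span F {β} := by
  let B : LinearMap.BilinForm F (Fin k → F) := LinearMap.mk₂ F f h.add_left h.smul_left
    (fun m n₁ n₂ => h.add_right m n₁ n₂) (fun c m n => h.smul_right c m n)
  let q : QuadraticForm F (Fin k → F) := B.toQuadraticMap
  have hq : ∀ x, q x = f x x := fun x => rfl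
  have hk' : Module.finrank F (Fin k → F) = k := by rw [Module.finrank_fintype_fun_eq_card, Fintype.card_fin]
  obtain ⟨β, -, hβ0, hβ⟩ := exists_sing_sub (Q := q) ⊤ (by rw [finrank_top, hk']; omega)
  rw [hq] at hβ
  have h1 := h.finrank_perp {β}
  rw [Fintype.card_fin, Finset.card_singleton] at h1
  have h2 : ∃ β' ∈ h.perp {β}, β' ∉ Submodule.span F {β} := by
    by_contra hcon
    push Not at hcon
    have h3 : h.perp {β} ≤ Submodule.span F {β} := hcon
    have h4 := Submodule.finrank_mono h3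
    rw [finrank_span_singleton hβ0] at h4
    omega
  obtain ⟨β', hβ', hn⟩ := h2
  rw [ReflForm.mem_perp] at hβ'
  exact ⟨β, β', hβ0, hβ, h.symm_zero.1 (hβ' β (Finset.mem_singleton_self _)), hn⟩

theorem om_between {Q : QuadraticForm F (ι → F)} (hnd : ND Q) (hn : 5 ≤ Fintype.card ι) (hF : Fintype.card F = 3)
    (h2 : 4 ≤ n₂) {f₁ : (Fin 3 → F) → (Fin 3 → F) → F} {f₂ : (Fin n₂ → F) → (Fin n₂ → F) → F}
    (hf₁ : Geo.IsSymmetricForm f₁) (hf₂ : Geo.IsSymmetricForm f₂)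
    (hT : Geo.IsTensorFormStructure id (QuadraticMap.polar ⇑Q) f₁ f₂ e P) :
    ∃ K : Subgroup (GL ι F), Geo.tensorProductSubgroup 3 n₂ e P ⊓ Geo.omegaGL (⇑Q) < K ∧ K < Geo.omegaGL (⇑Q) := by
  have h₁ := refl_symm hf₁
  have h₂ := refl_symm hf₂
  obtain ⟨c, hc, hten⟩ := form_ten (σ := id) (fun x y => rfl)
    (fun x y => form_gram f₁ h₁.add_left h₁.smul_left h₁.add_right h₁.smul_right x y)
    (fun x y => form_gram f₂ h₂.add_left h₂.smul_left h₂.add_right h₂.smul_right x y) hT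
  have hB : ∀ x y, QuadraticMap.polar ⇑Q x y = pB Q x y := fun x y => rfl
  have h20 : (2 : F) ≠ 0 := by
    intro h2
    have h3 := three_zero hF
    have : (1 : F) = 0 := by linear_combination h3 - h2
    exact one_ne_zero this
  have hQten : ∀ α β, f₁ α α * f₂ β β = 0 → Q (ten e P α β) = 0 := by
    intro α β h0
    have h3 := hten α α β β
    rw [h0, mul_zero, hB, pB_self] at h3
    exact (mul_eq_zero.1 h3).resolve_left h20
  obtain ⟨ε, w, hw⟩ := exists_frm3 hF h₁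
  obtain ⟨β, β', hβ0, hβ, hββ', hβ'⟩ := sym_iso_pair h2 h₂
  obtain ⟨δ, hδ⟩ := (hf₂.nondegenerate β hβ0).2
  have hw0 : ∀ j, w j ≠ 0 := by
    intro j h0
    have h3 := hw.2 j j
    rw [if_pos rfl, h0, h₁.zero_left] at h3
    exact hw.1 h3.symm
  have hww : ∀ i j, i ≠ j → f₁ (w i) (w j) = 0 := fun i j hij => by rw [hw.2, if_neg hij]
  have hQ1 : Q (ten e P (w 0) β) = 0 := hQten _ _ (by rw [hβ, mul_zero])
  have hp1 : pB Q (ten e P (w 0) β) (ten e P (w 0) β') = 0 := by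
    rw [← hB, hten, hββ']; ring
  have hβ'0 : β' ≠ 0 := fun h => hβ' (by rw [h]; exact Submodule.zero_mem _)
  have hp2 : pB Q (ten e P (w 0) β) (ten e P (w 1) β') = 0 := by
    rw [← hB, hten, hww 0 1 (by decide)]; ring
  rw [omegaGL_eq hnd hn]
  apply betw e P hw0 (g₁ := ogGL Q (eich hQ1 hp1)) (g₂ := ogGL Q (eich hQ1 hp2))
  · rintro a b ⟨g, -, hg⟩
    obtain ⟨l, hl0, hl⟩ := simil (f := fun x y => pB Q x y) (a := a) (b := b) hc
      (fun α γ β δ => hten α γ β δ) ⟨w 0, w 0, by rw [hw.2, if_pos rfl]; exact hw.1⟩ ⟨β, δ, hδ⟩ (by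
        intro x y
        rw [← hg, ogGL_apply, ogGL_apply]
        exact og_p g x y)
    have hl1 := mult_one hF h₁ hw a l hl0 hl
    rw [hl1] at hl
    exact perm_of_col h₁ hw (col_three hF) a (fun x y => by rw [hl, one_mul])
  · exact ⟨_, eg_mem hQ1 hp1, rfl⟩
  · intro j γ
    rw [ogGL_apply, eich_apply]
    by_cases hj : j = 0
    · rw [hj]
      refine ⟨γ + pB Q (ten e P (w 0) β) (ten e P (w 0) γ) • β' + (-(pB Q (ten e P (w 0) β') (ten e P (w 0) γ))) • β +
        (-(Q (ten e P (w 0) β') * pB Q (ten e P (w 0) β) (ten e P (w 0) γ))) • β, ?_⟩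
      rw [ten_add_right, ten_add_right, ten_add_right, ten_smul_right, ten_smul_right, ten_smul_right]
      module
    · have e1 : pB Q (ten e P (w 0) β) (ten e P (w j) γ) = 0 := by
        rw [← hB, hten, hww 0 j (fun h => hj h.symm)]; ring
      have e2 : pB Q (ten e P (w 0) β') (ten e P (w j) γ) = 0 := by
        rw [← hB, hten, hww 0 j (fun h => hj h.symm)]; ring
      exact ⟨γ, by rw [e1, e2]; module⟩
  · refine not_tensor e P (hw0 0) (hw0 1) (β := δ)
      (β' := δ + pB Q (ten e P (w 0) β) (ten e P (w 0) δ) • β' + (-(pB Q (ten e P (w 0) β') (ten e P (w 0) δ))) • β +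
        (-(Q (ten e P (w 0) β') * pB Q (ten e P (w 0) β) (ten e P (w 0) δ))) • β) ?_ ?_ ?_
    · intro γ
      rw [ogGL_apply, eich_apply]
      have e1 : pB Q (ten e P (w 0) β) (ten e P (w 1) γ) = 0 := by
        rw [← hB, hten, hww 0 1 (by decide)]; ring
      have e2 : pB Q (ten e P (w 0) β') (ten e P (w 1) γ) = 0 := by
        rw [← hB, hten, hww 0 1 (by decide)]; ring
      rw [e1, e2]; module
    · rw [ogGL_apply, eich_apply, ten_add_right, ten_add_right, ten_add_right, ten_smul_right, ten_smul_right,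
        ten_smul_right]
      module
    · intro k hk
      have e1 : pB Q (ten e P (w 0) β) (ten e P (w 0) δ) ≠ 0 := by
        rw [← hB, hten, hw.2, if_pos rfl]
        exact mul_ne_zero hc (mul_ne_zero hw.1 hδ)
      have h3 := congrArg (fun x => f₂ β x) hk
      beta_reduce at h3
      rw [h₂.add_right, h₂.add_right, h₂.add_right, h₂.smul_right, h₂.smul_right, h₂.smul_right, h₂.smul_right, hβ,
        hββ', mul_zero, mul_zero, mul_zero, add_zero, add_zero, add_zero] at h3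
      have h4 : k = 1 := by
        have h5 : k * f₂ β δ = f₂ β δ := h3.symm
        have h6 : (k - 1) * f₂ β δ = 0 := by linear_combination h5
        exact sub_eq_zero.1 ((mul_eq_zero.1 h6).resolve_right hδ)
      rw [h4, one_smul] at hk
      apply hβ'
      rw [Submodule.mem_span_singleton]
      refine ⟨(pB Q (ten e P (w 0) β) (ten e P (w 0) δ))⁻¹ * (pB Q (ten e P (w 0) β') (ten e P (w 0) δ) +
        Q (ten e P (w 0) β') * pB Q (ten e P (w 0) β) (ten e P (w 0) δ)), ?_⟩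
      have h5 : pB Q (ten e P (w 0) β) (ten e P (w 0) δ) • β' = (pB Q (ten e P (w 0) β') (ten e P (w 0) δ) +
        Q (ten e P (w 0) β') * pB Q (ten e P (w 0) β) (ten e P (w 0) δ)) • β := by
        have h6 := congrArg (fun x => x - δ) hk
        beta_reduce at h6
        rw [sub_self] at h6
        have h7 : pB Q (ten e P (w 0) β) (ten e P (w 0) δ) • β' - (pB Q (ten e P (w 0) β') (ten e P (w 0) δ) +
          Q (ten e P (w 0) β') * pB Q (ten e P (w 0) β) (ten e P (w 0) δ)) • β = 0 := by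
          rw [← h6]; module
        exact sub_eq_zero.1 h7
      rw [mul_smul, ← h5, smul_smul, inv_mul_cancel₀ e1, one_smul]
  · exact ⟨_, eg_mem hQ1 hp2, rfl⟩
  · have e1 : pB Q (ten e P (w 0) β) (ten e P (w 0) δ) ≠ 0 := by
      rw [← hB, hten, hw.2, if_pos rfl]
      exact mul_ne_zero hc (mul_ne_zero hw.1 hδ)
    have e2 : pB Q (ten e P (w 1) β') (ten e P (w 0) δ) = 0 := by
      rw [← hB, hten, hww 1 0 (by decide)]; ring
    have e3 : (((ogGL Q (eich hQ1 hp2)) : GL ι F) : Matrix ι ι F) *ᵥ ten e P (w 0) δ =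
        ten e P (w 0) (δ + (-(Q (ten e P (w 1) β') * pB Q (ten e P (w 0) β) (ten e P (w 0) δ))) • β) +
        ten e P (w 1) (pB Q (ten e P (w 0) β) (ten e P (w 0) δ) • β') := by
      rw [ogGL_apply, eich_apply, e2, ten_add_right, ten_smul_right, ten_smul_right]
      module
    have hφ := fun i j => frmDual_w h₁ hw i j
    refine not_dec e P (φ := fun i => frmDual f₁ ε w i) (fun i j hij => by rw [hφ, if_neg hij]) (j₀ := 0) (j₁ := 1)
      (by decide) (j := 0) (β := δ) ?_ ?_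
    · rw [e3, con_add, con_ten, con_ten, hφ, hφ, if_pos rfl, if_neg (by decide), one_smul, zero_smul, add_zero]
      intro h0
      have h3 := congrArg (fun x => f₂ β x) h0
      beta_reduce at h3
      rw [h₂.add_right, h₂.smul_right, hβ, mul_zero, add_zero, h₂.zero_right] at h3
      exact hδ h3
    · rw [e3, con_add, con_ten, con_ten, hφ, hφ, if_pos rfl, if_neg (by decide), one_smul, zero_smul, zero_add]
      exact smul_ne_zero e1 hβ'0

end ortho

section transv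

variable {ι : Type} [Fintype ι] [DecidableEq ι] {F : Type*} [Field F] {n₁ n₂ : ℕ} {e : ι ≃ Fin n₁ × Fin n₂} {P : GL ι F}

theorem tv_between {σ : F ≃+* F} {ε₀ ε₁ ε₂ : F} {f : (ι → F) → (ι → F) → F} {f₁ : (Fin n₁ → F) → (Fin n₁ → F) → F}
    {f₂ : (Fin n₂ → F) → (Fin n₂ → F) → F} (h : ReflForm σ ε₀ f) (h₁ : ReflForm σ ε₁ f₁) (h₂ : ReflForm σ ε₂ f₂)
    {c : F} (hc : c ≠ 0) (hten : ∀ α γ β δ, f (ten e P α β) (ten e P γ δ) = c * (f₁ α γ * f₂ β δ))
    {ε : F} {w : Fin n₁ → Fin n₁ → F} (hw : IsFrm f₁ ε w) {j₀ j₁ : Fin n₁} (hj : j₀ ≠ j₁) {I : Subgroup (GL ι F)}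
    (T : (ι → F) → GL ι F) {a : F} (ha : a ≠ 0)
    (hT : ∀ z, f z z = 0 → T z ∈ I ∧ ∀ x, (T z : Matrix ι ι F) *ᵥ x = x + (a * f x z) • z)
    {β : Fin n₂ → F} (hβ0 : β ≠ 0) (hβ : f₂ β β = 0)
    (hperm : ∀ a b, kgl e P a b ∈ I → ∃ (τ : Equiv.Perm (Fin n₁)) (c : Fin n₁ → F),
      ∀ j, (a : Matrix (Fin n₁) (Fin n₁) F) *ᵥ w j = c j • w (τ j)) :
    ∃ K : Subgroup (GL ι F), Geo.tensorProductSubgroup n₁ n₂ e P ⊓ I < K ∧ K < I := by
  obtain ⟨δ, hδ⟩ := h₂.nondeg β hβ0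
  have hw0 : ∀ j, w j ≠ 0 := by
    intro j h0
    have h3 := hw.2 j j
    rw [if_pos rfl, h0, h₁.zero_left] at h3
    exact hw.1 h3.symm
  have hww : ∀ i j, i ≠ j → f₁ (w i) (w j) = 0 := fun i j hij => by rw [hw.2, if_neg hij]
  have hz1 : f (ten e P (w j₀) β) (ten e P (w j₀) β) = 0 := by rw [hten, hβ]; ring
  have hz2 : f (ten e P (w j₀) β + ten e P (w j₁) β) (ten e P (w j₀) β + ten e P (w j₁) β) = 0 := by
    rw [h.add_left, h.add_right, h.add_right, hten, hten, hten, hten, hβ]; ring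
  have hk : a * (c * (ε * f₂ δ β)) ≠ 0 := mul_ne_zero ha (mul_ne_zero hc (mul_ne_zero hw.1 hδ))
  have hval : ∀ j γ, f (ten e P (w j) γ) (ten e P (w j₀) β) = if j = j₀ then c * (ε * f₂ γ β) else 0 := by
    intro j γ
    rw [hten, hw.2]
    split_ifs <;> ring
  obtain ⟨hT1, hT1'⟩ := hT _ hz1
  obtain ⟨hT2, hT2'⟩ := hT _ hz2
  apply betw e P hw0 hperm hT1 ?_ ?_ hT2 ?_
  · intro j γ
    rw [hT1', hval]
    by_cases hj0 : j = j₀
    · rw [if_pos hj0, hj0]
      refine ⟨γ + (a * (c * (ε * f₂ γ β))) • β, ?_⟩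
      rw [ten_add_right, ten_smul_right]
    · rw [if_neg hj0]
      exact ⟨γ, by rw [mul_zero, zero_smul, add_zero]⟩
  · refine not_tensor e P (hw0 j₀) (hw0 j₁) (β := δ) (β' := δ + (a * (c * (ε * f₂ δ β))) • β) ?_ ?_ ?_
    · intro γ
      rw [hT1', hval, if_neg hj.symm, mul_zero, zero_smul, add_zero]
    · rw [hT1', hval, if_pos rfl, ten_add_right, ten_smul_right]
    · intro m hm
      have h3 := congrArg (fun x => f₂ x β) hm
      beta_reduce at h3
      rw [h₂.add_left, h₂.smul_left, h₂.smul_left, hβ, mul_zero, add_zero] at h3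
      have h4 : m = 1 := by
        have h6 : (m - 1) * f₂ δ β = 0 := by linear_combination -h3
        exact sub_eq_zero.1 ((mul_eq_zero.1 h6).resolve_right hδ)
      rw [h4, one_smul] at hm
      have h5 : (a * (c * (ε * f₂ δ β))) • β = 0 := by
        have h6 := congrArg (fun x => x - δ) hm
        beta_reduce at h6
        rw [sub_self] at h6
        rw [← h6]; abel
      rcases smul_eq_zero.1 h5 with h6 | h6
      · exact hk h6
      · exact hβ0 h6
  · have e1 : f (ten e P (w j₀) δ) (ten e P (w j₀) β + ten e P (w j₁) β) = c * (ε * f₂ δ β) := by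
      rw [h.add_right, hval, if_pos rfl, hten, hww j₀ j₁ hj]; ring
    have e3 : (T (ten e P (w j₀) β + ten e P (w j₁) β) : Matrix ι ι F) *ᵥ ten e P (w j₀) δ =
        ten e P (w j₀) (δ + (a * (c * (ε * f₂ δ β))) • β) + ten e P (w j₁) ((a * (c * (ε * f₂ δ β))) • β) := by
      rw [hT2', e1, ten_add_right, ten_smul_right, ten_smul_right]
      module
    have hφ := fun i j => frmDual_w h₁ hw i j
    refine not_dec e P (φ := fun i => frmDual f₁ ε w i) (fun i j hij => by rw [hφ, if_neg hij]) (j₀ := j₀) (j₁ := j₁)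
      hj (j := j₀) (β := δ) ?_ ?_
    · rw [e3, con_add, con_ten, con_ten, hφ, hφ, if_pos rfl, if_neg hj, one_smul, zero_smul, add_zero]
      intro h0
      have h3 := congrArg (fun x => f₂ x β) h0
      beta_reduce at h3
      rw [h₂.add_left, h₂.smul_left, hβ, mul_zero, add_zero, h₂.zero_left] at h3
      exact hδ h3
    · rw [e3, con_add, con_ten, con_ten, hφ, hφ, if_pos rfl, if_neg hj.symm, one_smul, zero_smul, zero_add]
      exact smul_ne_zero hk hβ0

end transv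

section swap

variable {ι : Type} [Fintype ι] [DecidableEq ι] {F : Type*} [Field F] {n₁ n₂ : ℕ} (e : ι ≃ Fin n₁ × Fin n₂) (P : GL ι F)

lemma ten_swap (α : Fin n₁ → F) (β : Fin n₂ → F) : ten (e.trans (Equiv.prodComm _ _)) P β α = ten e P α β := by
  unfold ten
  congr 1
  funext k
  exact mul_comm _ _

lemma tensor_swap : Geo.tensorProductSubgroup n₁ n₂ e P =
    Geo.tensorProductSubgroup n₂ n₁ (e.trans (Equiv.prodComm _ _)) P := by
  have key : ∀ (a : GL (Fin n₁) F) (b : GL (Fin n₂) F), kgl e P a b = kgl (e.trans (Equiv.prodComm _ _)) P b a := by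
    intro a b
    apply kgl_eq_iff
    intro β α
    rw [ten_swap, ten_swap, kgl_ten]
  ext g
  rw [mem_tensor, mem_tensor]
  constructor
  · rintro ⟨a, b, rfl⟩
    exact ⟨b, a, key a b⟩
  · rintro ⟨b, a, rfl⟩
    exact ⟨a, b, (key a b).symm⟩

end swap

end Cfsg.Agent.H12
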