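import Mathlib
import Cfsg.Prelude.Def_GeometricClasses
import Cfsg.Agent.H12.TenForm4
import Cfsg.Agent.H12.OmFrame4

/-!
The stabiliser of a symplectic tensor decomposition `2 ⊗ n₂` over the field with two elements is not maximal.
-/

set_option autoImplicit false
set_option linter.unusedSectionVars false

open scoped MatrixGroups Matrix Kronecker

namespace Cfsg.Agent.H12

open Cfsg Cfsg.Agent.H5

section nj

variable {F V : Type*} [Field F] [AddCommGroup V] [Module F V] {Q : QuadraticForm F V}

/-- the normaliser of the group generated by an element `J` with `J² = J + 1` -/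
def NJ (J : OG Q) (hJ : J * J * J = 1) : Subgroup (OG Q) where
  carrier := {g | g * J = J * g ∨ g * J = J * J * g}
  mul_mem' := by
    rintro a b (ha | ha) (hb | hb)
    · left; rw [mul_assoc, hb, ← mul_assoc, ha, mul_assoc]
    · right; rw [mul_assoc, hb, ← mul_assoc, ← mul_assoc, ha, mul_assoc J a J, ha]
      simp only [mul_assoc]
    · right; rw [mul_assoc, hb, ← mul_assoc, ha, mul_assoc]
    · left; rw [mul_assoc, hb, ← mul_assoc, ← mul_assoc, ha, mul_assoc (J * J) a J, ha]
      have : J * J * (J * J * a) * b = (J * J * J) * J * (a * b) := by simp only [mul_assoc]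
      rw [this, hJ, one_mul]
  one_mem' := Or.inl (by rw [one_mul, mul_one])
  inv_mem' := by
    rintro a (ha | ha)
    · left
      rw [inv_mul_eq_iff_eq_mul, ← mul_assoc, ha, mul_assoc, mul_inv_cancel, mul_one]
    · right
      rw [inv_mul_eq_iff_eq_mul, ← mul_assoc, ← mul_assoc, ha, mul_assoc (J * J) a J, ha]
      have : J * J * (J * J * a) * a⁻¹ = (J * J * J) * J * (a * a⁻¹) := by simp only [mul_assoc]
      rw [this, hJ, mul_inv_cancel, one_mul, mul_one]

lemma mem_NJ {J : OG Q} {hJ : J * J * J = 1} {g : OG Q} : g ∈ NJ J hJ ↔ (g * J = J * g ∨ g * J = J * J * g) := Iff.rfl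

variable {J : OG Q} (h20 : (2 : F) = 0) (hJ2 : ∀ x, J (J x) = J x + x)

include h20 hJ2

lemma J_cube : J * J * J = 1 := by
  apply og_ext
  intro x
  rw [og_mul, og_mul, og_one, hJ2, hJ2]
  have h1 : J x + x + J x = (2 : F) • J x + x := by rw [two_smul]; abel
  rw [h1, h20, zero_smul, zero_add]

lemma pB_J (u x : V) : pB Q u (J x) = pB Q u x + pB Q (J u) x := by
  have h1 := og_p (J * J : OG Q) u (J x)
  have h2 : (J * J : OG Q) (J x) = x := by
    have := J_cube h20 hJ2
    rw [← og_mul, this, og_one]
  rw [h2] at h1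
  rw [← h1, og_mul, hJ2, pl_add]; ring

lemma pB_self_J {u : V} (hu : Q u = 0) : pB Q u (J u) = 0 := by
  have h1 := og_q J (J u)
  rw [hJ2, q_add, og_q, hu, pB_symm] at h1
  linear_combination h1

lemma eich_NJ {u : V} (hu : Q u = 0) (huJ : pB Q u (J u) = 0) :
    eich hu huJ ∈ NJ J (J_cube h20 hJ2) := by
  left
  apply og_ext
  intro x
  rw [og_mul, og_mul, eich_apply, eich_apply, og_q, hu, pB_J h20 hJ2 u x, og_p, og_sub, og_sub, og_add, og_smul, og_smul,
    og_smul, hJ2, ← sub_eq_zero]
  have h1 : ∀ b c : F, J x + (b + c) • J u - b • u - (0 * (b + c)) • u - (J x + b • (J u + u) - c • J u - (0 * b) • J u) =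
      (2 : F) • (c • J u - b • u) := by intro b c; module
  rw [h1, h20, zero_smul]

lemma not_NJ [FiniteDimensional F V] (hnd : ND Q) (hn : 5 ≤ Module.finrank F V) {u w : V} (hu : Q u = 0)
    (huw : pB Q u w = 0) (hw : Q w = 0) (hli : LinearIndependent F ![u, w, J u, J w]) :
    eich hu huw ∉ NJ J (J_cube h20 hJ2) := by
  have hu0 : u ≠ 0 := hli.ne_zero 0
  rintro (h | h)
  · obtain ⟨x, hx⟩ := hnd.ne hu0
    have h1 := congrArg (fun g : OG Q => g x) h
    beta_reduce at h1
    rw [og_mul, og_mul, eich_apply, eich_apply, hw, og_sub, og_sub, og_add, og_smul, og_smul] at h1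
    have h2 : (pB Q w (J x)) • u + (-(pB Q u (J x))) • w + (-(pB Q w x)) • J u + (pB Q u x) • J w = 0 := by
      have h3 := sub_eq_zero.2 h1
      simp only [zero_mul, zero_smul, og_zero, sub_zero] at h3
      have h5 : (pB Q w (J x)) • u + (-(pB Q u (J x))) • w + (-(pB Q w x)) • J u + (pB Q u x) • J w =
          -((J x + pB Q u (J x) • w - pB Q w (J x) • u) - (J x + pB Q u x • J w - pB Q w x • J u)) := by module
      rw [h5, h3, neg_zero]
    rw [Fintype.linearIndependent_iff] at hli
    have h3 := hli ![pB Q w (J x), -(pB Q u (J x)), -(pB Q w x), pB Q u x] (by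
      rw [Fin.sum_univ_four]; exact h2) 3
    exact hx h3
  · obtain ⟨x, hx, hx0⟩ : ∃ x ∈ oc Q (Submodule.span F {u, w, J u, J w}), x ≠ 0 := by
      by_contra hcon
      push Not at hcon
      have h1 : oc Q (Submodule.span F {u, w, J u, J w}) = ⊥ := (Submodule.eq_bot_iff _).2 hcon
      have h2 := finrank_oc hnd (Submodule.span F {u, w, J u, J w})
      rw [h1, finrank_bot] at h2
      have h3 : Module.finrank F (Submodule.span F {u, w, J u, J w}) ≤ 4 := by
        have h4 := finrank_range_le_card (R := F) (b := ![u, w, J u, J w])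
        have h5 : Set.range ![u, w, J u, J w] = {u, w, J u, J w} := by
          ext y
          simp only [Set.mem_range, Fin.exists_fin_succ, Set.mem_insert_iff, Set.mem_singleton_iff]
          simp [eq_comm]
        rw [Set.finrank, h5, Fintype.card_fin] at h4
        exact h4
      omega
    rw [mem_oc] at hx
    have m1 := hx u (Submodule.subset_span (by simp))
    have m2 := hx w (Submodule.subset_span (by simp))
    have m3 := hx (J u) (Submodule.subset_span (by simp))
    have m4 := hx (J w) (Submodule.subset_span (by simp))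
    have h1 := congrArg (fun g : OG Q => g x) h
    beta_reduce at h1
    have h2 : eich hu huw x = x := by
      rw [eich_apply, m1, m2]; module
    have h3 : eich hu huw (J x) = J x := by
      rw [eich_apply, pB_J h20 hJ2, pB_J h20 hJ2, m1, m2, m3, m4]; module
    rw [og_mul, og_mul, og_mul, h2, h3, hJ2] at h1
    apply hx0
    have h4 := sub_eq_zero.2 h1.symm
    rwa [add_sub_cancel_left] at h4

end nj

end Cfsg.Agent.H12
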