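import Mathlib
import Cfsg.Prelude.Def_GeometricClasses
import Cfsg.Agent.H12.OmTen2

/-!
The stabiliser of a symplectic tensor decomposition `2 ⊗ n₂` over the field with two elements is not maximal.
-/

set_option autoImplicit false
set_option linter.unusedSectionVars false

open scoped MatrixGroups Matrix Kronecker

namespace Cfsg.Agent.H12

open Cfsg Cfsg.Agent.H5

section mat2

lemma z2_mat : ∀ a : Matrix (Fin 2) (Fin 2) (ZMod 2), a.det ≠ 0 → a * !![0, 1; 1, 1] = !![0, 1; 1, 1] * a ∨
    a * !![0, 1; 1, 1] = !![0, 1; 1, 1] * !![0, 1; 1, 1] * a := by decide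

variable {F : Type*} [Field F]

/-- the matrix of order three -/
def m3 (F : Type*) [Field F] : Matrix (Fin 2) (Fin 2) F := !![0, 1; 1, 1]

lemma m3_comm [Fintype F] (hF : Fintype.card F = 2) (a : Matrix (Fin 2) (Fin 2) F) (ha : a.det ≠ 0) :
    a * m3 F = m3 F * a ∨ a * m3 F = m3 F * m3 F * a := by
  have : Fact (Nat.Prime 2) := ⟨Nat.prime_two⟩
  let ψ : F ≃+* ZMod 2 := FiniteField.ringEquivOfCardEq (by rw [hF, ZMod.card])
  have hinj : ∀ x y : Matrix (Fin 2) (Fin 2) F, x.map ψ = y.map ψ → x = y := by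
    intro x y h
    ext i j
    exact ψ.injective (congrFun (congrFun h i) j)
  have h1 : (m3 F).map ψ = !![0, 1; 1, 1] := by
    ext i j
    fin_cases i <;> fin_cases j <;> simp [m3]
  have hmul : ∀ x y : Matrix (Fin 2) (Fin 2) F, (x * y).map ψ = x.map ψ * y.map ψ := fun x y =>
    Matrix.map_mul (f := (ψ : F →+* ZMod 2))
  have hdet : (a.map ψ).det ≠ 0 := by
    have h2 : (a.map ψ).det = ψ a.det := ((ψ : F →+* ZMod 2).map_det a).symm
    rw [h2]
    intro h
    exact ha ((map_eq_zero ψ).1 h)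
  rcases z2_mat _ hdet with h | h
  · left; apply hinj; rw [hmul, hmul, h1, h]
  · right; apply hinj; rw [hmul, hmul, hmul, h1, h]

lemma m3_zero : m3 F *ᵥ (Pi.single 0 1) = Pi.single 1 1 := by
  funext i
  fin_cases i <;> simp [m3, Matrix.mulVec, dotProduct, Fin.sum_univ_two]

lemma m3_one : m3 F *ᵥ (Pi.single 1 1) = Pi.single 0 1 + Pi.single 1 1 := by
  funext i
  fin_cases i <;> simp [m3, Matrix.mulVec, dotProduct, Fin.sum_univ_two]

lemma m3_sq (h20 : (2 : F) = 0) (α : Fin 2 → F) : m3 F *ᵥ (m3 F *ᵥ α) = m3 F *ᵥ α + α := by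
  funext i
  fin_cases i
  · simp [m3, Matrix.mulVec, dotProduct, Fin.sum_univ_two]; ring
  · simp [m3, Matrix.mulVec, dotProduct, Fin.sum_univ_two]; ring

end mat2

section main

variable {ι : Type} [Fintype ι] [DecidableEq ι] {F : Type*} [Field F] [Fintype F] {n₂ : ℕ} {e : ι ≃ Fin 2 × Fin n₂}
  {P : GL ι F} {Q : QuadraticForm F (ι → F)}

lemma ten_expand (x : ι → F) : ∃ β γ : Fin n₂ → F, x = ten e P (Pi.single 0 1) β + ten e P (Pi.single 1 1) γ := by
  refine ⟨fun j => tc e P x 0 j, fun j => tc e P x 1 j, ?_⟩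
  conv_lhs => rw [eq_sum_ten e P x, Fin.sum_univ_two]

lemma og_ext_ten {g h : OG Q} (H : ∀ α β, g (ten e P α β) = h (ten e P α β)) : g = h := by
  apply og_ext
  intro x
  obtain ⟨β, γ, rfl⟩ := ten_expand (e := e) (P := P) x
  rw [og_add, og_add, H, H]

theorem tens2_between (hnd : ND Q) (hF : Fintype.card F = 2) (hn : 5 ≤ Fintype.card ι)
    (h4 : 3 ≤ n₂) {f₁ : (Fin 2 → F) → (Fin 2 → F) → F} {f₂ : (Fin n₂ → F) → (Fin n₂ → F) → F} {c : F} (hc : c ≠ 0)
    (hf₁ : Geo.IsSymplecticForm f₁) (hf₂ : Geo.IsSymplecticForm f₂)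
    (hten : ∀ α γ β δ, pB Q (ten e P α β) (ten e P γ δ) = c * (f₁ α γ * f₂ β δ))
    (hpure : ∀ α β, Q (ten e P α β) = 0) :
    ∃ K : Subgroup (GL ι F), Geo.tensorProductSubgroup 2 n₂ e P ⊓ Geo.omegaGL (⇑Q) < K ∧ K < Geo.omegaGL (⇑Q) := by
  have h20 : (2 : F) = 0 := by
    have := FiniteField.cast_card_eq_zero F
    rw [hF] at this
    exact_mod_cast this
  have h5 : 5 ≤ Module.finrank F (ι → F) := by rw [Module.finrank_fintype_fun_eq_card]; exact hn
  have hf01 : f₁ (Pi.single 1 1) (Pi.single 0 1) = f₁ (Pi.single 0 1) (Pi.single 1 1) := by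
    rw [hf₁.skew]
    linear_combination (-(f₁ (Pi.single 0 1) (Pi.single 1 1))) * h20
  have kt : ∀ α β, Matrix.toLin' (kop e P (m3 F) 1) (ten e P α β) = ten e P (m3 F *ᵥ α) β := by
    intro α β
    rw [Matrix.toLin'_apply, kop_ten, Matrix.one_mulVec]
  have hJQ : ∀ x, Q (Matrix.toLin' (kop e P (m3 F) 1) x) = Q x := by
    intro x
    obtain ⟨β, γ, rfl⟩ := ten_expand (e := e) (P := P) x
    rw [map_add, kt, kt, m3_zero, m3_one, q_add, q_add, hpure, hpure, hpure, hpure, hten, hten, hf₁.bilinear.add_right,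
      hf₁.alternating, hf01]
    ring
  set J : OG Q := mkOG hnd (Matrix.toLin' (kop e P (m3 F) 1)) hJQ with hJ
  have Jt : ∀ α β, J (ten e P α β) = ten e P (m3 F *ᵥ α) β := fun α β => by
    rw [hJ, mkOG_apply, kt]
  have hJ2 : ∀ x, J (J x) = J x + x := by
    intro x
    obtain ⟨β, γ, rfl⟩ := ten_expand (e := e) (P := P) x
    simp only [og_add, Jt, m3_sq h20, ten_add_left]
    abel
  have hTN : (Geo.tensorProductSubgroup 2 n₂ e P).comap (ogGL Q) ≤ NJ J (J_cube h20 hJ2) := by
    intro g hg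
    obtain ⟨a, b, hab⟩ := (mem_tensor e P).1 hg
    have hg' : ∀ α β, g (ten e P α β) = ten e P ((a : Matrix (Fin 2) (Fin 2) F) *ᵥ α) ((b : Matrix (Fin n₂) (Fin n₂) F) *ᵥ β) := by
      intro α β
      rw [← kgl_ten, ← hab, ogGL_apply]
    have hdet : (a : Matrix (Fin 2) (Fin 2) F).det ≠ 0 := (Matrix.isUnits_det_units a).ne_zero
    rcases m3_comm hF (a : Matrix (Fin 2) (Fin 2) F) hdet with h | h
    · left
      apply og_ext_ten (e := e) (P := P)
      intro α β
      rw [og_mul, og_mul, Jt, hg', hg', Jt, Matrix.mulVec_mulVec, Matrix.mulVec_mulVec, h]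
    · right
      apply og_ext_ten (e := e) (P := P)
      intro α β
      rw [og_mul, og_mul, og_mul, Jt, hg', hg', Jt, Jt, Matrix.mulVec_mulVec, Matrix.mulVec_mulVec, Matrix.mulVec_mulVec,
        h]
  -- the vectors
  have hne2 : (Pi.single ⟨0, by omega⟩ 1 : Fin n₂ → F) ≠ 0 := by
    intro h0
    have := congrFun h0 ⟨0, by omega⟩
    rw [Pi.single_eq_same, Pi.zero_apply] at this
    exact one_ne_zero this
  generalize hβdef : (Pi.single ⟨0, by omega⟩ 1 : Fin n₂ → F) = β at hne2
  have h₂ : ReflForm (RingEquiv.refl F) (-1) f₂ :=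
    { inv := fun _ => rfl
      eps := by ring
      seps := rfl
      add_left := hf₂.bilinear.add_left
      smul_left := hf₂.bilinear.smul_left
      herm := fun v w => by rw [hf₂.skew v w]; show _ = -1 * f₂ w v; ring
      nondeg := fun v hv => (hf₂.nondegenerate v hv).1 }
  obtain ⟨β', hβ', hββ⟩ : ∃ β' : Fin n₂ → F, β' ∉ Submodule.span F {β} ∧ f₂ β' β = 0 := by
    have h1 := h₂.finrank_perp {β}
    rw [Fintype.card_fin, Finset.card_singleton] at h1
    by_contra hcon
    push Not at hcon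
    have h3 : h₂.perp {β} ≤ Submodule.span F {β} := by
      intro x hx
      by_contra hx'
      rw [ReflForm.mem_perp] at hx
      exact hcon x hx' (hx β (Finset.mem_singleton_self _))
    have h4 := Submodule.finrank_mono h3
    rw [finrank_span_singleton hne2] at h4
    omega
  obtain ⟨γ, hγ, hγ'⟩ : ∃ γ : Fin n₂ → F, f₂ γ β = 0 ∧ f₂ γ β' ≠ 0 := by
    by_contra hcon
    push Not at hcon
    apply hβ'
    have := h₂.mem_span_of_perp {β} (x := β') (fun y hy => hcon y (by
      rw [ReflForm.mem_perp] at hy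
      exact hy β (Finset.mem_singleton_self _)))
    rwa [Finset.coe_singleton] at this
  have f01 : f₁ (Pi.single 0 1) (Pi.single 1 1) ≠ 0 := by
    intro h0
    have hne : (Pi.single 0 1 : Fin 2 → F) ≠ 0 := by
      intro h
      have := congrFun h 0
      rw [Pi.single_eq_same, Pi.zero_apply] at this
      exact one_ne_zero this
    obtain ⟨x, hx⟩ := (hf₁.nondegenerate _ hne).2
    apply hx
    have hx' : x = x 0 • (Pi.single 0 1 : Fin 2 → F) + x 1 • (Pi.single 1 1 : Fin 2 → F) := by
      funext i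
      fin_cases i <;> simp
    rw [hx', hf₁.bilinear.add_right, hf₁.bilinear.smul_right, hf₁.bilinear.smul_right, h0, hf₁.alternating]
    ring
  have hliβ : LinearIndependent F ![β, β'] := by
    rw [LinearIndependent.pair_iff' hne2]
    intro a ha
    exact hβ' (Submodule.mem_span_singleton.2 ⟨a, ha⟩)
  apply between_of hnd hn
  refine ⟨NJ J (J_cube h20 hJ2) ⊓ EG Q, lt_of_le_of_ne (inf_le_inf_right _ hTN) ?_, lt_of_le_of_ne inf_le_right ?_⟩
  · intro heq
    have hu : Q (ten e P (Pi.single 0 1) β + ten e P (Pi.single 1 1) β') = 0 := by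
      rw [q_add, hpure, hpure, hten, hf₂.skew, hββ]; ring
    have hg : eich hu (pB_self_J h20 hJ2 hu) ∈ NJ J (J_cube h20 hJ2) ⊓ EG Q := ⟨eich_NJ h20 hJ2 hu _, eg_mem _ _⟩
    rw [← heq] at hg
    obtain ⟨a, b, hab⟩ := (mem_tensor e P).1 hg.1
    have h1 := kgl_ten e P a b (Pi.single 0 1) γ
    rw [← hab, ogGL_apply, eich_apply, og_q, hu] at h1
    have hcf : c * f₁ (Pi.single 0 1) (Pi.single 1 1) = 1 := by
      rcases bit_cases hF (c * f₁ (Pi.single 0 1) (Pi.single 1 1)) with h | h
      · exact absurd h (mul_ne_zero hc f01)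
      · exact h
    have hγ1 : f₂ β' γ = 1 := by
      rcases bit_cases hF (f₂ β' γ) with h | h
      · exact absurd (by rw [hf₂.skew, h, neg_zero]) hγ'
      · exact h
    have hγ0 : f₂ β γ = 0 := by rw [hf₂.skew, hγ, neg_zero]
    have r1 : pB Q (ten e P (Pi.single 0 1) β + ten e P (Pi.single 1 1) β') (ten e P (Pi.single 0 1) γ) = 1 := by
      rw [pl_add, hten, hten, hγ0, hγ1, hf01]; linear_combination hcf
    have r2 : pB Q (J (ten e P (Pi.single 0 1) β + ten e P (Pi.single 1 1) β')) (ten e P (Pi.single 0 1) γ) = 1 := by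
      rw [og_add, Jt, Jt, m3_zero, m3_one, pl_add, hten, hten, hγ0, hγ1, hf₁.bilinear.add_left, hf₁.alternating, hf01]
      linear_combination hcf
    rw [r1, r2, og_add, Jt, Jt, m3_zero, m3_one] at h1
    have h2 : ten e P (Pi.single 0 1) γ + (1 : F) • (ten e P (Pi.single 1 1) β +
        ten e P (Pi.single 0 1 + Pi.single 1 1) β') - (1 : F) • (ten e P (Pi.single 0 1) β +
        ten e P (Pi.single 1 1) β') - ((0 : F) * 1) • (ten e P (Pi.single 0 1) β + ten e P (Pi.single 1 1) β') =
        ten e P (Pi.single 0 1) (γ + β' + (-1 : F) • β) + ten e P (Pi.single 1 1) β := by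
      rw [ten_add_right, ten_add_right, ten_smul_right, ten_add_left]
      module
    rw [h2] at h1
    refine not_pure e P ?_ ?_ _ _ h1
    · rw [LinearIndependent.pair_iff]
      intro s t hst
      have e0 := congrFun hst 0
      have e1 := congrFun hst 1
      simp at e0 e1
      exact ⟨e0, e1⟩
    · rw [LinearIndependent.pair_iff]
      intro s t hst
      have e1 := congrArg (fun x => f₂ β' x) hst
      beta_reduce at e1
      rw [hf₂.bilinear.add_right, hf₂.bilinear.smul_right, hf₂.bilinear.smul_right, hf₂.bilinear.add_right,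
        hf₂.bilinear.add_right, hf₂.bilinear.smul_right, hγ1, hf₂.alternating, hββ, bil_zero_right hf₂.bilinear] at e1
      have hs : s = 0 := by linear_combination e1
      refine ⟨hs, ?_⟩
      rw [hs, zero_smul, zero_add] at hst
      exact (smul_eq_zero.1 hst).resolve_right hne2
  · intro heq
    have hli : LinearIndependent F ![ten e P (Pi.single 0 1) β, ten e P (Pi.single 0 1) β',
        J (ten e P (Pi.single 0 1) β), J (ten e P (Pi.single 0 1) β')] := by
      rw [Fintype.linearIndependent_iff]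
      intro g hg
      rw [Fin.sum_univ_four] at hg
      have hg' : g 0 • ten e P (Pi.single 0 1) β + g 1 • ten e P (Pi.single 0 1) β' +
        g 2 • J (ten e P (Pi.single 0 1) β) + g 3 • J (ten e P (Pi.single 0 1) β') = 0 := hg
      rw [Jt, Jt, m3_zero, ← ten_smul_right, ← ten_smul_right, ← ten_smul_right, ← ten_smul_right, ← ten_add_right,
        add_assoc, ← ten_add_right] at hg'
      have a0 : g 0 • β + g 1 • β' = 0 := by
        funext j
        have h3 := congrArg (fun x => tc e P x 0 j) hg'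
        beta_reduce at h3
        rw [tc_add, tc_ten, tc_ten, tc_zero, Pi.single_eq_same, Pi.single_eq_of_ne (by decide)] at h3
        rw [Pi.zero_apply]
        linear_combination h3
      have a1 : g 2 • β + g 3 • β' = 0 := by
        funext j
        have h3 := congrArg (fun x => tc e P x 1 j) hg'
        beta_reduce at h3
        rw [tc_add, tc_ten, tc_ten, tc_zero, Pi.single_eq_same, Pi.single_eq_of_ne (by decide)] at h3
        rw [Pi.zero_apply]
        linear_combination h3
      obtain ⟨b0, b1⟩ := (LinearIndependent.pair_iff.1 hliβ) _ _ a0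
      obtain ⟨b2, b3⟩ := (LinearIndependent.pair_iff.1 hliβ) _ _ a1
      intro i
      fin_cases i
      · exact b0
      · exact b1
      · exact b2
      · exact b3
    have huw : pB Q (ten e P (Pi.single 0 1) β) (ten e P (Pi.single 0 1) β') = 0 := by
      rw [hten, hf₁.alternating]; ring
    have hm : eich (hpure (Pi.single 0 1) β) huw ∈ NJ J (J_cube h20 hJ2) ⊓ EG Q := by
      rw [heq]; exact eg_mem _ _
    exact not_NJ h20 hJ2 hnd h5 _ huw (hpure _ _) hli hm.1

end main

end Cfsg.Agent.H12
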