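import Mathlib
import Cfsg.Prelude.Def_GeometricClasses
import Cfsg.Agent.H12.OmND

/-!
Overgroups of the unitary group in an orthogonal group.
-/

set_option autoImplicit false
set_option linter.unusedSectionVars false

namespace Cfsg.Agent.H12

open Matrix Cfsg Cfsg.Agent.H5

variable {F V : Type*} [Field F] [Finite F] [AddCommGroup V] [Module F V] [FiniteDimensional F V] {Q : QuadraticForm F V}

/-- singular vectors orthogonal to a small subspace detect it -/
theorem exists_sing_not_orth (hnd : ND Q) (S : Submodule F V) (hS : 2 * Module.finrank F S + 5 ≤ Module.finrank F V) {b : V}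
    (hb : b ∉ S) : ∃ u ∈ oc Q S, Q u = 0 ∧ pB Q u b ≠ 0 := by
  obtain ⟨x, hax, hbx⟩ : ∃ x ∈ oc Q S, pB Q b x ≠ 0 := by
    by_contra hcon
    push Not at hcon
    apply hb
    rw [← oc_oc hnd S, mem_oc]
    intro n hn
    rw [pB_symm]
    exact hcon n hn
  set T := S ⊔ Submodule.span F {b} with hT
  have hTd : Module.finrank F T ≤ Module.finrank F S + 1 := by
    have h1 := Submodule.finrank_add_le_finrank_add_finrank S (Submodule.span F {b})
    have h2 := finrank_span_one_le (F := F) b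
    rw [← hT] at h1
    omega
  have hD := finrank_oc hnd T
  obtain ⟨e, he, hne, hQe⟩ := exists_sing_off (Q := Q) (oc Q T) T (by omega)
  have heS : e ∈ oc Q S := by
    rw [mem_oc] at he ⊢
    exact fun n hn => he n (Submodule.mem_sup_left hn)
  have heb : pB Q b e = 0 := by
    rw [mem_oc] at he
    exact he b (Submodule.mem_sup_right (Submodule.mem_span_singleton_self b))
  obtain ⟨x', hx', hbx', hex'⟩ : ∃ x' ∈ oc Q S, pB Q b x' ≠ 0 ∧ pB Q e x' ≠ 0 := by
    by_cases hex : pB Q e x = 0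
    · obtain ⟨d, hd, hed⟩ : ∃ d ∈ oc Q T, pB Q e d ≠ 0 := by
        by_contra hcon
        push Not at hcon
        apply hne
        rw [← oc_oc hnd T, mem_oc]
        intro n hn
        rw [pB_symm]; exact hcon n hn
      rw [mem_oc] at hd
      refine ⟨x + d, ?_, ?_, ?_⟩
      · apply Submodule.add_mem _ hax
        rw [mem_oc]
        exact fun n hn => hd n (Submodule.mem_sup_left hn)
      · rw [pr_add, hd b (Submodule.mem_sup_right (Submodule.mem_span_singleton_self b)), add_zero]; exact hbx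
      · rw [pr_add, hex, zero_add]; exact hed
    · exact ⟨x, hax, hbx, hex⟩
  refine ⟨x' - (Q x' / pB Q e x') • e, Submodule.sub_mem _ hx' (Submodule.smul_mem _ _ heS), ?_, ?_⟩
  · rw [q_sub, q_smul, hQe, pr_smul, pB_symm Q x' e, mul_zero, add_zero, div_mul_cancel₀ _ hex', sub_self]
  · rw [pl_sub, pl_smul, pB_symm Q e b, heb, mul_zero, sub_zero, pB_symm]
    exact hbx'

/-- every vector orthogonal to a small subspace is a sum of two singular ones -/
theorem sing_add (hnd : ND Q) (S : Submodule F V) (hS : 2 * Module.finrank F S + 5 ≤ Module.finrank F V) {x : V}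
    (hx : x ∈ oc Q S) (hxS : x ∉ S) : ∃ y ∈ oc Q S, ∃ z ∈ oc Q S, Q y = 0 ∧ Q z = 0 ∧ x = y + z := by
  obtain ⟨a, ha, hQa, hax⟩ := exists_sing_not_orth hnd S hS hxS
  refine ⟨(Q x / pB Q a x) • a, Submodule.smul_mem _ _ ha, x - (Q x / pB Q a x) • a,
    Submodule.sub_mem _ hx (Submodule.smul_mem _ _ ha), ?_, ?_, by abel⟩
  · rw [q_smul, hQa, mul_zero]
  · rw [q_sub, q_smul, hQa, pr_smul, pB_symm Q x a, mul_zero, add_zero, div_mul_cancel₀ _ hax, sub_self]

/-- the quadratic field acting on `V` -/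
structure KS (Q : QuadraticForm F V) (κ : V →ₗ[F] V) (τ ν : F) : Prop where
  hnd : ND Q
  dim : 13 ≤ Module.finrank F V
  sq : ∀ v, κ (κ v) = τ • κ v - ν • v
  adj : ∀ u v, pB Q (κ u) v = τ * pB Q u v - pB Q u (κ v)
  qk : ∀ v, Q (κ v) = ν * Q v
  bk : ∀ v, Q v = 0 → pB Q v (κ v) = 0
  irr : ∀ v, v ≠ 0 → κ v ∉ Submodule.span F {v}

/-- `K`-line -/
def Kl (κ : V →ₗ[F] V) (v : V) : Submodule F V := Submodule.span F {v, κ v}

namespace KS

variable {κ : V →ₗ[F] V} {τ ν : F}

lemma self_mem (κ : V →ₗ[F] V) (v : V) : v ∈ Kl κ v := Submodule.subset_span (by simp)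

lemma k_mem (κ : V →ₗ[F] V) (v : V) : κ v ∈ Kl κ v := Submodule.subset_span (by simp)

lemma finrank_Kl (κ : V →ₗ[F] V) (v : V) : Module.finrank F (Kl κ v) ≤ 2 := finrank_span_pair_le v (κ v)

lemma Kl_closed (S : KS Q κ τ ν) {v x : V} (hx : x ∈ Kl κ v) : κ x ∈ Kl κ v := by
  obtain ⟨a, b, rfl⟩ := Submodule.mem_span_pair.mp hx
  rw [map_add, map_smul, map_smul, S.sq]
  exact Submodule.add_mem _ (Submodule.smul_mem _ _ (k_mem κ v)) (Submodule.smul_mem _ _
    (Submodule.sub_mem _ (Submodule.smul_mem _ _ (k_mem κ v)) (Submodule.smul_mem _ _ (self_mem κ v))))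

lemma Bkk (S : KS Q κ τ ν) (u v : V) : pB Q (κ u) (κ v) = ν * pB Q u v := by
  rw [S.adj, S.sq, pr_sub, pr_smul, pr_smul]
  ring

lemma adj' (S : KS Q κ τ ν) (u v : V) : pB Q u (κ v) = τ * pB Q u v - pB Q (κ u) v := by
  rw [S.adj]; ring

lemma mem_ocKl (S : KS Q κ τ ν) {v x : V} : x ∈ oc Q (Kl κ v) ↔ pB Q v x = 0 ∧ pB Q (κ v) x = 0 := by
  rw [Kl, mem_oc_pair]

lemma oc_closed (S : KS Q κ τ ν) {v x : V} (hx : x ∈ oc Q (Kl κ v)) : κ x ∈ oc Q (Kl κ v) := by
  rw [S.mem_ocKl] at hx ⊢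
  refine ⟨?_, ?_⟩
  · rw [S.adj', hx.1, hx.2]; ring
  · rw [S.Bkk, hx.1, mul_zero]

lemma oc_symm' (S : KS Q κ τ ν) {v x : V} (hx : x ∈ oc Q (Kl κ v)) : v ∈ oc Q (Kl κ x) := by
  rw [S.mem_ocKl] at hx ⊢
  refine ⟨by rw [pB_symm]; exact hx.1, ?_⟩
  rw [pB_symm, S.adj', hx.1, hx.2]; ring

/-- `K`-lines are equal or independent -/
lemma Kl_symm (S : KS Q κ τ ν) {v x : V} (hx : x ∈ Kl κ v) (hx0 : x ≠ 0) : v ∈ Kl κ x := by
  have h1 : Kl κ x ≤ Kl κ v := by
    rw [Kl, Submodule.span_le]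
    intro y hy
    rw [Set.mem_insert_iff, Set.mem_singleton_iff] at hy
    rcases hy with rfl | rfl
    · exact hx
    · exact S.Kl_closed hx
  have h2 : LinearIndependent F ![x, κ x] := by
    rw [LinearIndependent.pair_iff]
    intro a b hab
    have hb : b = 0 := by
      by_contra hb
      apply S.irr x hx0
      rw [Submodule.mem_span_singleton]
      refine ⟨-(b⁻¹ * a), ?_⟩
      have h3 : b • κ x = -(a • x) := eq_neg_of_add_eq_zero_right hab
      have h4 : κ x = b⁻¹ • (b • κ x) := by rw [smul_smul, inv_mul_cancel₀ hb, one_smul]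
      rw [h4, h3]
      module
    rw [hb, zero_smul, add_zero] at hab
    exact ⟨(smul_eq_zero.mp hab).resolve_right hx0, hb⟩
  have h3 : Module.finrank F (Kl κ x) = 2 := finrank_pair h2
  have h4 := finrank_Kl κ v
  have h5 : Kl κ x = Kl κ v := Submodule.eq_of_le_of_finrank_le h1 (by omega)
  rw [h5]; exact self_mem κ v

lemma Kl_sing (S : KS Q κ τ ν) {v x : V} (hv : Q v = 0) (hx : x ∈ Kl κ v) : Q x = 0 := by
  obtain ⟨a, b, rfl⟩ := Submodule.mem_span_pair.mp hx
  rw [q_add, q_smul, q_smul, hv, S.qk, hv, pl_smul, pr_smul, S.bk v hv]; ring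

lemma Kl_B (S : KS Q κ τ ν) {v x : V} (hv : Q v = 0) (hx : x ∈ Kl κ v) : pB Q v x = 0 := by
  obtain ⟨a, b, rfl⟩ := Submodule.mem_span_pair.mp hx
  rw [pr_add, pr_smul, pr_smul, pB_self, hv, S.bk v hv]; ring

/-- `M` contains the unitary transvections -/
def HM (κ : V →ₗ[F] V) (M : Subgroup (OG Q)) : Prop :=
  ∀ (u : V) (s : F) (hu : Q u = 0) (h : pB Q u (s • κ u) = 0), eich hu h ∈ M

/-- `y` is reached from `v` -/
def In (M : Subgroup (OG Q)) (v y : V) : Prop := ∀ (hv : Q v = 0) (h : pB Q v y = 0), eich hv h ∈ M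

lemma In.add {M : Subgroup (OG Q)} {v y z : V} (hy : In M v y) (hz : In M v z) (h1 : pB Q v y = 0) (h2 : pB Q v z = 0) :
    In M v (y + z) := fun hv h => eich_add_mem hv h1 h2 h (hy hv h1) (hz hv h2)

variable {M : Subgroup (OG Q)}

/-- the basic computation -/
lemma B2 (S : KS Q κ τ ν) (hM : HM κ M) {v w u : V} (hv : Q v = 0) (hvw : pB Q v w = 0) (hw : In M v w)
    (hu : u ∈ oc Q (Kl κ v)) (hQu : Q u = 0) (s : F) : In M v (s • (pB Q u w • κ u - pB Q (κ u) w • u)) := by
  intro hv' h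
  rw [S.mem_ocKl] at hu
  have h1 : pB Q u (s • κ u) = 0 := by rw [pr_smul, S.bk u hQu, mul_zero]
  have huv : pB Q u v = 0 := by rw [pB_symm]; exact hu.1
  have hkuv : pB Q (s • κ u) v = 0 := by
    rw [pl_smul, S.adj, huv, pB_symm Q u, hu.2]; ring
  exact eich_comm_mem hQu h1 hv' hvw huv hkuv (hM u s hQu h1) (hw hv' hvw) (by
    rw [pl_smul, q_smul, S.qk, hQu]
    module) h

/-- a full `K`-line -/
def KF (κ : V →ₗ[F] V) (M : Subgroup (OG Q)) (v u : V) : Prop := ∀ y ∈ Kl κ u, In M v y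

lemma kf_step (S : KS Q κ τ ν) (hM : HM κ M) {v u0 u : V} (hv : Q v = 0) (hu0 : u0 ∈ oc Q (Kl κ v)) (hf : KF κ M v u0)
    (hu : u ∈ oc Q (Kl κ v)) (hQu : Q u = 0) (hne : pB Q u u0 ≠ 0 ∨ pB Q (κ u) u0 ≠ 0) : KF κ M v u := by
  have hu0' := S.mem_ocKl.1 hu0
  have hku0' := S.mem_ocKl.1 (S.oc_closed hu0)
  have hu' := S.mem_ocKl.1 hu
  have hku' := S.mem_ocKl.1 (S.oc_closed hu)
  set d := pB Q u u0 • κ u - pB Q (κ u) u0 • u with hd
  have hd0 : d ≠ 0 := by
    intro h
    have hu00 : u ≠ 0 := by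
      rintro rfl
      rcases hne with h1 | h1 <;> simp at h1
    by_cases h1 : pB Q u u0 = 0
    · rw [hd, h1, zero_smul, zero_sub, neg_eq_zero] at h
      rcases hne with h2 | h2
      · exact h2 h1
      · exact hu00 ((smul_eq_zero.mp h).resolve_left h2)
    · apply S.irr u hu00
      rw [Submodule.mem_span_singleton]
      refine ⟨(pB Q u u0)⁻¹ * pB Q (κ u) u0, ?_⟩
      rw [mul_smul, ← sub_eq_zero.mp h, smul_smul, inv_mul_cancel₀ h1, one_smul]
  have hdK : d ∈ Kl κ u := Submodule.sub_mem _ (Submodule.smul_mem _ _ (k_mem κ u)) (Submodule.smul_mem _ _ (self_mem κ u))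
  have h1 : ∀ s : F, In M v (s • d) := fun s => S.B2 hM hv hu0'.1 (hf _ (self_mem κ u0)) hu hQu s
  have h2 : ∀ s : F, In M v (s • κ d) := by
    intro s
    have h3 := S.B2 hM hv hku0'.1 (hf _ (k_mem κ u0)) hu hQu s
    have h4 : pB Q u (κ u0) • κ u - pB Q (κ u) (κ u0) • u = κ d := by
      rw [hd, map_sub, map_smul, map_smul, S.sq, S.Bkk, S.adj']
      module
    rwa [h4] at h3
  intro y hy
  -- `u ∈ Kl d`
  have h3 : u ∈ Kl κ d := S.Kl_symm hdK hd0
  have h4 : y ∈ Kl κ d := by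
    have h5 : Kl κ u ≤ Kl κ d := by
      rw [Kl, Submodule.span_le]
      intro z hz
      rw [Set.mem_insert_iff, Set.mem_singleton_iff] at hz
      rcases hz with rfl | rfl
      · exact h3
      · exact S.Kl_closed h3
    exact h5 hy
  obtain ⟨a, b, rfl⟩ := Submodule.mem_span_pair.mp h4
  have hvd : pB Q v d = 0 := by rw [hd, pr_sub, pr_smul, pr_smul, hku'.1, hu'.1]; ring
  have hdo : d ∈ oc Q (Kl κ v) := by
    rw [hd]
    exact Submodule.sub_mem _ (Submodule.smul_mem _ _ (S.oc_closed hu)) (Submodule.smul_mem _ _ hu)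
  have hvkd : pB Q v (κ d) = 0 := (S.mem_ocKl.1 (S.oc_closed hdo)).1
  exact (h1 a).add (h2 b) (by rw [pr_smul, hvd, mul_zero]) (by rw [pr_smul, hvkd, mul_zero])

/-- step B -/
theorem stepB (S : KS Q κ τ ν) (hM : HM κ M) {v w : V} (hv : Q v = 0) (hv0 : v ≠ 0) (hvw : pB Q v w = 0) (hw : In M v w)
    (hwK : w ∉ Kl κ v) : ∀ y ∈ oc Q (Kl κ v), In M v y := by
  have hdim := S.dim
  have hKd := finrank_Kl κ v
  -- first: a vector of `oc` outside `Kl v`, all of whose multiples are reached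
  obtain ⟨u1, hu1, hQu1, hu1w, hu1K⟩ : ∃ u ∈ oc Q (Kl κ v), Q u = 0 ∧ pB Q u w ≠ 0 ∧ u ∉ Kl κ v := by
    obtain ⟨u, hu, hQu, huw⟩ := exists_sing_not_orth S.hnd (Kl κ v) (by omega) hwK
    by_cases huK : u ∈ Kl κ v
    · -- modify
      obtain ⟨e, he, heK, hQe⟩ := exists_sing_off (Q := Q) (oc Q (Kl κ v)) (Kl κ v) (by
        have := finrank_oc S.hnd (Kl κ v)
        omega)
      by_cases hew : pB Q e w = 0
      · refine ⟨u + e, Submodule.add_mem _ hu he, ?_, ?_, ?_⟩
        · rw [q_add, hQu, hQe]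
          have : pB Q u e = 0 := by
            rw [mem_oc] at he
            exact he u huK
          rw [this]; ring
        · rw [pl_add, hew, add_zero]; exact huw
        · intro h
          apply heK
          have := Submodule.sub_mem _ h huK
          rwa [add_sub_cancel_left] at this
      · exact ⟨e, he, hQe, hew, heK⟩
    · exact ⟨u, hu, hQu, huw, huK⟩
  set d1 := pB Q u1 w • κ u1 - pB Q (κ u1) w • u1 with hd1
  have hu10 : u1 ≠ 0 := by
    rintro rfl
    simp at hu1w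
  have hd10 : d1 ≠ 0 := by
    intro h
    apply S.irr u1 hu10
    rw [Submodule.mem_span_singleton]
    refine ⟨(pB Q u1 w)⁻¹ * pB Q (κ u1) w, ?_⟩
    rw [mul_smul, ← sub_eq_zero.mp h, smul_smul, inv_mul_cancel₀ hu1w, one_smul]
  have hd1K : d1 ∈ Kl κ u1 := Submodule.sub_mem _ (Submodule.smul_mem _ _ (k_mem κ u1)) (Submodule.smul_mem _ _ (self_mem κ u1))
  have hd1o : d1 ∈ oc Q (Kl κ v) :=
    Submodule.sub_mem _ (Submodule.smul_mem _ _ (S.oc_closed hu1)) (Submodule.smul_mem _ _ hu1)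
  have hd1Q : Q d1 = 0 := S.Kl_sing hQu1 hd1K
  have hd1v : d1 ∉ Kl κ v := by
    intro h
    apply hu1K
    have h1 := S.Kl_symm h hd10
    have h2 := S.Kl_symm hd1K hd10
    -- `u1 ∈ Kl d1 ≤ Kl v`
    have h3 : Kl κ d1 ≤ Kl κ v := by
      rw [Kl, Submodule.span_le]
      intro z hz
      rw [Set.mem_insert_iff, Set.mem_singleton_iff] at hz
      rcases hz with rfl | rfl
      · exact h
      · exact S.Kl_closed h
    exact h3 h2
  have hid1 : ∀ s : F, In M v (s • d1) := fun s => S.B2 hM hv hvw hw hu1 hQu1 s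
  have hd1' := S.mem_ocKl.1 hd1o
  -- `κ d1 ∉ ⟨v, κ v, d1⟩`
  set S3 := Kl κ v ⊔ Submodule.span F {d1} with hS3
  have hS3d : Module.finrank F S3 ≤ 3 := by
    have h1 := Submodule.finrank_add_le_finrank_add_finrank (Kl κ v) (Submodule.span F {d1})
    have h2 := finrank_span_one_le (F := F) d1
    rw [← hS3] at h1
    omega
  have hkd1 : κ d1 ∉ S3 := by
    intro h
    obtain ⟨y, hy, z, hz, hyz⟩ := Submodule.mem_sup.mp h
    obtain ⟨c, rfl⟩ := Submodule.mem_span_singleton.mp hz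
    -- `(κ - c) d1 = y ∈ Kl v`
    have h1 : κ d1 - c • d1 ∈ Kl κ v := by rw [← hyz, add_sub_cancel_right]; exact hy
    have h2 : κ d1 - c • d1 ≠ 0 := by
      intro h3
      apply S.irr d1 hd10
      rw [Submodule.mem_span_singleton]
      exact ⟨c, (sub_eq_zero.mp h3).symm⟩
    -- it lies in `Kl d1` too
    have h3 : κ d1 - c • d1 ∈ Kl κ d1 := Submodule.sub_mem _ (k_mem κ d1) (Submodule.smul_mem _ _ (self_mem κ d1))
    have h4 := S.Kl_symm h3 h2
    apply hd1v
    have h5 : Kl κ (κ d1 - c • d1) ≤ Kl κ v := by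
      rw [Kl, Submodule.span_le]
      intro z hz
      rw [Set.mem_insert_iff, Set.mem_singleton_iff] at hz
      rcases hz with rfl | rfl
      · exact h1
      · exact S.Kl_closed h1
    exact h5 h4
  have hocS3 : ∀ x ∈ oc Q S3, x ∈ oc Q (Kl κ v) ∧ pB Q d1 x = 0 := by
    intro x hx
    rw [mem_oc] at hx
    refine ⟨?_, hx d1 (Submodule.mem_sup_right (Submodule.mem_span_singleton_self d1))⟩
    rw [mem_oc]
    exact fun n hn => hx n (Submodule.mem_sup_left hn)
  obtain ⟨a, ha, hQa, hak⟩ := exists_sing_not_orth S.hnd S3 (by omega) hkd1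
  -- second vector `a'`
  obtain ⟨a', ha', hQa', hak', haa'⟩ : ∃ a' ∈ oc Q S3, Q a' = 0 ∧ pB Q a' (κ d1) ≠ 0 ∧ pB Q a' a ≠ 0 := by
    obtain ⟨x, hx, hxa⟩ : ∃ x ∈ oc Q S3, pB Q x a ≠ 0 := by
      by_contra hcon
      push Not at hcon
      have h1 : a ∈ S3 := by
        rw [← oc_oc S.hnd S3, mem_oc]
        exact hcon
      -- then `a ⟂ κ d1`, since `κ d1 ∈ oc S3`
      apply hak
      have h2 : κ d1 ∈ oc Q S3 := by
        rw [mem_oc]
        intro n hn
        obtain ⟨y, hy, z, hz, rfl⟩ := Submodule.mem_sup.mp hn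
        obtain ⟨c, rfl⟩ := Submodule.mem_span_singleton.mp hz
        have h3 := S.oc_closed hd1o
        rw [mem_oc] at h3
        rw [pl_add, h3 y hy, pl_smul, S.bk d1 hd1Q]; ring
      rw [mem_oc] at h2
      exact h2 a h1
    -- normalise
    have hgood : ∀ x ∈ oc Q S3, pB Q x a ≠ 0 →
        (x - (Q x / pB Q x a) • a) ∈ oc Q S3 ∧ Q (x - (Q x / pB Q x a) • a) = 0 ∧ pB Q (x - (Q x / pB Q x a) • a) a ≠ 0 := by
      intro x hx hxa
      refine ⟨Submodule.sub_mem _ hx (Submodule.smul_mem _ _ ha), ?_, ?_⟩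
      · rw [q_sub, q_smul, hQa, pr_smul, mul_zero, add_zero, div_mul_cancel₀ _ hxa, sub_self]
      · rw [pl_sub, pl_smul, pB_self, hQa]
        simpa using hxa
    by_cases hx0 : pB Q (x - (Q x / pB Q x a) • a) (κ d1) = 0
    · -- a nonsingular vector orthogonal to everything
      set S6 := (S3 ⊔ Submodule.span F {κ d1}) ⊔ Submodule.span F ({a, x} : Set V) with hS6
      have hS6d : Module.finrank F S6 ≤ 6 := by
        have h1 := Submodule.finrank_add_le_finrank_add_finrank S3 (Submodule.span F {κ d1})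
        have h2 := finrank_span_one_le (F := F) (κ d1)
        have h3 := Submodule.finrank_add_le_finrank_add_finrank (S3 ⊔ Submodule.span F {κ d1}) (Submodule.span F ({a, x} : Set V))
        have h4 := finrank_span_pair_le (F := F) a x
        rw [← hS6] at h3
        omega
      have h1 := finrank_oc S.hnd S6
      obtain ⟨e, he, hQe⟩ := exists_ns S.hnd (W := oc Q S6) (by omega)
      rw [mem_oc] at he
      have he3 : e ∈ oc Q S3 := by
        rw [mem_oc]
        exact fun n hn => he n (Submodule.mem_sup_left (Submodule.mem_sup_left hn))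
      have hek : pB Q (κ d1) e = 0 := he _ (Submodule.mem_sup_left (Submodule.mem_sup_right (Submodule.mem_span_singleton_self _)))
      have hea : pB Q a e = 0 := he _ (Submodule.mem_sup_right (Submodule.subset_span (by simp)))
      have hex : pB Q x e = 0 := he _ (Submodule.mem_sup_right (Submodule.subset_span (by simp)))
      have hxea : pB Q (x + e) a = pB Q x a := by rw [pl_add, pB_symm Q e a, hea, add_zero]
      have h2 := hgood (x + e) (Submodule.add_mem _ hx he3) (by rw [hxea]; exact hxa)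
      refine ⟨_, h2.1, h2.2.1, ?_, h2.2.2⟩
      rw [hxea, q_add, hex, add_zero]
      rw [pl_sub, pl_smul] at hx0 ⊢
      rw [pl_add, pB_symm Q e (κ d1), hek, add_zero]
      intro h3
      have h4 : (Q e / pB Q x a) * pB Q a (κ d1) = 0 := by
        have h5 : (Q x + Q e) / pB Q x a = Q x / pB Q x a + Q e / pB Q x a := add_div _ _ _
        rw [h5] at h3
        linear_combination hx0 - h3
      exact mul_ne_zero (div_ne_zero hQe hxa) hak h4
    · exact ⟨_, (hgood x hx hxa).1, (hgood x hx hxa).2.1, hx0, (hgood x hx hxa).2.2⟩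
  -- all multiples of `a`, `a'` are reached
  have hreach : ∀ a ∈ oc Q S3, Q a = 0 → pB Q a (κ d1) ≠ 0 → ∀ s : F, In M v (s • a) := by
    intro a ha hQa hak s
    have h1 := hocS3 a ha
    have h2 := S.B2 hM hv hd1'.1 (by have := hid1 1; rwa [one_smul] at this) h1.1 hQa (s / pB Q a (κ d1))
    have h3 : (s / pB Q a (κ d1)) • (pB Q a d1 • κ a - pB Q (κ a) d1 • a) = s • a := by
      rw [S.adj, pB_symm Q a d1, h1.2]
      have : (s / pB Q a (κ d1)) • ((0 : F) • κ a - (τ * 0 - pB Q a (κ d1)) • a) =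
          (s / pB Q a (κ d1) * pB Q a (κ d1)) • a := by module
      rw [this, div_mul_cancel₀ _ hak]
    rwa [h3] at h2
  have hIa := hreach a ha hQa hak
  have hIa' := hreach a' ha' hQa' hak'
  have hao := (hocS3 a ha).1
  have ha'o := (hocS3 a' ha').1
  have hva : pB Q v a = 0 := (S.mem_ocKl.1 hao).1
  have hva' : pB Q v a' = 0 := (S.mem_ocKl.1 ha'o).1
  have hvka' : pB Q v (κ a') = 0 := (S.mem_ocKl.1 (S.oc_closed ha'o)).1
  -- `a'` is `K`-full
  have hfa' : KF κ M v a' := by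
    have h1 : ∀ s : F, In M v (s • κ a') := by
      intro s
      have h2 := S.B2 hM hv hva (by have := hIa 1; rwa [one_smul] at this) ha'o hQa' (s / pB Q a' a)
      have h3 := h2.add (hIa' (s / pB Q a' a * pB Q (κ a') a))
        (by rw [pr_smul, pr_sub, pr_smul, pr_smul, hvka', hva']; ring) (by rw [pr_smul, hva', mul_zero])
      have h4 : (s / pB Q a' a) • (pB Q a' a • κ a' - pB Q (κ a') a • a') + (s / pB Q a' a * pB Q (κ a') a) • a' = s • κ a' := by
        have : (s / pB Q a' a) • (pB Q a' a • κ a' - pB Q (κ a') a • a') + (s / pB Q a' a * pB Q (κ a') a) • a' =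
            (s / pB Q a' a * pB Q a' a) • κ a' := by module
        rw [this, div_mul_cancel₀ _ haa']
      rwa [h4] at h3
    intro y hy
    obtain ⟨p, q, rfl⟩ := Submodule.mem_span_pair.mp hy
    exact (hIa' p).add (h1 q) (by rw [pr_smul, hva', mul_zero]) (by rw [pr_smul, hvka', mul_zero])
  have ha'0 : a' ≠ 0 := by
    rintro rfl
    simp at haa'
  have ha'K : a' ∉ Kl κ v := by
    intro h
    apply haa'
    rw [mem_oc] at hao
    exact hao a' h
  -- all singular vectors of `oc`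
  have hsing : ∀ u ∈ oc Q (Kl κ v), Q u = 0 → In M v u := by
    intro u hu hQu
    by_cases huK : u ∈ Kl κ v
    · obtain ⟨p, q, rfl⟩ := Submodule.mem_span_pair.mp huK
      intro hv' h
      have h1 : pB Q v (q • κ v) = 0 := by rw [pr_smul, S.bk v hv, mul_zero]
      have h2 : pB Q v (q • κ v + p • v) = 0 := by rw [add_comm]; exact h
      have h3 : eich hv' h2 ∈ M := by
        rw [eich_add_smul hv' h1 p h2]
        exact hM v q hv' h1
      exact eich_congr hv' h2 h (add_comm _ _) h3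
    by_cases h1 : pB Q u a' ≠ 0 ∨ pB Q (κ u) a' ≠ 0
    · exact S.kf_step hM hv ha'o hfa' hu hQu h1 u (self_mem κ u)
    push Not at h1
    -- an intermediate vector
    obtain ⟨x, hx, hQx, hxa'⟩ := exists_sing_not_orth S.hnd (Kl κ v) (by omega) ha'K
    obtain ⟨y, hy, hQy, hyu⟩ := exists_sing_not_orth S.hnd (Kl κ v) (by omega) huK
    obtain ⟨z, hz, hQz, hza', hzu⟩ : ∃ z ∈ oc Q (Kl κ v), Q z = 0 ∧ pB Q z a' ≠ 0 ∧ pB Q z u ≠ 0 := by
      by_cases c1 : pB Q x u = 0
      · by_cases c2 : pB Q y a' = 0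
        · refine ⟨x + y + (-(pB Q x y) / pB Q y u) • u, Submodule.add_mem _ (Submodule.add_mem _ hx hy)
            (Submodule.smul_mem _ _ hu), ?_, ?_, ?_⟩
          · rw [q_add, q_add, q_smul, hQx, hQy, hQu, pr_smul, pl_add, c1]
            field_simp
            ring
          · rw [pl_add, pl_add, pl_smul, c2, h1.1]
            simpa using hxa'
          · rw [pl_add, pl_add, pl_smul, c1, pB_self, hQu]
            simpa using hyu
        · exact ⟨y, hy, hQy, c2, hyu⟩
      · exact ⟨x, hx, hQx, hxa', c1⟩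
    have hfz : KF κ M v z := S.kf_step hM hv ha'o hfa' hz hQz (Or.inl hza')
    exact S.kf_step hM hv hz hfz hu hQu (Or.inl (by rw [pB_symm]; exact hzu)) u (self_mem κ u)
  intro y hy
  by_cases hyK : y ∈ Kl κ v
  · exact hsing y hy (S.Kl_sing hv hyK)
  obtain ⟨p, hp, q, hq, hQp, hQq, rfl⟩ := sing_add S.hnd (Kl κ v) (by omega) hy hyK
  exact (hsing p hp hQp).add (hsing q hq hQq) (S.mem_ocKl.1 hp).1 (S.mem_ocKl.1 hq).1

/-- reaching one vector outside a `K`-line gives everything -/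
theorem eg_le (S : KS Q κ τ ν) (hM : HM κ M) {v w : V} (hv : Q v = 0) (hv0 : v ≠ 0) (hvw : pB Q v w = 0) (hw : In M v w)
    (hwK : w ∉ Kl κ v) : EG Q ≤ M := by
  have hdim := S.dim
  have h0 := S.stepB hM hv hv0 hvw hw hwK
  -- symmetric step
  have hsym : ∀ a c : V, Q a = 0 → a ≠ 0 → Q c = 0 → c ≠ 0 → (∀ y ∈ oc Q (Kl κ a), In M a y) → c ∈ oc Q (Kl κ a) →
      c ∉ Kl κ a → ∀ y ∈ oc Q (Kl κ c), In M c y := by
    intro a c hQa ha0 hQc hc0 ha hc hcK
    have hac : pB Q a c = 0 := (S.mem_ocKl.1 hc).1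
    have h1 : pB Q (-c) a = 0 := by rw [pl_neg, pB_symm, hac, neg_zero]
    have h2 : Q (-c) = 0 := by rw [q_neg, hQc]
    have h3 := ha c hc hQa hac
    rw [eich_swap hQa hQc hac h1 h2] at h3
    -- `eich (-c) a = eich c (-a)`
    have h4 : In M c (-a) := by
      intro hQc' h
      have h5 : eich hQc' h = eich h2 h1 := by
        apply og_ext
        intro x
        rw [eich_apply, eich_apply, pl_neg, pl_neg, q_neg, hQa]
        module
      rw [h5]; exact h3
    have hca : pB Q c (-a) = 0 := by rw [pr_neg, pB_symm, hac, neg_zero]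
    refine S.stepB hM hQc hc0 hca h4 ?_
    intro h
    apply hcK
    have h6 : a ∈ Kl κ c := by
      have := Submodule.neg_mem _ h
      rwa [neg_neg] at this
    exact S.Kl_symm h6 ha0
  -- all singular vectors
  have hall : ∀ a : V, Q a = 0 → a ≠ 0 → ∀ y ∈ oc Q (Kl κ a), In M a y := by
    intro a hQa ha0
    have h1 := finrank_Kl κ v
    have h2 := finrank_Kl κ a
    have h3 := Submodule.finrank_add_le_finrank_add_finrank (Kl κ v) (Kl κ a)
    have h4 := finrank_oc S.hnd (Kl κ v ⊔ Kl κ a)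
    obtain ⟨c, hc, hcK, hQc⟩ := exists_sing_off (Q := Q) (oc Q (Kl κ v ⊔ Kl κ a)) (Kl κ v ⊔ Kl κ a) (by omega)
    rw [mem_oc] at hc
    have hcv : c ∈ oc Q (Kl κ v) := by rw [mem_oc]; exact fun n hn => hc n (Submodule.mem_sup_left hn)
    have hca : c ∈ oc Q (Kl κ a) := by rw [mem_oc]; exact fun n hn => hc n (Submodule.mem_sup_right hn)
    have hcKv : c ∉ Kl κ v := fun h => hcK (Submodule.mem_sup_left h)
    have hcKa : c ∉ Kl κ a := fun h => hcK (Submodule.mem_sup_right h)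
    have hc0 : c ≠ 0 := by rintro rfl; exact hcKv (Submodule.zero_mem _)
    have h5 := hsym v c hv hv0 hQc hc0 h0 hcv hcKv
    exact hsym c a hQc hc0 hQa ha0 h5 (S.oc_symm' hca) (fun h => hcKa (S.Kl_symm h ha0))
  -- all are full
  have hfull : ∀ a : V, Q a = 0 → a ≠ 0 → Full M a := by
    intro a hQa ha0
    refine ⟨hQa, fun z hQa' haz => ?_⟩
    have hka : κ a ∉ Submodule.span F {a} := S.irr a ha0
    obtain ⟨u, hu, hQu, huk⟩ := exists_sing_not_orth S.hnd (Submodule.span F {a}) (by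
      have := finrank_span_one_le (F := F) a
      omega) hka
    rw [mem_oc] at hu
    have hau : pB Q a u = 0 := hu a (Submodule.mem_span_singleton_self a)
    have hu0 : u ≠ 0 := by rintro rfl; simp at huk
    -- `w'` orthogonal to both lines
    have h1 := finrank_Kl κ a
    have h2 := finrank_Kl κ u
    have h3 := Submodule.finrank_add_le_finrank_add_finrank (Kl κ a) (Kl κ u)
    have h4 := finrank_oc S.hnd (Kl κ a ⊔ Kl κ u)
    obtain ⟨w', hw', hw'K, hQw'⟩ := exists_sing_off (Q := Q) (oc Q (Kl κ a ⊔ Kl κ u)) (Kl κ a ⊔ Kl κ u) (by omega)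
    rw [mem_oc] at hw'
    have hw'a : w' ∈ oc Q (Kl κ a) := by rw [mem_oc]; exact fun n hn => hw' n (Submodule.mem_sup_left hn)
    have hw'u : w' ∈ oc Q (Kl κ u) := by rw [mem_oc]; exact fun n hn => hw' n (Submodule.mem_sup_right hn)
    have hw'Ka : w' ∉ Kl κ a := fun h => hw'K (Submodule.mem_sup_left h)
    have huw' : pB Q u w' = 0 := (S.mem_ocKl.1 hw'u).1
    have hMx : eich hQu huw' ∈ M := hall u hQu hu0 w' hw'u hQu huw'
    -- `b ∈ oc (Kl a)` with `B(w', b) ≠ 0`
    obtain ⟨b, hb, hw'b⟩ : ∃ b ∈ oc Q (Kl κ a), pB Q w' b ≠ 0 := by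
      by_contra hcon
      push Not at hcon
      apply hw'Ka
      rw [← oc_oc S.hnd (Kl κ a), mem_oc]
      intro n hn
      rw [pB_symm]; exact hcon n hn
    have hab : pB Q a b = 0 := (S.mem_ocKl.1 hb).1
    have hkab : pB Q (κ a) b = 0 := (S.mem_ocKl.1 hb).2
    have haw' : pB Q a w' = 0 := (S.mem_ocKl.1 hw'a).1
    have hkaw' : pB Q (κ a) w' = 0 := (S.mem_ocKl.1 hw'a).2
    have hkau : pB Q (κ a) u ≠ 0 := by
      rw [pB_symm]; exact huk
    -- choose `s`
    set s := -(pB Q (κ a) z) / (pB Q w' b * pB Q (κ a) u) with hs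
    have hsb : s • b ∈ oc Q (Kl κ a) := Submodule.smul_mem _ _ hb
    have hasb : pB Q a (s • b) = 0 := by rw [pr_smul, hab, mul_zero]
    set c := pB Q u (s • b) • w' - pB Q w' (s • b) • u with hc
    have hac : pB Q a c = 0 := by
      rw [hc, pr_sub, pr_smul Q _ a w', pr_smul Q _ a u, haw', hau]; ring
    have hMc : eich hQa' hac ∈ M := eich_comm_mem hQu huw' hQa' hasb (by rw [pB_symm]; exact hau)
      (by rw [pB_symm]; exact haw') hMx (hall a hQa ha0 (s • b) hsb hQa' hasb) (c := c) (by rw [hc, hQw']; module) hac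
    have hkac : pB Q (κ a) c = pB Q (κ a) z := by
      have e1 : pB Q w' (s • b) = s * pB Q w' b := pr_smul Q s w' b
      rw [hc, pr_sub, pr_smul Q _ (κ a) w', pr_smul Q _ (κ a) u, hkaw', e1, hs]
      field_simp
      ring
    have hzc : z - c ∈ oc Q (Kl κ a) := by
      rw [S.mem_ocKl]
      exact ⟨by rw [pr_sub, haz, hac, sub_zero], by rw [pr_sub, hkac, sub_self]⟩
    have hazc : pB Q a (z - c) = 0 := by rw [pr_sub, haz, hac, sub_zero]
    exact eich_congr hQa' _ haz (by abel) (eich_add_mem hQa' hac hazc (by rw [pr_add, hac, hazc, add_zero]) hMc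
      (hall a hQa ha0 _ hzc hQa' hazc))
  obtain ⟨b, hb, hvb⟩ := exists_partner S.hnd hv0 hv
  have hb0 : b ≠ 0 := by rintro rfl; simp at hvb
  exact eg_le_of_full S.hnd (hfull v hv hv0) (hfull b hb hb0) (by rw [hvb]; exact one_ne_zero)

end KS

end Cfsg.Agent.H12
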