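import Cfsg.Agent.H12.OmUni

/-!
The normaliser of a quadratic field of similitudes is maximal in the orthogonal group.
-/

namespace Cfsg.Agent.H12

open Matrix Cfsg Cfsg.Agent.H5

variable {F V : Type*} [Field F] [Finite F] [AddCommGroup V] [Module F V] [FiniteDimensional F V] {Q : QuadraticForm F V}

namespace KS

variable {κ : V →ₗ[F] V} {τ ν : F}

lemma indep (S : KS Q κ τ ν) {x : V} (hx0 : x ≠ 0) {a b : F} (h : a • x + b • κ x = 0) : a = 0 ∧ b = 0 := by
  have hb : b = 0 := by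
    by_contra hb
    apply S.irr x hx0
    rw [Submodule.mem_span_singleton]
    refine ⟨-(b⁻¹ * a), ?_⟩
    have h3 : b • κ x = -(a • x) := eq_neg_of_add_eq_zero_right h
    have h4 : κ x = b⁻¹ • (b • κ x) := by rw [smul_smul, inv_mul_cancel₀ hb, one_smul]
    rw [h4, h3]
    module
  rw [hb, zero_smul, add_zero] at h
  exact ⟨(smul_eq_zero.mp h).resolve_right hx0, hb⟩

lemma mem_Kl {x y : V} : y ∈ Kl κ x ↔ ∃ a b : F, a • x + b • κ x = y := Submodule.mem_span_pair

/-- unitary transvections commute with `κ` -/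
lemma tv_comm (S : KS Q κ τ ν) (u : V) (s : F) (hu : Q u = 0) (h : pB Q u (s • κ u) = 0) (x : V) :
    eich hu h (κ x) = κ (eich hu h x) := by
  rw [eich_apply, eich_apply, pl_smul, pl_smul, q_smul, S.qk, hu, map_sub, map_sub, map_add, map_smul, map_smul, map_smul,
    map_smul, S.sq, S.Bkk, S.adj' u x]
  module

/-- linear maps preserving the singular `K`-lines are multiplications -/
lemma of_lines (S : KS Q κ τ ν) (T : V →ₗ[F] V) (hT : ∀ x, Q x = 0 → T x ∈ Kl κ x) :
    ∃ α β : F, ∀ x, T x = α • x + β • κ x := by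
  have hdim := S.dim
  -- scalars for one vector
  have h1 : ∀ x, Q x = 0 → ∃ ab : F × F, T x = ab.1 • x + ab.2 • κ x := by
    intro x hx
    obtain ⟨a, b, hab⟩ := mem_Kl.1 (hT x hx)
    exact ⟨(a, b), hab.symm⟩
  -- orthogonal independent vectors
  have h2 : ∀ x y, Q x = 0 → x ≠ 0 → Q y = 0 → y ≠ 0 → y ∈ oc Q (Kl κ x) → y ∉ Kl κ x → ∀ a b : F, T x = a • x + b • κ x →
      T y = a • y + b • κ y := by
    intro x y hx hx0 hy hy0 hyo hyK a b hab
    have hxy : Q (x + y) = 0 := by rw [q_add, hx, hy, (S.mem_ocKl.1 hyo).1]; ring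
    obtain ⟨⟨c, d⟩, hcd⟩ := h1 _ hxy
    obtain ⟨⟨e, f⟩, hef⟩ := h1 y hy
    have h3 : (a - c) • x + (b - d) • κ x = -((e - c) • y + (f - d) • κ y) := by
      have h4 : T x + T y = c • (x + y) + d • κ (x + y) := by rw [← map_add]; exact hcd
      rw [hab, hef, map_add] at h4
      rw [eq_neg_iff_add_eq_zero]
      have h5 : (a - c) • x + (b - d) • κ x + ((e - c) • y + (f - d) • κ y) =
        (a • x + b • κ x + (e • y + f • κ y)) - (c • (x + y) + d • (κ x + κ y)) := by module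
      rw [h5, h4, sub_self]
    have h4 : (e - c) • y + (f - d) • κ y = 0 := by
      by_contra h5
      have h6 : (e - c) • y + (f - d) • κ y ∈ Kl κ x := by
        rw [← neg_mem_iff, ← h3]
        exact mem_Kl.2 ⟨_, _, rfl⟩
      have h7 : (e - c) • y + (f - d) • κ y ∈ Kl κ y := mem_Kl.2 ⟨_, _, rfl⟩
      -- `y ∈ Kl x`
      have h8 := S.Kl_symm h7 h5
      apply hyK
      have h9 : Kl κ ((e - c) • y + (f - d) • κ y) ≤ Kl κ x := by
        rw [Kl, Submodule.span_le]
        intro z hz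
        rw [Set.mem_insert_iff, Set.mem_singleton_iff] at hz
        rcases hz with rfl | rfl
        · exact h6
        · exact S.Kl_closed h6
      exact h9 h8
    obtain ⟨h5, h6⟩ := S.indep hy0 h4
    rw [h4, neg_zero] at h3
    obtain ⟨h7, h8⟩ := S.indep hx0 h3
    rw [hef]
    rw [sub_eq_zero] at h5 h6 h7 h8
    simp only at h5 h6 h7 h8 ⊢
    rw [h5, h6, h7, h8]
  -- a starting vector
  have hfV : Module.finrank F (⊤ : Submodule F V) = Module.finrank F V := finrank_top F V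
  obtain ⟨x0, -, hx00, hQx0⟩ := exists_sing_off (Q := Q) ⊤ ⊥ (by rw [finrank_bot, hfV]; omega)
  have hx0 : x0 ≠ 0 := fun h => hx00 ((Submodule.mem_bot F).2 h)
  obtain ⟨⟨α, β⟩, hαβ⟩ := h1 x0 hQx0
  refine ⟨α, β, ?_⟩
  have h3 : ∀ x, Q x = 0 → T x = α • x + β • κ x := by
    intro x hx
    by_cases hxz : x = 0
    · rw [hxz, map_zero, map_zero, smul_zero, smul_zero, add_zero]
    have e1 := finrank_Kl κ x0
    have e2 := finrank_Kl κ x
    have e3 := Submodule.finrank_add_le_finrank_add_finrank (Kl κ x0) (Kl κ x)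
    have e4 := finrank_oc S.hnd (Kl κ x0 ⊔ Kl κ x)
    obtain ⟨c, hc, hcK, hQc⟩ := exists_sing_off (Q := Q) (oc Q (Kl κ x0 ⊔ Kl κ x)) (Kl κ x0 ⊔ Kl κ x) (by omega)
    rw [mem_oc] at hc
    have hcv : c ∈ oc Q (Kl κ x0) := by rw [mem_oc]; exact fun n hn => hc n (Submodule.mem_sup_left hn)
    have hca : c ∈ oc Q (Kl κ x) := by rw [mem_oc]; exact fun n hn => hc n (Submodule.mem_sup_right hn)
    have hcKv : c ∉ Kl κ x0 := fun h => hcK (Submodule.mem_sup_left h)
    have hcKa : c ∉ Kl κ x := fun h => hcK (Submodule.mem_sup_right h)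
    have hc0 : c ≠ 0 := by rintro rfl; exact hcKv (Submodule.zero_mem _)
    have h4 := h2 x0 c hQx0 hx0 hQc hc0 hcv hcKv α β hαβ
    exact h2 c x hQc hc0 hx hxz (S.oc_symm' hca) (fun h => hcKa (S.Kl_symm h hxz)) α β h4
  intro x
  by_cases hxz : x = 0
  · rw [hxz, map_zero, map_zero, smul_zero, smul_zero, add_zero]
  obtain ⟨y, -, z, -, hy, hz, hyz⟩ := sing_add (Q := Q) S.hnd ⊥ (by rw [finrank_bot]; omega) (x := x)
    (by rw [mem_oc]; intro n hn; rw [(Submodule.mem_bot F).1 hn, map_zero]; rfl) (fun h => hxz ((Submodule.mem_bot F).1 h))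
  rw [hyz, map_add, map_add, h3 y hy, h3 z hz]
  module

theorem maximal (S : KS Q κ τ ν) (X : Subgroup (OG Q))
    (hX : ∀ g, g ∈ X ↔ ∃ α β : F, ∀ v, g (κ v) = α • g v + β • κ (g v)) :
    Geo.IsMaximalIn (EG Q) (X ⊓ EG Q) := by
  have hdim := S.dim
  refine ⟨lt_of_le_of_ne inf_le_right ?_, ?_⟩
  · intro heq
    have hfV : Module.finrank F (⊤ : Submodule F V) = Module.finrank F V := finrank_top F V
    obtain ⟨v, -, hv00, hQv⟩ := exists_sing_off (Q := Q) ⊤ ⊥ (by rw [finrank_bot, hfV]; omega)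
    have hv0 : v ≠ 0 := fun h => hv00 ((Submodule.mem_bot F).2 h)
    have e1 := finrank_Kl κ v
    have e4 := finrank_oc S.hnd (Kl κ v)
    obtain ⟨y, hy, hyK, hQy⟩ := exists_sing_off (Q := Q) (oc Q (Kl κ v)) (Kl κ v) (by omega)
    obtain ⟨hvy, hkvy⟩ := S.mem_ocKl.1 hy
    have h1 : eich hQv hvy ∈ X ⊓ EG Q := by rw [heq]; exact eg_mem _ _
    obtain ⟨α, β, hαβ⟩ := (hX _).1 (Subgroup.mem_inf.1 h1).1
    have hvv : pB Q v v = 0 := by rw [pB_self, hQv, mul_zero]
    have hyv : pB Q y v = 0 := by rw [pB_symm]; exact hvy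
    have hvkv : pB Q v (κ v) = 0 := S.bk v hQv
    have hykv : pB Q y (κ v) = 0 := by rw [pB_symm]; exact hkvy
    have h2 := hαβ v
    rw [eich_apply, eich_apply, hvv, hyv, hvkv, hykv] at h2
    simp only [zero_smul, mul_zero, add_zero, sub_zero] at h2
    have h3 : α • v + (β - 1) • κ v = 0 := by
      have : α • v + (β - 1) • κ v = (α • v + β • κ v) - κ v := by module
      rw [this, ← h2, sub_self]
    obtain ⟨hα, hβ⟩ := S.indep hv0 h3
    -- a vector orthogonal to `v` and not to `κ v`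
    obtain ⟨x, hx, -, hxk⟩ := exists_sing_not_orth S.hnd (Submodule.span F {v}) (by
      have := finrank_span_one_le (F := F) v
      omega) (S.irr v hv0)
    rw [mem_oc] at hx
    have hvx : pB Q v x = 0 := hx v (Submodule.mem_span_singleton_self v)
    have h4 := hαβ x
    rw [hα, sub_eq_zero.1 hβ, one_smul, zero_smul, zero_add, eich_apply, eich_apply, hvx, hQy, S.adj' v x, hvx] at h4
    simp only [zero_smul, mul_zero, zero_mul, add_zero, sub_zero, zero_sub, map_sub, map_smul] at h4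
    have hkx : pB Q (κ v) x ≠ 0 := by rw [pB_symm]; exact hxk
    apply hyK
    have h5 : pB Q (κ v) x • y = pB Q y x • κ v - pB Q y (κ x) • v := by
      have h6 : pB Q (κ v) x • y = κ x - (κ x + -(pB Q (κ v) x) • y - pB Q y (κ x) • v) - pB Q y (κ x) • v := by module
      rw [h6, h4]
      module
    have h6 : y = (pB Q (κ v) x)⁻¹ • (pB Q y x • κ v - pB Q y (κ x) • v) := by
      rw [← h5, smul_smul, inv_mul_cancel₀ hkx, one_smul]
    rw [h6]
    exact Submodule.smul_mem _ _ (Submodule.sub_mem _ (Submodule.smul_mem _ _ (k_mem κ v))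
      (Submodule.smul_mem _ _ (self_mem κ v)))
  · intro M hHM hMK
    by_cases hMX : M ≤ X
    · left
      exact le_antisymm (le_inf hMX hMK) hHM
    right
    apply le_antisymm hMK
    obtain ⟨g, hg, hgX⟩ := Set.not_subset.1 hMX
    have hHM' : HM κ M := by
      intro u s hu h
      refine hHM (Subgroup.mem_inf.2 ⟨(hX _).2 ⟨0, 1, fun v => ?_⟩, eg_mem _ _⟩)
      rw [zero_smul, zero_add, one_smul]
      exact S.tv_comm u s hu h v
    -- a singular vector whose `K`-line is moved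
    by_cases hcase : ∀ v, Q v = 0 → g (κ v) ∈ Kl κ (g v)
    · exfalso
      apply hgX
      have hT : ∀ x, Q x = 0 → (g.1.toLinearMap ∘ₗ κ ∘ₗ (g⁻¹ : OG Q).1.toLinearMap) x ∈ Kl κ x := by
        intro x hx
        have h1 := hcase ((g⁻¹ : OG Q) x) (by rw [og_q, hx])
        rw [og_inv'] at h1
        exact h1
      obtain ⟨α, β, h⟩ := S.of_lines _ hT
      refine (hX g).2 ⟨α, β, fun v => ?_⟩
      have h1 := h (g v)
      have h2 : (g.1.toLinearMap ∘ₗ κ ∘ₗ (g⁻¹ : OG Q).1.toLinearMap) (g v) = g (κ ((g⁻¹ : OG Q) (g v))) := rfl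
      rw [h2, og_inv] at h1
      exact h1
    push Not at hcase
    obtain ⟨v, hQv, hv⟩ := hcase
    have hv0 : v ≠ 0 := by
      rintro rfl
      apply hv
      have h0 : g (0:V) = 0 := og_zero g
      rw [map_zero κ, h0]
      exact Submodule.zero_mem _
    have hvk := S.bk v hQv
    have h1 : eich hQv hvk ∈ M := by
      have h2 : pB Q v ((1:F) • κ v) = 0 := by rw [one_smul]; exact hvk
      exact eich_congr hQv h2 hvk (one_smul _ _) (hHM' v 1 hQv h2)
    refine S.eg_le hHM' (v := g v) (w := g (κ v)) (by rw [og_q, hQv]) (fun h => hv0 (og_inj g (h.trans (og_zero g).symm))) (by rw [og_p]; exact hvk) ?_ hv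
    intro h2 h3
    have h4 : g * eich hQv hvk * g⁻¹ ∈ M := mul_mem (mul_mem hg h1) (inv_mem hg)
    rwa [eich_conj g hQv hvk h2 h3] at h4

end KS

end Cfsg.Agent.H12
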