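import Cfsg.Agent.H12.OmUni2

/-!
Matrix form: quadratic field subalgebras of similitudes.
-/

namespace Cfsg.Agent.H12

open Matrix Cfsg Cfsg.Agent.H5

variable {F : Type*} [Field F] [Fintype F] {n : ℕ} {q : QuadraticForm F (Fin n → F)}

/-- a subalgebra of dimension two generated by a non-scalar -/
lemma sub2_span {K : Subalgebra F (Matrix (Fin n) (Fin n) F)} (hK : Geo.IsFieldSubalgebra 2 K)
    {k0 : Matrix (Fin n) (Fin n) F} (hk0 : k0 ∈ K)
    (hns : ∀ a b : F, a • (1 : Matrix (Fin n) (Fin n) F) + b • k0 = 0 → a = 0 ∧ b = 0) :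
    ∀ k ∈ K, ∃ a b : F, k = a • (1 : Matrix (Fin n) (Fin n) F) + b • k0 := by
  have hli : LinearIndependent F ![(1 : Matrix (Fin n) (Fin n) F), k0] := by
    rw [LinearIndependent.pair_iff]
    exact hns
  have h2 : Submodule.span F {(1 : Matrix (Fin n) (Fin n) F), k0} ≤ Subalgebra.toSubmodule K := by
    rw [Submodule.span_le]
    intro y hy
    rw [Set.mem_insert_iff, Set.mem_singleton_iff] at hy
    rcases hy with rfl | rfl
    · exact K.one_mem
    · exact hk0
  have h3 : Module.finrank F (Subalgebra.toSubmodule K) = 2 := hK.finrank_eq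
  have h4 : Module.finrank F (Submodule.span F {(1 : Matrix (Fin n) (Fin n) F), k0}) = 2 := finrank_pair hli
  have h5 := Submodule.eq_of_le_of_finrank_eq h2 (h4.trans h3.symm)
  intro k hk
  have h6 : k ∈ Submodule.span F {(1 : Matrix (Fin n) (Fin n) F), k0} := by rw [h5]; exact hk
  obtain ⟨a, b, hab⟩ := Submodule.mem_span_pair.mp h6
  exact ⟨a, b, hab.symm⟩

/-- matrices are determined by the form -/
lemma mat_ext_of_form (hnd : ND q) {A B : Matrix (Fin n) (Fin n) F} (h : ∀ u v, pB q u (A *ᵥ v) = pB q u (B *ᵥ v)) :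
    A = B := by
  apply Matrix.toLin'.injective
  apply LinearMap.ext
  intro v
  rw [Matrix.toLin'_apply, Matrix.toLin'_apply, ← sub_eq_zero]
  apply hnd
  intro y
  rw [pB_symm, pr_sub, h, sub_self]

theorem ks_of (hnd : ND q) (hn : 13 ≤ n) {K : Subalgebra F (Matrix (Fin n) (Fin n) F)} (hK : Geo.IsFieldSubalgebra 2 K)
    (hac : Geo.IsAdjointClosedFor (QuadraticMap.polar ⇑q) K)
    (hnsa : ¬ Geo.IsSelfAdjointFor (QuadraticMap.polar ⇑q) K)
    (hsc : ∀ k ∈ K, ∃ c : F, ∀ v : (Fin n → F), q (k *ᵥ v) = c * q v) :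
    ∃ k0 ∈ K, ∃ τ ν : F, KS q (Matrix.toLin' k0) τ ν ∧
      (∀ a b : F, a • (1 : Matrix (Fin n) (Fin n) F) + b • k0 = 0 → a = 0 ∧ b = 0) := by
  have hfr : Module.finrank F (Fin n → F) = n := by
    rw [Module.finrank_fintype_fun_eq_card, Fintype.card_fin]
  have : NeZero n := ⟨by omega⟩
  have h1 : ∃ k0 ∈ K, ∃ u v, pB q (k0 *ᵥ u) v ≠ pB q u (k0 *ᵥ v) := by
    by_contra hcon
    push Not at hcon
    exact hnsa (fun k hk u v => hcon k hk u v)
  obtain ⟨k0, hk0, u0, v0, hu0⟩ := h1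
  -- not a scalar
  have hns : ∀ a b : F, a • (1 : Matrix (Fin n) (Fin n) F) + b • k0 = 0 → a = 0 ∧ b = 0 := by
    intro a b hab
    have hb : b = 0 := by
      by_contra hb
      apply hu0
      have h2 : k0 = (-(b⁻¹ * a)) • (1 : Matrix (Fin n) (Fin n) F) := by
        have h3 : b • k0 = -(a • (1 : Matrix (Fin n) (Fin n) F)) := eq_neg_of_add_eq_zero_right hab
        have h4 : k0 = b⁻¹ • (b • k0) := by rw [smul_smul, inv_mul_cancel₀ hb, one_smul]
        rw [h4, h3]
        module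
      rw [h2, Matrix.smul_mulVec, Matrix.one_mulVec, Matrix.smul_mulVec, Matrix.one_mulVec, pl_smul, pr_smul]
    rw [hb, zero_smul, add_zero] at hab
    exact ⟨(smul_eq_zero.mp hab).resolve_right one_ne_zero, hb⟩
  have hsp := sub2_span hK hk0 hns
  have hin : ∀ a b : F, a • (1 : Matrix (Fin n) (Fin n) F) + b • k0 ∈ K := fun a b =>
    K.add_mem (K.smul_mem K.one_mem a) (K.smul_mem hk0 b)
  -- the equation
  obtain ⟨ν', τ, hsq⟩ := hsp (k0 * k0) (K.mul_mem hk0 hk0)
  obtain ⟨ν, rfl⟩ : ∃ ν, ν' = -ν := ⟨-ν', by ring⟩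
  -- the adjoint
  obtain ⟨k1, hk1, hadj⟩ := hac k0 hk0
  obtain ⟨a, b, hab⟩ := hsp k1 hk1
  obtain ⟨c, hc⟩ := hsc k0 hk0
  have hadj' : ∀ u v, pB q (k0 *ᵥ u) v = a * pB q u v + b * pB q u (k0 *ᵥ v) := by
    intro u v
    have h2 : pB q (k0 *ᵥ u) v = pB q u (k1 *ᵥ v) := hadj u v
    rw [h2, hab, Matrix.add_mulVec, Matrix.smul_mulVec, Matrix.smul_mulVec, Matrix.one_mulVec, pr_add, pr_smul, pr_smul]
  have hk0k0 : ∀ v, k0 *ᵥ (k0 *ᵥ v) = τ • (k0 *ᵥ v) - ν • v := by
    intro v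
    rw [Matrix.mulVec_mulVec, hsq, Matrix.add_mulVec, Matrix.smul_mulVec, Matrix.smul_mulVec, Matrix.one_mulVec]
    module
  -- scaling of the polar form
  have hcB : ∀ u v, pB q (k0 *ᵥ u) (k0 *ᵥ v) = c * pB q u v := by
    intro u v
    have e1 : q (k0 *ᵥ (u + v)) = q (k0 *ᵥ u) + q (k0 *ᵥ v) + pB q (k0 *ᵥ u) (k0 *ᵥ v) := by
      rw [Matrix.mulVec_add, q_add]
    rw [hc, hc, hc, q_add] at e1
    linear_combination -e1
  -- `k0' k0 = c`
  have h3 : (a + b * τ) = 0 ∧ c = - b * ν := by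
    have h4 : ∀ u v, pB q u ((c • (1 : Matrix (Fin n) (Fin n) F)) *ᵥ v) = pB q u (((- b * ν) • (1 : Matrix (Fin n) (Fin n) F) + (a + b * τ) • k0) *ᵥ v) := by
      intro u v
      rw [Matrix.smul_mulVec, Matrix.one_mulVec, Matrix.add_mulVec, Matrix.smul_mulVec, Matrix.smul_mulVec,
        Matrix.one_mulVec, pr_add, pr_smul, pr_smul, pr_smul, ← hcB, hadj', hk0k0, pr_sub, pr_smul, pr_smul]
      ring
    have h5 := mat_ext_of_form hnd h4
    have h6 : (-b * ν - c) • (1 : Matrix (Fin n) (Fin n) F) + (a + b * τ) • k0 = 0 := by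
      have : (-b * ν - c) • (1 : Matrix (Fin n) (Fin n) F) + (a + b * τ) • k0 =
        ((- b * ν) • (1 : Matrix (Fin n) (Fin n) F) + (a + b * τ) • k0) - c • (1 : Matrix (Fin n) (Fin n) F) := by module
      rw [this, ← h5, sub_self]
    obtain ⟨h7, h8⟩ := hns _ _ h6
    exact ⟨h8, by linear_combination -h7⟩
  -- the adjoint is an involution
  have h4 : a * (1 + b) = 0 ∧ b * b = 1 := by
    have h5 : ∀ u v, pB q u (k0 *ᵥ v) = pB q u (((a * (1 + b)) • (1 : Matrix (Fin n) (Fin n) F) + (b * b) • k0) *ᵥ v) := by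
      intro u v
      rw [Matrix.add_mulVec, Matrix.smul_mulVec, Matrix.smul_mulVec, Matrix.one_mulVec, pr_add, pr_smul, pr_smul]
      calc pB q u (k0 *ᵥ v) = pB q (k0 *ᵥ v) u := pB_symm q _ _
        _ = a * pB q v u + b * pB q v (k0 *ᵥ u) := hadj' v u
        _ = a * pB q v u + b * pB q (k0 *ᵥ u) v := by rw [pB_symm q v (k0 *ᵥ u)]
        _ = a * pB q u v + b * (a * pB q u v + b * pB q u (k0 *ᵥ v)) := by rw [hadj' u v, pB_symm q v u]
        _ = a * (1 + b) * pB q u v + b * b * pB q u (k0 *ᵥ v) := by ring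
    have h6 := mat_ext_of_form hnd h5
    have h7 : (a * (1 + b)) • (1 : Matrix (Fin n) (Fin n) F) + (b * b - 1) • k0 = 0 := by
      have : (a * (1 + b)) • (1 : Matrix (Fin n) (Fin n) F) + (b * b - 1) • k0 =
        ((a * (1 + b)) • (1 : Matrix (Fin n) (Fin n) F) + (b * b) • k0) - k0 := by module
      rw [this, ← h6, sub_self]
    obtain ⟨h8, h9⟩ := hns _ _ h7
    exact ⟨h8, by linear_combination h9⟩
  have hb1 : b = -1 := by
    have h5 : (b - 1) * (b + 1) = 0 := by linear_combination h4.2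
    rcases mul_eq_zero.mp h5 with h6 | h6
    · have hb : b = 1 := sub_eq_zero.1 h6
      by_cases h2 : (2 : F) = 0
      · rw [hb, eq_neg_iff_add_eq_zero, one_add_one_eq_two, h2]
      · exfalso
        apply hu0
        have ha : a = 0 := by
          have h7 := h4.1
          rw [hb, one_add_one_eq_two] at h7
          exact (mul_eq_zero.mp h7).resolve_right h2
        rw [hadj', ha, hb]; ring
    · exact eq_neg_of_add_eq_zero_left h6
  have haτ : a = τ := by have := h3.1; rw [hb1] at this; linear_combination this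
  have hcν : c = ν := by have := h3.2; rw [hb1] at this; linear_combination this
  refine ⟨k0, hk0, τ, ν, ⟨hnd, by rw [hfr]; exact hn, ?_, ?_, ?_, ?_, ?_⟩, hns⟩
  · intro v
    simp only [Matrix.toLin'_apply]
    exact hk0k0 v
  · intro u v
    simp only [Matrix.toLin'_apply]
    rw [hadj', haτ, hb1]; ring
  · intro v
    simp only [Matrix.toLin'_apply]
    rw [hc, hcν]
  · intro v hv
    simp only [Matrix.toLin'_apply]
    obtain ⟨c', hc'⟩ := hsc _ (hin 1 1)
    have h5 := hc' v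
    rw [one_smul, one_smul, Matrix.add_mulVec, Matrix.one_mulVec, q_add, hc, hv] at h5
    linear_combination h5
  · intro v hv0 hv
    rw [Matrix.toLin'_apply, Submodule.mem_span_singleton] at hv
    obtain ⟨d, hd⟩ := hv
    have h5 : (-d) • (1 : Matrix (Fin n) (Fin n) F) + (1 : F) • k0 ≠ 0 := by
      intro h
      exact one_ne_zero (hns _ _ h).2
    obtain ⟨y, hy, hxy⟩ := hK.inv _ (hin (-d) 1) h5
    rw [hK.comm _ (hin (-d) 1) y hy] at hxy
    apply hv0
    have h6 : v = y *ᵥ (((-d) • (1 : Matrix (Fin n) (Fin n) F) + (1 : F) • k0) *ᵥ v) := by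
      rw [Matrix.mulVec_mulVec, hxy, Matrix.one_mulVec]
    have h7 : ((-d) • (1 : Matrix (Fin n) (Fin n) F) + (1 : F) • k0) *ᵥ v = 0 := by
      rw [Matrix.add_mulVec, Matrix.smul_mulVec, Matrix.one_mulVec, one_smul, ← hd]
      module
    rw [h6, h7, Matrix.mulVec_zero]

/-- the normaliser, in terms of the generator -/
theorem comap_normalizer {K : Subalgebra F (Matrix (Fin n) (Fin n) F)} (hK : Geo.IsFieldSubalgebra 2 K)
    {k0 : Matrix (Fin n) (Fin n) F} (hk0 : k0 ∈ K)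
    (hns : ∀ a b : F, a • (1 : Matrix (Fin n) (Fin n) F) + b • k0 = 0 → a = 0 ∧ b = 0) (g : OG q) :
    g ∈ (Geo.subalgebraNormalizer K).comap (ogGL q) ↔
      ∃ α β : F, ∀ v, g (Matrix.toLin' k0 v) = α • g v + β • Matrix.toLin' k0 (g v) := by
  have hsp := sub2_span hK hk0 hns
  have hin : ∀ a b : F, a • (1 : Matrix (Fin n) (Fin n) F) + b • k0 ∈ K := fun a b =>
    K.add_mem (K.smul_mem K.one_mem a) (K.smul_mem hk0 b)
  rw [Subgroup.mem_comap]
  set G : GL (Fin n) F := ogGL q g with hG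
  have hGv : ∀ v, (G : Matrix (Fin n) (Fin n) F) *ᵥ v = g v := fun v => ogGL_apply q g v
  have hinv : ((G⁻¹ : GL (Fin n) F) : Matrix (Fin n) (Fin n) F) * (G : Matrix (Fin n) (Fin n) F) = 1 := by
    rw [← Units.val_mul, inv_mul_cancel, Units.val_one]
  have hinv' : (G : Matrix (Fin n) (Fin n) F) * ((G⁻¹ : GL (Fin n) F) : Matrix (Fin n) (Fin n) F) = 1 := by
    rw [← Units.val_mul, mul_inv_cancel, Units.val_one]
  constructor
  · intro h
    obtain ⟨α, β, hab⟩ := hsp _ ((h k0).1 hk0)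
    refine ⟨α, β, fun v => ?_⟩
    have h1 : (G : Matrix (Fin n) (Fin n) F) * k0 = (α • (1 : Matrix (Fin n) (Fin n) F) + β • k0) * (G : Matrix (Fin n) (Fin n) F) := by
      rw [← hab, Matrix.mul_assoc, hinv, Matrix.mul_one]
    have h2 := congrArg (fun A => A *ᵥ v) h1
    beta_reduce at h2
    rw [← Matrix.mulVec_mulVec, ← Matrix.mulVec_mulVec, hGv, hGv, Matrix.add_mulVec, Matrix.smul_mulVec, Matrix.smul_mulVec,
      Matrix.one_mulVec] at h2
    rw [Matrix.toLin'_apply, Matrix.toLin'_apply]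
    exact h2
  · rintro ⟨α, β, h⟩
    have h1 : (G : Matrix (Fin n) (Fin n) F) * k0 = (α • (1 : Matrix (Fin n) (Fin n) F) + β • k0) * (G : Matrix (Fin n) (Fin n) F) := by
      apply Matrix.toLin'.injective
      apply LinearMap.ext
      intro v
      rw [Matrix.toLin'_apply, Matrix.toLin'_apply, ← Matrix.mulVec_mulVec, ← Matrix.mulVec_mulVec, hGv, hGv,
        Matrix.add_mulVec, Matrix.smul_mulVec, Matrix.smul_mulVec, Matrix.one_mulVec]
      have h2 := h v
      rw [Matrix.toLin'_apply, Matrix.toLin'_apply] at h2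
      exact h2
    have h2 : ∀ a b : F, (G : Matrix (Fin n) (Fin n) F) * (a • (1 : Matrix (Fin n) (Fin n) F) + b • k0) * ((G⁻¹ : GL (Fin n) F) : Matrix (Fin n) (Fin n) F)
        = (a + b * α) • (1 : Matrix (Fin n) (Fin n) F) + (b * β) • k0 := by
      intro a b
      rw [Matrix.mul_add, Matrix.mul_smul, Matrix.mul_smul, Matrix.mul_one, h1, Matrix.add_mul, Matrix.smul_mul, hinv',
        Matrix.smul_mul, Matrix.mul_assoc, hinv', Matrix.mul_one, smul_add, smul_smul, smul_smul]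
      module
    intro k
    constructor
    · intro hk
      obtain ⟨a, b, rfl⟩ := hsp k hk
      rw [h2]
      exact hin _ _
    · intro hk
      obtain ⟨a, b, hab⟩ := hsp _ hk
      -- `β ≠ 0`
      have hβ : β ≠ 0 := by
        intro hβ
        have h3 := h2 (-α) 1
        rw [hβ, one_mul, neg_add_cancel, mul_zero, zero_smul, zero_smul, add_zero] at h3
        have h4 : (-α) • (1 : Matrix (Fin n) (Fin n) F) + (1 : F) • k0 = 0 := by
          have h5 := congrArg (fun A => ((G⁻¹ : GL (Fin n) F) : Matrix (Fin n) (Fin n) F) * A * (G : Matrix (Fin n) (Fin n) F)) h3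
          beta_reduce at h5
          rw [Matrix.mul_zero, Matrix.zero_mul] at h5
          rw [← h5, Matrix.mul_assoc, Matrix.mul_assoc, hinv, Matrix.mul_one, ← Matrix.mul_assoc, hinv, Matrix.one_mul]
        exact one_ne_zero (hns _ _ h4).2
      have h3 : (G : Matrix (Fin n) (Fin n) F) * k * ((G⁻¹ : GL (Fin n) F) : Matrix (Fin n) (Fin n) F) =
          (G : Matrix (Fin n) (Fin n) F) * ((a - b * β⁻¹ * α) • (1 : Matrix (Fin n) (Fin n) F) + (b * β⁻¹) • k0) * ((G⁻¹ : GL (Fin n) F) : Matrix (Fin n) (Fin n) F) := by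
        rw [h2, hab, sub_add_cancel, mul_assoc b, inv_mul_cancel₀ hβ, mul_one]
      have h4 : k = (a - b * β⁻¹ * α) • (1 : Matrix (Fin n) (Fin n) F) + (b * β⁻¹) • k0 := by
        have h5 := congrArg (fun A => ((G⁻¹ : GL (Fin n) F) : Matrix (Fin n) (Fin n) F) * A * (G : Matrix (Fin n) (Fin n) F)) h3
        beta_reduce at h5
        rw [Matrix.mul_assoc, Matrix.mul_assoc, hinv, Matrix.mul_one, ← Matrix.mul_assoc, hinv, Matrix.one_mul] at h5
        rw [h5, Matrix.mul_assoc, Matrix.mul_assoc, hinv, Matrix.mul_one, ← Matrix.mul_assoc, hinv, Matrix.one_mul]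
      rw [h4]
      exact hin _ _

end Cfsg.Agent.H12
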