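import Mathlib
import Cfsg.Agent.H12.InvDec

set_option autoImplicit false

/-! Families of mutually orthogonal hyperbolic planes in a symplectic space. -/

namespace Cfsg.Agent.H12

open Module

variable {F : Type*} [Field F] {V : Type*} [AddCommGroup V] [Module F V]

/-- mutually orthogonal nondegenerate planes `⟨p (k,0), p (k,1)⟩` -/
structure OrthFam (B : LinearMap.BilinForm F V) {κ : Type} (p : κ × Fin 2 → V) : Prop where
  ne : ∀ k, B (p (k, 0)) (p (k, 1)) ≠ 0
  orth : ∀ k l i j, k ≠ l → B (p (k, i)) (p (l, j)) = 0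

section
variable (B : LinearMap.BilinForm F V) (halt : ∀ v, B v v = 0)
include halt

theorem alt_neg (u v : V) : B u v = -B v u := by
  have h := halt (u + v)
  simp only [map_add, LinearMap.add_apply, halt, zero_add, add_zero] at h
  linear_combination h

variable {κ : Type} [Fintype κ] {p : κ × Fin 2 → V} (hp : OrthFam B p)
include hp

/-- pairing a linear combination with a family member -/
theorem OrthFam.pair (c : κ × Fin 2 → F) (k : κ) :
    B (∑ s, c s • p s) (p (k, 1)) = c (k, 0) * B (p (k, 0)) (p (k, 1)) ∧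
    B (∑ s, c s • p s) (p (k, 0)) = - (c (k, 1) * B (p (k, 0)) (p (k, 1))) := by
  classical
  have h1 : ∀ j, B (∑ s, c s • p s) (p (k, j)) =
      c (k, 0) * B (p (k, 0)) (p (k, j)) + c (k, 1) * B (p (k, 1)) (p (k, j)) := by
    intro j
    rw [map_sum, LinearMap.sum_apply, Fintype.sum_prod_type, Finset.sum_eq_single k]
    · rw [Fin.sum_univ_two, map_smul, map_smul, LinearMap.smul_apply, LinearMap.smul_apply]
      rfl
    · intro l _ hl
      apply Finset.sum_eq_zero
      intro i _
      rw [map_smul, LinearMap.smul_apply, hp.orth l k i j hl, smul_zero]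
    · intro h; exact absurd (Finset.mem_univ _) h
  constructor
  · rw [h1, halt, mul_zero, add_zero]
  · rw [h1, halt, mul_zero, zero_add, alt_neg B halt (p (k, 1)), mul_neg]

theorem OrthFam.li : LinearIndependent F p := by
  rw [Fintype.linearIndependent_iff]
  intro c hc
  rintro ⟨k, i⟩
  obtain ⟨h1, h2⟩ := OrthFam.pair B halt hp c k
  rw [hc, map_zero, LinearMap.zero_apply] at h1 h2
  fin_cases i
  · exact (mul_eq_zero.mp h1.symm).resolve_right (hp.ne k)
  · exact (mul_eq_zero.mp (neg_eq_zero.mp h2.symm)).resolve_right (hp.ne k)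

theorem OrthFam.proj (w : V) : ∃ w', w - w' ∈ Submodule.span F (Set.range p) ∧ ∀ s, B (p s) w' = 0 := by
  classical
  set c : κ × Fin 2 → F := fun s => if s.2 = 0 then B w (p (s.1, 1)) / B (p (s.1, 0)) (p (s.1, 1))
    else - (B w (p (s.1, 0)) / B (p (s.1, 0)) (p (s.1, 1))) with hc
  refine ⟨w - ∑ s, c s • p s, ?_, ?_⟩
  · rw [sub_sub_cancel]
    exact Submodule.sum_mem _ fun s _ => Submodule.smul_mem _ _ (Submodule.subset_span ⟨s, rfl⟩)
  · rintro ⟨k, i⟩
    obtain ⟨h1, h2⟩ := OrthFam.pair B halt hp c k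
    have c0 : c (k, 0) = B w (p (k, 1)) / B (p (k, 0)) (p (k, 1)) := by simp [hc]
    have c1 : c (k, 1) = - (B w (p (k, 0)) / B (p (k, 0)) (p (k, 1))) := by simp [hc]
    rw [c0, div_mul_cancel₀ _ (hp.ne k)] at h1
    rw [c1, neg_mul, div_mul_cancel₀ _ (hp.ne k), neg_neg] at h2
    rw [alt_neg B halt, neg_eq_zero, map_sub, LinearMap.sub_apply, sub_eq_zero]
    fin_cases i
    · exact h2.symm
    · exact h1.symm

end

/-- nondegeneracy passes to the orthogonal complement of a family -/
theorem OrthFam.nondeg {B : LinearMap.BilinForm F V} (halt : ∀ v, B v v = 0) {κ : Type} [Fintype κ]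
    {p : κ × Fin 2 → V} (hp : OrthFam B p) (w : V) :
    ∃ w', (∀ s, B (p s) w' = 0) ∧ ∀ u', (∀ s, B (p s) u' = 0) → B u' w' = B u' w := by
  obtain ⟨w', h1, h2⟩ := OrthFam.proj B halt hp w
  refine ⟨w', h2, fun u' hu' => ?_⟩
  have h3 : ∀ y ∈ Submodule.span F (Set.range p), B u' y = 0 := by
    intro y hy
    induction hy using Submodule.span_induction with
    | mem y hy =>
      obtain ⟨s, rfl⟩ := hy
      rw [alt_neg B halt, hu', neg_zero]
    | zero => exact map_zero _
    | add y z _ _ hy hz => rw [map_add, hy, hz, add_zero]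
    | smul c y _ hy => rw [map_smul, hy, smul_zero]
  have := h3 _ h1
  rw [map_sub, sub_eq_zero] at this
  exact this.symm

/-- the induction scheme -/
theorem orthFam_induct [FiniteDimensional F V] {B : LinearMap.BilinForm F V} (halt : ∀ v, B v v = 0)
    (R : ∀ (κ : Type) [Fintype κ], (κ × Fin 2 → V) → Prop)
    (h0 : ∀ p : Empty × Fin 2 → V, R Empty p)
    (hstep : ∀ (κ : Type) [Fintype κ] (p : κ × Fin 2 → V), OrthFam B p → R κ p →
      (∃ u, u ≠ 0 ∧ ∀ s, B (p s) u = 0) →
      ∃ (κ' : Type) (_ : Fintype κ') (p' : κ' × Fin 2 → V), OrthFam B p' ∧ R κ' p' ∧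
        Fintype.card κ < Fintype.card κ') :
    ∃ (κ : Type) (_ : Fintype κ) (p : κ × Fin 2 → V), OrthFam B p ∧ R κ p ∧
      ∃ b : Basis (κ × Fin 2) F V, ⇑b = p := by
  have key : ∀ m : ℕ, ∀ (κ : Type) [Fintype κ] (p : κ × Fin 2 → V), OrthFam B p → R κ p →
      finrank F V - Fintype.card κ = m →
      ∃ (κ : Type) (_ : Fintype κ) (p : κ × Fin 2 → V), OrthFam B p ∧ R κ p ∧
        ∃ b : Basis (κ × Fin 2) F V, ⇑b = p := by
    intro m
    induction m using Nat.strong_induction_on with
    | _ m ih =>
    intro κ _ p hp hR hm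
    have hli := OrthFam.li B halt hp
    by_cases hsp : ⊤ ≤ Submodule.span F (Set.range p)
    · exact ⟨κ, inferInstance, p, hp, hR, Basis.mk hli hsp, by ext s; simp⟩
    · have : ∃ w, w ∉ Submodule.span F (Set.range p) := by
        by_contra hcon
        push Not at hcon
        exact hsp fun w _ => hcon w
      obtain ⟨w, hw⟩ := this
      obtain ⟨w', h1, h2⟩ := OrthFam.proj B halt hp w
      have hw' : w' ≠ 0 := by
        rintro rfl
        rw [sub_zero] at h1
        exact hw h1
      obtain ⟨κ', hκ', p', hp', hR', hc⟩ := hstep κ p hp hR ⟨w', hw', h2⟩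
      have hle : Fintype.card κ' ≤ finrank F V := by
        have h3 := (OrthFam.li B halt hp').fintype_card_le_finrank
        rw [Fintype.card_prod, Fintype.card_fin] at h3
        omega
      exact ih (finrank F V - Fintype.card κ') (by omega) κ' p' hp' hR' rfl
  exact key _ Empty (fun s => s.1.elim) ⟨fun k => k.elim, fun k => k.elim⟩ (h0 _) rfl

/-! ### extension of families -/

section ext
variable {B : LinearMap.BilinForm F V} (halt : ∀ v, B v v = 0)
include halt

/-- adding one plane -/
theorem OrthFam.add_one {κ : Type} {p : κ × Fin 2 → V} (hp : OrthFam B p) {v w : V}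
    (hv : ∀ s, B (p s) v = 0) (hw : ∀ s, B (p s) w = 0) (hvw : B v w ≠ 0) :
    OrthFam B (fun s : Option κ × Fin 2 => s.1.elim (![v, w] s.2) (fun k => p (k, s.2))) := by
  constructor
  · rintro (_ | k)
    · exact hvw
    · exact hp.ne k
  · rintro (_ | k) (_ | l) i j hkl
    · exact absurd rfl hkl
    · show B (![v, w] i) (p (l, j)) = 0
      rw [alt_neg B halt, neg_eq_zero]
      fin_cases i
      · exact hv _
      · exact hw _
    · show B (p (k, i)) (![v, w] j) = 0
      fin_cases j
      · exact hv _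
      · exact hw _
    · exact hp.orth k l i j (fun h => hkl (congrArg some h))

end ext

theorem exists_rep [FiniteDimensional F V] {B : LinearMap.BilinForm F V} (halt : ∀ v, B v v = 0)
    (hnd : ∀ v, (∀ w, B v w = 0) → v = 0) (f : V →ₗ[F] F) : ∃ w, ∀ y, B y w = f y := by
  have hinj : Function.Injective (B : V →ₗ[F] Module.Dual F V) := by
    rw [injective_iff_map_eq_zero]
    intro v hv
    exact hnd v fun w => by rw [hv]; rfl
  have hsurj := (LinearMap.injective_iff_surjective_of_finrank_eq_finrank
    (Subspace.dual_finrank_eq (K := F) (V := V)).symm).mp hinj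
  obtain ⟨w, hw⟩ := hsurj (-f)
  refine ⟨w, fun y => ?_⟩
  have h := congrArg (fun g : V →ₗ[F] F => g y) hw
  beta_reduce at h
  rw [alt_neg B halt, h]
  simp

/-- Involution of a symplectic space: it permutes the planes of a suitable orthogonal decomposition. -/
theorem sp_inv_planes [FiniteDimensional F V] {B : LinearMap.BilinForm F V} (halt : ∀ v, B v v = 0)
    (hnd : ∀ v, (∀ w, B v w = 0) → v = 0) (x : V →ₗ[F] V) (hB : ∀ v w, B (x v) (x w) = B v w)
    (z : F) (hz : z ≠ 0) (hx : ∀ v, x (x v) = z • v) :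
    ∃ (κ : Type) (_ : Fintype κ) (p : κ × Fin 2 → V), OrthFam B p ∧
      (∃ π : κ → κ, (∀ k, π (π k) = k) ∧ ∀ k i, ∃ c d : F, x (p (k, i)) = c • p (π k, 0) + d • p (π k, 1)) ∧
      ∃ b : Basis (κ × Fin 2) F V, ⇑b = p := by
  refine orthFam_induct halt (fun κ _ p => ∃ π : κ → κ, (∀ k, π (π k) = k) ∧
    ∀ k i, ∃ c d : F, x (p (k, i)) = c • p (π k, 0) + d • p (π k, 1)) ?_ ?_
  · intro p
    exact ⟨id, fun k => k.elim, fun k => k.elim⟩
  · rintro κ _ p hp ⟨π, hπ, hpπ⟩ ⟨u, hu0, hu⟩
    -- the orthogonal complement is invariant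
    have hinv : ∀ u, (∀ s, B (p s) u = 0) → ∀ s, B (p s) (x u) = 0 := by
      intro u hu ⟨k, i⟩
      obtain ⟨c, d, hcd⟩ := hpπ k i
      have h1 : B (x (x (p (k, i)))) (x u) = 0 := by
        rw [hB, hcd, map_add, map_smul, map_smul]
        simp [hu]
      rw [hx, map_smul, LinearMap.smul_apply, smul_eq_mul] at h1
      exact (mul_eq_zero.mp h1).resolve_left hz
    by_cases h1 : ∃ v, (∀ s, B (p s) v = 0) ∧ B v (x v) ≠ 0
    · obtain ⟨v, hv, hvx⟩ := h1
      refine ⟨Option κ, inferInstance, _, OrthFam.add_one halt hp hv (hinv v hv) hvx,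
        ⟨Option.map π, ?_, ?_⟩, ?_⟩
      · rintro (_ | k)
        · rfl
        · simp [hπ]
      · rintro (_ | k) i
        · fin_cases i
          · exact ⟨0, 1, by simp⟩
          · exact ⟨z, 0, by simp [hx]⟩
        · obtain ⟨c, d, hcd⟩ := hpπ k i
          exact ⟨c, d, hcd⟩
      · simp
    · push Not at h1
      -- polarisation
      have hpol : ∀ v w, (∀ s, B (p s) v = 0) → (∀ s, B (p s) w = 0) → B v (x w) = B (x v) w := by
        intro v w hv hw
        have h2 := h1 (v + w) (fun s => by rw [map_add, hv, hw, add_zero])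
        simp only [map_add, LinearMap.add_apply, h1 v hv, h1 w hw, zero_add, add_zero] at h2
        rw [alt_neg B halt (x v) w]
        linear_combination h2
      by_cases h2 : ∃ v, (∀ s, B (p s) v = 0) ∧ ∀ c : F, x v ≠ c • v
      · obtain ⟨v, hv, hvn⟩ := h2
        have hvs : v ∉ Submodule.span F {x v} := by
          rw [Submodule.mem_span_singleton]
          rintro ⟨c, hc⟩
          by_cases hc0 : c = 0
          · rw [hc0, zero_smul] at hc
            apply hvn 0
            rw [← hc, map_zero, smul_zero]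
          · apply hvn c⁻¹
            nth_rewrite 2 [← hc]
            rw [smul_smul, inv_mul_cancel₀ hc0, one_smul]
        obtain ⟨f, hf1, hf2⟩ := Submodule.exists_le_ker_of_notMem hvs
        obtain ⟨w0, hw0⟩ := exists_rep halt hnd f
        obtain ⟨w, hw, hww⟩ := OrthFam.nondeg halt hp w0
        have e1 : B v w ≠ 0 := by rw [hww v hv, hw0]; exact hf1
        have e2 : B (x v) w = 0 := by
          rw [hww _ (hinv v hv), hw0]; exact hf2 (Submodule.mem_span_singleton_self _)
        have e3 : B v (x w) = 0 := by rw [hpol v w hv hw, e2]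
        have e4 : B v (x v) = 0 := h1 v hv
        have e5 : B w (x w) = 0 := h1 w hw
        have e6 : B (x v) (x w) ≠ 0 := by rw [hB]; exact e1
        have q1 := OrthFam.add_one halt hp hv hw e1
        have q2 := OrthFam.add_one halt q1 (v := x v) (w := x w) (by
          rintro ⟨_ | k, i⟩
          · fin_cases i
            · exact e4
            · show B w (x v) = 0
              rw [alt_neg B halt, e2, neg_zero]
          · exact hinv v hv _) (by
          rintro ⟨_ | k, i⟩
          · fin_cases i
            · exact e3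
            · exact e5
          · exact hinv w hw _) e6
        refine ⟨Option (Option κ), inferInstance, _, q2, ⟨fun k => k.elim (some none) (fun k' => k'.elim none (fun k'' => some (some (π k'')))), ?_, ?_⟩, ?_⟩
        · rintro (_ | _ | k)
          · rfl
          · rfl
          · simp [hπ]
        · rintro (_ | _ | k) i
          · fin_cases i
            · exact ⟨z, 0, by simp [hx]⟩
            · exact ⟨0, z, by simp [hx]⟩
          · fin_cases i
            · exact ⟨1, 0, by simp⟩
            · exact ⟨0, 1, by simp⟩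
          · obtain ⟨c, d, hcd⟩ := hpπ k i
            exact ⟨c, d, hcd⟩
        · simp
      · push Not at h2
        obtain ⟨w0, hw0⟩ : ∃ w, B u w ≠ 0 := by
          by_contra hcon
          push Not at hcon
          exact hu0 (hnd u hcon)
        obtain ⟨w, hw, hww⟩ := OrthFam.nondeg halt hp w0
        have e1 : B u w ≠ 0 := by rw [hww u hu]; exact hw0
        refine ⟨Option κ, inferInstance, _, OrthFam.add_one halt hp hu hw e1,
          ⟨Option.map π, ?_, ?_⟩, ?_⟩
        · rintro (_ | k)
          · rfl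
          · simp [hπ]
        · rintro (_ | k) i
          · fin_cases i
            · obtain ⟨c, hc⟩ := h2 u hu
              exact ⟨c, 0, by simp [hc]⟩
            · obtain ⟨c, hc⟩ := h2 w hw
              exact ⟨0, c, by simp [hc]⟩
          · obtain ⟨c, d, hcd⟩ := hpπ k i
            exact ⟨c, d, hcd⟩
        · simp

theorem orthFam_inv {B : LinearMap.BilinForm F V} {x : V →ₗ[F] V} (hB : ∀ v w, B (x v) (x w) = B v w)
    {z : F} (hz : z ≠ 0) (hx : ∀ v, x (x v) = z • v) {κ : Type} {p : κ × Fin 2 → V}
    (h : ∀ s, ∃ (c : F) (s' : κ × Fin 2), x (p s) = c • p s') {u : V} (hu : ∀ s, B (p s) u = 0) :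
    ∀ s, B (p s) (x u) = 0 := by
  intro s
  obtain ⟨c, s', hs⟩ := h s
  have h1 : B (x (x (p s))) (x u) = 0 := by
    rw [hB, hs, map_smul, LinearMap.smul_apply, hu, smul_zero]
  rw [hx, map_smul, LinearMap.smul_apply, smul_eq_mul] at h1
  exact (mul_eq_zero.mp h1).resolve_left hz

/-- isometries with square `-1` -/
theorem sp_inv_neg [FiniteDimensional F V] {B : LinearMap.BilinForm F V} (halt : ∀ v, B v v = 0)
    (hnd : ∀ v, (∀ w, B v w = 0) → v = 0) (x : V →ₗ[F] V) (hB : ∀ v w, B (x v) (x w) = B v w)
    (h2 : (2 : F) ≠ 0) (hx : ∀ v, x (x v) = (-1 : F) • v) :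
    ∃ (κ : Type) (_ : Fintype κ) (p : κ × Fin 2 → V), OrthFam B p ∧
      (∀ k, x (p (k, 0)) = p (k, 1) ∧ x (p (k, 1)) = (-1 : F) • p (k, 0)) ∧
      ∃ b : Basis (κ × Fin 2) F V, ⇑b = p := by
  refine orthFam_induct halt (fun κ _ p => ∀ k, x (p (k, 0)) = p (k, 1) ∧ x (p (k, 1)) = (-1 : F) • p (k, 0)) ?_ ?_
  · intro p k
    exact k.elim
  · rintro κ _ p hp hpx ⟨u, hu0, hu⟩
    have hinv : ∀ u, (∀ s, B (p s) u = 0) → ∀ s, B (p s) (x u) = 0 := by
      intro u hu
      refine orthFam_inv hB (neg_ne_zero.mpr one_ne_zero) hx ?_ hu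
      rintro ⟨k, i⟩
      fin_cases i
      · exact ⟨1, (k, 1), by rw [one_smul]; exact (hpx k).1⟩
      · exact ⟨-1, (k, 0), (hpx k).2⟩
    have h1 : ∃ v, (∀ s, B (p s) v = 0) ∧ B v (x v) ≠ 0 := by
      by_contra hcon
      push Not at hcon
      -- polarisation: everything vanishes
      have hz : ∀ w, (∀ s, B (p s) w = 0) → B u w = 0 := by
        intro w hw
        -- B u (x w') with w' = -x w
        have key : ∀ v w, (∀ s, B (p s) v = 0) → (∀ s, B (p s) w = 0) → B v (x w) = 0 := by
          intro v w hv hw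
          have h3 := hcon (v + w) (fun s => by rw [map_add, hv, hw, add_zero])
          simp only [map_add, LinearMap.add_apply, hcon v hv, hcon w hw, zero_add, add_zero] at h3
          have h4 : B w (x v) = B v (x w) := by
            have h5 := hB (x v) w
            rw [hx, map_smul, LinearMap.smul_apply] at h5
            rw [alt_neg B halt w (x v), ← h5]
            simp
          have h5 : 2 * B v (x w) = 0 := by linear_combination h3 - h4
          exact (mul_eq_zero.mp h5).resolve_left h2
        have h3 := key u (x w) hu (hinv w hw)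
        rw [hx, map_smul] at h3
        simpa using h3
      obtain ⟨w0, hw0⟩ : ∃ w, B u w ≠ 0 := by
        by_contra hcon
        push Not at hcon
        exact hu0 (hnd u hcon)
      obtain ⟨w, hw, hww⟩ := OrthFam.nondeg halt hp w0
      exact hw0 (by rw [← hww u hu]; exact hz w hw)
    obtain ⟨v, hv, hvx⟩ := h1
    refine ⟨Option κ, inferInstance, _, OrthFam.add_one halt hp hv (hinv v hv) hvx, ?_, ?_⟩
    · rintro (_ | k)
      · exact ⟨rfl, hx v⟩
      · exact hpx k
    · simp

/-- isometries with square `1` -/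
theorem sp_inv_pos [FiniteDimensional F V] {B : LinearMap.BilinForm F V} (halt : ∀ v, B v v = 0)
    (hnd : ∀ v, (∀ w, B v w = 0) → v = 0) (x : V →ₗ[F] V) (hB : ∀ v w, B (x v) (x w) = B v w)
    (h2 : (2 : F) ≠ 0) (hx : ∀ v, x (x v) = (1 : F) • v) :
    ∃ (κ : Type) (_ : Fintype κ) (p : κ × Fin 2 → V), OrthFam B p ∧
      (∀ k, ∃ e : F, ∀ i, x (p (k, i)) = e • p (k, i)) ∧
      ∃ b : Basis (κ × Fin 2) F V, ⇑b = p := by
  refine orthFam_induct halt (fun κ _ p => ∀ k, ∃ e : F, ∀ i, x (p (k, i)) = e • p (k, i)) ?_ ?_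
  · intro p k
    exact k.elim
  · rintro κ _ p hp hpx ⟨u, hu0, hu⟩
    have hinv : ∀ u, (∀ s, B (p s) u = 0) → ∀ s, B (p s) (x u) = 0 := by
      intro u hu
      refine orthFam_inv hB one_ne_zero hx ?_ hu
      rintro ⟨k, i⟩
      obtain ⟨e, he⟩ := hpx k
      exact ⟨e, (k, i), he i⟩
    -- an eigenvector in the complement
    obtain ⟨v, e, hv0, hv, he, hxv⟩ : ∃ (v : V) (e : F), v ≠ 0 ∧ (∀ s, B (p s) v = 0) ∧ e * e = 1 ∧ x v = e • v := by
      by_cases h : u + x u = 0
      · refine ⟨u, -1, hu0, hu, by ring, ?_⟩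
        rw [neg_one_smul]
        exact eq_neg_of_add_eq_zero_right h
      · refine ⟨u + x u, 1, h, fun s => by rw [map_add, hu, hinv u hu, add_zero], by ring, ?_⟩
        rw [map_add, hx, one_smul, one_smul, add_comm]
    obtain ⟨w0, hw0⟩ : ∃ w, B v w ≠ 0 := by
      by_contra hcon
      push Not at hcon
      exact hv0 (hnd v hcon)
    obtain ⟨w, hw, hww⟩ := OrthFam.nondeg halt hp w0
    have e1 : B v w ≠ 0 := by rw [hww v hv]; exact hw0
    -- the e-part of w
    have e2 : B v (w + e • x w) ≠ 0 := by
      have h3 : B v (x w) = e * B v w := by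
        have h4 := hB v w
        rw [hxv, map_smul, LinearMap.smul_apply, smul_eq_mul] at h4
        calc B v (x w) = (e * e) * B v (x w) := by rw [he, one_mul]
          _ = e * (e * B v (x w)) := by ring
          _ = e * B v w := by rw [h4]
      rw [map_add, map_smul, smul_eq_mul, h3]
      have h5 : B v w + e * (e * B v w) = 2 * B v w := by linear_combination (B v w) * he
      rw [h5]
      exact mul_ne_zero h2 e1
    refine ⟨Option κ, inferInstance, _, OrthFam.add_one halt hp hv (w := w + e • x w) (fun s => by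
      rw [map_add, map_smul, hw, hinv w hw, smul_zero, add_zero]) e2, ?_, ?_⟩
    · rintro (_ | k)
      · refine ⟨e, fun i => ?_⟩
        fin_cases i
        · exact hxv
        · show x (w + e • x w) = e • (w + e • x w)
          rw [map_add, map_smul, hx, one_smul, smul_add, smul_smul, he, one_smul, add_comm]
      · exact hpx k
    · simp

/-- spans of labelled subfamilies are orthogonal when the labels make the vectors orthogonal -/
theorem labSpan_orth {B : LinearMap.BilinForm F V} {κ : Type*} {p : κ → V} {t : ℕ} {g : κ → Fin t} {j j' : Fin t}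
    (h : ∀ s s', g s = j → g s' = j' → B (p s) (p s') = 0) {u v : V} (hu : u ∈ labSpan (F := F) p g j)
    (hv : v ∈ labSpan (F := F) p g j') : B u v = 0 := by
  unfold labSpan at hu hv
  induction hu using Submodule.span_induction with
  | mem u hu =>
    obtain ⟨s, hs, rfl⟩ := hu
    induction hv using Submodule.span_induction with
    | mem v hv =>
      obtain ⟨s', hs', rfl⟩ := hv
      exact h s s' hs hs'
    | zero => exact map_zero _
    | add y z _ _ hy hz => rw [map_add, hy, hz, add_zero]
    | smul c y _ hy => rw [map_smul, hy, smul_zero]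
  | zero => rw [map_zero, LinearMap.zero_apply]
  | add y z _ _ hy hz => rw [map_add, LinearMap.add_apply, hy, hz, add_zero]
  | smul c y _ hy => rw [map_smul, LinearMap.smul_apply, hy, smul_zero]

end Cfsg.Agent.H12
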