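import Cfsg.Agent.H12.SimInv3

/-! Involutions of `PSL_n(q)` outside the symplectic similarities (helper12). -/

set_option autoImplicit false

namespace Cfsg.Agent.H12.SV

open Matrix Module Cfsg.Geo

theorem odd_part {n : ℕ} (hn : n ≠ 0) : ∃ m, Odd m ∧ n = 2 ^ padicValNat 2 n * m := by
  obtain ⟨k, m, hm, hk⟩ := Nat.exists_eq_two_pow_mul_odd hn
  refine ⟨m, hm, ?_⟩
  have hm0 : m ≠ 0 := by rintro rfl; simp at hm
  have : padicValNat 2 n = k := by
    rw [hk, padicValNat.mul (by positivity) hm0, padicValNat.prime_pow,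
      padicValNat.eq_zero_of_not_dvd (by rw [← even_iff_two_dvd, Nat.not_even_iff_odd]; exact hm), add_zero]
  rw [this]; exact hk

theorem exists_pow_neg {F : Type*} [Field F] [Fintype F] {q n : ℕ} (hq : Fintype.card F = q)
    (hn : n ≠ 0) (h : ¬ padicValNat 2 (q - 1) ≤ padicValNat 2 n) :
    (2 : F) ≠ 0 ∧ ∃ c : F, c ^ n = -1 := by
  have hq1 : 1 < q := by rw [← hq]; exact Fintype.one_lt_card
  push Not at h
  have hdvd : 2 ^ (padicValNat 2 n + 1) ∣ q - 1 := by
    rw [padicValNat_dvd_iff_le (by omega)]; omega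
  have h2 : (2 : F) ≠ 0 := by
    intro h2
    have h3 : ringChar F = 2 := by
      have h4 : ringChar F ∣ 2 := (ringChar.spec F 2).1 (by exact_mod_cast h2)
      rcases (Nat.dvd_prime Nat.prime_two).1 h4 with h5 | h5
      · exfalso
        have h6 : ((ringChar F : ℕ) : F) = 0 := ringChar.Nat.cast_ringChar
        rw [h5, Nat.cast_one] at h6
        exact one_ne_zero h6
      · exact h5
    have h7 := FiniteField.even_card_of_char_two h3
    rw [hq] at h7
    have h8 : 2 ∣ q - 1 := (dvd_pow_self 2 (Nat.succ_ne_zero _)).trans hdvd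
    omega
  refine ⟨h2, ?_⟩
  obtain ⟨g, hg⟩ := IsCyclic.exists_ofOrder_eq_natCard (α := Fˣ)
  rw [Nat.card_units, Nat.card_eq_fintype_card, hq] at hg
  have h9 : 2 ^ (padicValNat 2 n + 1) ∣ orderOf g := by rw [hg]; exact hdvd
  have hg0 : orderOf g ≠ 0 := by rw [hg]; omega
  have h10 := orderOf_pow_orderOf_div hg0 h9
  set c := g ^ (orderOf g / 2 ^ (padicValNat 2 n + 1)) with hc
  obtain ⟨m, hm, hnm⟩ := odd_part hn
  refine ⟨(c : F), ?_⟩
  have hw1 : c ^ 2 ^ padicValNat 2 n ≠ 1 := by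
    intro h11
    have h12 := orderOf_dvd_of_pow_eq_one h11
    rw [h10, Nat.pow_dvd_pow_iff_le_right (by norm_num)] at h12
    omega
  have hw2 : (c ^ 2 ^ padicValNat 2 n) ^ 2 = 1 := by
    rw [← pow_mul, ← pow_succ]
    exact orderOf_dvd_iff_pow_eq_one.1 (dvd_of_eq h10)
  have hw3 : ((c : F) ^ 2 ^ padicValNat 2 n) = -1 := by
    have h13 : ((c : F) ^ 2 ^ padicValNat 2 n) * ((c : F) ^ 2 ^ padicValNat 2 n) = 1 := by
      have := congrArg Units.val hw2
      rw [pow_two] at this
      simpa using this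
    rcases mul_self_eq_one_iff.1 h13 with h14 | h14
    · exfalso
      apply hw1
      apply Units.ext
      simpa using h14
    · exact h14
  have hnm' : (c : F) ^ n = (c : F) ^ (2 ^ padicValNat 2 n * m) := congrArg _ hnm
  rw [hnm', pow_mul, hw3, hm.neg_one_pow]

theorem not_pow_neg {F : Type*} [Field F] [Fintype F] {q n : ℕ} (hq : Fintype.card F = q)
    (hn : n ≠ 0) (h : padicValNat 2 (q - 1) ≤ padicValNat 2 n) (h2 : (2 : F) ≠ 0) (c : F) :
    c ^ n ≠ -1 := by
  intro hc
  have hq1 : 1 < q := by rw [← hq]; exact Fintype.one_lt_card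
  have hc0 : c ≠ 0 := by
    rintro rfl
    rw [zero_pow hn] at hc
    have : (1 : F) = 0 := by linear_combination hc
    exact one_ne_zero this
  obtain ⟨m, hm, hnm⟩ := odd_part hn
  have hne : (-1 : F) ≠ 1 := by
    intro h3; apply h2; linear_combination -h3
  have hw : (c ^ m) ^ 2 ^ padicValNat 2 n = -1 := by
    rw [← pow_mul, mul_comm m, ← hnm, hc]
  have hord : orderOf (c ^ m) = 2 ^ (padicValNat 2 n + 1) := by
    apply orderOf_eq_prime_pow
    · rw [hw]; exact hne
    · rw [pow_succ, pow_mul, hw]; norm_num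
  have hdvd : 2 ^ (padicValNat 2 n + 1) ∣ q - 1 := by
    rw [← hord, ← hq]
    exact orderOf_dvd_of_pow_eq_one (FiniteField.pow_card_sub_one_eq_one _ (pow_ne_zero _ hc0))
  rw [padicValNat_dvd_iff_le (by omega)] at hdvd
  omega

theorem not_sim {F : Type*} [Field F] {n : ℕ} (h2 : (2 : F) ≠ 0)
    {f : (Fin n → F) → (Fin n → F) → F} (hf : IsSymplecticForm f) {c : F} (hc : c ≠ 0)
    (X : Matrix.SpecialLinearGroup (Fin n) F) {i0 i1 i2 : Fin n} (h10 : i1 ≠ i0) (h20 : i2 ≠ i0)
    (h12 : i1 ≠ i2)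
    (hX : ∀ i, (X : Matrix (Fin n) (Fin n) F) *ᵥ (Pi.single i 1) =
      (if i = i0 then -c else c) • Pi.single i 1) :
    ¬ ∃ P : Matrix.SpecialLinearGroup (Fin n) F, P⁻¹ * X * P ∈ (similarityGroup f).comap
      (Matrix.SpecialLinearGroup.toGL : Matrix.SpecialLinearGroup (Fin n) F →* GL (Fin n) F) := by
  classical
  rintro ⟨P, hP⟩
  rw [Subgroup.mem_comap] at hP
  obtain ⟨μ, hμ⟩ := hP
  let Pi' : Matrix (Fin n) (Fin n) F := ((P⁻¹ : Matrix.SpecialLinearGroup (Fin n) F) : Matrix (Fin n) (Fin n) F)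
  have hPP : (P : Matrix (Fin n) (Fin n) F) * Pi' = 1 := by
    simp only [Pi']
    rw [← Matrix.SpecialLinearGroup.coe_mul, mul_inv_cancel]; rfl
  have hact : ∀ u, ((P⁻¹ * X * P : Matrix.SpecialLinearGroup (Fin n) F) : Matrix (Fin n) (Fin n) F) *ᵥ (Pi' *ᵥ u) =
      Pi' *ᵥ ((X : Matrix (Fin n) (Fin n) F) *ᵥ u) := by
    intro u
    rw [Matrix.SpecialLinearGroup.coe_mul, Matrix.SpecialLinearGroup.coe_mul, Matrix.mulVec_mulVec,
      mul_assoc, hPP, mul_one, ← Matrix.mulVec_mulVec]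
  let f' : (Fin n → F) → (Fin n → F) → F := fun u v => f (Pi' *ᵥ u) (Pi' *ᵥ v)
  have hf'X : ∀ u v, f' ((X : Matrix (Fin n) (Fin n) F) *ᵥ u) ((X : Matrix (Fin n) (Fin n) F) *ᵥ v) = (μ : F) * f' u v := by
    intro u v
    have h := hμ (Pi' *ᵥ u) (Pi' *ᵥ v)
    change f (((P⁻¹ * X * P : Matrix.SpecialLinearGroup (Fin n) F) : Matrix (Fin n) (Fin n) F) *ᵥ (Pi' *ᵥ u))
      (((P⁻¹ * X * P : Matrix.SpecialLinearGroup (Fin n) F) : Matrix (Fin n) (Fin n) F) *ᵥ (Pi' *ᵥ v)) = _ at h
    rw [hact, hact] at h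
    exact h
  have hf'sl : ∀ (a : F) u v, f' (a • u) v = a * f' u v := by
    intro a u v
    simp only [f', Matrix.mulVec_smul]; exact hf.bilinear.smul_left _ _ _
  have hf'sr : ∀ (a : F) u v, f' u (a • v) = a * f' u v := by
    intro a u v
    simp only [f', Matrix.mulVec_smul]; exact hf.bilinear.smul_right _ _ _
  have hf'al : ∀ u u' v, f' (u + u') v = f' u v + f' u' v := by
    intro u u' v
    simp only [f', Matrix.mulVec_add]; exact hf.bilinear.add_left _ _ _
  have hf'ar : ∀ u v v', f' u (v + v') = f' u v + f' u v' := by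
    intro u v v'
    simp only [f', Matrix.mulVec_add]; exact hf.bilinear.add_right _ _ _
  -- radical
  have hrad : ∀ u, (∀ j, f' u (Pi.single j 1) = 0) → u = 0 := by
    intro u hu
    by_contra hu0
    have h1 : Pi' *ᵥ u ≠ 0 := by
      intro h
      apply hu0
      have h2 : (P : Matrix (Fin n) (Fin n) F) *ᵥ (Pi' *ᵥ u) = 0 := by rw [h, Matrix.mulVec_zero]
      rwa [Matrix.mulVec_mulVec, hPP, Matrix.one_mulVec] at h2
    obtain ⟨w, hw⟩ := (hf.nondegenerate _ h1).2
    apply hw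
    have h3 : w = Pi' *ᵥ ((P : Matrix (Fin n) (Fin n) F) *ᵥ w) := by
      rw [Matrix.mulVec_mulVec]
      simp only [Pi']
      rw [← Matrix.SpecialLinearGroup.coe_mul, inv_mul_cancel, Matrix.SpecialLinearGroup.coe_one,
        Matrix.one_mulVec]
    have h4 : ∀ v, f' u v = 0 := by
      intro v
      let φ : (Fin n → F) →ₗ[F] F :=
        { toFun := fun v => f' u v
          map_add' := fun a b => hf'ar u a b
          map_smul' := fun a b => hf'sr a u b }
      have h5 : φ = 0 := by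
        apply (Pi.basisFun F (Fin n)).ext
        intro j
        rw [Pi.basisFun_apply]
        exact hu j
      exact LinearMap.congr_fun h5 v
    rw [h3]
    exact h4 _
  have hsingle : ∀ j : Fin n, (Pi.single j (1 : F) : Fin n → F) ≠ 0 := by
    intro j h
    have := congrFun h j
    simp at this
  have hc2 : c ^ 2 ≠ 0 := pow_ne_zero 2 hc
  by_cases hmu : (μ : F) = c ^ 2
  · apply hsingle i0
    apply hrad
    intro j
    by_cases hj : j = i0
    · subst hj; exact hf.alternating _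
    · have h := hf'X (Pi.single i0 1) (Pi.single j 1)
      rw [hX, hX, if_pos rfl, if_neg hj, hf'sl, hf'sr, hmu] at h
      have h6 : 2 * c ^ 2 * f' (Pi.single i0 1) (Pi.single j 1) = 0 := by linear_combination -h
      exact (mul_eq_zero.1 h6).resolve_left (mul_ne_zero h2 hc2)
  · have hzero : ∀ i j, i ≠ i0 → j ≠ i0 → f' (Pi.single i 1) (Pi.single j 1) = 0 := by
      intro i j hi hj
      have h := hf'X (Pi.single i 1) (Pi.single j 1)
      rw [hX, hX, if_neg hi, if_neg hj, hf'sl, hf'sr] at h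
      have h6 : ((μ : F) - c ^ 2) * f' (Pi.single i 1) (Pi.single j 1) = 0 := by linear_combination -h
      exact (mul_eq_zero.1 h6).resolve_left (sub_ne_zero.2 hmu)
    have hu := hrad (f' (Pi.single i2 1) (Pi.single i0 1) • (Pi.single i1 1 : Fin n → F) +
      (-f' (Pi.single i1 1) (Pi.single i0 1)) • (Pi.single i2 1 : Fin n → F)) (by
        intro j
        rw [hf'al, hf'sl, hf'sl]
        by_cases hj : j = i0
        · subst hj; ring
        · rw [hzero _ _ h10 hj, hzero _ _ h20 hj]; ring)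
    have h7 := congrFun hu i2
    simp [Pi.single_apply, h12, h12.symm] at h7
    apply hsingle i1
    apply hrad
    intro j
    by_cases hj : j = i0
    · subst hj; exact h7
    · exact hzero _ _ h10 hj

end Cfsg.Agent.H12.SV
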