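import Cfsg.Agent.H12.Sing1
import Cfsg.Prelude.Def_GeometricClasses

/-! Normalizer of a Singer field subalgebra (helper12). -/

set_option autoImplicit false

namespace Cfsg.Agent.H12.SG

open Matrix Polynomial Module Cfsg.Geo

variable {F : Type*} [Field F] {n : ℕ} [NeZero n]

/-- abstract version -/
theorem exists_s_aux {E : Type*} [Field E] [Fintype F] [Finite E] [Algebra F E]
    (φ : E →ₐ[F] Matrix (Fin n) (Fin n) F) (hE : finrank F E = n) :
    ∃ s : GL (Fin n) F, (∀ k : E, (s : Matrix (Fin n) (Fin n) F) * φ k =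
      φ (k ^ Fintype.card F) * s) ∧
      ∃ g : GL (Fin n) F, (s : Matrix (Fin n) (Fin n) F) * g = g * shiftM F n := by
  classical
  let v : Fin n → F := Pi.single 0 1
  have hv : v ≠ 0 := by
    intro h
    have := congrFun h 0
    simp [v] at this
  have hfd : FiniteDimensional F E := Module.finite_of_finrank_pos (by rw [hE]; exact NeZero.pos n)
  let L0 : E →ₗ[F] (Fin n → F) :=
    { toFun := fun k => φ k *ᵥ v
      map_add' := by intro a b; rw [map_add, Matrix.add_mulVec]
      map_smul' := by intro a b; rw [map_smul, Matrix.smul_mulVec]; rfl }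
  have hinj : Function.Injective L0 := by
    rw [← LinearMap.ker_eq_bot, LinearMap.ker_eq_bot']
    intro k hk
    by_contra hk0
    apply hv
    have h1 : φ k⁻¹ *ᵥ (φ k *ᵥ v) = 0 := by
      have : φ k *ᵥ v = 0 := hk
      rw [this, Matrix.mulVec_zero]
    rw [Matrix.mulVec_mulVec, ← map_mul, inv_mul_cancel₀ hk0, map_one, Matrix.one_mulVec] at h1
    exact h1
  let L : E ≃ₗ[F] (Fin n → F) := LinearEquiv.ofInjectiveOfFinrankEq L0 hinj (by
    rw [hE, Module.finrank_fin_fun])
  have hL : ∀ k, L k = φ k *ᵥ v := fun k => rfl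
  let T : (Fin n → F) →ₗ[F] (Fin n → F) :=
    L.conjAlgEquiv F ((FiniteField.frobeniusAlgHom F E).toLinearMap)
  have hT : ∀ k, T (L k) = L (k ^ Fintype.card F) := by
    intro k
    simp only [T, LinearEquiv.conjAlgEquiv_apply, LinearMap.comp_apply, LinearEquiv.coe_coe,
      LinearEquiv.symm_apply_apply]
    rfl
  let x : Matrix (Fin n) (Fin n) F := LinearMap.toMatrix' T
  have hmin : minpoly F x = X ^ n - 1 := by
    rw [LinearMap.minpoly_toMatrix', minpoly.algEquiv_eq, FiniteField.minpoly_frobeniusAlgHom, hE]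
  have hxn : x ^ n = 1 := by
    have := minpoly.aeval F x
    rw [hmin] at this
    simpa [sub_eq_zero] using this
  have hdeg : (minpoly F x).natDegree = n := by
    rw [hmin]; exact Polynomial.natDegree_X_pow_sub_C (r := (1 : F))
  obtain ⟨w, hw⟩ := exists_cyc hdeg
  have hxu : IsUnit x := IsUnit.of_pow_eq_one hxn (NeZero.ne n)
  obtain ⟨s, hs⟩ := hxu
  refine ⟨s, ?_, ?_⟩
  · intro k
    rw [hs]
    apply Matrix.toLin'.injective
    apply LinearMap.ext
    intro u
    obtain ⟨m, rfl⟩ := L.surjective u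
    rw [Matrix.toLin'_mul, Matrix.toLin'_mul]
    simp only [LinearMap.comp_apply, x, Matrix.toLin'_toMatrix']
    have h1 : ∀ a b : E, (Matrix.toLin' (φ a)) (L b) = L (a * b) := by
      intro a b
      rw [Matrix.toLin'_apply, hL, hL, Matrix.mulVec_mulVec, ← map_mul]
    rw [h1, hT, hT, h1, mul_pow]
  · rw [hs]
    exact conj_shiftM hw hxn

theorem fs_isDomain {K : Subalgebra F (Matrix (Fin n) (Fin n) F)} {r : ℕ}
    (hK : IsFieldSubalgebra r K) : IsDomain K := by
  have h1 : Nontrivial K := by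
    refine ⟨0, 1, ?_⟩
    intro h
    have h2 : (0 : Matrix (Fin n) (Fin n) F) = 1 := congrArg Subtype.val h
    have := congrFun (congrFun h2 0) 0
    simp at this
  have h2 : NoZeroDivisors K := by
    refine ⟨?_⟩
    intro a b hab
    by_contra hcon
    push Not at hcon
    obtain ⟨y, hy, hay⟩ := hK.inv a.1 a.2 (fun h => hcon.1 (Subtype.ext h))
    apply hcon.2
    apply Subtype.ext
    have h3 : a.1 * b.1 = 0 := congrArg Subtype.val hab
    calc b.1 = (y * a.1) * b.1 := by rw [hK.comm y hy a.1 a.2, hay, one_mul]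
      _ = 0 := by rw [mul_assoc, h3, mul_zero]
  exact NoZeroDivisors.to_isDomain K

theorem exists_s [Fintype F] {K : Subalgebra F (Matrix (Fin n) (Fin n) F)}
    (hK : IsFieldSubalgebra n K) :
    ∃ s : GL (Fin n) F, s ∈ subalgebraNormalizer K ∧
      ∃ g : GL (Fin n) F, (s : Matrix (Fin n) (Fin n) F) * g = g * shiftM F n := by
  classical
  haveI hdom : IsDomain K := fs_isDomain hK
  letI : CommRing K := { (inferInstance : Ring K) with
    mul_comm := fun a b => Subtype.ext (hK.comm a.1 a.2 b.1 b.2) }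
  letI : Field K := Field.ofIsUnitOrEqZero (by
    intro a
    by_cases ha : a = 0
    · exact Or.inr ha
    · left
      obtain ⟨y, hy, hay⟩ := hK.inv a.1 a.2 (fun h => ha (Subtype.ext h))
      exact IsUnit.of_mul_eq_one ⟨y, hy⟩ (Subtype.ext hay))
  obtain ⟨s, h1, h2⟩ := exists_s_aux (E := K) K.val hK.finrank_eq
  refine ⟨s, ?_, h2⟩
  have h3 : ∀ k : K, (s : Matrix (Fin n) (Fin n) F) * k.1 * ((s⁻¹ : GL (Fin n) F) : Matrix (Fin n) (Fin n) F) =
      k.1 ^ Fintype.card F := by
    intro k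
    have h4 : (s : Matrix (Fin n) (Fin n) F) * k.1 = k.1 ^ Fintype.card F * s := h1 k
    rw [h4, mul_assoc, show (s : Matrix (Fin n) (Fin n) F) * ((s⁻¹ : GL (Fin n) F) : Matrix (Fin n) (Fin n) F) = 1
      from s.mul_inv, mul_one]
  intro k
  constructor
  · intro hk
    rw [h3 ⟨k, hk⟩]
    exact K.pow_mem hk _
  · intro hk
    have hsurj : Function.Surjective (FiniteField.frobeniusAlgHom F K) :=
      Finite.surjective_of_injective (RingHom.injective _)
    obtain ⟨m, hm⟩ := hsurj ⟨_, hk⟩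
    have h5 : m.1 ^ Fintype.card F = (s : Matrix (Fin n) (Fin n) F) * k * ((s⁻¹ : GL (Fin n) F) : Matrix (Fin n) (Fin n) F) :=
      congrArg Subtype.val hm
    rw [← h3 m] at h5
    have h6 : m.1 = k := by
      have h7 : ((s⁻¹ : GL (Fin n) F) : Matrix (Fin n) (Fin n) F) * s = 1 := s.inv_mul
      have h8 := congrArg (fun z => ((s⁻¹ : GL (Fin n) F) : Matrix (Fin n) (Fin n) F) * z * s) h5
      calc m.1 = (((s⁻¹ : GL (Fin n) F) : Matrix (Fin n) (Fin n) F) * s) * m.1 *
          (((s⁻¹ : GL (Fin n) F) : Matrix (Fin n) (Fin n) F) * s) := by rw [h7, one_mul, mul_one]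
        _ = ((s⁻¹ : GL (Fin n) F) : Matrix (Fin n) (Fin n) F) * ((s : Matrix (Fin n) (Fin n) F) * m.1 *
          ((s⁻¹ : GL (Fin n) F) : Matrix (Fin n) (Fin n) F)) * s := by simp only [mul_assoc]
        _ = ((s⁻¹ : GL (Fin n) F) : Matrix (Fin n) (Fin n) F) * ((s : Matrix (Fin n) (Fin n) F) * k *
          ((s⁻¹ : GL (Fin n) F) : Matrix (Fin n) (Fin n) F)) * s := h8
        _ = (((s⁻¹ : GL (Fin n) F) : Matrix (Fin n) (Fin n) F) * s) * k *
          (((s⁻¹ : GL (Fin n) F) : Matrix (Fin n) (Fin n) F) * s) := by simp only [mul_assoc]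
        _ = k := by rw [h7, one_mul, mul_one]
    rw [← h6]; exact m.2

/-- eigenspaces of nonscalar elements of the normalizer are at most one-dimensional -/
theorem eig_one {K : Subalgebra F (Matrix (Fin n) (Fin n) F)} (hn : n.Prime)
    (hK : IsFieldSubalgebra n K) {x : GL (Fin n) F} (hx : x ∈ subalgebraNormalizer K) {l : F}
    {v w : Fin n → F} (hv : v ≠ 0) (hxv : (x : Matrix (Fin n) (Fin n) F) *ᵥ v = l • v)
    (hxw : (x : Matrix (Fin n) (Fin n) F) *ᵥ w = l • w) :
    (∃ c : F, (x : Matrix (Fin n) (Fin n) F) = c • 1) ∨ ∃ c : F, w = c • v := by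
  haveI hdom : IsDomain K := fs_isDomain hK
  have hfd : FiniteDimensional F K := inferInstance
  let L0 : K →ₗ[F] (Fin n → F) :=
    { toFun := fun k => k.1 *ᵥ v
      map_add' := by intro a b; exact Matrix.add_mulVec _ _ _
      map_smul' := by intro a b; exact Matrix.smul_mulVec _ _ _ }
  have hker : ∀ k ∈ K, k *ᵥ v = 0 → k = 0 := by
    intro k hk hkv
    by_contra hk0
    obtain ⟨y, hy, hay⟩ := hK.inv k hk hk0
    apply hv
    have h1 : y *ᵥ (k *ᵥ v) = 0 := by rw [hkv, Matrix.mulVec_zero]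
    rwa [Matrix.mulVec_mulVec, hK.comm y hy k hk, hay, Matrix.one_mulVec] at h1
  have hinj : Function.Injective L0 := by
    rw [← LinearMap.ker_eq_bot, LinearMap.ker_eq_bot']
    intro k hk
    exact Subtype.ext (hker k.1 k.2 hk)
  have hsurj : Function.Surjective L0 :=
    (LinearMap.injective_iff_surjective_of_finrank_eq_finrank (by
      rw [hK.finrank_eq, Module.finrank_fin_fun])).1 hinj
  have hl : l ≠ 0 := by
    rintro rfl
    rw [zero_smul] at hxv
    apply hv
    have h1 : ((x⁻¹ : GL (Fin n) F) : Matrix (Fin n) (Fin n) F) *ᵥ ((x : Matrix (Fin n) (Fin n) F) *ᵥ v) = 0 := by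
      rw [hxv, Matrix.mulVec_zero]
    rwa [Matrix.mulVec_mulVec, show ((x⁻¹ : GL (Fin n) F) : Matrix (Fin n) (Fin n) F) *
      (x : Matrix (Fin n) (Fin n) F) = 1 from x.inv_mul, Matrix.one_mulVec] at h1
  obtain ⟨k, hk⟩ := hsurj w
  have hkw : k.1 *ᵥ v = w := hk
  let K0 : Subalgebra F K := (Subalgebra.centralizer F {(x : Matrix (Fin n) (Fin n) F)}).comap K.val
  have hmem : ∀ m : K, m ∈ K0 ↔ (x : Matrix (Fin n) (Fin n) F) * m.1 = m.1 * x := by
    intro m
    simp only [K0, Subalgebra.mem_comap, Subalgebra.mem_centralizer_iff, Set.mem_singleton_iff,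
      forall_eq]
    rfl
  have hkK0 : k ∈ K0 := by
    rw [hmem]
    have h1 : (x : Matrix (Fin n) (Fin n) F) * k.1 * ((x⁻¹ : GL (Fin n) F) : Matrix (Fin n) (Fin n) F) ∈ K :=
      (hx k.1).1 k.2
    have hxi : ((x⁻¹ : GL (Fin n) F) : Matrix (Fin n) (Fin n) F) * (x : Matrix (Fin n) (Fin n) F) = 1 := x.inv_mul
    have h2 : ((x : Matrix (Fin n) (Fin n) F) * k.1 * ((x⁻¹ : GL (Fin n) F) : Matrix (Fin n) (Fin n) F) - k.1) *ᵥ v = 0 := by
      have h3 : l • (((x : Matrix (Fin n) (Fin n) F) * k.1 *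
          ((x⁻¹ : GL (Fin n) F) : Matrix (Fin n) (Fin n) F)) *ᵥ v) = l • (k.1 *ᵥ v) := by
        rw [← Matrix.mulVec_smul, ← hxv, Matrix.mulVec_mulVec, mul_assoc, hxi, mul_one,
          ← Matrix.mulVec_mulVec, hkw, hxw]
      rw [Matrix.sub_mulVec, sub_eq_zero]
      exact smul_right_injective _ hl h3
    have h4 := hker _ (K.sub_mem h1 k.2) h2
    rw [sub_eq_zero] at h4
    calc (x : Matrix (Fin n) (Fin n) F) * k.1 = (x : Matrix (Fin n) (Fin n) F) * k.1 *
        (((x⁻¹ : GL (Fin n) F) : Matrix (Fin n) (Fin n) F) * (x : Matrix (Fin n) (Fin n) F)) := by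
          rw [hxi, mul_one]
      _ = k.1 * x := by rw [← mul_assoc, h4]
  have hsim : IsSimpleOrder (Subalgebra F K) :=
    Subalgebra.isSimpleOrder_of_finrank_prime F K (by rw [hK.finrank_eq]; exact hn)
  rcases hsim.eq_bot_or_eq_top K0 with h | h
  · right
    rw [h, Algebra.mem_bot] at hkK0
    obtain ⟨c, hc⟩ := hkK0
    refine ⟨c, ?_⟩
    rw [← hkw, ← hc]
    change (algebraMap F (Matrix (Fin n) (Fin n) F) c) *ᵥ v = c • v
    rw [Algebra.algebraMap_eq_smul_one, Matrix.smul_mulVec, Matrix.one_mulVec]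
  · left
    refine ⟨l, ?_⟩
    apply Matrix.toLin'.injective
    apply LinearMap.ext
    intro u
    obtain ⟨m, rfl⟩ := hsurj u
    have h1 : m ∈ K0 := by rw [h]; trivial
    rw [hmem] at h1
    rw [Matrix.toLin'_apply, Matrix.toLin'_apply]
    change (x : Matrix (Fin n) (Fin n) F) *ᵥ (m.1 *ᵥ v) = (l • (1 : Matrix (Fin n) (Fin n) F)) *ᵥ (m.1 *ᵥ v)
    rw [Matrix.mulVec_mulVec, h1, ← Matrix.mulVec_mulVec, hxv, Matrix.mulVec_smul,
      Matrix.smul_mulVec, Matrix.one_mulVec]

end Cfsg.Agent.H12.SG
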