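import Cfsg.Agent.H12.SimInv3
import Cfsg.Agent.H12.SimInv4
import Cfsg.Agent.H12.Sing2

/-! Normalizers of quadratic field subalgebras (helper12). -/

set_option autoImplicit false

namespace Cfsg.Agent.H12.QE

open Matrix Module Cfsg.Geo

variable {F : Type*} [Field F] {n : ℕ}

theorem exists_gen {K : Subalgebra F (Matrix (Fin n) (Fin n) F)} (hK : IsFieldSubalgebra 2 K) :
    ∃ k ∈ K, ∀ c : F, k ≠ c • (1 : Matrix (Fin n) (Fin n) F) := by
  by_contra h
  push Not at h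
  have h1 : K = ⊥ := by
    rw [eq_bot_iff]
    intro k hk
    obtain ⟨c, hc⟩ := h k hk
    rw [Algebra.mem_bot]
    exact ⟨c, by rw [hc, Algebra.algebraMap_eq_smul_one]⟩
  have h2 := hK.finrank_eq
  rw [h1] at h2
  have h3 : finrank F (⊥ : Subalgebra F (Matrix (Fin n) (Fin n) F)) ≤ 1 := by
    by_cases hne : Nontrivial (Matrix (Fin n) (Fin n) F)
    · rw [Subalgebra.finrank_bot]
    · rw [not_nontrivial_iff_subsingleton] at hne
      have : Subsingleton (⊥ : Subalgebra F (Matrix (Fin n) (Fin n) F)) := inferInstance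
      rw [Module.finrank_zero_of_subsingleton]
      exact Nat.zero_le _
  omega

/-- an element with a large eigenspace is not conjugate into the normalizer -/
theorem not_norm (hn : 4 ≤ n) {K : Subalgebra F (Matrix (Fin n) (Fin n) F)}
    (hK : IsFieldSubalgebra 2 K) {X : Matrix.SpecialLinearGroup (Fin n) F}
    (hns : ∀ z : F, (X : Matrix (Fin n) (Fin n) F) ≠ z • (1 : Matrix (Fin n) (Fin n) F))
    {c : F} (hc : c ≠ 0) (i0 : Fin n)
    (hX : ∀ u : Fin n → F, u i0 = 0 → (X : Matrix (Fin n) (Fin n) F) *ᵥ u = c • u) :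
    ¬ ∃ P : Matrix.SpecialLinearGroup (Fin n) F, P⁻¹ * X * P ∈ (subalgebraNormalizer K).comap
      (Matrix.SpecialLinearGroup.toGL : Matrix.SpecialLinearGroup (Fin n) F →* GL (Fin n) F) := by
  rintro ⟨P, hP⟩
  rw [Subgroup.mem_comap] at hP
  set Y : Matrix.SpecialLinearGroup (Fin n) F := P⁻¹ * X * P with hY
  have hPP : (P : Matrix (Fin n) (Fin n) F) * ((P⁻¹ : Matrix.SpecialLinearGroup (Fin n) F) : Matrix (Fin n) (Fin n) F) = 1 := by
    rw [← Matrix.SpecialLinearGroup.coe_mul, mul_inv_cancel]; rfl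
  have hPP' : ((P⁻¹ : Matrix.SpecialLinearGroup (Fin n) F) : Matrix (Fin n) (Fin n) F) * (P : Matrix (Fin n) (Fin n) F) = 1 := by
    rw [← Matrix.SpecialLinearGroup.coe_mul, inv_mul_cancel]; rfl
  let φ : (Fin n → F) →ₗ[F] F := (LinearMap.proj i0) ∘ₗ Matrix.toLin' (P : Matrix (Fin n) (Fin n) F)
  have hφ : ∀ v, φ v = ((P : Matrix (Fin n) (Fin n) F) *ᵥ v) i0 := fun v => rfl
  have hYv : ∀ v, φ v = 0 → (Y : Matrix (Fin n) (Fin n) F) *ᵥ v = c • v := by
    intro v hv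
    rw [hY, Matrix.SpecialLinearGroup.coe_mul, Matrix.SpecialLinearGroup.coe_mul, ← Matrix.mulVec_mulVec,
      ← Matrix.mulVec_mulVec, hX _ hv, Matrix.mulVec_smul, Matrix.mulVec_mulVec, hPP', Matrix.one_mulVec]
  have hYns : ∀ z : F, (Y : Matrix (Fin n) (Fin n) F) ≠ z • (1 : Matrix (Fin n) (Fin n) F) := by
    intro z hz
    apply hns z
    have h1 : (X : Matrix (Fin n) (Fin n) F) = (P : Matrix (Fin n) (Fin n) F) * (Y : Matrix (Fin n) (Fin n) F) *
        ((P⁻¹ : Matrix.SpecialLinearGroup (Fin n) F) : Matrix (Fin n) (Fin n) F) := by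
      have h0 : P * Y * P⁻¹ = X := by
        rw [hY]; group
      rw [← Matrix.SpecialLinearGroup.coe_mul, ← Matrix.SpecialLinearGroup.coe_mul, h0]
    rw [h1, hz, Matrix.mul_smul, mul_one, Matrix.smul_mul, hPP]
  have hYY : ((Y⁻¹ : Matrix.SpecialLinearGroup (Fin n) F) : Matrix (Fin n) (Fin n) F) * (Y : Matrix (Fin n) (Fin n) F) = 1 := by
    rw [← Matrix.SpecialLinearGroup.coe_mul, inv_mul_cancel]; rfl
  have hYin : (((Matrix.SpecialLinearGroup.toGL Y)⁻¹ : GL (Fin n) F) : Matrix (Fin n) (Fin n) F) =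
      ((Y⁻¹ : Matrix.SpecialLinearGroup (Fin n) F) : Matrix (Fin n) (Fin n) F) := by
    rw [← map_inv]; rfl
  have hfinV : finrank F (Fin n → F) = n := Module.finrank_fin_fun F
  -- Y commutes with K
  have hcomm : ∀ k ∈ K, (Y : Matrix (Fin n) (Fin n) F) * k = k * Y := by
    intro k hk
    have h1 : (Y : Matrix (Fin n) (Fin n) F) * k * ((Y⁻¹ : Matrix.SpecialLinearGroup (Fin n) F) : Matrix (Fin n) (Fin n) F) ∈ K := by
      have := (hP k).1 hk
      rw [hYin] at this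
      exact this
    obtain ⟨v, hv, hv0⟩ : ∃ v ∈ LinearMap.ker (φ.prod (φ ∘ₗ Matrix.toLin' k)), v ≠ 0 := by
      apply Submodule.exists_mem_ne_zero_of_ne_bot
      apply LinearMap.ker_ne_bot_of_finrank_lt
      rw [hfinV, Module.finrank_prod, Module.finrank_self]
      omega
    rw [LinearMap.mem_ker] at hv
    have hv1 : φ v = 0 := congrArg Prod.fst hv
    have hv2' : φ (k *ᵥ v) = 0 := congrArg Prod.snd hv
    have h3 := hYv _ hv1
    have h4 := hYv _ hv2'
    have h5 : ((Y : Matrix (Fin n) (Fin n) F) * k * ((Y⁻¹ : Matrix.SpecialLinearGroup (Fin n) F) : Matrix (Fin n) (Fin n) F) - k) *ᵥ v = 0 := by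
      have h6 : c • (((Y : Matrix (Fin n) (Fin n) F) * k *
          ((Y⁻¹ : Matrix.SpecialLinearGroup (Fin n) F) : Matrix (Fin n) (Fin n) F)) *ᵥ v) = c • (k *ᵥ v) := by
        rw [← Matrix.mulVec_smul, ← h3, Matrix.mulVec_mulVec, mul_assoc, hYY, mul_one,
          ← Matrix.mulVec_mulVec, h4]
      rw [Matrix.sub_mulVec, sub_eq_zero]
      exact smul_right_injective _ hc h6
    have h7 : (Y : Matrix (Fin n) (Fin n) F) * k * ((Y⁻¹ : Matrix.SpecialLinearGroup (Fin n) F) : Matrix (Fin n) (Fin n) F) - k = 0 := by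
      by_contra h8
      obtain ⟨y, hy, hay⟩ := hK.inv _ (K.sub_mem h1 hk) h8
      apply hv0
      have h9 : y *ᵥ (((Y : Matrix (Fin n) (Fin n) F) * k * ((Y⁻¹ : Matrix.SpecialLinearGroup (Fin n) F) : Matrix (Fin n) (Fin n) F) - k) *ᵥ v) = 0 := by
        rw [h5, Matrix.mulVec_zero]
      rwa [Matrix.mulVec_mulVec, hK.comm y hy _ (K.sub_mem h1 hk), hay, Matrix.one_mulVec] at h9
    rw [sub_eq_zero] at h7
    calc (Y : Matrix (Fin n) (Fin n) F) * k = (Y : Matrix (Fin n) (Fin n) F) * k *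
        (((Y⁻¹ : Matrix.SpecialLinearGroup (Fin n) F) : Matrix (Fin n) (Fin n) F) * (Y : Matrix (Fin n) (Fin n) F)) := by
          rw [hYY, mul_one]
      _ = k * Y := by rw [← mul_assoc, h7]
  -- the eigenspace is the hyperplane
  have hE : ∀ v, (Y : Matrix (Fin n) (Fin n) F) *ᵥ v = c • v → φ v = 0 := by
    intro v hv
    by_contra hφv
    apply hYns c
    apply Matrix.toLin'.injective
    apply LinearMap.ext
    intro u
    rw [Matrix.toLin'_apply, Matrix.toLin'_apply, Matrix.smul_mulVec, Matrix.one_mulVec]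
    have h1 : φ (u - (φ u / φ v) • v) = 0 := by
      rw [map_sub, map_smul, smul_eq_mul, div_mul_cancel₀ _ hφv, sub_self]
    have h2 := hYv _ h1
    have h3 : u = (u - (φ u / φ v) • v) + (φ u / φ v) • v := by abel
    rw [h3, Matrix.mulVec_add, h2, Matrix.mulVec_smul, hv, smul_add, smul_comm]
  obtain ⟨k, hk, hkF⟩ := exists_gen hK
  have hstab : ∀ k' ∈ K, ∀ v, φ v = 0 → φ (k' *ᵥ v) = 0 := by
    intro k' hk' v hv
    apply hE
    rw [Matrix.mulVec_mulVec, hcomm k' hk', ← Matrix.mulVec_mulVec, hYv v hv, Matrix.mulVec_smul]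
  -- a vector outside
  obtain ⟨u, hu⟩ : ∃ u, φ u ≠ 0 := by
    refine ⟨((P⁻¹ : Matrix.SpecialLinearGroup (Fin n) F) : Matrix (Fin n) (Fin n) F) *ᵥ (Pi.single i0 1), ?_⟩
    rw [hφ, Matrix.mulVec_mulVec, hPP, Matrix.one_mulVec]
    simp
  let l := φ (k *ᵥ u) / φ u
  have h1 : φ ((k - l • 1) *ᵥ u) = 0 := by
    rw [Matrix.sub_mulVec, map_sub, Matrix.smul_mulVec, Matrix.one_mulVec, map_smul, smul_eq_mul]
    simp only [l]
    rw [div_mul_cancel₀ _ hu, sub_self]
  have h2 : k - l • (1 : Matrix (Fin n) (Fin n) F) ∈ K := K.sub_mem hk (K.smul_mem K.one_mem l)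
  obtain ⟨y, hy, hay⟩ := hK.inv _ h2 (sub_ne_zero.2 (hkF l))
  apply hu
  have h3 := hstab y hy _ h1
  rwa [Matrix.mulVec_mulVec, hK.comm y hy _ h2, hay, Matrix.one_mulVec] at h3

end Cfsg.Agent.H12.QE
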