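import Cfsg.Agent.H12.QExt1

/-! Quadratic field subalgebras in odd characteristic (helper12). -/

set_option autoImplicit false

namespace Cfsg.Agent.H12.QE

open Matrix Module Cfsg.Geo

variable {F : Type*} [Field F] {n : ℕ}

theorem gen_span {K : Subalgebra F (Matrix (Fin n) (Fin n) F)} (hK : IsFieldSubalgebra 2 K)
    {k : Matrix (Fin n) (Fin n) F} (hk : k ∈ K)
    (hkF : ∀ c : F, k ≠ c • (1 : Matrix (Fin n) (Fin n) F)) (m : Matrix (Fin n) (Fin n) F)
    (hm : m ∈ K) : ∃ α β : F, m = α • 1 + β • k := by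
  have hli : LinearIndependent F ![(1 : Matrix (Fin n) (Fin n) F), k] := by
    rw [LinearIndependent.pair_iff]
    intro s t hst
    have ht : t = 0 := by
      by_contra ht
      apply hkF (-s / t)
      have h1 : t • k = (-s) • (1 : Matrix (Fin n) (Fin n) F) := by
        rw [neg_smul]; exact eq_neg_of_add_eq_zero_right hst
      calc k = t⁻¹ • (t • k) := by rw [smul_smul, inv_mul_cancel₀ ht, one_smul]
        _ = _ := by rw [h1, smul_smul]; congr 1; ring
    refine ⟨?_, ht⟩
    rw [ht, zero_smul, add_zero] at hst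
    by_contra hs
    apply hkF 0
    have h1 : (1 : Matrix (Fin n) (Fin n) F) = 0 := (smul_eq_zero.1 hst).resolve_left hs
    rw [zero_smul, ← mul_one k, h1, mul_zero]
  have h1 : Submodule.span F (Set.range ![(1 : Matrix (Fin n) (Fin n) F), k]) =
      Subalgebra.toSubmodule K := by
    apply Submodule.eq_of_le_of_finrank_eq
    · rw [Submodule.span_le]
      rintro _ ⟨i, rfl⟩
      fin_cases i
      · exact K.one_mem
      · exact hk
    · rw [finrank_span_eq_card hli, Fintype.card_fin]
      exact hK.finrank_eq.symm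
  have h2 : m ∈ Submodule.span F (Set.range ![(1 : Matrix (Fin n) (Fin n) F), k]) := by
    rw [h1]; exact hm
  rw [Matrix.range_cons, Matrix.range_cons, Matrix.range_empty, Set.union_empty,
    Set.singleton_union, Submodule.mem_span_pair] at h2
  obtain ⟨α, β, h3⟩ := h2
  exact ⟨α, β, h3.symm⟩

theorem sqrt_gen (h2 : (2 : F) ≠ 0) {K : Subalgebra F (Matrix (Fin n) (Fin n) F)}
    (hK : IsFieldSubalgebra 2 K) :
    ∃ w ∈ K, ∃ ν : F, ¬ IsSquare ν ∧ w * w = ν • 1 ∧ ∀ m ∈ K, ∃ α β : F, m = α • 1 + β • w := by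
  obtain ⟨k, hk, hkF⟩ := exists_gen hK
  obtain ⟨s, t, hst⟩ := gen_span hK hk hkF (k * k) (K.mul_mem hk hk)
  let w := k - (t / 2) • (1 : Matrix (Fin n) (Fin n) F)
  have hw : w ∈ K := K.sub_mem hk (K.smul_mem K.one_mem _)
  have hwF : ∀ c : F, w ≠ c • (1 : Matrix (Fin n) (Fin n) F) := by
    intro c hc
    apply hkF (c + t / 2)
    rw [add_smul, ← hc]
    simp only [w]
    abel
  have hww : w * w = (s + t ^ 2 / 4) • (1 : Matrix (Fin n) (Fin n) F) := by
    have h4 : (4 : F) ≠ 0 := by
      intro h; apply h2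
      have : (2 : F) ^ 2 = 0 := by rw [← h]; norm_num
      exact pow_eq_zero_iff two_ne_zero |>.1 this
    simp only [w, sub_mul, mul_sub, hst, Matrix.mul_smul, Matrix.smul_mul, mul_one, one_mul, smul_smul]
    have h5 : t / 2 * (t / 2) = t ^ 2 / 4 := by field_simp; norm_num
    have h6 : t = t / 2 + t / 2 := by field_simp; ring
    rw [h5, add_smul]
    nth_rewrite 1 [h6]
    rw [add_smul]
    abel
  refine ⟨w, hw, s + t ^ 2 / 4, ?_, hww, gen_span hK hw hwF⟩
  rintro ⟨r, hr⟩
  have h7 : (w - r • 1) * (w + r • 1) = 0 := by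
    rw [sub_mul, mul_add, mul_add, hww, hr]
    simp only [Matrix.mul_smul, Matrix.smul_mul, mul_one, one_mul, smul_smul]
    abel
  have h8 : w - r • 1 ≠ 0 := sub_ne_zero.2 (hwF r)
  obtain ⟨y, hy, hay⟩ := hK.inv _ (K.sub_mem hw (K.smul_mem K.one_mem r)) h8
  have h9 : w + r • 1 = 0 := by
    have h10 := congrArg (fun z => y * z) h7
    rw [← mul_assoc, hK.comm y hy _ (K.sub_mem hw (K.smul_mem K.one_mem r)), hay, one_mul, mul_zero] at h10
    exact h10
  apply hwF (-r)
  rw [neg_smul]; exact eq_neg_of_add_eq_zero_left h9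

/-- normal form for nonsquare scalar squares -/
theorem norm_form {V : Type*} [AddCommGroup V] [Module F V] [FiniteDimensional F V]
    (x : V →ₗ[F] V) {ν : F} (hν : ¬ IsSquare ν) (hx : ∀ v, x (x v) = ν • v) :
    ∃ (κ : Type) (_ : Fintype κ) (c : Basis (Fin 2 × κ) F V), (∀ k, x (c (0, k)) = c (1, k)) ∧
      (∀ k, x (c (1, k)) = ν • c (0, k)) := by
  classical
  have hν0 : ν ≠ 0 := by rintro rfl; exact hν ⟨0, by ring⟩
  obtain ⟨κ0, i0, b, π, hπ, hco⟩ := mono_basis _ rfl x ν hν0 hx
  choose co hco using hco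
  have hcc : ∀ k, co k * co (π k) = ν := by
    intro k
    have h1 := hx (b k)
    rw [hco, map_smul, hco, hπ, smul_smul] at h1
    have h2 := congrArg (fun v => b.repr v k) h1
    simpa using h2
  have hfix : ∀ k, π k ≠ k := by
    intro k hk
    apply hν
    have := hcc k
    rw [hk] at this
    exact ⟨co k, this.symm⟩
  obtain ⟨κ, i1, i2, e, he⟩ := SV.pairing (fun k => ({k, π k} : Finset κ0)) (by
    intro l
    by_cases hex : ∃ k, ({k, π k} : Finset κ0) = l
    · obtain ⟨k, hk⟩ := hex
      have h2 : Fintype.card {m // ({m, π m} : Finset κ0) = l} = ({k, π k} : Finset κ0).card := by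
        rw [Fintype.card_subtype]
        congr 1
        ext m
        simp only [Finset.mem_filter, Finset.mem_univ, true_and, Finset.mem_insert, Finset.mem_singleton]
        constructor
        · intro hm
          have h3 : m ∈ ({k, π k} : Finset κ0) := by rw [hk, ← hm]; simp
          simpa using h3
        · rintro (rfl | rfl)
          · exact hk
          · rw [← hk, hπ]; exact Finset.pair_comm _ _
      rw [h2, Finset.card_pair (fun h => hfix k h.symm)]
      exact even_two
    · have : IsEmpty {k // ({k, π k} : Finset κ0) = l} := ⟨fun k => hex ⟨k.1, k.2⟩⟩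
      rw [Fintype.card_eq_zero]; simp)
  have hne : ∀ k, e (0, k) ≠ e (1, k) := by
    intro k h
    have := e.injective h
    rw [Prod.mk.injEq] at this
    exact absurd this.1 (by decide)
  have hpe : ∀ k, π (e (0, k)) = e (1, k) := by
    intro k
    have h3 : e (1, k) ∈ ({e (0, k), π (e (0, k))} : Finset κ0) := by
      rw [show ({e (0, k), π (e (0, k))} : Finset κ0) = {e (1, k), π (e (1, k))} from he k]; simp
    rw [Finset.mem_insert, Finset.mem_singleton] at h3
    rcases h3 with h3 | h3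
    · exact absurd h3.symm (hne k)
    · exact h3.symm
  have hco0 : ∀ k, co k ≠ 0 := by
    intro k h
    have := hcc k
    rw [h, zero_mul] at this
    exact hν0 this.symm
  let u : Fin 2 × κ → Fˣ := fun s => if s.1 = 0 then 1 else Units.mk0 (co (e (0, s.2))) (hco0 _)
  let c := (b.reindex e.symm).unitsSMul u
  have hc0 : ∀ k, c (0, k) = b (e (0, k)) := by
    intro k; simp [c, u, Basis.unitsSMul_apply]
  have hc1 : ∀ k, c (1, k) = co (e (0, k)) • b (e (1, k)) := by
    intro k
    simp only [c, Basis.unitsSMul_apply, Basis.reindex_apply, Equiv.symm_symm, u]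
    rw [if_neg (by decide)]
    rfl
  refine ⟨κ, i1, c, ?_, ?_⟩
  · intro k
    rw [hc0, hc1, hco, hpe]
  · intro k
    rw [hc0, hc1, ← hpe k, map_smul, hco, hπ, smul_smul, hcc]

theorem conj_sqrt {w w' : Matrix (Fin n) (Fin n) F} {ν : F} (hν : ¬ IsSquare ν)
    (hw : w * w = ν • 1) (hw' : w' * w' = ν • 1) : ∃ g : GL (Fin n) F,
      w * (g : Matrix (Fin n) (Fin n) F) = g * w' := by
  classical
  have key : ∀ w : Matrix (Fin n) (Fin n) F, w * w = ν • 1 → ∀ v, Matrix.toLin' w (Matrix.toLin' w v) = ν • v := by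
    intro w hw v
    rw [Matrix.toLin'_apply, Matrix.toLin'_apply, Matrix.mulVec_mulVec, hw, Matrix.smul_mulVec,
      Matrix.one_mulVec]
  obtain ⟨κ, i1, c, hc0, hc1⟩ := norm_form (Matrix.toLin' w) hν (key w hw)
  obtain ⟨κ', i1', c', hc0', hc1'⟩ := norm_form (Matrix.toLin' w') hν (key w' hw')
  have hcard : Fintype.card κ' = Fintype.card κ := by
    have h1 := Module.finrank_eq_card_basis c
    have h2 := Module.finrank_eq_card_basis c'
    rw [Fintype.card_prod, Fintype.card_fin] at h1 h2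
    omega
  let e : κ' ≃ κ := Fintype.equivOfCardEq hcard
  let g : (Fin n → F) ≃ₗ[F] (Fin n → F) := c'.equiv c (Equiv.prodCongr (Equiv.refl _) e)
  have hg : ∀ j k, g (c' (j, k)) = c (j, e k) := by
    intro j k; simp [g, Basis.equiv_apply]
  have hcomm : Matrix.toLin' w ∘ₗ g.toLinearMap = g.toLinearMap ∘ₗ Matrix.toLin' w' := by
    apply c'.ext
    rintro ⟨j, k⟩
    simp only [LinearMap.comp_apply, LinearEquiv.coe_coe]
    rw [hg]
    fin_cases j
    · change Matrix.toLin' w (c (0, e k)) = g (Matrix.toLin' w' (c' (0, k)))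
      rw [hc0, hc0', hg]
    · change Matrix.toLin' w (c (1, e k)) = g (Matrix.toLin' w' (c' (1, k)))
      rw [hc1, hc1', map_smul, hg]
  let G : Matrix (Fin n) (Fin n) F := LinearMap.toMatrix' g.toLinearMap
  have hG : IsUnit G := by
    rw [Matrix.isUnit_iff_isUnit_det, LinearMap.det_toMatrix']
    exact g.isUnit_det'
  obtain ⟨g', hg'⟩ := hG
  refine ⟨g', ?_⟩
  rw [hg']
  apply Matrix.toLin'.injective
  rw [Matrix.toLin'_mul, Matrix.toLin'_mul]
  simp only [G, Matrix.toLin'_toMatrix']
  exact hcomm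

theorem exists_D {X : Matrix (Fin n) (Fin n) F} {κ : Type} [Fintype κ] [DecidableEq κ]
    (c : Basis (Fin 2 × κ) F (Fin n → F)) (M : κ → Matrix (Fin 2) (Fin 2) F)
    (hX : Matrix.toLin' X = Matrix.toLin c c (Matrix.blockDiagonal M)) (k0 : κ) {t : F}
    (hN : ∃ N : Matrix (Fin 2) (Fin 2) F, N * M k0 = M k0 * N ∧ N.det = t) :
    ∃ D : Matrix (Fin n) (Fin n) F, D * X = X * D ∧ D.det = t := by
  classical
  obtain ⟨N, hN1, hN2⟩ := hN
  let N' : κ → Matrix (Fin 2) (Fin 2) F := Function.update (fun _ => 1) k0 N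
  let D := Matrix.toLin c c (Matrix.blockDiagonal N')
  refine ⟨LinearMap.toMatrix' D, ?_, ?_⟩
  · apply Matrix.toLin'.injective
    rw [Matrix.toLin'_mul, Matrix.toLin'_mul, Matrix.toLin'_toMatrix', hX]
    simp only [D]
    rw [← Matrix.toLin_mul, ← Matrix.toLin_mul, ← Matrix.blockDiagonal_mul, ← Matrix.blockDiagonal_mul]
    congr 2
    funext k
    by_cases hk : k = k0
    · subst hk; simp [N', hN1]
    · simp [N', Function.update_of_ne hk]
  · rw [LinearMap.det_toMatrix']
    simp only [D]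
    rw [LinearMap.det_toLin, Matrix.det_blockDiagonal, ← hN2, Finset.prod_eq_single k0]
    · simp [N']
    · intro l _ hl
      simp [N', Function.update_of_ne hl]
    · intro h; exact absurd (Finset.mem_univ _) h

end Cfsg.Agent.H12.QE
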