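import Cfsg.Agent.H12.QExt2
import Mathlib.NumberTheory.LegendreSymbol.QuadraticChar.Basic

/-! Involutions and quadratic field subalgebras (helper12). -/

set_option autoImplicit false

namespace Cfsg.Agent.H12.QE

open Matrix Module Cfsg.Geo

variable {F : Type*} [Field F] {n : ℕ}

theorem nonsq_ratio [Fintype F] {a b : F} (ha : ¬ IsSquare a) (hb : ¬ IsSquare b) :
    ∃ s : F, s ≠ 0 ∧ a = b * s ^ 2 := by
  classical
  have ha0 : a ≠ 0 := by rintro rfl; exact ha ⟨0, by ring⟩
  have hb0 : b ≠ 0 := by rintro rfl; exact hb ⟨0, by ring⟩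
  have h1 := (quadraticChar_neg_one_iff_not_isSquare (F := F)).2 ha
  have h2 := (quadraticChar_neg_one_iff_not_isSquare (F := F)).2 hb
  have h3 : quadraticChar F (a * b) = 1 := by rw [map_mul, h1, h2]; norm_num
  rw [quadraticChar_one_iff_isSquare (mul_ne_zero ha0 hb0)] at h3
  obtain ⟨r, hr⟩ := h3
  have hr0 : r ≠ 0 := by
    rintro rfl
    exact mul_ne_zero ha0 hb0 (by rw [hr]; ring)
  refine ⟨r / b, div_ne_zero hr0 hb0, ?_⟩
  field_simp
  linear_combination hr

theorem mem_norm_of_comm {K : Subalgebra F (Matrix (Fin n) (Fin n) F)} {g : GL (Fin n) F}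
    (h : ∀ k ∈ K, (g : Matrix (Fin n) (Fin n) F) * k = k * g) : g ∈ subalgebraNormalizer K := by
  have h1 : (g : Matrix (Fin n) (Fin n) F) * ((g⁻¹ : GL (Fin n) F) : Matrix (Fin n) (Fin n) F) = 1 := g.mul_inv
  have h1' : ((g⁻¹ : GL (Fin n) F) : Matrix (Fin n) (Fin n) F) * (g : Matrix (Fin n) (Fin n) F) = 1 := g.inv_mul
  intro k
  constructor
  · intro hk
    rw [h k hk, mul_assoc, h1, mul_one]; exact hk
  · intro hk
    have h2 := h _ hk
    have h3 : (g : Matrix (Fin n) (Fin n) F) * k * ((g⁻¹ : GL (Fin n) F) : Matrix (Fin n) (Fin n) F) = k := by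
      have h4 : (g : Matrix (Fin n) (Fin n) F) * k * ((g⁻¹ : GL (Fin n) F) : Matrix (Fin n) (Fin n) F) * g = g * k := by
        rw [mul_assoc, h1', mul_one]
      rw [h4] at h2
      have h5 := congrArg (fun z => ((g⁻¹ : GL (Fin n) F) : Matrix (Fin n) (Fin n) F) * z) h2
      simp only [← mul_assoc, h1', one_mul] at h5
      exact h5
    rw [h3] at hk; exact hk

/-- diagonal case with explicit scalar blocks -/
theorem diag_case' {V : Type*} [AddCommGroup V] [Module F V] {κ0 : Type} [Fintype κ0] [DecidableEq κ0]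
    (b : Basis κ0 F V) (x : V →ₗ[F] V) (lab : κ0 → Bool) (ε : Bool → F)
    (hx : ∀ k, x (b k) = ε (lab k) • b k)
    (heven : ∀ l, Even (Fintype.card {k // lab k = l})) :
    ∃ (κ : Type) (_ : Fintype κ) (_ : DecidableEq κ) (c : Basis (Fin 2 × κ) F V)
      (m : κ → F), x = Matrix.toLin c c (Matrix.blockDiagonal (fun k => m k • (1 : Matrix (Fin 2) (Fin 2) F))) := by
  obtain ⟨κ, i1, i2, e, he⟩ := SV.pairing lab heven
  refine ⟨κ, i1, i2, b.reindex e.symm, fun k => (ε (lab (e (0, k)))), ?_⟩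
  apply SV.toLin_block
  intro j k
  simp only [Basis.reindex_apply, Equiv.symm_symm]
  rw [hx]
  fin_cases j
  · simp
  · simp [he]

theorem finish {K : Subalgebra F (Matrix (Fin n) (Fin n) F)} {w' : Matrix (Fin n) (Fin n) F} {ν : F}
    (hν : ¬ IsSquare ν) (hw' : w' * w' = ν • 1) (hspan : ∀ m ∈ K, ∃ α β : F, m = α • 1 + β • w')
    (X : Matrix.SpecialLinearGroup (Fin n) F) {w : Matrix (Fin n) (Fin n) F} (hw : w * w = ν • 1)
    (hwX : w * (X : Matrix (Fin n) (Fin n) F) = (X : Matrix (Fin n) (Fin n) F) * w)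
    (hD : ∀ t : F, t ≠ 0 → ∃ D : Matrix (Fin n) (Fin n) F,
      D * (X : Matrix (Fin n) (Fin n) F) = (X : Matrix (Fin n) (Fin n) F) * D ∧ D.det = t) :
    ∃ P : Matrix.SpecialLinearGroup (Fin n) F, P⁻¹ * X * P ∈ (subalgebraNormalizer K).comap
      (Matrix.SpecialLinearGroup.toGL : Matrix.SpecialLinearGroup (Fin n) F →* GL (Fin n) F) := by
  obtain ⟨g, hg⟩ := conj_sqrt hν hw hw'
  have hgd : ((g : Matrix (Fin n) (Fin n) F)).det ≠ 0 :=
    ((Matrix.isUnit_iff_isUnit_det _).1 g.isUnit).ne_zero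
  obtain ⟨D, hD1, hD2⟩ := hD _ (inv_ne_zero hgd)
  have hDu : IsUnit D := by
    rw [Matrix.isUnit_iff_isUnit_det, hD2]; exact (inv_ne_zero hgd).isUnit
  let P : Matrix.SpecialLinearGroup (Fin n) F := ⟨D * g, by
    rw [Matrix.det_mul, hD2, inv_mul_cancel₀ hgd]⟩
  refine ⟨P, ?_⟩
  rw [Subgroup.mem_comap]
  set Y := P⁻¹ * X * P with hY
  have hPY : P * Y = X * P := by rw [hY]; group
  have h1 : D * (g : Matrix (Fin n) (Fin n) F) * (Y : Matrix (Fin n) (Fin n) F) =
      (X : Matrix (Fin n) (Fin n) F) * (D * g) := by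
    have := congrArg (fun z : Matrix.SpecialLinearGroup (Fin n) F => (z : Matrix (Fin n) (Fin n) F)) hPY
    simpa using this
  have h2 : (g : Matrix (Fin n) (Fin n) F) * (Y : Matrix (Fin n) (Fin n) F) =
      (X : Matrix (Fin n) (Fin n) F) * g := by
    apply hDu.mul_left_cancel
    rw [← mul_assoc, h1, ← mul_assoc, ← hD1, mul_assoc]
  have h3 : (Y : Matrix (Fin n) (Fin n) F) * w' = w' * (Y : Matrix (Fin n) (Fin n) F) := by
    apply g.isUnit.mul_left_cancel
    calc (g : Matrix (Fin n) (Fin n) F) * ((Y : Matrix (Fin n) (Fin n) F) * w')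
        = (X : Matrix (Fin n) (Fin n) F) * (g * w') := by rw [← mul_assoc, h2, mul_assoc]
      _ = w * ((X : Matrix (Fin n) (Fin n) F) * g) := by rw [← hg, ← mul_assoc, ← hwX, mul_assoc]
      _ = g * (w' * (Y : Matrix (Fin n) (Fin n) F)) := by rw [← h2, ← mul_assoc, hg, mul_assoc]
  apply mem_norm_of_comm
  intro k hk
  obtain ⟨α, β, rfl⟩ := hspan k hk
  change (Y : Matrix (Fin n) (Fin n) F) * _ = _ * (Y : Matrix (Fin n) (Fin n) F)
  rw [mul_add, add_mul, Matrix.mul_smul, Matrix.smul_mul, Matrix.mul_smul, Matrix.smul_mul, mul_one,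
    one_mul, h3]

theorem qe_main [Fintype F] (hn : 0 < n) (he : Even n) (h2 : (2 : F) ≠ 0)
    (hc : ∀ c : F, c ^ n ≠ -1) {K : Subalgebra F (Matrix (Fin n) (Fin n) F)}
    (hK : IsFieldSubalgebra 2 K) (X : Matrix.SpecialLinearGroup (Fin n) F) {z : F}
    (hz : ((X ^ 2 : Matrix.SpecialLinearGroup (Fin n) F) : Matrix (Fin n) (Fin n) F) =
      z • (1 : Matrix (Fin n) (Fin n) F)) :
    ∃ P : Matrix.SpecialLinearGroup (Fin n) F, P⁻¹ * X * P ∈ (subalgebraNormalizer K).comap
      (Matrix.SpecialLinearGroup.toGL : Matrix.SpecialLinearGroup (Fin n) F →* GL (Fin n) F) := by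
  classical
  obtain ⟨w', hw'K, ν, hν, hw', hspan⟩ := sqrt_gen h2 hK
  have hne : Nonempty (Fin n) := ⟨⟨0, hn⟩⟩
  have hz0 : z ≠ 0 := by
    rintro rfl
    have h1 := (X ^ 2).2
    rw [show ((X ^ 2).val : Matrix (Fin n) (Fin n) F) = (0 : F) • 1 from hz, zero_smul,
      Matrix.det_zero] at h1
    exact zero_ne_one h1
  have hXX : (X : Matrix (Fin n) (Fin n) F) * (X : Matrix (Fin n) (Fin n) F) = z • 1 := by
    rw [← Matrix.SpecialLinearGroup.coe_mul, ← pow_two, hz]
  have hxx : ∀ v, Matrix.toLin' (X : Matrix (Fin n) (Fin n) F) (Matrix.toLin' (X : Matrix (Fin n) (Fin n) F) v) = z • v := by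
    intro v
    rw [Matrix.toLin'_apply, Matrix.toLin'_apply, Matrix.mulVec_mulVec, hXX, Matrix.smul_mulVec, Matrix.one_mulVec]
  have hfin : finrank F (Fin n → F) = n := Module.finrank_fin_fun F
  have hk0 : ∀ {κ : Type} (c : Basis (Fin 2 × κ) F (Fin n → F)), Nonempty κ := by
    intro κ c
    by_contra h
    rw [not_nonempty_iff] at h
    have : IsEmpty (Fin 2 × κ) := inferInstance
    haveI : Fintype (Fin 2 × κ) := Fintype.ofIsEmpty
    have h3 : finrank F (Fin n → F) = 0 := by
      rw [Module.finrank_eq_card_basis c]; exact Fintype.card_eq_zero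
    omega
  by_cases hsq : IsSquare z
  · obtain ⟨c0, hc0⟩ := hsq
    have hc00 : c0 ≠ 0 := by rintro rfl; apply hz0; rw [hc0]; ring
    obtain ⟨a, b, β, hl, hr, hdet, hab⟩ := SV.eigenbasis (Matrix.toLin' (X : Matrix (Fin n) (Fin n) F)) hc00 h2
      (by rw [← hc0]; exact hxx)
    rw [hfin] at hab
    have hb : Even b := by
      by_contra hb
      rw [Nat.not_even_iff_odd] at hb
      rw [LinearMap.det_toLin', X.2, hb.neg_pow, mul_neg, ← pow_add, hab] at hdet
      apply hc c0
      linear_combination hdet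
    have ha : Even a := by
      have h5 : Even (a + b) := by rw [hab]; exact he
      rw [Nat.even_add] at h5
      exact h5.2 hb
    obtain ⟨κ, i1, i2, c, m, hX⟩ := diag_case' β (Matrix.toLin' (X : Matrix (Fin n) (Fin n) F))
      (fun s => s.isLeft) (fun l => if l then c0 else -c0)
      (by
        rintro (i | i)
        · rw [hl]; simp
        · rw [hr]; simp)
      (by
        intro l
        cases l
        · have : Fintype.card {k : Fin a ⊕ Fin b // k.isLeft = false} = b := by
            rw [Fintype.card_subtype]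
            have h6 : (Finset.univ.filter (fun k : Fin a ⊕ Fin b => k.isLeft = false)) =
                Finset.univ.map ⟨Sum.inr, Sum.inr_injective⟩ := by
              ext k
              rcases k with k | k <;> simp
            rw [h6, Finset.card_map, Finset.card_univ, Fintype.card_fin]
          rw [this]; exact hb
        · have : Fintype.card {k : Fin a ⊕ Fin b // k.isLeft = true} = a := by
            rw [Fintype.card_subtype]
            have h6 : (Finset.univ.filter (fun k : Fin a ⊕ Fin b => k.isLeft = true)) =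
                Finset.univ.map ⟨Sum.inl, Sum.inl_injective⟩ := by
              ext k
              rcases k with k | k <;> simp
            rw [h6, Finset.card_map, Finset.card_univ, Fintype.card_fin]
          rw [this]; exact ha)
    obtain ⟨k0⟩ := hk0 c
    let W := Matrix.toLin c c (Matrix.blockDiagonal (fun _ : κ => (!![0, ν; 1, 0] : Matrix (Fin 2) (Fin 2) F)))
    apply finish hν hw' hspan X (w := LinearMap.toMatrix' W)
    · apply Matrix.toLin'.injective
      rw [Matrix.toLin'_mul, Matrix.toLin'_toMatrix']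
      simp only [W]
      rw [← Matrix.toLin_mul, ← Matrix.blockDiagonal_mul]
      have h7 : (fun _ : κ => (!![0, ν; 1, 0] : Matrix (Fin 2) (Fin 2) F) * !![0, ν; 1, 0]) =
          ν • (1 : κ → Matrix (Fin 2) (Fin 2) F) := by
        funext k
        ext i j
        fin_cases i <;> fin_cases j <;> simp [Matrix.mul_apply, Fin.sum_univ_two]
      rw [h7, Matrix.blockDiagonal_smul, Matrix.blockDiagonal_one, map_smul, map_smul, Matrix.toLin_one,
        Matrix.toLin'_one]
    · apply Matrix.toLin'.injective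
      rw [Matrix.toLin'_mul, Matrix.toLin'_mul, Matrix.toLin'_toMatrix', hX]
      simp only [W]
      rw [← Matrix.toLin_mul, ← Matrix.toLin_mul, ← Matrix.blockDiagonal_mul, ← Matrix.blockDiagonal_mul]
      congr 2
      funext k
      rw [Matrix.mul_smul, Matrix.smul_mul, mul_one, one_mul]
    · intro t _
      apply exists_D c _ hX k0
      refine ⟨!![t, 0; 0, 1], ?_, ?_⟩
      · rw [Matrix.mul_smul, Matrix.smul_mul, one_mul, mul_one]
      · simp [Matrix.det_fin_two_of]
  · obtain ⟨s, hs0, hs⟩ := nonsq_ratio hsq hν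
    apply finish hν hw' hspan X (w := s⁻¹ • (X : Matrix (Fin n) (Fin n) F))
    · rw [Matrix.smul_mul, Matrix.mul_smul, hXX, smul_smul, smul_smul]
      congr 1
      rw [hs]; field_simp
    · rw [Matrix.smul_mul, Matrix.mul_smul]
    · intro t ht
      obtain ⟨κ0, i0, b, π, hπ, hx⟩ := mono_basis n hfin (Matrix.toLin' (X : Matrix (Fin n) (Fin n) F)) z hz0 hxx
      choose co hco using hx
      have hfix : ∀ k, π k ≠ k := by
        intro k hk
        apply hsq
        have h1 := hxx (b k)
        rw [hco, map_smul, hco, hπ, hk, smul_smul] at h1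
        have h2 := congrArg (fun v => b.repr v k) h1
        refine ⟨co k, ?_⟩
        simpa using h2.symm
      have heven : Even (Fintype.card κ0) := by
        rw [← Module.finrank_eq_card_basis b, hfin]; exact he
      obtain ⟨κ, i1, i2, c, M, hX, hdet, hN⟩ := SV.mono_case b _ hz0 hxx π hπ co hco (Or.inl hfix) heven
      obtain ⟨k0⟩ := hk0 c
      exact exists_D c M hX k0 (hN k0 t ht)

end Cfsg.Agent.H12.QE
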