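import Cfsg.Agent.H12.QExt3
import Cfsg.Agent.H12.OddGr

/-! The two-dimensional case (helper12). -/

set_option autoImplicit false

namespace Cfsg.Agent.H12.QE

open Matrix Module Cfsg.Geo

variable {F : Type*} [Field F]

local notation "M₂" => Matrix (Fin 2) (Fin 2) F

theorem shift2 : SG.shiftM F 2 = !![0, 1; 1, 0] := by
  ext i j
  fin_cases i <;> fin_cases j <;> simp [SG.shiftM]

theorem tr_conj {s g : M₂} (hg : IsUnit g) {t : M₂} (h : s * g = g * t) : s.trace = t.trace ∧ s.det = t.det := by
  obtain ⟨g, rfl⟩ := hg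
  have h1 : (g : M₂) * ((g⁻¹ : GL (Fin 2) F) : M₂) = 1 := g.mul_inv
  have h1' : ((g⁻¹ : GL (Fin 2) F) : M₂) * (g : M₂) = 1 := g.inv_mul
  constructor
  · have h2 : s = (g : M₂) * t * ((g⁻¹ : GL (Fin 2) F) : M₂) := by
      rw [← h, mul_assoc, h1, mul_one]
    rw [h2, Matrix.trace_mul_comm, ← mul_assoc, h1', one_mul]
  · have h3 := congrArg Matrix.det h
    rw [Matrix.det_mul, Matrix.det_mul, mul_comm] at h3
    have hdet : ((g : M₂)).det ≠ 0 := ((Matrix.isUnit_iff_isUnit_det _).1 g.isUnit).ne_zero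
    exact mul_left_cancel₀ hdet h3

theorem exists_Y [Fintype F] {K : Subalgebra F M₂} (hK : IsFieldSubalgebra 2 K) :
    ∃ Y : Matrix.SpecialLinearGroup (Fin 2) F, Y ∈ (subalgebraNormalizer K).comap
      (Matrix.SpecialLinearGroup.toGL : Matrix.SpecialLinearGroup (Fin 2) F →* GL (Fin 2) F) ∧
      (Y : M₂).trace = 0 ∧ ¬ H16.IsScal (Y : M₂) := by
  obtain ⟨s, hsK, g, hg⟩ := SG.exists_s hK
  obtain ⟨htr, hdet⟩ := tr_conj g.isUnit hg
  rw [shift2] at htr hdet hg
  have htr0 : (s : M₂).trace = 0 := by rw [htr]; simp [Matrix.trace_fin_two_of]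
  have hdet1 : (s : M₂).det = -1 := by rw [hdet]; simp [Matrix.det_fin_two_of]
  -- s is not scalar
  have hsns : ∀ c : F, (s : M₂) ≠ c • 1 := by
    intro c hc
    rw [hc, Matrix.smul_mul, one_mul] at hg
    have h1 : ((g⁻¹ : GL (Fin 2) F) : M₂) * (g : M₂) = 1 := g.inv_mul
    have h2 := congrArg (fun z => ((g⁻¹ : GL (Fin 2) F) : M₂) * z) hg
    simp only [Matrix.mul_smul, ← mul_assoc, h1, one_mul] at h2
    have h3 := congrFun (congrFun h2 0) 1
    simp at h3
  by_cases h2 : (2 : F) = 0
  · have hd : (s : M₂).det = 1 := by rw [hdet1]; linear_combination -h2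
    let Y : Matrix.SpecialLinearGroup (Fin 2) F := ⟨s, hd⟩
    refine ⟨Y, ?_, htr0, ?_⟩
    · rw [Subgroup.mem_comap, show Matrix.SpecialLinearGroup.toGL Y = s from Units.ext rfl]
      exact hsK
    · intro h
      rw [H16.isScal_iff] at h
      obtain ⟨c, hc⟩ := h
      exact hsns c hc
  · obtain ⟨w, hwK, ν, hν, hw, hspan⟩ := sqrt_gen h2 hK
    have hs1 : (s : M₂) * ((s⁻¹ : GL (Fin 2) F) : M₂) = 1 := s.mul_inv
    have hs1' : ((s⁻¹ : GL (Fin 2) F) : M₂) * (s : M₂) = 1 := s.inv_mul
    -- s w = - w s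
    have hanti : (s : M₂) * w = -(w * s) := by
      have huK := (hsK w).1 hwK
      set u := (s : M₂) * w * ((s⁻¹ : GL (Fin 2) F) : M₂) with hu
      have huu : u * u = ν • 1 := by
        rw [hu]
        calc (s : M₂) * w * ((s⁻¹ : GL (Fin 2) F) : M₂) * ((s : M₂) * w * ((s⁻¹ : GL (Fin 2) F) : M₂))
            = (s : M₂) * w * (((s⁻¹ : GL (Fin 2) F) : M₂) * (s : M₂)) * w * ((s⁻¹ : GL (Fin 2) F) : M₂) := by
              simp only [mul_assoc]
          _ = (s : M₂) * (w * w) * ((s⁻¹ : GL (Fin 2) F) : M₂) := by rw [hs1', mul_one, mul_assoc (s : M₂)]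
          _ = ν • 1 := by rw [hw, Matrix.mul_smul, mul_one, Matrix.smul_mul, hs1]
      have hsw : (s : M₂) * w = u * s := by rw [hu, mul_assoc, hs1', mul_one]
      have hprod : (u - w) * (u + w) = 0 := by
        rw [sub_mul, mul_add, mul_add, huu, hw, hK.comm u huK w hwK]
        abel
      by_cases huw : u - w = 0
      · exfalso
        rw [sub_eq_zero] at huw
        rw [huw] at hsw
        -- eigenvector of s
        let v : Fin 2 → F := (g : M₂) *ᵥ ![1, 1]
        have hsv : (s : M₂) *ᵥ v = (1 : F) • v := by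
          simp only [v]
          rw [Matrix.mulVec_mulVec, hg, ← Matrix.mulVec_mulVec, one_smul]
          congr 1
          ext i; fin_cases i <;> simp [Matrix.mulVec, dotProduct, Fin.sum_univ_two]
        have hv : v ≠ 0 := by
          intro h
          have h1 : ((g⁻¹ : GL (Fin 2) F) : M₂) *ᵥ v = 0 := by rw [h, Matrix.mulVec_zero]
          simp only [v] at h1
          rw [Matrix.mulVec_mulVec, show ((g⁻¹ : GL (Fin 2) F) : M₂) * (g : M₂) = 1 from g.inv_mul,
            Matrix.one_mulVec] at h1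
          have := congrFun h1 0
          simp at this
        have hsw' : (s : M₂) *ᵥ (w *ᵥ v) = (1 : F) • (w *ᵥ v) := by
          rw [Matrix.mulVec_mulVec, hsw, ← Matrix.mulVec_mulVec, hsv, Matrix.mulVec_smul]
        rcases SG.eig_one Nat.prime_two hK hsK hv hsv hsw' with ⟨c, hc⟩ | ⟨c, hc⟩
        · exact hsns c hc
        · apply hν
          have h3 : w *ᵥ (w *ᵥ v) = ν • v := by
            rw [Matrix.mulVec_mulVec, hw, Matrix.smul_mulVec, Matrix.one_mulVec]
          rw [hc, Matrix.mulVec_smul, hc, smul_smul] at h3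
          refine ⟨c, ?_⟩
          have h4 : (c * c - ν) • v = 0 := by rw [sub_smul, h3, sub_self]
          have h5 := (smul_eq_zero.1 h4).resolve_right hv
          linear_combination -h5
      · obtain ⟨y, hy, hay⟩ := hK.inv _ (K.sub_mem huK hwK) huw
        have h10 : u + w = 0 := by
          have h11 := congrArg (fun z => y * z) hprod
          rw [← mul_assoc, hK.comm y hy _ (K.sub_mem huK hwK), hay, one_mul, mul_zero] at h11
          exact h11
        rw [hsw, eq_neg_of_add_eq_zero_left h10, neg_mul]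
    -- trace and determinant of w
    have hwtr : w.trace = 0 := by
      have h1 : (w * s * ((s⁻¹ : GL (Fin 2) F) : M₂)).trace = -(w.trace) := by
        rw [show w * (s : M₂) = -((s : M₂) * w) by rw [hanti, neg_neg], neg_mul, Matrix.trace_neg,
          Matrix.trace_mul_comm, ← mul_assoc, hs1', one_mul]
      rw [mul_assoc, hs1, mul_one] at h1
      have h3 : 2 * w.trace = 0 := by linear_combination h1
      exact (mul_eq_zero.1 h3).resolve_left h2
    have hwtr' : w 0 0 + w 1 1 = 0 := by rw [Matrix.trace_fin_two] at hwtr; exact hwtr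
    have hw00 : w 0 0 * w 0 0 + w 0 1 * w 1 0 = ν := by
      have := congrFun (congrFun hw 0) 0
      rw [Matrix.mul_apply, Fin.sum_univ_two] at this
      simpa using this
    obtain ⟨α, β, hαβ⟩ : ∃ α β : F, α ^ 2 - ν * β ^ 2 = -1 := by
      have h2F : ringChar F ≠ 2 := by
        intro h
        apply h2
        have : ((ringChar F : ℕ) : F) = 0 := ringChar.Nat.cast_ringChar
        rw [h] at this
        exact_mod_cast this
      have hν0 : ν ≠ 0 := by rintro rfl; exact hν ⟨0, by ring⟩
      have hodd := FiniteField.odd_card_of_char_ne_two h2F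
      obtain ⟨α, β, h⟩ := FiniteField.exists_root_sum_quadratic (R := F)
        (f := Polynomial.C 1 * Polynomial.X ^ 2 + Polynomial.C 0 * Polynomial.X + Polynomial.C 1)
        (g := Polynomial.C (-ν) * Polynomial.X ^ 2 + Polynomial.C 0 * Polynomial.X + Polynomial.C 0)
        (Polynomial.degree_quadratic one_ne_zero) (Polynomial.degree_quadratic (neg_ne_zero.2 hν0)) hodd
      refine ⟨α, β, ?_⟩
      simp only [Polynomial.eval_add, Polynomial.eval_mul, Polynomial.eval_C, Polynomial.eval_pow,
        Polynomial.eval_X] at h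
      linear_combination h
    let k : M₂ := α • 1 + β • w
    have hkK : k ∈ K := K.add_mem (K.smul_mem K.one_mem _) (K.smul_mem hwK _)
    have hkdet : k.det = -1 := by
      simp only [k, Matrix.det_fin_two, Matrix.add_apply, Matrix.smul_apply, smul_eq_mul,
        Matrix.one_apply_eq, Matrix.one_apply_ne (show (0 : Fin 2) ≠ 1 by decide),
        Matrix.one_apply_ne (show (1 : Fin 2) ≠ 0 by decide)]
      linear_combination hαβ + (α * β + β ^ 2 * w 0 0) * hwtr' - β ^ 2 * hw00
    have hdY : ((s : M₂) * k).det = 1 := by rw [Matrix.det_mul, hdet1, hkdet]; ring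
    let Y : Matrix.SpecialLinearGroup (Fin 2) F := ⟨(s : M₂) * k, hdY⟩
    have hswtr : ((s : M₂) * w).trace = 0 := by
      have h1 : ((s : M₂) * w).trace = -((s : M₂) * w).trace := by
        conv_lhs => rw [hanti, Matrix.trace_neg, Matrix.trace_mul_comm]
      have h3 : 2 * ((s : M₂) * w).trace = 0 := by linear_combination h1
      exact (mul_eq_zero.1 h3).resolve_left h2
    refine ⟨Y, ?_, ?_, ?_⟩
    · rw [Subgroup.mem_comap]
      have hku : IsUnit k := by
        rw [Matrix.isUnit_iff_isUnit_det, hkdet]; exact isUnit_one.neg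
      obtain ⟨k', hk'⟩ := hku
      have h1 : Matrix.SpecialLinearGroup.toGL Y = s * k' := by
        apply Units.ext
        change (s : M₂) * k = (s : M₂) * (k' : M₂)
        rw [hk']
      rw [h1]
      apply Subgroup.mul_mem _ hsK
      apply mem_norm_of_comm
      intro m hm
      rw [hk']; exact hK.comm k hkK m hm
    · change ((s : M₂) * k).trace = 0
      simp only [k]
      rw [mul_add, Matrix.mul_smul, Matrix.mul_smul, mul_one, Matrix.trace_add, Matrix.trace_smul,
        Matrix.trace_smul, htr0, hswtr]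
      simp
    · intro h
      rw [H16.isScal_iff] at h
      obtain ⟨c, hc⟩ := h
      have hc' : (s : M₂) * k = c • 1 := hc
      have h1 : (s : M₂) * k * w = -(w * ((s : M₂) * k)) := by
        rw [mul_assoc, hK.comm k hkK w hwK, ← mul_assoc, hanti, neg_mul, mul_assoc]
      rw [hc', Matrix.smul_mul, one_mul, Matrix.mul_smul, mul_one] at h1
      have h3 : (2 * c) • w = 0 := by
        rw [two_mul, add_smul]
        nth_rewrite 1 [h1]
        rw [neg_add_cancel]
      have hw0 : w ≠ 0 := by
        rintro rfl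
        apply hν
        have := congrFun (congrFun hw 0) 0
        refine ⟨0, ?_⟩
        simpa using this.symm
      have h4 := (smul_eq_zero.1 h3).resolve_right hw0
      have h5 : c = 0 := (mul_eq_zero.1 h4).resolve_left h2
      rw [h5, zero_smul] at hc'
      rw [hc', Matrix.det_zero] at hdY
      exact zero_ne_one hdY

theorem qe_two [Fintype F] {K : Subalgebra F M₂} (hK : IsFieldSubalgebra 2 K)
    (X : Matrix.SpecialLinearGroup (Fin 2) F) {z : F}
    (hz : ((X ^ 2 : Matrix.SpecialLinearGroup (Fin 2) F) : M₂) = z • (1 : M₂))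
    (hns : ∀ z : F, (X : M₂) ≠ z • (1 : M₂)) :
    ∃ P : Matrix.SpecialLinearGroup (Fin 2) F, P⁻¹ * X * P ∈ (subalgebraNormalizer K).comap
      (Matrix.SpecialLinearGroup.toGL : Matrix.SpecialLinearGroup (Fin 2) F →* GL (Fin 2) F) := by
  obtain ⟨Y, hY, hYt, hYs⟩ := exists_Y hK
  have hXs : ¬ H16.IsScal (X : M₂) := by
    intro h
    rw [H16.isScal_iff] at h
    obtain ⟨c, hc⟩ := h
    exact hns c hc
  have hXt : (X : M₂).trace = 0 := by
    by_contra ht
    rw [pow_two, Matrix.SpecialLinearGroup.coe_mul, H16.sl_sq, sub_eq_iff_eq_add] at hz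
    apply hns ((X : M₂).trace⁻¹ * (z + 1))
    calc (X : M₂) = (X : M₂).trace⁻¹ • ((X : M₂).trace • (X : M₂)) := by
          rw [smul_smul, inv_mul_cancel₀ ht, one_smul]
      _ = _ := by
          rw [hz, mul_smul, add_smul, one_smul]
  obtain ⟨c, hc⟩ := isConj_iff.1 (OG.conj_inv hXt hXs hYt hYs)
  refine ⟨c⁻¹, ?_⟩
  rw [inv_inv, hc]
  exact hY

end Cfsg.Agent.H12.QE
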