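import Mathlib
import Cfsg.Prelude.Def_GeometricClasses
import Cfsg.Agent.H12.Transv
import Cfsg.Agent.H12.Irred
import Cfsg.Agent.H12.ReflForm

/-!
Non-degenerate quadratic forms `Q : (ι → F) → F` given as functions (`Geo.IsNondegenerateQuadraticForm`),
odd characteristic: singular vectors, Eichler transformations.
-/

set_option autoImplicit false
set_option linter.unusedSectionVars false

open scoped MatrixGroups Matrix

namespace Cfsg.Agent.H12

variable {ι : Type} [Fintype ι] [DecidableEq ι] {F : Type*} [Field F]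

section quad

variable {Q : (ι → F) → F}

local notation "bf" => QuadraticMap.polar Q

lemma q_add (Q : (ι → F) → F) (x y : ι → F) : Q (x + y) = Q x + Q y + QuadraticMap.polar Q x y := by
  simp only [QuadraticMap.polar]; ring

lemma q_zero (hQ : Geo.IsNondegenerateQuadraticForm Q) : Q 0 = 0 := by
  have := hQ.smul 0 0
  simpa using this

lemma q_neg (hQ : Geo.IsNondegenerateQuadraticForm Q) (x : ι → F) : Q (-x) = Q x := by
  have := hQ.smul (-1) x
  simpa using this

lemma polar_self (hQ : Geo.IsNondegenerateQuadraticForm Q) (x : ι → F) : bf x x = 2 * Q x := by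
  have h1 : Q (x + x) = 4 * Q x := by
    have := hQ.smul 2 x
    rw [two_smul] at this
    rw [this]; ring
  simp only [QuadraticMap.polar]
  rw [h1]; ring

lemma polar_symm (x y : ι → F) : bf x y = bf y x := QuadraticMap.polar_comm _ _ _

/-- adjusting to a singular vector -/
lemma sing_adj (hQ : Geo.IsNondegenerateQuadraticForm Q) {e x : ι → F} (he : Q e = 0) (hx : bf x e ≠ 0) :
    Q (x + (- Q x / bf x e) • e) = 0 := by
  have h := reflForm_of_quad hQ
  rw [q_add Q, hQ.smul, he, h.smul_right]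
  simp only [RingEquiv.refl_apply]
  field_simp
  ring

/-- singular vectors exist in every subspace of dimension at least 3 over a finite field of odd order. -/
lemma sing_in [Fintype F] (hQ : Geo.IsNondegenerateQuadraticForm Q) (hodd : Odd (Fintype.card F))
    (Y : Submodule F (ι → F)) (hY : 3 ≤ Module.finrank F Y) : ∃ z ∈ Y, z ≠ 0 ∧ Q z = 0 := by
  classical
  have h := reflForm_of_quad hQ
  have hYne : Y ≠ ⊥ := by
    rintro rfl
    rw [finrank_bot] at hY
    omega
  obtain ⟨x, hxY, hx0⟩ := (Submodule.ne_bot_iff Y).mp hYne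
  by_cases hxx : Q x = 0
  · exact ⟨x, hxY, hx0, hxx⟩
  have h1 := ReflForm.finrank_inf_ker (h.lin x) Y
  set Y1 : Submodule F (ι → F) := Y ⊓ LinearMap.ker (h.lin x) with hY1
  have h2 : Y1 ≠ ⊥ := by
    intro h3
    rw [h3, finrank_bot] at h1
    omega
  obtain ⟨y, hyY, hy0⟩ := (Submodule.ne_bot_iff _).mp h2
  have hyx : bf y x = 0 := hyY.2
  by_cases hyy : Q y = 0
  · exact ⟨y, hyY.1, hy0, hyy⟩
  have h3 := ReflForm.finrank_inf_ker (h.lin y) Y1
  have h4 : (Y1 ⊓ LinearMap.ker (h.lin y) : Submodule F (ι → F)) ≠ ⊥ := by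
    intro h5
    rw [h5, finrank_bot] at h3
    omega
  obtain ⟨z, hzY, hz0⟩ := (Submodule.ne_bot_iff _).mp h4
  have hzx : bf z x = 0 := hzY.1.2
  have hzy : bf z y = 0 := hzY.2
  by_cases hzz : Q z = 0
  · exact ⟨z, hzY.1.1, hz0, hzz⟩
  -- solve Q x * a^2 + Q y * b^2 + Q z = 0
  obtain ⟨a, b, hab⟩ := FiniteField.exists_root_sum_quadratic
    (f := Polynomial.C (Q x) * Polynomial.X ^ 2) (g := Polynomial.C (Q y) * Polynomial.X ^ 2 + Polynomial.C (Q z))
    (by rw [Polynomial.degree_C_mul_X_pow 2 hxx]; rfl)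
    (by
      rw [Polynomial.degree_add_C]
      · rw [Polynomial.degree_C_mul_X_pow 2 hyy]; rfl
      · rw [Polynomial.degree_C_mul_X_pow 2 hyy]; norm_num)
    (Nat.odd_iff.mp hodd)
  simp only [Polynomial.eval_mul, Polynomial.eval_C, Polynomial.eval_pow, Polynomial.eval_X,
    Polynomial.eval_add] at hab
  refine ⟨a • x + b • y + z, Y.add_mem (Y.add_mem (Y.smul_mem _ hxY) (Y.smul_mem _ hyY.1)) hzY.1.1, ?_, ?_⟩
  · intro h0
    have h5 : bf (a • x + b • y + z) z = 0 := by rw [h0, h.zero_left]
    rw [h.add_left, h.add_left, h.smul_left, h.smul_left, polar_symm x z, hzx, polar_symm y z, hzy,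
      polar_self hQ] at h5
    have h6 : (2 : F) ≠ 0 := by
      intro h7
      have : ringChar F = 2 := by
        apply CharP.ringChar_of_prime_eq_zero Nat.prime_two
        exact_mod_cast h7
      have h8 := FiniteField.even_card_of_char_two this
      rw [Nat.odd_iff] at hodd
      omega
    have : 2 * Q z = 0 := by linear_combination h5
    rcases mul_eq_zero.mp this with h7 | h7
    · exact h6 h7
    · exact hzz h7
  · rw [q_add Q, q_add Q, hQ.smul, hQ.smul, h.smul_left, h.smul_right, h.add_left, h.smul_left, h.smul_left,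
      polar_symm x z, hzx, polar_symm y z, hzy, polar_symm x y, hyx]
    linear_combination hab

/-- a subspace of singular vectors is totally isotropic -/
lemma tot_sing (hQ : Geo.IsNondegenerateQuadraticForm Q) {Y : Submodule F (ι → F)}
    (hY : ∀ y ∈ Y, Q y = 0) : ∀ x ∈ Y, ∀ y ∈ Y, bf x y = 0 := by
  intro x hx y hy
  simp only [QuadraticMap.polar]
  rw [hY _ (Y.add_mem hx hy), hY x hx, hY y hy]; ring

/-- the orthogonal of a small set contains a non-singular vector -/
lemma exists_nonsing_perp (hQ : Geo.IsNondegenerateQuadraticForm Q) (s : Finset (ι → F))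
    (hs : 2 * s.card < Fintype.card ι) : ∃ y ∈ (reflForm_of_quad hQ).perp s, Q y ≠ 0 := by
  by_contra hcon
  push Not at hcon
  have h := reflForm_of_quad hQ
  have htot := tot_sing hQ hcon
  have hle : (reflForm_of_quad hQ).perp s ≤ Submodule.span F (s : Set (ι → F)) := by
    intro x hx
    exact h.mem_span_of_perp s (fun y hy => htot y hy x hx)
  have h1 := Submodule.finrank_mono hle
  have h2 := finrank_span_finset_le_card (R := F) s
  rw [Set.finrank] at h2
  have h3 := h.finrank_perp s
  omega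

/-- Eichler (Siegel) transformation `x ↦ x + f(x,v) u - f(x,u) v - Q(u) f(x,v) v` -/
noncomputable def eich (Q : (ι → F) → F) (v u : ι → F) : GL ι F :=
  tv v (-gvec (QuadraticMap.polar Q) u + Q u • gvec (QuadraticMap.polar Q) v) *
    tv u (gvec (QuadraticMap.polar Q) v)

lemma eich_sl (v u : ι → F) : eich Q v u ∈ Geo.specialLinear ι F := mul_mem (det_tv _ _) (det_tv _ _)

lemma eich_mulVec (hQ : Geo.IsNondegenerateQuadraticForm Q) {v u : ι → F} (hv : Q v = 0) (hu : bf u v = 0)
    (x : ι → F) : ((eich Q v u : GL ι F) : Matrix ι ι F) *ᵥ x =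
      x + bf x v • u - (bf x u + Q u * bf x v) • v := by
  have h := reflForm_of_quad hQ
  have hvv : bf v v = 0 := by rw [polar_self hQ, hv, mul_zero]
  have h1 : gvec (bf) v ⬝ᵥ u = 0 := by rw [h.gvec_dot, hu]
  have h2 : (-gvec (bf) u + Q u • gvec (bf) v) ⬝ᵥ v = 0 := by
    rw [add_dotProduct, neg_dotProduct, smul_dotProduct, h.gvec_dot, h.gvec_dot, polar_symm v u, hu, hvv]
    simp
  rw [eich, gl_mul_mulVec, tv_mulVec h1, tv_mulVec h2]
  rw [h.gvec_dot, add_dotProduct, neg_dotProduct, smul_dotProduct, h.gvec_dot, h.gvec_dot, h.add_left,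
    h.add_left, h.smul_left, h.smul_left, hu, polar_self hQ u, smul_eq_mul]
  module

lemma eich_isometry (hQ : Geo.IsNondegenerateQuadraticForm Q) {v u : ι → F} (hv : Q v = 0) (hu : bf u v = 0)
    (x : ι → F) : Q (((eich Q v u : GL ι F) : Matrix ι ι F) *ᵥ x) = Q x := by
  have h := reflForm_of_quad hQ
  rw [eich_mulVec hQ hv hu, sub_eq_add_neg, ← neg_smul, q_add Q, q_add Q, hQ.smul, hQ.smul, hv]
  simp only [h.add_left, h.smul_left, h.smul_right, hu, RingEquiv.refl_apply]
  ring

lemma eich_isometry2 (hQ : Geo.IsNondegenerateQuadraticForm Q) {v u : ι → F} (hv : Q v = 0) (hu : bf u v = 0)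
    (x y : ι → F) : bf (((eich Q v u : GL ι F) : Matrix ι ι F) *ᵥ x) (((eich Q v u : GL ι F) : Matrix ι ι F) *ᵥ y)
      = bf x y := by
  simp only [QuadraticMap.polar]
  rw [← Matrix.mulVec_add, eich_isometry hQ hv hu, eich_isometry hQ hv hu, eich_isometry hQ hv hu]

end quad

end Cfsg.Agent.H12
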