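import Mathlib.GroupTheory.SpecificGroups.Quaternion
import Mathlib.GroupTheory.Perm.Fin
import Mathlib.Data.Finset.Powerset

/-! Automorphisms of the quaternion group of order 8 (helper12). -/

namespace Cfsg.Agent.H12.QA

open QuaternionGroup

abbrev Q8 := QuaternionGroup 2

/-- the map with `a 1 ↦ u`, `xa 0 ↦ v` -/
def qf (u v : Q8) : Q8 → Q8
  | .a k => u ^ (k.val)
  | .xa k => v * u ^ (k.val)

/-- validity of the pair of images -/
def qvalid (u v : Q8) : Prop := u * u = a 2 ∧ v * v = a 2 ∧ v * u = u⁻¹ * v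

instance qvalidDec (u v : Q8) : Decidable (qvalid u v) := by unfold qvalid; infer_instance

theorem qf_apply (f : MulAut Q8) (x : Q8) : f x = qf (f (a 1)) (f (xa 0)) x := by
  have h : ∀ k : ZMod (2 * 2), f (a k) = f (a 1) ^ k.val := by
    intro k
    rw [← map_pow]
    congr 1
    revert k
    decide
  cases x with
  | a k => exact h k
  | xa k =>
    have h1 : (xa k : Q8) = xa 0 * a k := by rw [xa_mul_a, zero_add]
    change f (xa k) = f (xa 0) * f (a 1) ^ k.val
    rw [h1, map_mul, h]

theorem valid_of_aut (f : MulAut Q8) : qvalid (f (a 1)) (f (xa 0)) := by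
  have h2 : f (a 2) = a 2 := by
    have h1 : ∀ w : Q8, w * w = 1 → w ≠ 1 → w = a 2 := by decide
    apply h1
    · rw [← map_mul, show (a 2 * a 2 : Q8) = 1 by decide, map_one]
    · intro h
      have h3 : (a 2 : Q8) = 1 := f.injective (by rw [h, map_one])
      exact absurd h3 (by decide)
  refine ⟨?_, ?_, ?_⟩
  · rw [← map_mul, show (a 1 * a 1 : Q8) = a 2 by decide, h2]
  · rw [← map_mul, show (xa 0 * xa 0 : Q8) = a 2 by decide, h2]
  · rw [← map_inv, ← map_mul, ← map_mul]
    congr 1

theorem iter12 : ∀ u v : Q8, qvalid u v → ∀ x, (qf u v)^[12] x = x := by decide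

theorem aut_pow12 (f : MulAut Q8) : f ^ 12 = 1 := by
  ext x
  have h1 : ∀ n : ℕ, (f ^ n) x = (qf (f (a 1)) (f (xa 0)))^[n] x := by
    intro n
    induction n with
    | zero => rfl
    | succ n ih =>
      rw [pow_succ', MulAut.mul_apply, ih, Function.iterate_succ_apply', qf_apply]
  rw [h1, iter12 _ _ (valid_of_aut f)]
  rfl

end Cfsg.Agent.H12.QA
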