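import Mathlib
import Cfsg.Prelude.Def_GeometricClasses
import Cfsg.Agent.H12.Perp
import Cfsg.Agent.H12.SympSwap

/-!
Two complementary totally isotropic subspaces `A`, `B`: hyperbolic bases, an isometry interchanging them.
-/

set_option autoImplicit false
set_option linter.unusedSectionVars false

open scoped MatrixGroups Matrix

namespace Cfsg.Agent.H12

variable {ι : Type} [Fintype ι] [DecidableEq ι] {F : Type*} [Field F]

namespace ReflForm

variable {σ : F ≃+* F} {ε : F} {f : (ι → F) → (ι → F) → F}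

lemma sum_left (h : ReflForm σ ε f) {κ : Type*} (s : Finset κ) (v : κ → ι → F) (x : ι → F) :
    f (∑ k ∈ s, v k) x = ∑ k ∈ s, f (v k) x := by
  classical
  induction s using Finset.induction_on with
  | empty => simp [h.zero_left]
  | insert a s ha ih => rw [Finset.sum_insert ha, Finset.sum_insert ha, h.add_left, ih]

lemma sum_right (h : ReflForm σ ε f) {κ : Type*} (s : Finset κ) (v : κ → ι → F) (x : ι → F) :
    f x (∑ k ∈ s, v k) = ∑ k ∈ s, f x (v k) := by
  classical
  induction s using Finset.induction_on with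
  | empty => simp [h.zero_right]
  | insert a s ha ih => rw [Finset.sum_insert ha, Finset.sum_insert ha, h.add_right, ih]

/-- a totally isotropic subspace with a totally isotropic complement is its own orthogonal -/
lemma perpS_eq_self (h : ReflForm σ ε f) {A B : Submodule F (ι → F)} (hAA : ∀ a ∈ A, ∀ a' ∈ A, f a a' = 0)
    (hBB : ∀ b ∈ B, ∀ b' ∈ B, f b b' = 0) (htop : A ⊔ B = ⊤) {x : ι → F}
    (hx : ∀ a ∈ A, f x a = 0) : x ∈ A := by
  have hxt : x ∈ A ⊔ B := by rw [htop]; trivial
  obtain ⟨a, ha, b, hb, rfl⟩ := Submodule.mem_sup.mp hxt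
  have hb0 : b = 0 := by
    by_contra hne
    obtain ⟨y, hy⟩ := h.nondeg b hne
    apply hy
    have hyt : y ∈ A ⊔ B := by rw [htop]; trivial
    obtain ⟨a', ha', b', hb', rfl⟩ := Submodule.mem_sup.mp hyt
    rw [h.add_left, hBB b' hb' b hb, add_zero]
    have := hx a' ha'
    rw [h.add_left, hAA a ha a' ha', zero_add] at this
    exact h.symm_zero.mp this
  rw [hb0, add_zero]; exact ha

/-- hyperbolic bases -/
lemma exists_dual_bases (h : ReflForm σ ε f) {A B : Submodule F (ι → F)} (hAA : ∀ a ∈ A, ∀ a' ∈ A, f a a' = 0)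
    (hBB : ∀ b ∈ B, ∀ b' ∈ B, f b b' = 0) (htop : A ⊔ B = ⊤) (hbot : A ⊓ B = ⊥) :
    ∃ e b : Fin (Module.finrank F A) → ι → F, (∀ i, e i ∈ A) ∧ (∀ i, b i ∈ B) ∧
      (∀ i j, f (e i) (b j) = if i = j then 1 else 0) ∧ (∀ i j, f (b i) (e j) = if i = j then ε else 0) ∧
      ∀ x, x = ∑ i, (f x (b i) • e i + (ε * f x (e i)) • b i) := by
  classical
  have hcompl : IsCompl A B := ⟨disjoint_iff.mpr hbot, codisjoint_iff.mpr htop⟩
  let e0 := Module.finBasis F A
  let e : Fin (Module.finrank F A) → ι → F := fun i => (e0 i : ι → F)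
  -- coordinate functionals
  let φ : Fin (Module.finrank F A) → (ι → F) →ₗ[F] F := fun i =>
    (e0.coord i).comp (A.projectionOnto B hcompl)
  have hφ : ∀ i, ∃ z, ∀ x, f x z = φ i x := by
    intro i
    obtain ⟨z, hz⟩ := h.gvec_surj (fun j => φ i (Pi.single j 1))
    refine ⟨z, fun x => ?_⟩
    rw [← h.gvec_dot, hz, ← dual_eq_dot (φ i) x]
  choose b hb using hφ
  have hφA : ∀ i, ∀ a : A, φ i a = e0.coord i a := by
    intro i a
    simp [φ]
  have hφB : ∀ i, ∀ x ∈ B, φ i x = 0 := by
    intro i x hx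
    simp only [φ, LinearMap.comp_apply]
    rw [Submodule.projectionOnto_apply_eq_zero_iff hcompl |>.mpr hx, map_zero]
  have hbB : ∀ i, b i ∈ B := by
    intro i
    apply h.perpS_eq_self hBB hAA (by rw [sup_comm]; exact htop)
    intro x hx
    have h1 := hb i x
    rw [hφB i x hx] at h1
    exact h.symm_zero.mp h1
  have hεε : ε * ε = 1 := h.eps
  have heb : ∀ i j, f (e i) (b j) = if i = j then 1 else 0 := by
    intro i j
    rw [hb, hφA j (e0 i)]
    simp [Finsupp.single_apply]
  have hbe : ∀ i j, f (b i) (e j) = if i = j then ε else 0 := by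
    intro i j
    rw [h.herm, heb]
    by_cases hij : i = j
    · simp [hij]
    · have : ¬ j = i := fun h' => hij h'.symm
      simp [hij, this]
  refine ⟨e, b, fun i => (e0 i).2, hbB, heb, hbe, fun x => ?_⟩
  set y := ∑ i, (f x (b i) • e i + (ε * f x (e i)) • b i) with hy
  have hyb : ∀ j, f y (b j) = f x (b j) := by
    intro j
    rw [hy, h.sum_left, Finset.sum_eq_single j]
    · rw [h.add_left, h.smul_left, h.smul_left, heb, if_pos rfl, hBB _ (hbB j) _ (hbB j)]; ring
    · intro i _ hij
      rw [h.add_left, h.smul_left, h.smul_left, heb, if_neg hij, hBB _ (hbB i) _ (hbB j)]; ring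
    · simp
  have hye : ∀ j, f y (e j) = f x (e j) := by
    intro j
    rw [hy, h.sum_left, Finset.sum_eq_single j]
    · rw [h.add_left, h.smul_left, h.smul_left, hbe, if_pos rfl, hAA _ (e0 j).2 _ (e0 j).2]
      linear_combination (f x (e j)) * hεε
    · intro i _ hij
      rw [h.add_left, h.smul_left, h.smul_left, hbe, if_neg hij, hAA _ (e0 i).2 _ (e0 j).2]; ring
    · simp
  have hd : ∀ a ∈ A, f (x - y) a = 0 := by
    intro a ha
    have h1 : a = ∑ i, (e0.repr ⟨a, ha⟩ i) • e i := by
      have := e0.sum_repr ⟨a, ha⟩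
      have h2 := congrArg (fun z : A => (z : ι → F)) this
      simp only [Submodule.coe_sum, Submodule.coe_smul] at h2
      exact h2.symm
    rw [h1, h.sum_right]
    apply Finset.sum_eq_zero
    intro i _
    rw [h.smul_right, h.sub_left, hye, sub_self, mul_zero]
  have hdA : x - y ∈ A := h.perpS_eq_self hAA hBB htop hd
  have h0 : (⟨x - y, hdA⟩ : A) = 0 := by
    apply e0.ext_elem
    intro i
    have h1 : e0.coord i ⟨x - y, hdA⟩ = f (x - y) (b i) := by
      rw [hb, hφA i ⟨x - y, hdA⟩]
    rw [← Module.Basis.coord_apply, h1, h.sub_left, hyb, sub_self]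
    simp
  have h1 : x - y = 0 := congrArg Subtype.val h0
  exact sub_eq_zero.mp h1

/-- an isometry interchanging the two subspaces -/
lemma exists_swap_ti (h : ReflForm σ ε f) {A B : Submodule F (ι → F)} (hAA : ∀ a ∈ A, ∀ a' ∈ A, f a a' = 0)
    (hBB : ∀ b ∈ B, ∀ b' ∈ B, f b b' = 0) (htop : A ⊔ B = ⊤) (hbot : A ⊓ B = ⊥) :
    ∃ g : GL ι F, IsIsom f g ∧ (∀ a ∈ A, (g : Matrix ι ι F) *ᵥ a ∈ B) ∧ (∀ b ∈ B, (g : Matrix ι ι F) *ᵥ b ∈ A) := by
  classical
  obtain ⟨e, b, heA, hbB, heb, hbe, hrep⟩ := h.exists_dual_bases hAA hBB htop hbot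
  have hεε : ε * ε = 1 := h.eps
  let T : (ι → F) →ₗ[F] (ι → F) :=
    { toFun := fun x => ∑ i, (f x (b i) • b i + f x (e i) • e i)
      map_add' := by
        intro x y
        rw [← Finset.sum_add_distrib]
        apply Finset.sum_congr rfl
        intro i _
        rw [h.add_left, h.add_left]; module
      map_smul' := by
        intro c x
        rw [Finset.smul_sum]
        apply Finset.sum_congr rfl
        intro i _
        rw [h.smul_left, h.smul_left, RingHom.id_apply]; module }
  have hTb : ∀ x j, f (T x) (b j) = f x (e j) := by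
    intro x j
    change f (∑ i, (f x (b i) • b i + f x (e i) • e i)) (b j) = _
    rw [h.sum_left, Finset.sum_eq_single j]
    · rw [h.add_left, h.smul_left, h.smul_left, heb, if_pos rfl, hBB _ (hbB j) _ (hbB j)]; ring
    · intro i _ hij
      rw [h.add_left, h.smul_left, h.smul_left, heb, if_neg hij, hBB _ (hbB i) _ (hbB j)]; ring
    · simp
  have hTe : ∀ x j, f (T x) (e j) = ε * f x (b j) := by
    intro x j
    change f (∑ i, (f x (b i) • b i + f x (e i) • e i)) (e j) = _
    rw [h.sum_left, Finset.sum_eq_single j]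
    · rw [h.add_left, h.smul_left, h.smul_left, hbe, if_pos rfl, hAA _ (heA j) _ (heA j)]; ring
    · intro i _ hij
      rw [h.add_left, h.smul_left, h.smul_left, hbe, if_neg hij, hAA _ (heA i) _ (heA j)]; ring
    · simp
  have hT : ∀ x y, f (T x) (T y) = f x y := by
    intro x y
    have h1 : f (T x) (T y) = ∑ i, (σ (f y (b i)) * f x (e i) + σ (f y (e i)) * (ε * f x (b i))) := by
      change f (T x) (∑ i, (f y (b i) • b i + f y (e i) • e i)) = _
      rw [h.sum_right]
      apply Finset.sum_congr rfl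
      intro i _
      rw [h.add_right, h.smul_right, h.smul_right, hTb, hTe]
    have h2 : f x y = ∑ i, (σ (f y (b i)) * f x (e i) + σ (f y (e i)) * (ε * f x (b i))) := by
      conv_lhs => rw [hrep y]
      rw [h.sum_right]
      apply Finset.sum_congr rfl
      intro i _
      rw [h.add_right, h.smul_right, h.smul_right, map_mul, h.seps]
      ring
    rw [h1, h2]
  have hinj : Function.Injective T := by
    rw [injective_iff_map_eq_zero]
    intro x hx
    by_contra hne
    obtain ⟨y, hy⟩ := h.nondeg x hne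
    apply hy
    apply h.symm_zero.mp
    rw [← hT, hx, h.zero_left]
  obtain ⟨g, hg⟩ := exists_gl_of_injective T hinj
  refine ⟨g, fun x y => by rw [hg, hg, hT], ?_, ?_⟩
  · intro a ha
    rw [hg]
    change (∑ i, (f a (b i) • b i + f a (e i) • e i)) ∈ B
    apply Submodule.sum_mem
    intro i _
    rw [hAA a ha _ (heA i), zero_smul, add_zero]
    exact B.smul_mem _ (hbB i)
  · intro a ha
    rw [hg]
    change (∑ i, (f a (b i) • b i + f a (e i) • e i)) ∈ A
    apply Submodule.sum_mem
    intro i _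
    rw [hBB a ha _ (hbB i), zero_smul, zero_add]
    exact A.smul_mem _ (heA i)

end ReflForm

end Cfsg.Agent.H12
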