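import Mathlib
import Cfsg.Prelude.Def_GeometricClasses
import Cfsg.Agent.H12.UniSieg2
import Cfsg.Agent.H12.SwapTI

/-!
Siegel elements `x ↦ x + f(x,w) v + (l f(x,w) - ε f(x,v)) w` for an arbitrary reflexive form
(`ReflForm σ ε f`), and transvections `utv` for such forms.
-/

set_option autoImplicit false
set_option linter.unusedSectionVars false

open scoped MatrixGroups Matrix

namespace Cfsg.Agent.H12

variable {ι : Type} [Fintype ι] [DecidableEq ι] {F : Type*} [Field F]
variable {σ : F ≃+* F} {ε : F} {f : (ι → F) → (ι → F) → F}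

/-- Siegel element `x ↦ x + f(x,w) v + (l f(x,w) - ε f(x,v)) w` -/
noncomputable def rs (ε : F) (f : (ι → F) → (ι → F) → F) (w v : ι → F) (l : F) : GL ι F :=
  tv w (-(ε • gvec f v) + (l + ε * f v v) • gvec f w) * tv v (gvec f w)

lemma rs_sl (ε : F) (f : (ι → F) → (ι → F) → F) (w v : ι → F) (l : F) : rs ε f w v l ∈ Geo.specialLinear ι F :=
  mul_mem (det_tv _ _) (det_tv _ _)

lemma rs_mulVec (h : ReflForm σ ε f) {w v : ι → F} (hw : f w w = 0) (hvw : f v w = 0) (l : F) (x : ι → F) :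
    ((rs ε f w v l : GL ι F) : Matrix ι ι F) *ᵥ x = x + f x w • v + (l * f x w - ε * f x v) • w := by
  have hwv : f w v = 0 := h.symm_zero.mp hvw
  have h1 : gvec f w ⬝ᵥ v = 0 := by rw [h.gvec_dot, hvw]
  have h2 : (-(ε • gvec f v) + (l + ε * f v v) • gvec f w) ⬝ᵥ w = 0 := by
    rw [add_dotProduct, neg_dotProduct, smul_dotProduct, smul_dotProduct, h.gvec_dot, h.gvec_dot, hw, hwv]; simp
  rw [rs, gl_mul_mulVec, tv_mulVec h1, tv_mulVec h2]
  rw [h.gvec_dot, add_dotProduct, neg_dotProduct, smul_dotProduct, smul_dotProduct, h.gvec_dot, h.gvec_dot,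
    h.add_left, h.add_left, h.smul_left, h.smul_left, hvw, smul_eq_mul, smul_eq_mul]
  module

lemma herm_rev (h : ReflForm σ ε f) (x y : ι → F) : σ (f x y) = ε * f y x := by
  rw [h.herm y x, ← mul_assoc, h.eps, one_mul]

lemma rs_isom (h : ReflForm σ ε f) {w v : ι → F} (hw : f w w = 0) (hvw : f v w = 0) {l : F}
    (hl : σ l + ε * l + f v v = 0) : IsIsom f (rs ε f w v l) := by
  have hwv : f w v = 0 := h.symm_zero.mp hvw
  intro x y
  rw [rs_mulVec h hw hvw, rs_mulVec h hw hvw]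
  simp only [h.add_left, h.add_right, h.smul_left, h.smul_right, hw, hvw, hwv, map_sub, map_mul, h.seps]
  rw [h.herm w y, h.herm v y]
  have he := h.eps
  linear_combination (f x w * σ (f y w)) * hl - (f x v * σ (f y w)) * he

lemma conj_rs (h : ReflForm σ ε f) {g : GL ι F} (hg : IsIsom f g) {w v : ι → F} (hw : f w w = 0)
    (hvw : f v w = 0) (l : F) :
    g * rs ε f w v l * g⁻¹ = rs ε f ((g : Matrix ι ι F) *ᵥ w) ((g : Matrix ι ι F) *ᵥ v) l := by
  apply gl_ext
  intro x
  have e1 : f (((g⁻¹ : GL ι F) : Matrix ι ι F) *ᵥ x) w = f x ((g : Matrix ι ι F) *ᵥ w) := by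
    rw [← hg, gl_mulVec_inv_mulVec]
  have e2 : f (((g⁻¹ : GL ι F) : Matrix ι ι F) *ᵥ x) v = f x ((g : Matrix ι ι F) *ᵥ v) := by
    rw [← hg, gl_mulVec_inv_mulVec]
  rw [gl_mul_mulVec, gl_mul_mulVec, rs_mulVec h hw hvw, rs_mulVec h (by rw [hg]; exact hw)
    (by rw [hg]; exact hvw), Matrix.mulVec_add, Matrix.mulVec_add, gl_mulVec_inv_mulVec,
    Matrix.mulVec_smul, Matrix.mulVec_smul, e1, e2]

lemma rs_mul (h : ReflForm σ ε f) {w v v' : ι → F} (hw : f w w = 0) (hvw : f v w = 0) (hvw' : f v' w = 0)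
    (l l' : F) : rs ε f w v l * rs ε f w v' l' = rs ε f w (v + v') (l + l' - ε * f v' v) := by
  have hvv : f (v + v') w = 0 := by rw [h.add_left, hvw, hvw', add_zero]
  have hwv : f w v = 0 := h.symm_zero.mp hvw
  apply gl_ext
  intro x
  rw [gl_mul_mulVec, rs_mulVec h hw hvw', rs_mulVec h hw hvw, rs_mulVec h hw hvv]
  simp only [h.add_left, h.add_right, h.smul_left, hw, hvw', hwv]
  module

lemma rs_zero (h : ReflForm σ ε f) {w : ι → F} (hw : f w w = 0) : rs ε f w 0 0 = 1 := by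
  apply gl_ext
  intro x
  rw [rs_mulVec h hw (h.zero_left w), h.zero_right]
  simp

lemma rs_inv (h : ReflForm σ ε f) {w v : ι → F} (hw : f w w = 0) (hvw : f v w = 0) (l : F) :
    (rs ε f w v l)⁻¹ = rs ε f w (-v) (-l - ε * f v v) := by
  rw [inv_eq_iff_mul_eq_one, rs_mul h hw hvw (by rw [h.neg_left, hvw, neg_zero]), add_neg_cancel, h.neg_left]
  have : l + (-l - ε * f v v) - ε * -f v v = 0 := by ring
  rw [this, rs_zero h hw]

lemma rs_swap (h : ReflForm σ ε f) {a b : ι → F} (ha : f a a = 0) (hb : f b b = 0) (hba : f b a = 0) :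
    rs ε f a b 0 = rs ε f b (-(ε • a)) 0 := by
  have hab : f a b = 0 := h.symm_zero.mp hba
  have he := h.eps
  apply gl_ext
  intro x
  rw [rs_mulVec h ha hba, rs_mulVec h hb (by rw [h.neg_left, h.smul_left, hab, mul_zero, neg_zero]), h.neg_right,
    h.smul_right, h.seps]
  have e1 : (0 * f x a - ε * f x b) • a = -((ε * f x b) • a) := by module
  have e2 : (0 * f x b - ε * -(ε * f x a)) = f x a := by linear_combination (f x a) * he
  rw [e1, e2]
  module

lemma rs_smul_left (h : ReflForm σ ε f) {w v : ι → F} (hw : f w w = 0) (hvw : f v w = 0) (c l : F) :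
    rs ε f (c • w) v l = rs ε f w (σ c • v) (l * (c * σ c)) := by
  apply gl_ext
  intro x
  rw [rs_mulVec h (by rw [h.smul_left, h.smul_right, hw, mul_zero, mul_zero]) (by rw [h.smul_right, hvw, mul_zero]),
    rs_mulVec h hw (by rw [h.smul_left, hvw, mul_zero]), h.smul_right, h.smul_right, h.inv]
  module

/-! transvections for a general reflexive form -/

lemma rtv_dot (h : ReflForm σ ε f) {z : ι → F} (hz : f z z = 0) (a : F) : (a • gvec f z) ⬝ᵥ z = 0 := by
  rw [smul_dotProduct, h.gvec_dot, hz, smul_zero]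

lemma rtv_mulVec (h : ReflForm σ ε f) {z : ι → F} (hz : f z z = 0) (a : F) (x : ι → F) :
    ((utv f z a : GL ι F) : Matrix ι ι F) *ᵥ x = x + (a * f x z) • z := by
  rw [utv, tv_mulVec (rtv_dot h hz a), smul_dotProduct, h.gvec_dot, smul_eq_mul]

lemma rs_zero_vec (h : ReflForm σ ε f) {w : ι → F} (hw : f w w = 0) (l : F) :
    rs ε f w 0 l = utv f w l := by
  apply gl_ext
  intro x
  rw [rs_mulVec h hw (h.zero_left w), rtv_mulVec h hw, h.zero_right]
  module

lemma rtv_isom (h : ReflForm σ ε f) {w : ι → F} (hw : f w w = 0) {l : F} (hl : σ l + ε * l = 0) :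
    IsIsom f (utv f w l) := by
  rw [← rs_zero_vec h hw]
  exact rs_isom h hw (h.zero_left w) (by rw [h.zero_left, add_zero]; exact hl)

lemma conj_rtv (h : ReflForm σ ε f) {g : GL ι F} (hg : IsIsom f g) {u : ι → F} (a : F)
    (hu : f u u = 0) :
    g * utv f u a * g⁻¹ = utv f ((g : Matrix ι ι F) *ᵥ u) a := by
  rw [← rs_zero_vec h hu, conj_rs h hg hu (h.zero_left u), Matrix.mulVec_zero, rs_zero_vec h (by rw [hg]; exact hu)]

lemma rtv_mul (h : ReflForm σ ε f) {w : ι → F} (hw : f w w = 0) (a b : F) :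
    utv f w a * utv f w b = utv f w (a + b) := by
  rw [← rs_zero_vec h hw, ← rs_zero_vec h hw, ← rs_zero_vec h hw, rs_mul h hw (h.zero_left w) (h.zero_left w),
    h.zero_left, mul_zero, sub_zero, add_zero]

lemma rtv_zero (h : ReflForm σ ε f) {w : ι → F} (hw : f w w = 0) : utv f w 0 = 1 := by
  rw [← rs_zero_vec h hw, rs_zero h hw]

lemma rtv_inv (h : ReflForm σ ε f) {w : ι → F} (hw : f w w = 0) (a : F) :
    (utv f w a)⁻¹ = utv f w (-a) := by
  rw [inv_eq_iff_mul_eq_one, rtv_mul h hw, add_neg_cancel, rtv_zero h hw]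

/-- `utv_{w+αb}(τ) utv_w(τ)⁻¹` is a Siegel element -/
lemma rtv_add_eq_rs (h : ReflForm σ ε f) {w b : ι → F} (hw : f w w = 0) (hb : f b b = 0) (hwb : f w b = 0)
    {τ : F} (hτ : σ τ + ε * τ = 0) (α : F) :
    utv f (w + α • b) τ * (utv f w τ)⁻¹ = rs ε f b ((τ * σ α) • w) (τ * (α * σ α)) := by
  have hbw : f b w = 0 := h.symm_zero.mp hwb
  have hs : f (w + α • b) (w + α • b) = 0 := by
    rw [h.add_left, h.add_right, h.add_right, h.smul_left, h.smul_left, h.smul_right, h.smul_right, hw, hb, hwb, hbw]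
    simp
  have he := h.eps
  have hτ' : ε * σ τ = -τ := by linear_combination ε * hτ - τ * he
  apply gl_ext
  intro x
  rw [rtv_inv h hw, gl_mul_mulVec, rtv_mulVec h hs, rtv_mulVec h hw,
    rs_mulVec h hb (by rw [h.smul_left, hwb, mul_zero])]
  simp only [h.add_left, h.add_right, h.smul_left, h.smul_right, hw, hwb, hbw, map_mul, h.inv]
  have e1 : ε * (σ τ * α * f x w) = -(τ * α * f x w) := by linear_combination (α * f x w) * hτ'
  rw [e1]
  module

end Cfsg.Agent.H12
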