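import Mathlib
import Cfsg.Prelude.Def_GeometricClasses
import Cfsg.Agent.H12.OmUni

/-!
Rational structures on orthogonal spaces, and overgroups of subfield groups: set-up.
-/

set_option autoImplicit false
set_option linter.unusedSectionVars false

namespace Cfsg.Agent.H12

open Matrix Cfsg Cfsg.Agent.H5

section ri

variable {F V : Type*} [Field F] [AddCommGroup V] [Module F V] {Q : QuadraticForm F V}

/-- the Siegel element of `v` and `y` lies in `M` -/
def RI (M : Subgroup (OG Q)) (v y : V) : Prop := ∀ (hv : Q v = 0) (h : pB Q v y = 0), eich hv h ∈ M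

variable {M : Subgroup (OG Q)}

lemma RI.congr {v y v' y' : V} (h : RI M v y) (h1 : v = v') (h2 : y = y') : RI M v' y' := by
  subst h1; subst h2; exact h

lemma RI.add {v y z : V} (hy : RI M v y) (hz : RI M v z) (h1 : pB Q v y = 0) (h2 : pB Q v z = 0) : RI M v (y + z) := by
  intro hv h
  have h3 := mul_mem (hy hv h1) (hz hv h2)
  rwa [eich_mul hv h1 h2 h] at h3

lemma RI.neg {v y : V} (hy : RI M v y) : RI M v (-y) := by
  intro hv h
  have h1 : pB Q v y = 0 := by rw [pr_neg, neg_eq_zero] at h; exact h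
  have h2 := inv_mem (hy hv h1)
  have h3 : (eich hv h1)⁻¹ = eich hv h := by
    rw [inv_eq_iff_mul_eq_one, eich_mul hv h1 h (by rw [add_neg_cancel, map_zero])]
    apply og_ext
    intro x
    rw [eich_apply, add_neg_cancel, map_zero, q_zero, og_one]
    simp
  rwa [h3] at h2

lemma RI.sub {v y z : V} (hy : RI M v y) (hz : RI M v z) (h1 : pB Q v y = 0) (h2 : pB Q v z = 0) : RI M v (y - z) := by
  rw [sub_eq_add_neg]
  exact hy.add hz.neg h1 (by rw [pr_neg, h2, neg_zero])

lemma RI.zero (v : V) : RI M v 0 := by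
  intro hv h
  have : eich hv h = 1 := by
    apply og_ext
    intro x
    rw [eich_apply, map_zero, q_zero, og_one]
    simp
  rw [this]; exact one_mem _

/-- scalars move across -/
lemma RI.smul_left {v y : V} {c : F} (hc : c ≠ 0) (h : RI M v (c • y)) : RI M (c • v) y := by
  intro hv h1
  have hv' : Q v = 0 := by
    rw [q_smul] at hv
    exact (mul_eq_zero.mp hv).resolve_left (mul_ne_zero hc hc)
  have h2 : pB Q v y = 0 := by
    rw [pl_smul] at h1
    exact (mul_eq_zero.mp h1).resolve_left hc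
  have h3 : pB Q v (c • y) = 0 := by rw [pr_smul, h2, mul_zero]
  rw [eich_smul c hv' h2 hv h1 h3]
  exact h hv' h3

lemma RI.smul_right {v y : V} {c : F} (h : RI M (c • v) y) (h2 : pB Q v y = 0) : RI M v (c • y) := by
  intro hv h1
  have hv' : Q (c • v) = 0 := by rw [q_smul, hv, mul_zero]
  have h3 : pB Q (c • v) y = 0 := by rw [pl_smul, h2, mul_zero]
  rw [← eich_smul c hv h2 hv' h3 h1]
  exact h hv' h3

/-- adding a multiple of the first vector -/
lemma RI.add_self {v y : V} (c : F) (h : RI M v y) (hvy : pB Q v y = 0) : RI M v (y + c • v) := by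
  intro hv h1
  rw [eich_add_smul hv hvy c h1]
  exact h hv hvy

lemma RI.conj {v y : V} (h : RI M v y) {g : OG Q} (hg : g ∈ M) : RI M (g v) (g y) := by
  intro hv h1
  have hv' : Q v = 0 := by rw [← og_q g]; exact hv
  have h1' : pB Q v y = 0 := by rw [← og_p g]; exact h1
  have h4 : g * eich hv' h1' * g⁻¹ ∈ M := mul_mem (mul_mem hg (h hv' h1')) (inv_mem hg)
  rwa [eich_conj g hv' h1' hv h1] at h4

/-- swapping -/
lemma RI.swap {v y : V} (h : RI M v y) (hQv : Q v = 0) : RI M y v := by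
  intro hy h1
  have hvy : pB Q v y = 0 := by rw [pB_symm]; exact h1
  have h2 := h.neg hQv (by rw [pr_neg, hvy, neg_zero])
  have h3 : eich hy h1 = eich hQv (w := -y) (by rw [pr_neg, hvy, neg_zero]) := by
    apply og_ext
    intro x
    rw [eich_apply, eich_apply, pl_neg, q_neg, hQv, hy]
    module
  rw [h3]; exact h2

/-- the action of a Siegel element on another one -/
lemma RI.comm {u w a b : V} (h1 : RI M u w) (h2 : RI M a b) (hu : Q u = 0) (huw : pB Q u w = 0) (hab : pB Q a b = 0)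
    (hua : pB Q u a = 0) (hwa : pB Q w a = 0) {c : V}
    (hc : c = pB Q u b • w - pB Q w b • u - (Q w * pB Q u b) • u) : RI M a c := by
  intro ha hac
  exact eich_comm_mem hu huw ha hab hua hwa (h1 hu huw) (h2 ha hab) hc hac

/-- the same with `w` singular -/
lemma RI.comm' {u w a b : V} (h1 : RI M u w) (h2 : RI M a b) (hu : Q u = 0) (hw : Q w = 0) (huw : pB Q u w = 0)
    (hab : pB Q a b = 0) (hua : pB Q u a = 0) (hwa : pB Q w a = 0) :
    RI M a (pB Q u b • w - pB Q w b • u) :=
  h1.comm h2 hu huw hab hua hwa (by rw [hw]; module)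

end ri

section ex

variable {F : Type*} [Field F] {F₀ : Subfield F} {V : Type*} [AddCommGroup V] [Module F V] [FiniteDimensional F V]
  {W : Type*} [AddCommGroup W] [Module F₀ W] [FiniteDimensional F₀ W] {Q : QuadraticForm F V} {Q₀ : QuadraticForm F₀ W}
  {e : W → V}

/-- rational structure -/
structure RS (Q : QuadraticForm F V) (Q₀ : QuadraticForm F₀ W) (e : W → V) : Prop where
  hnd : ND Q
  add : ∀ u v, e (u + v) = e u + e v
  smul : ∀ (c : F₀) u, e (c • u) = (c : F) • e u
  q : ∀ w, Q (e w) = (Q₀ w : F)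
  span : Submodule.span F (Set.range e) = ⊤
  fr : Module.finrank F₀ W = Module.finrank F V
  dim : 13 ≤ Module.finrank F V

/-- extension of scalars of a subspace -/
def ex (F : Type*) [Field F] {F₀ : Subfield F} {V : Type*} [AddCommGroup V] [Module F V]
  {W : Type*} [AddCommGroup W] [Module F₀ W] (e : W → V) (T : Submodule F₀ W) : Submodule F V :=
  Submodule.span F (e '' (T : Set W))

namespace RS

lemma zero (S : RS Q Q₀ e) : e 0 = 0 := by
  have := S.add 0 0
  rw [add_zero] at this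
  exact left_eq_add.mp this

lemma neg (S : RS Q Q₀ e) (u : W) : e (-u) = - e u := by
  have := S.add u (-u)
  rw [add_neg_cancel, S.zero] at this
  exact (neg_eq_of_add_eq_zero_right this.symm).symm

lemma sub (S : RS Q Q₀ e) (u v : W) : e (u - v) = e u - e v := by
  rw [sub_eq_add_neg, S.add, S.neg, ← sub_eq_add_neg]

lemma sum (S : RS Q Q₀ e) {κ : Type*} (s : Finset κ) (u : κ → W) : e (∑ k ∈ s, u k) = ∑ k ∈ s, e (u k) := by
  classical
  induction s using Finset.induction_on with
  | empty => simp [S.zero]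
  | insert a s ha ih => rw [Finset.sum_insert ha, Finset.sum_insert ha, S.add, ih]

lemma pB (S : RS Q Q₀ e) (u v : W) : H5.pB Q (e u) (e v) = (H5.pB Q₀ u v : F) := by
  have h1 := S.q (u + v)
  rw [S.add, q_add, q_add, S.q, S.q] at h1
  push_cast at h1
  linear_combination h1

lemma mem_ex (e : W → V) {T : Submodule F₀ W} {w : W} (hw : w ∈ T) : e w ∈ ex F e T :=
  Submodule.subset_span ⟨w, hw, rfl⟩

lemma ex_mono (e : W → V) {T T' : Submodule F₀ W} (h : T ≤ T') : ex F e T ≤ ex F e T' :=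
  Submodule.span_mono (Set.image_mono h)

lemma finrank_ex_le (S : RS Q Q₀ e) (T : Submodule F₀ W) :
    Module.finrank F (ex F e T) ≤ Module.finrank F₀ T := by
  set b := Module.finBasis F₀ T with hb
  have h1 : ex F e T ≤ Submodule.span F (Set.range (fun i => e (b i : W))) := by
    rw [ex, Submodule.span_le]
    rintro _ ⟨w, hw, rfl⟩
    have h2 : w = ∑ i, b.repr ⟨w, hw⟩ i • (b i : W) := by
      have h3 : ((∑ i, b.repr ⟨w, hw⟩ i • b i : T) : W) = w := congrArg Subtype.val (b.sum_repr ⟨w, hw⟩)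
      have h4 : ((∑ i, b.repr ⟨w, hw⟩ i • b i : T) : W) = ∑ i, b.repr ⟨w, hw⟩ i • (b i : W) := by
        rw [Submodule.coe_sum]; rfl
      rw [← h4, h3]
    rw [h2, S.sum]
    apply Submodule.sum_mem
    intro i _
    rw [S.smul]
    exact Submodule.smul_mem _ _ (Submodule.subset_span ⟨i, rfl⟩)
  have h2 := Submodule.finrank_mono h1
  have h3 : (Set.range (fun i => e (b i : W))).finrank F ≤ Fintype.card (Fin (Module.finrank F₀ T)) :=
    finrank_range_le_card _
  rw [Fintype.card_fin] at h3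
  exact h2.trans h3

lemma finrank_ex (S : RS Q Q₀ e) (T : Submodule F₀ W) :
    Module.finrank F (ex F e T) = Module.finrank F₀ T := by
  obtain ⟨T', hT'⟩ := Submodule.exists_isCompl T
  have h1 : ex F e T ⊔ ex F e T' = ⊤ := by
    rw [eq_top_iff, ← S.span, Submodule.span_le]
    rintro _ ⟨w, rfl⟩
    obtain ⟨x, hx, y, hy, rfl⟩ := Submodule.mem_sup.mp (show w ∈ T ⊔ T' by rw [hT'.sup_eq_top]; trivial)
    rw [S.add]
    exact Submodule.add_mem _ (Submodule.mem_sup_left (mem_ex e hx)) (Submodule.mem_sup_right (mem_ex e hy))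
  have h2 := Submodule.finrank_add_le_finrank_add_finrank (ex F e T) (ex F e T')
  rw [h1, finrank_top] at h2
  have h3 := S.finrank_ex_le T
  have h4 := S.finrank_ex_le T'
  have h5 := Submodule.finrank_add_eq_of_isCompl hT'
  have h6 := S.fr
  omega

lemma mem_of_mem_ex (S : RS Q Q₀ e) {T : Submodule F₀ W} {w : W} (h : e w ∈ ex F e T) : w ∈ T := by
  by_contra hw
  have h1 : ex F e (T ⊔ Submodule.span F₀ {w}) ≤ ex F e T := by
    rw [ex, Submodule.span_le]
    rintro _ ⟨x, hx, rfl⟩
    obtain ⟨y, hy, z, hz, rfl⟩ := Submodule.mem_sup.mp hx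
    obtain ⟨c, rfl⟩ := Submodule.mem_span_singleton.mp hz
    rw [S.add, S.smul]
    exact Submodule.add_mem _ (mem_ex e hy) (Submodule.smul_mem _ _ h)
  have h2 := Submodule.finrank_mono h1
  rw [S.finrank_ex, S.finrank_ex] at h2
  have h3 : T < T ⊔ Submodule.span F₀ {w} := by
    refine lt_of_le_of_ne le_sup_left ?_
    intro heq
    apply hw
    rw [heq]
    exact Submodule.mem_sup_right (Submodule.mem_span_singleton_self w)
  have h4 := Submodule.finrank_lt_finrank_of_lt h3
  omega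

lemma inj (S : RS Q Q₀ e) {w : W} (h : e w = 0) : w = 0 := by
  have h1 : w ∈ (⊥ : Submodule F₀ W) := S.mem_of_mem_ex (by rw [h]; exact Submodule.zero_mem _)
  exact (Submodule.mem_bot F₀).1 h1

lemma inj' (S : RS Q Q₀ e) {w w' : W} (h : e w = e w') : w = w' := by
  rw [← sub_eq_zero]
  apply S.inj
  rw [S.sub, h, sub_self]

lemma span_ind (S : RS Q Q₀ e) {x : V} (h : ∀ w, H5.pB Q x (e w) = 0) : x = 0 := by
  apply S.hnd
  intro y
  have hy : y ∈ Submodule.span F (Set.range e) := by rw [S.span]; trivial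
  induction hy using Submodule.span_induction with
  | mem y hy => obtain ⟨w, rfl⟩ := hy; exact h w
  | zero => rw [map_zero]
  | add a b _ _ ha hb => rw [pr_add, ha, hb, add_zero]
  | smul c a _ ha => rw [pr_smul, ha, mul_zero]

lemma nd₀ (S : RS Q Q₀ e) : ND Q₀ := by
  intro x hx
  apply S.inj
  apply S.span_ind
  intro w
  rw [S.pB, hx]; rfl

lemma mem_oc_ex (_S : RS Q Q₀ e) {T : Submodule F₀ W} {x : V} : x ∈ oc Q (ex F e T) ↔ ∀ w ∈ T, H5.pB Q (e w) x = 0 := by
  rw [mem_oc]
  constructor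
  · intro h w hw
    exact h _ (mem_ex e hw)
  · intro h y hy
    rw [ex] at hy
    induction hy using Submodule.span_induction with
    | mem y hy => obtain ⟨w, hw, rfl⟩ := hy; exact h w hw
    | zero => rw [map_zero]; rfl
    | add a b _ _ ha hb => rw [pl_add, ha, hb, add_zero]
    | smul c a _ ha => rw [pl_smul, ha, mul_zero]

lemma oc_ex (S : RS Q Q₀ e) (T : Submodule F₀ W) : oc Q (ex F e T) = ex F e (oc Q₀ T) := by
  symm
  apply Submodule.eq_of_le_of_finrank_eq
  · rw [ex, Submodule.span_le]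
    rintro _ ⟨x, hx, rfl⟩
    apply S.mem_oc_ex.2
    intro w hw
    rw [S.pB, (mem_oc.1 hx) w hw]; rfl
  · have h1 := finrank_oc S.hnd (ex F e T)
    have h2 := finrank_oc S.nd₀ T
    have h3 := S.fr
    rw [S.finrank_ex] at h1 ⊢
    omega

/-- vectors with rational products against `T^⊥` are rational modulo `T` -/
lemma rat_mod (S : RS Q Q₀ e) {x : V} (T : Submodule F₀ W) (h : ∀ d ∈ oc Q₀ T, H5.pB Q x (e d) ∈ F₀) :
    ∃ w, x - e w ∈ ex F e T := by
  let f : oc Q₀ T →ₗ[F₀] F₀ :=
    { toFun := fun d => ⟨H5.pB Q x (e d), h d d.2⟩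
      map_add' := by
        intro a b
        apply Subtype.ext
        show H5.pB Q x (e ((a + b : oc Q₀ T) : W)) = H5.pB Q x (e a) + H5.pB Q x (e b)
        rw [Submodule.coe_add, S.add, pr_add]
      map_smul' := by
        intro c a
        apply Subtype.ext
        show H5.pB Q x (e ((c • a : oc Q₀ T) : W)) = (c : F) * H5.pB Q x (e a)
        rw [Submodule.coe_smul, S.smul, pr_smul] }
  obtain ⟨g, hg⟩ := LinearMap.exists_extend f
  set w := (LinearMap.BilinForm.toDual (H5.pB Q₀) S.nd₀.nondeg).symm g with hw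
  have h1 : ∀ y, H5.pB Q₀ w y = g y := by
    intro y
    rw [hw]
    exact LinearMap.BilinForm.apply_toDual_symm_apply (hB := S.nd₀.nondeg) g y
  refine ⟨w, ?_⟩
  rw [← oc_oc S.hnd (ex F e T), S.oc_ex, S.mem_oc_ex]
  intro d hd
  rw [pB_symm, pl_sub, S.pB, h1]
  have h2 : g d = f ⟨d, hd⟩ := by rw [← hg]; rfl
  rw [h2]
  show H5.pB Q x (e d) - H5.pB Q x (e d) = 0
  rw [sub_self]

lemma rat_of (S : RS Q Q₀ e) {x : V} (h : ∀ d, H5.pB Q x (e d) ∈ F₀) : ∃ w, x = e w := by
  obtain ⟨w, hw⟩ := S.rat_mod (⊥ : Submodule F₀ W) (fun d _ => h d)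
  refine ⟨w, ?_⟩
  have h1 : ex F e (⊥ : Submodule F₀ W) = ⊥ := by
    rw [ex, Submodule.span_eq_bot]
    rintro _ ⟨y, hy, rfl⟩
    rw [(Submodule.mem_bot F₀).1 hy, S.zero]
  rw [h1, Submodule.mem_bot, sub_eq_zero] at hw
  exact hw

/-- detection modulo `T` -/
lemma exists_det (S : RS Q Q₀ e) {x : V} (T : Submodule F₀ W) (hx : x ∉ ex F e T) :
    ∃ d ∈ oc Q₀ T, H5.pB Q x (e d) ≠ 0 := by
  by_contra hcon
  push Not at hcon
  apply hx
  rw [← oc_oc S.hnd (ex F e T), S.oc_ex, S.mem_oc_ex]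
  intro d hd
  rw [pB_symm]; exact hcon d hd

end RS

end ex

end Cfsg.Agent.H12
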