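import Cfsg.Agent.H12.RSub1

/-!
Overgroups of subfield groups: the algebra of scalars.
-/

set_option autoImplicit false
set_option linter.unusedSectionVars false

namespace Cfsg.Agent.H12

open Matrix Cfsg Cfsg.Agent.H5

section span2

variable {F : Type*} [Field F] {V : Type*} [AddCommGroup V] [Module F V]

lemma notMem_pair_of {a y k : V} (hya : y ∉ Submodule.span F {a})
    (hk : k ∉ Submodule.span F ({a, y} : Set V)) : y ∉ Submodule.span F ({a, k} : Set V) := by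
  intro h
  obtain ⟨α, β, hab⟩ := Submodule.mem_span_pair.mp h
  by_cases hβ : β = 0
  · apply hya
    rw [hβ, zero_smul, add_zero] at hab
    rw [← hab]
    exact Submodule.smul_mem _ _ (Submodule.mem_span_singleton_self a)
  · apply hk
    rw [Submodule.mem_span_pair]
    refine ⟨-(β⁻¹ * α), β⁻¹, ?_⟩
    rw [← hab, smul_add, smul_smul, smul_smul, inv_mul_cancel₀ hβ]
    module

lemma notMem_single_of {a y : V} (ha : a ≠ 0) (hy : y ∉ Submodule.span F {a}) : a ∉ Submodule.span F {y} := by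
  intro h
  obtain ⟨c, hc⟩ := Submodule.mem_span_singleton.mp h
  have hc0 : c ≠ 0 := by rintro rfl; exact ha (by rw [← hc, zero_smul])
  apply hy
  rw [Submodule.mem_span_singleton]
  exact ⟨c⁻¹, by rw [← hc, smul_smul, inv_mul_cancel₀ hc0, one_smul]⟩

end span2

lemma RI.zero_left {F V : Type*} [Field F] [AddCommGroup V] [Module F V] {Q : QuadraticForm F V} {M : Subgroup (OG Q)}
    (y : V) : RI M 0 y := by
  intro hv h
  have : eich hv h = 1 := by
    apply og_ext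
    intro x
    rw [eich_apply, map_zero, og_one]
    simp
  rw [this]; exact one_mem _

variable {F : Type*} [Field F] [Finite F] {F₀ : Subfield F} {V : Type*} [AddCommGroup V] [Module F V] [FiniteDimensional F V]
  {W : Type*} [AddCommGroup W] [Module F₀ W] [FiniteDimensional F₀ W] {Q : QuadraticForm F V} {Q₀ : QuadraticForm F₀ W}
  {e : W → V} {M : Subgroup (OG Q)}

/-- rational structure, and a subgroup containing the rational Siegel elements -/
structure RM (Q : QuadraticForm F V) (Q₀ : QuadraticForm F₀ W) (e : W → V) (M : Subgroup (OG Q)) : Prop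
    extends RS Q Q₀ e where
  hM : ∀ a y : W, Q₀ a = 0 → pB Q₀ a y = 0 → RI M (e a) (e y)

namespace RM

lemma dim₀ (S : RM Q Q₀ e M) : 13 ≤ Module.finrank F₀ W := by
  rw [S.fr]; exact S.dim

lemma fr3 (a b c : W) : Module.finrank F₀ (Submodule.span F₀ ({a, b, c} : Set W)) ≤ 3 := by
  classical
  have h := finrank_span_finset_le_card (R := F₀) (M := W) ({a, b, c} : Finset W)
  rw [Finset.coe_insert, Finset.coe_insert, Finset.coe_singleton] at h
  exact h.trans Finset.card_le_three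

lemma mem_oc3 {a b c x : W} : x ∈ oc Q₀ (Submodule.span F₀ ({a, b, c} : Set W)) ↔
    pB Q₀ a x = 0 ∧ pB Q₀ b x = 0 ∧ pB Q₀ c x = 0 := by
  rw [mem_oc]
  constructor
  · intro h
    exact ⟨h _ (Submodule.subset_span (by simp)), h _ (Submodule.subset_span (by simp)),
      h _ (Submodule.subset_span (by simp))⟩
  · rintro ⟨h1, h2, h3⟩ n hn
    obtain ⟨α, y, hy, rfl⟩ := Submodule.mem_span_insert.mp hn
    obtain ⟨β, γ, rfl⟩ := Submodule.mem_span_pair.mp hy
    rw [pl_add, pl_add, pl_smul, pl_smul, pl_smul, h1, h2, h3]; ring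

/-- a singular vector orthogonal to three and off their span -/
lemma off3 (S : RM Q Q₀ e M) (a b c : W) : ∃ k, pB Q₀ a k = 0 ∧ pB Q₀ b k = 0 ∧ pB Q₀ c k = 0 ∧ Q₀ k = 0 ∧
    k ∉ Submodule.span F₀ ({a, b, c} : Set W) := by
  have h1 := fr3 (F₀ := F₀) a b c
  have h2 := finrank_oc S.nd₀ (Submodule.span F₀ ({a, b, c} : Set W))
  have h3 := S.dim₀
  obtain ⟨k, hk, hkS, hQk⟩ := exists_sing_off (Q := Q₀) (oc Q₀ (Submodule.span F₀ ({a, b, c} : Set W)))
    (Submodule.span F₀ ({a, b, c} : Set W)) (by omega)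
  rw [mem_oc3] at hk
  exact ⟨k, hk.1, hk.2.1, hk.2.2, hQk, hkS⟩

lemma off2 (S : RM Q Q₀ e M) (a b : W) : ∃ k, pB Q₀ a k = 0 ∧ pB Q₀ b k = 0 ∧ Q₀ k = 0 ∧
    k ∉ Submodule.span F₀ ({a, b} : Set W) := by
  obtain ⟨k, h1, h2, h3, h4, h5⟩ := S.off3 a b b
  refine ⟨k, h1, h2, h4, ?_⟩
  simpa using h5

/-- a singular vector orthogonal to three and not orthogonal to one off their span -/
lemma det3 (S : RM Q Q₀ e M) {a b c y : W} (hy : y ∉ Submodule.span F₀ ({a, b, c} : Set W)) :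
    ∃ u, pB Q₀ a u = 0 ∧ pB Q₀ b u = 0 ∧ pB Q₀ c u = 0 ∧ Q₀ u = 0 ∧ pB Q₀ u y = 1 := by
  have h1 := fr3 (F₀ := F₀) a b c
  have h3 := S.dim₀
  obtain ⟨u, hu, hQu, huy⟩ := exists_sing_not_orth S.nd₀ (Submodule.span F₀ ({a, b, c} : Set W)) (by omega) hy
  rw [mem_oc3] at hu
  refine ⟨(pB Q₀ u y)⁻¹ • u, by rw [pr_smul, hu.1, mul_zero], by rw [pr_smul, hu.2.1, mul_zero],
    by rw [pr_smul, hu.2.2, mul_zero], by rw [q_smul, hQu, mul_zero], by rw [pl_smul, inv_mul_cancel₀ huy]⟩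

lemma det2 (S : RM Q Q₀ e M) {a b y : W} (hy : y ∉ Submodule.span F₀ ({a, b} : Set W)) :
    ∃ u, pB Q₀ a u = 0 ∧ pB Q₀ b u = 0 ∧ Q₀ u = 0 ∧ pB Q₀ u y = 1 := by
  obtain ⟨u, h1, h2, h3, h4, h5⟩ := S.det3 (a := a) (b := b) (c := b) (y := y) (by simpa using hy)
  exact ⟨u, h1, h2, h4, h5⟩

lemma B0 (S : RM Q Q₀ e M) {u v : W} (h : pB Q₀ u v = 0) : pB Q (e u) (e v) = 0 := by
  rw [S.toRS.pB, h]; rfl

lemma Q0 (S : RM Q Q₀ e M) {u : W} (h : Q₀ u = 0) : Q (e u) = 0 := by rw [S.q, h]; rfl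

/-- the basic move -/
lemma mv1 (S : RM Q Q₀ e M) {s : F} {a y k : W} (hk : Q₀ k = 0) (hay : pB Q₀ a y = 0)
    (hak : pB Q₀ a k = 0) (hky : pB Q₀ k y = 0) (hyk : y ∉ Submodule.span F₀ ({a, k} : Set W))
    (h : RI M (e a) (s • e y)) : RI M (e a) (s • e k) := by
  obtain ⟨u, hau, hku, hQu, huy⟩ := S.det2 hyk
  have hua : pB Q₀ u a = 0 := by rw [pB_symm]; exact hau
  have huk : pB Q₀ u k = 0 := by rw [pB_symm]; exact hku
  have hka : pB Q₀ k a = 0 := by rw [pB_symm]; exact hak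
  have h1 := (S.hM u k hQu huk).comm' h (S.Q0 hQu) (S.Q0 hk) (S.B0 huk) (by rw [pr_smul, S.B0 hay, mul_zero])
    (S.B0 hua) (S.B0 hka)
  refine h1.congr rfl ?_
  rw [pr_smul, pr_smul, S.B0 hky, S.toRS.pB, huy]
  simp

lemma mv2 (S : RM Q Q₀ e M) {s : F} {a y : W} (ha : Q₀ a = 0) (hy : Q₀ y = 0) (hay : pB Q₀ a y = 0)
    (hya : y ∉ Submodule.span F₀ {a}) (h : RI M (e a) (s • e y)) {y' : W} (hy' : Q₀ y' = 0) (hay' : pB Q₀ a y' = 0) :
    RI M (e a) (s • e y') := by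
  obtain ⟨k, hak, hyk, hy'k, hQk, hkS⟩ := S.off3 a y y'
  have hk1 : k ∉ Submodule.span F₀ ({a, y} : Set W) := fun h => hkS (Submodule.span_mono (by
    intro x hx; simp only [Set.mem_insert_iff, Set.mem_singleton_iff] at hx ⊢; tauto) h)
  have hk2 : k ∉ Submodule.span F₀ ({a, y'} : Set W) := fun h => hkS (Submodule.span_mono (by
    intro x hx; simp only [Set.mem_insert_iff, Set.mem_singleton_iff] at hx ⊢; tauto) h)
  have h1 := S.mv1 hQk hay hak (by rw [pB_symm]; exact hyk) (notMem_pair_of hya hk1) h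
  exact S.mv1 hy' hak hay' hy'k hk2 h1

lemma mv3 (S : RM Q Q₀ e M) {s : F} {a y : W} (ha : Q₀ a = 0) (hy : Q₀ y = 0) (hay : pB Q₀ a y = 0) (ha0 : a ≠ 0)
    (hya : y ∉ Submodule.span F₀ {a}) (h : RI M (e a) (s • e y)) {a' y' : W} (ha' : Q₀ a' = 0) (hy' : Q₀ y' = 0)
    (hay' : pB Q₀ a' y' = 0) : RI M (e a') (s • e y') := by
  by_cases hs : s = 0
  · rw [hs, zero_smul]; exact RI.zero _
  obtain ⟨k, hak, ha'k, hQk, hkS⟩ := S.off2 a a'
  have hk1 : k ∉ Submodule.span F₀ {a} := fun h => hkS (Submodule.span_mono (by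
    intro x hx; simp only [Set.mem_insert_iff, Set.mem_singleton_iff] at hx ⊢; tauto) h)
  have hk2 : k ∉ Submodule.span F₀ {a'} := fun h => hkS (Submodule.span_mono (by
    intro x hx; simp only [Set.mem_insert_iff, Set.mem_singleton_iff] at hx ⊢; tauto) h)
  -- `(a, k)`
  have h1 := S.mv2 ha hy hay hya h hQk hak
  -- `(k, a)`
  have swap : ∀ {x z : W}, Q₀ x = 0 → pB Q₀ x z = 0 → RI M (e x) (s • e z) → RI M (e z) (s • e x) := by
    intro x z hx hxz hh
    have h2 := hh.swap (S.Q0 hx)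
    have hzx : pB Q₀ z x = 0 := by rw [pB_symm]; exact hxz
    exact RI.smul_right h2 (S.B0 hzx)
  have h2 := swap ha hak h1
  have hka : pB Q₀ k a = 0 := by rw [pB_symm]; exact hak
  have hka' : pB Q₀ k a' = 0 := by rw [pB_symm]; exact ha'k
  have h3 := S.mv2 hQk ha hka (notMem_single_of ha0 hk1) h2 ha' hka'
  have h4 := swap hQk hka' h3
  exact S.mv2 ha' hQk ha'k hk2 h4 hy' hay'

/-- an independent orthogonal singular pair -/
lemma pair (S : RM Q Q₀ e M) : ∃ a y : W, Q₀ a = 0 ∧ Q₀ y = 0 ∧ pB Q₀ a y = 0 ∧ a ≠ 0 ∧ y ∉ Submodule.span F₀ {a} := by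
  obtain ⟨a, -, -, ha, haS⟩ := S.off2 (0 : W) 0
  have ha0 : a ≠ 0 := by rintro rfl; exact haS (Submodule.zero_mem _)
  obtain ⟨y, h1, -, hy, hyS⟩ := S.off2 a a
  exact ⟨a, y, ha, hy, h1, ha0, by simpa using hyS⟩

/-- the algebra of scalars -/
def Csub (S : RM Q Q₀ e M) : Subalgebra F₀ F where
  carrier := {s | ∀ a y : W, Q₀ a = 0 → Q₀ y = 0 → pB Q₀ a y = 0 → RI M (e a) (s • e y)}
  algebraMap_mem' := by
    intro r a y ha hy hay
    have h1 := S.hM a (r • y) ha (by rw [pr_smul, hay, mul_zero])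
    rw [S.smul] at h1
    exact h1
  add_mem' := by
    intro s t hs ht a y ha hy hay
    rw [add_smul]
    exact (hs a y ha hy hay).add (ht a y ha hy hay) (by rw [pr_smul, S.B0 hay, mul_zero])
      (by rw [pr_smul, S.B0 hay, mul_zero])
  mul_mem' := by
    intro s t hs ht a' y' ha' hy' hay'
    obtain ⟨a, y, ha, hy, hay, ha0, hya⟩ := S.pair
    obtain ⟨k, hak, hyk, hQk, hkS⟩ := S.off2 a y
    obtain ⟨u, hau, hku, hQu, huy⟩ := S.det2 (notMem_pair_of hya hkS)
    have hua : pB Q₀ u a = 0 := by rw [pB_symm]; exact hau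
    have huk : pB Q₀ u k = 0 := by rw [pB_symm]; exact hku
    have hka : pB Q₀ k a = 0 := by rw [pB_symm]; exact hak
    have hky : pB Q₀ k y = 0 := by rw [pB_symm]; exact hyk
    have h1 := (ht u k hQu hQk huk).comm' (hs a y ha hy hay) (S.Q0 hQu) (by rw [q_smul, S.Q0 hQk, mul_zero])
      (by rw [pr_smul, S.B0 huk, mul_zero]) (by rw [pr_smul, S.B0 hay, mul_zero]) (S.B0 hua)
      (by rw [pl_smul, S.B0 hka, mul_zero])
    have h2 : RI M (e a) ((s * t) • e k) := by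
      refine h1.congr rfl ?_
      rw [pr_smul, pr_smul, pl_smul, S.B0 hky, S.toRS.pB, huy, smul_smul]
      simp
    have hk1 : k ∉ Submodule.span F₀ {a} := fun h => hkS (Submodule.span_mono (by
      intro x hx; simp only [Set.mem_insert_iff, Set.mem_singleton_iff] at hx ⊢; tauto) h)
    exact S.mv3 ha hQk hak ha0 hk1 h2 ha' hy' hay'

lemma mem_Csub (S : RM Q Q₀ e M) {s : F} :
    s ∈ S.Csub ↔ ∀ a y : W, Q₀ a = 0 → Q₀ y = 0 → pB Q₀ a y = 0 → RI M (e a) (s • e y) := Iff.rfl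

/-- the key computation -/
lemma keyK (S : RM Q Q₀ e M) {a d f : W} (ha : Q₀ a = 0) (hd : Q₀ d = 0) (hf : Q₀ f = 0) (had : pB Q₀ a d = 0)
    (haf : pB Q₀ a f = 0) (hdf : pB Q₀ d f = 0) {y : V} (hay : pB Q (e a) y = 0) (h : RI M (e a) y) :
    RI M (e a) (pB Q (e d) y • e f) := by
  obtain ⟨g, hag, hdg, hfg, hQg, hgS⟩ := S.off3 a d f
  obtain ⟨d', had', hdd', hfd', hQd', hd'g⟩ := S.det3 hgS
  have hga : pB Q₀ g a = 0 := by rw [pB_symm]; exact hag
  have hda : pB Q₀ d a = 0 := by rw [pB_symm]; exact had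
  have hd'a : pB Q₀ d' a = 0 := by rw [pB_symm]; exact had'
  have hd'd : pB Q₀ d' d = 0 := by rw [pB_symm]; exact hdd'
  have hd'f : pB Q₀ d' f = 0 := by rw [pB_symm]; exact hfd'
  have hfa : pB Q₀ f a = 0 := by rw [pB_symm]; exact haf
  have hfd : pB Q₀ f d = 0 := by rw [pB_symm]; exact hdf
  -- first commutator
  have h1 := (S.hM d g hd hdg).comm' h (S.Q0 hd) (S.Q0 hQg) (S.B0 hdg) hay (S.B0 hda) (S.B0 hga)
  -- second commutator
  have h2 := (S.hM d' f hQd' hd'f).comm' h1 (S.Q0 hQd') (S.Q0 hf) (S.B0 hd'f)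
    (by rw [pr_sub, pr_smul, pr_smul, S.B0 hag, S.B0 had]; ring) (S.B0 hd'a) (S.B0 hfa)
  refine h2.congr rfl ?_
  rw [pr_sub, pr_sub, pr_smul, pr_smul, pr_smul, pr_smul, S.B0 hfg, S.B0 hfd, S.B0 hd'd, S.toRS.pB d' g, hd'g]
  simp

lemma key_mem (S : RM Q Q₀ e M) {a d : W} (ha : Q₀ a = 0) (ha0 : a ≠ 0) (hd : Q₀ d = 0) (had : pB Q₀ a d = 0)
    {y : V} (hay : pB Q (e a) y = 0) (h : RI M (e a) y) : pB Q (e d) y ∈ S.Csub := by
  obtain ⟨f, haf, hdf, hQf, hfS⟩ := S.off2 a d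
  have h1 := S.keyK ha hd hQf had haf hdf hay h
  intro a' y' ha' hy' hay'
  have hf1 : f ∉ Submodule.span F₀ {a} := fun h => hfS (Submodule.span_mono (by
    intro x hx; simp only [Set.mem_insert_iff, Set.mem_singleton_iff] at hx ⊢; tauto) h)
  exact S.mv3 ha hQf haf ha0 hf1 h1 ha' hy' hay'

/-- vectors orthogonal to one vector are in its span or sums of singular ones -/
lemma sing_dec (S : RM Q Q₀ e M) {a d : W} (had : pB Q₀ a d = 0) (hda : d ∉ Submodule.span F₀ {a}) :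
    ∃ y z : W, Q₀ y = 0 ∧ Q₀ z = 0 ∧ pB Q₀ a y = 0 ∧ pB Q₀ a z = 0 ∧ d = y + z := by
  have h1 := finrank_span_one_le (F := F₀) a
  have h2 := S.dim₀
  obtain ⟨y, hy, z, hz, hQy, hQz, hyz⟩ := sing_add S.nd₀ (Submodule.span F₀ {a}) (by omega) (x := d) (by
    rw [mem_oc]
    intro n hn
    obtain ⟨c, rfl⟩ := Submodule.mem_span_singleton.mp hn
    rw [pl_smul, had, mul_zero]) hda
  rw [mem_oc] at hy hz
  exact ⟨y, z, hQy, hQz, hy _ (Submodule.mem_span_singleton_self a), hz _ (Submodule.mem_span_singleton_self a), hyz⟩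

lemma ex_single (S : RM Q Q₀ e M) {a : W} {x : V} (h : x ∈ ex F e (Submodule.span F₀ {a})) : ∃ c : F, x = c • e a := by
  rw [ex] at h
  induction h using Submodule.span_induction with
  | mem y hy =>
    obtain ⟨w, hw, rfl⟩ := hy
    obtain ⟨c, rfl⟩ := Submodule.mem_span_singleton.mp hw
    exact ⟨c, S.smul c a⟩
  | zero => exact ⟨0, by rw [zero_smul]⟩
  | add x y _ _ hx hy =>
    obtain ⟨c, rfl⟩ := hx
    obtain ⟨d, rfl⟩ := hy
    exact ⟨c + d, by rw [add_smul]⟩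
  | smul c x _ hx =>
    obtain ⟨d, rfl⟩ := hx
    exact ⟨c * d, by rw [mul_smul]⟩

/-- only rational vectors are reached -/
def Tri (F : Type*) [Field F] {F₀ : Subfield F} {V : Type*} [AddCommGroup V] [Module F V]
    {W : Type*} [AddCommGroup W] [Module F₀ W] {Q : QuadraticForm F V} (Q₀ : QuadraticForm F₀ W) (e : W → V)
    (M : Subgroup (OG Q)) : Prop :=
  ∀ (a : W) (y : V), Q₀ a = 0 → a ≠ 0 → pB Q (e a) y = 0 → RI M (e a) y → ∃ (w : W) (c : F), y = e w + c • e a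

theorem tri_of (S : RM Q Q₀ e M) (h : ∀ s ∈ S.Csub, s ∈ F₀) : Tri F Q₀ e M := by
  intro a y ha ha0 hay hy
  obtain ⟨w, hw⟩ := S.toRS.rat_mod (x := y) (Submodule.span F₀ {a}) (by
    intro d hd
    rw [mem_oc] at hd
    have had := hd a (Submodule.mem_span_singleton_self a)
    by_cases hda : d ∈ Submodule.span F₀ {a}
    · obtain ⟨c, rfl⟩ := Submodule.mem_span_singleton.mp hda
      rw [S.smul, pr_smul, pB_symm, hay, mul_zero]
      exact F₀.zero_mem
    · obtain ⟨y1, z1, hy1, hz1, hay1, haz1, rfl⟩ := S.sing_dec had hda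
      rw [S.add, pr_add, pB_symm Q y (e y1), pB_symm Q y (e z1)]
      exact F₀.add_mem (h _ (S.key_mem ha ha0 hy1 hay1 hay hy)) (h _ (S.key_mem ha ha0 hz1 haz1 hay hy)))
  obtain ⟨c, hc⟩ := S.ex_single hw
  exact ⟨w, c, by rw [← hc]; abel⟩

theorem top_of (S : RM Q Q₀ e M) (h : ∀ s, s ∈ S.Csub) : EG Q ≤ M := by
  have hfull : ∀ a : W, Q₀ a = 0 → Full M (e a) := by
    intro a ha
    refine ⟨S.Q0 ha, fun w hQa haw => ?_⟩
    have hw : w ∈ oc Q (ex F e (Submodule.span F₀ {a})) := by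
      rw [S.toRS.mem_oc_ex]
      intro n hn
      obtain ⟨c, rfl⟩ := Submodule.mem_span_singleton.mp hn
      rw [S.smul, pl_smul, haw, mul_zero]
    rw [S.toRS.oc_ex, ex] at hw
    have key : pB Q (e a) w = 0 ∧ ∀ c : F, RI M (e a) (c • w) := by
      clear haw
      induction hw using Submodule.span_induction with
      | mem y hy =>
        obtain ⟨d, hd, rfl⟩ := hy
        have had : pB Q₀ a d = 0 := (mem_oc.1 hd) a (Submodule.mem_span_singleton_self a)
        refine ⟨S.B0 had, fun c => ?_⟩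
        by_cases hda : d ∈ Submodule.span F₀ {a}
        · obtain ⟨t, rfl⟩ := Submodule.mem_span_singleton.mp hda
          have h1 := (RI.zero (M := M) (e a)).add_self (c * (t : F)) (by rw [map_zero])
          rw [zero_add] at h1
          rw [S.smul, smul_smul]
          exact h1
        · obtain ⟨y1, z1, hy1, hz1, hay1, haz1, rfl⟩ := S.sing_dec had hda
          rw [S.add, smul_add]
          exact (h c a y1 ha hy1 hay1).add (h c a z1 ha hz1 haz1) (by rw [pr_smul, S.B0 hay1, mul_zero])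
            (by rw [pr_smul, S.B0 haz1, mul_zero])
      | zero => exact ⟨by rw [map_zero], fun c => by rw [smul_zero]; exact RI.zero _⟩
      | add x y _ _ hx hy =>
        refine ⟨by rw [pr_add, hx.1, hy.1, add_zero], fun c => ?_⟩
        rw [smul_add]
        exact (hx.2 c).add (hy.2 c) (by rw [pr_smul, hx.1, mul_zero]) (by rw [pr_smul, hy.1, mul_zero])
      | smul c x _ hx =>
        refine ⟨by rw [pr_smul, hx.1, mul_zero], fun d => ?_⟩
        rw [smul_smul]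
        exact hx.2 _
    have h1 := key.2 1
    rw [one_smul] at h1
    exact h1 hQa haw
  obtain ⟨a, -, -, ha, haS⟩ := S.off2 (0 : W) 0
  obtain ⟨b, -, -, hb, hba⟩ := S.det2 haS
  exact eg_le_of_full S.hnd (hfull a ha) (hfull b hb) (by
    rw [pB_symm, S.toRS.pB, hba]
    exact one_ne_zero)

/-- the dichotomy -/
theorem dicho (S : RM Q Q₀ e M) (hfin : (Module.finrank F₀ F).Prime) : Tri F Q₀ e M ∨ EG Q ≤ M := by
  have := Subalgebra.isSimpleOrder_of_finrank_prime F₀ F hfin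
  rcases eq_bot_or_eq_top S.Csub with hbot | htop
  · left
    apply S.tri_of
    intro s hs
    rw [hbot, Algebra.mem_bot] at hs
    obtain ⟨r, rfl⟩ := hs
    exact SetLike.coe_mem r
  · right
    apply S.top_of
    intro s
    rw [htop]; trivial

end RM

end Cfsg.Agent.H12
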