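import Cfsg.Agent.H12.RSub2

/-!
Overgroups of subfield groups: one rational point going to a rational point.
-/

set_option autoImplicit false
set_option linter.unusedSectionVars false

namespace Cfsg.Agent.H12

open Matrix Cfsg Cfsg.Agent.H5

variable {F : Type*} [Field F] [Finite F] {F₀ : Subfield F} {V : Type*} [AddCommGroup V] [Module F V] [FiniteDimensional F V]
  {W : Type*} [AddCommGroup W] [Module F₀ W] [FiniteDimensional F₀ W] {Q : QuadraticForm F V} {Q₀ : QuadraticForm F₀ W}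
  {e : W → V} {M : Subgroup (OG Q)}

/-- bivector identity -/
lemma RI.bi {x y z : V} (hx : Q x = 0) (hy : Q y = 0) (hz : Q z = 0) (hxy : pB Q x y = 0) (hxz : pB Q x z = 0)
    (hyz : pB Q y z = 0) {α β : F} (h1 : RI M x y) (h2 : RI M (x + α • z) (y + β • z)) :
    RI M z (α • y - β • x) := by
  intro hz' h
  have hyx : pB Q y x = 0 := by rw [pB_symm]; exact hxy
  have hzx : pB Q z x = 0 := by rw [pB_symm]; exact hxz
  have hzy : pB Q z y = 0 := by rw [pB_symm]; exact hyz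
  have hxx : pB Q x x = 0 := by rw [pB_self, hx, mul_zero]
  have hyy : pB Q y y = 0 := by rw [pB_self, hy, mul_zero]
  have hzz : pB Q z z = 0 := by rw [pB_self, hz, mul_zero]
  have hQ1 : Q (x + α • z) = 0 := by rw [q_add, q_smul, hx, hz, pr_smul, hxz]; ring
  have hQ2 : Q (y + β • z) = 0 := by rw [q_add, q_smul, hy, hz, pr_smul, hyz]; ring
  have hB : pB Q (x + α • z) (y + β • z) = 0 := by
    rw [pl_add, pr_add, pr_add, pl_smul, pl_smul, pr_smul, pr_smul, hxy, hxz, hzy, hzz]; ring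
  have hxny : pB Q x (-y) = 0 := by rw [pr_neg, hxy, neg_zero]
  have h3 := mul_mem (h2 hQ1 hB) (h1.neg hx hxny)
  have h4 : eich hQ1 hB * eich hx hxny = eich hz' h := by
    apply og_ext
    intro t
    have hQ3 : Q (α • y - β • x) = 0 := by
      rw [q_sub, q_smul, q_smul, hx, hy, pl_smul, pr_smul, hyx]; ring
    have e1 : (eich hx hxny) t = t - pB Q x t • y + pB Q y t • x := by
      rw [eich_apply, pl_neg, q_neg, hy]
      module
    have e2 : pB Q (x + α • z) (t - pB Q x t • y + pB Q y t • x) = pB Q x t + α * pB Q z t := by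
      rw [pr_add, pr_sub, pr_smul, pr_smul, pl_add, pl_add, pl_add, pl_smul, pl_smul, pl_smul, hxy, hzy, hxx, hzx]; ring
    have e3 : pB Q (y + β • z) (t - pB Q x t • y + pB Q y t • x) = pB Q y t + β * pB Q z t := by
      rw [pr_add, pr_sub, pr_smul, pr_smul, pl_add, pl_add, pl_add, pl_smul, pl_smul, pl_smul, hyy, hzy, hyx, hzx]; ring
    rw [og_mul, e1, eich_apply, eich_apply, e2, e3, hQ2, hQ3, pl_sub, pl_smul, pl_smul]
    module
  rwa [h4] at h3

namespace RM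

lemma tri_smul (_S : RM Q Q₀ e M) (T : Tri F Q₀ e M) {a : W} (ha : Q₀ a = 0) (ha0 : a ≠ 0) {x : V} {μ : F} (hμ : μ ≠ 0)
    (hx : pB Q (μ • e a) x = 0) (h : RI M (μ • e a) x) : ∃ (w : W) (c : F), μ • x = e w + c • e a := by
  have h1 : pB Q (e a) x = 0 := by
    rw [pl_smul] at hx
    exact (mul_eq_zero.mp hx).resolve_left hμ
  exact T a (μ • x) ha ha0 (by rw [pr_smul, h1, mul_zero]) (RI.smul_right h h1)

/-- two representations -/
lemma two_rep (S : RM Q Q₀ e M) {a b w₁ w₂ : W} {c₁ c₂ : F} (hb : b ∉ Submodule.span F₀ {a})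
    (h : e w₁ + c₁ • e a = e w₂ + c₂ • e b) : c₂ ∈ F₀ := by
  obtain ⟨d, had, -, -, hdb⟩ := S.det2 (a := a) (b := a) (y := b) (by simpa using hb)
  have h1 := congrArg (fun x => pB Q (e d) x) h
  beta_reduce at h1
  have hda : pB Q₀ d a = 0 := by rw [pB_symm]; exact had
  rw [pr_add, pr_add, pr_smul, pr_smul, S.B0 hda, S.toRS.pB, S.toRS.pB, S.toRS.pB, hdb, OneMemClass.coe_one] at h1
  have h2 : c₂ = ((pB Q₀ d w₁ - pB Q₀ d w₂ : F₀) : F) := by
    push_cast
    linear_combination -h1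
  rw [h2]
  exact SetLike.coe_mem _

lemma notMem_ex2 (S : RM Q Q₀ e M) {a b d : W} (h : d ∉ Submodule.span F₀ ({a, b} : Set W)) (x y : F) :
    e d ≠ x • e a + y • e b := by
  intro h1
  apply h
  apply S.toRS.mem_of_mem_ex (F := F)
  rw [h1]
  exact Submodule.add_mem _ (Submodule.smul_mem _ _ (RS.mem_ex e (Submodule.subset_span (by simp))))
    (Submodule.smul_mem _ _ (RS.mem_ex e (Submodule.subset_span (by simp))))

lemma notMem_ex1 (S : RM Q Q₀ e M) {a d : W} (h : d ∉ Submodule.span F₀ ({a} : Set W)) (x : F) :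
    e d ≠ x • e a := by
  intro h1
  apply S.notMem_ex2 (a := a) (b := a) (d := d) (by simpa using h) x 0
  rw [h1, zero_smul, add_zero]

/-- the square of the multiplier -/
lemma mu_sq (S : RM Q Q₀ e M) (T : Tri F Q₀ e M) {g : OG Q} (hg : g ∈ M) {a a' : W} (ha : Q₀ a = 0) (ha0 : a ≠ 0)
    {μ : F} (hμ : μ ≠ 0) (ha' : Q₀ a' = 0) (ha'0 : a' ≠ 0) (h : g (e a) = μ • e a') : μ * μ ∈ F₀ := by
  obtain ⟨v, hav, hv⟩ : ∃ v, pB Q₀ a v = 0 ∧ Q₀ v ≠ 0 := by
    obtain ⟨x, hax, -, hx, hxS⟩ := S.off2 a a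
    obtain ⟨u, hau, -, hu, hux⟩ := S.det2 hxS
    refine ⟨u + x, by rw [pr_add, hau, hax, add_zero], ?_⟩
    rw [q_add, hu, hx, hux]
    simp
  have h1 := (S.hM a v ha hav).conj hg
  have h2 : pB Q (g (e a)) (g (e v)) = 0 := by rw [og_p]; exact S.B0 hav
  rw [h] at h1 h2
  obtain ⟨w, c, hw⟩ := S.tri_smul T ha' ha'0 hμ h2 h1
  have h3 : pB Q (e a') (e w) = 0 := by
    have h4 : pB Q (e a') (μ • g (e v)) = 0 := by
      rw [pl_smul] at h2
      rw [pr_smul, (mul_eq_zero.mp h2).resolve_left hμ, mul_zero]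
    rw [hw, pr_add, pr_smul, pB_self, S.Q0 ha', mul_zero, mul_zero, add_zero] at h4
    exact h4
  have h4 := congrArg (fun x => Q x) hw
  beta_reduce at h4
  rw [q_smul, og_q, q_add, q_smul, S.Q0 ha', pr_smul, pB_symm Q (e w) (e a'), h3, S.q, S.q] at h4
  have h5 : μ * μ = ((Q₀ w / Q₀ v : F₀) : F) := by
    push_cast
    rw [eq_div_iff (by simpa using hv)]
    linear_combination h4
  rw [h5]
  exact SetLike.coe_mem _

/-- step one -/
lemma step_u (S : RM Q Q₀ e M) (T : Tri F Q₀ e M) {g : OG Q} (hg : g ∈ M) {a a' : W} (ha : Q₀ a = 0) (ha0 : a ≠ 0)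
    {μ : F} (hμ : μ ≠ 0) (ha' : Q₀ a' = 0) (ha'0 : a' ≠ 0) (h : g (e a) = μ • e a') {u : W} (hu : Q₀ u = 0)
    (hau : pB Q₀ a u = 0) (hua : u ∉ Submodule.span F₀ {a}) : ∃ u', μ • g (e u) = e u' := by
  have hμ2 := S.mu_sq T hg ha ha0 hμ ha' ha'0 h
  obtain ⟨w, haw, huw, hw, hwS⟩ := S.off2 a u
  have rep : ∀ v, pB Q₀ a v = 0 → ∃ (w : W) (c : F), μ • g (e v) = e w + c • e a' := by
    intro v hav
    have h1 := (S.hM a v ha hav).conj hg
    have h2 : pB Q (g (e a)) (g (e v)) = 0 := by rw [og_p]; exact S.B0 hav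
    rw [h] at h1 h2
    exact S.tri_smul T ha' ha'0 hμ h2 h1
  obtain ⟨u', α, hu'⟩ := rep u hau
  obtain ⟨w', β, hw'⟩ := rep w haw
  have ea : e a' = μ⁻¹ • g (e a) := by rw [h, smul_smul, inv_mul_cancel₀ hμ, one_smul]
  have Ba : ∀ v, pB Q₀ a v = 0 → pB Q (e a') (μ • g (e v)) = 0 := by
    intro v hav
    rw [ea, pl_smul, pr_smul, og_p, S.B0 hav]; ring
  have haa : pB Q (e a') (e a') = 0 := by rw [pB_self, S.Q0 ha', mul_zero]
  have hau' : pB Q (e a') (e u') = 0 := by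
    have := Ba u hau
    rw [hu', pr_add, pr_smul, haa, mul_zero, add_zero] at this
    exact this
  have haw' : pB Q (e a') (e w') = 0 := by
    have := Ba w haw
    rw [hw', pr_add, pr_smul, haa, mul_zero, add_zero] at this
    exact this
  have hua' : pB Q (e u') (e a') = 0 := by rw [pB_symm]; exact hau'
  have hwa' : pB Q (e w') (e a') = 0 := by rw [pB_symm]; exact haw'
  have hQu' : Q (e u') = 0 := by
    have h4 := congrArg (fun x => Q x) hu'
    beta_reduce at h4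
    rw [q_smul, og_q, q_add, q_smul, S.Q0 ha', pr_smul, hua', S.Q0 hu] at h4
    linear_combination -h4
  have hQw' : Q (e w') = 0 := by
    have h4 := congrArg (fun x => Q x) hw'
    beta_reduce at h4
    rw [q_smul, og_q, q_add, q_smul, S.Q0 ha', pr_smul, hwa', S.Q0 hw] at h4
    linear_combination -h4
  have huw' : pB Q (e u') (e w') = 0 := by
    have h4 : pB Q (μ • g (e u)) (μ • g (e w)) = 0 := by
      rw [pl_smul, pr_smul, og_p, S.B0 huw]; ring
    rw [hu', hw', pl_add, pr_add, pr_add, pl_smul, pl_smul, pr_smul, pr_smul, hua', haw', haa] at h4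
    linear_combination h4
  have q0 : ∀ x : W, Q (e x) = 0 → Q₀ x = 0 := by
    intro x hx
    rw [S.q] at hx
    exact_mod_cast hx
  have b0 : ∀ x y : W, pB Q (e x) (e y) = 0 → pB Q₀ x y = 0 := by
    intro x y hx
    rw [S.toRS.pB] at hx
    exact_mod_cast hx
  -- the Siegel element of the images
  have h5 : RI M (e u' + α • e a') (e w' + β • e a') := by
    have h6 := (S.hM u ((⟨μ * μ, hμ2⟩ : F₀) • w) hu (by rw [pr_smul, huw, mul_zero])).conj hg
    rw [S.smul, og_smul] at h6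
    have h7 : RI M (g (e u)) (μ • (μ • g (e w))) := by
      refine h6.congr rfl ?_
      rw [smul_smul]
    have h8 := RI.smul_left hμ h7
    rwa [hu', hw'] at h8
  have h6 := RI.bi hQu' hQw' (S.Q0 ha') huw' hua' hwa' (S.hM u' w' (q0 _ hQu') (b0 _ _ huw')) h5
  obtain ⟨s, t, hst⟩ := T a' _ ha' ha'0 (by rw [pr_sub, pr_smul, pr_smul, hau', haw']; ring) h6
  -- `w' ∉ ⟨a', u'⟩`
  have hw'S : w' ∉ Submodule.span F₀ ({a', u'} : Set W) := by
    intro hm
    obtain ⟨x, y, hxy⟩ := Submodule.mem_span_pair.mp hm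
    have h7 : e w' = (x : F) • e a' + (y : F) • e u' := by rw [← hxy, S.add, S.smul, S.smul]
    have h8 : μ • g (e w) = (y : F) • (μ • g (e u)) + ((x : F) + β - (y : F) * α) • e a' := by
      rw [hw', hu', h7]; module
    rw [ea, ← og_smul, ← og_smul, ← og_smul, ← og_smul, ← og_smul, ← og_add] at h8
    have h9 := og_inj g h8
    apply S.notMem_ex2 hwS (μ⁻¹ * (((x : F) + β - (y : F) * α) * μ⁻¹)) (y : F)
    have h10 : e w = μ⁻¹ • (μ • e w) := by rw [smul_smul, inv_mul_cancel₀ hμ, one_smul]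
    rw [h10, h9, smul_add, smul_smul, smul_smul, smul_smul, smul_smul, add_comm]
    congr 2
    · ring
    · field_simp
  obtain ⟨d, had, hud, hQd, hdw⟩ := S.det2 hw'S
  have h7 := congrArg (fun x => pB Q (e d) x) hst
  beta_reduce at h7
  have hda : pB Q₀ d a' = 0 := by rw [pB_symm]; exact had
  have hdu : pB Q₀ d u' = 0 := by rw [pB_symm]; exact hud
  rw [pr_sub, pr_add, pr_smul, pr_smul, pr_smul, S.B0 hda, S.B0 hdu, S.toRS.pB, S.toRS.pB, hdw] at h7
  have hα : α = ((pB Q₀ d s : F₀) : F) := by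
    rw [OneMemClass.coe_one] at h7
    linear_combination h7
  refine ⟨u' + pB Q₀ d s • a', ?_⟩
  rw [hu', S.add, S.smul, ← hα]

/-- one rational point going to a rational point is enough -/
theorem all_rat (S : RM Q Q₀ e M) (T : Tri F Q₀ e M) {g : OG Q} (hg : g ∈ M) {a a' : W} (ha : Q₀ a = 0) (ha0 : a ≠ 0)
    {μ : F} (h : g (e a) = μ • e a') (v : W) : ∃ w, g (e v) = μ • e w := by
  have hea : g (e a) ≠ 0 := by
    intro h1
    apply ha0
    apply S.toRS.inj
    exact og_inj g (h1.trans (og_zero g).symm)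
  have hμ : μ ≠ 0 := by
    rintro rfl
    rw [zero_smul] at h
    exact hea h
  have ha'0 : a' ≠ 0 := by
    rintro rfl
    rw [S.toRS.zero, smul_zero] at h
    exact hea h
  have ha' : Q₀ a' = 0 := by
    have h1 := congrArg (fun x => Q x) h
    beta_reduce at h1
    rw [og_q, S.Q0 ha, q_smul, S.q] at h1
    have h2 := (mul_eq_zero.mp h1.symm).resolve_left (mul_ne_zero hμ hμ)
    exact_mod_cast h2
  have hμ2 := S.mu_sq T hg ha ha0 hμ ha' ha'0 h
  obtain ⟨u, hau, hvu, hu, huS⟩ := S.off2 a v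
  obtain ⟨u₂, hau₂, hvu₂, huu₂, hu₂, hu₂S⟩ := S.off3 a v u
  have hua : u ∉ Submodule.span F₀ {a} := fun h => huS (Submodule.span_mono (by
    intro x hx; simp only [Set.mem_insert_iff, Set.mem_singleton_iff] at hx ⊢; tauto) h)
  have hu₂a : u₂ ∉ Submodule.span F₀ {a} := fun h => hu₂S (Submodule.span_mono (by
    intro x hx; simp only [Set.mem_insert_iff, Set.mem_singleton_iff] at hx ⊢; tauto) h)
  have hu₂u : u₂ ∉ Submodule.span F₀ {u} := fun h => hu₂S (Submodule.span_mono (by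
    intro x hx; simp only [Set.mem_insert_iff, Set.mem_singleton_iff] at hx ⊢; tauto) h)
  have hu0 : u ≠ 0 := by rintro rfl; exact huS (Submodule.zero_mem _)
  have hu₂0 : u₂ ≠ 0 := by rintro rfl; exact hu₂S (Submodule.zero_mem _)
  obtain ⟨p, hp⟩ := S.step_u T hg ha ha0 hμ ha' ha'0 h hu hau hua
  obtain ⟨p₂, hp₂⟩ := S.step_u T hg ha ha0 hμ ha' ha'0 h hu₂ hau₂ hu₂a
  have hμi : μ⁻¹ ≠ 0 := inv_ne_zero hμ
  have key : ∀ (x x' : W), Q₀ x = 0 → x ≠ 0 → pB Q₀ v x = 0 → μ • g (e x) = e x' →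
      ∃ (w : W) (c : F), μ⁻¹ • g (e v) = e w + c • e x' := by
    intro x x' hx hx0 hvx hxx
    have hg1 : g (e x) = μ⁻¹ • e x' := by rw [← hxx, smul_smul, inv_mul_cancel₀ hμ, one_smul]
    have hxv : pB Q₀ x v = 0 := by rw [pB_symm]; exact hvx
    have h1 := (S.hM x v hx hxv).conj hg
    have h2 : pB Q (g (e x)) (g (e v)) = 0 := by rw [og_p]; exact S.B0 hxv
    have hgx0 : g (e x) ≠ 0 := by
      intro h3
      apply hx0
      apply S.toRS.inj
      exact og_inj g (h3.trans (og_zero g).symm)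
    rw [hg1] at h1 h2 hgx0
    have hx'0 : x' ≠ 0 := by
      rintro rfl
      apply hgx0
      rw [S.toRS.zero, smul_zero]
    have hx' : Q₀ x' = 0 := by
      have h3 := congrArg (fun x => Q x) hg1
      beta_reduce at h3
      rw [og_q, S.Q0 hx, q_smul, S.q] at h3
      have h4 := (mul_eq_zero.mp h3.symm).resolve_left (mul_ne_zero hμi hμi)
      exact_mod_cast h4
    exact S.tri_smul T hx' hx'0 hμi h2 h1
  obtain ⟨w₁, c₁, h1⟩ := key u p hu hu0 hvu hp
  obtain ⟨w₂, c₂, h2⟩ := key u₂ p₂ hu₂ hu₂0 hvu₂ hp₂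
  have hpp : p₂ ∉ Submodule.span F₀ {p} := by
    intro hm
    obtain ⟨c, hc⟩ := Submodule.mem_span_singleton.mp hm
    apply S.notMem_ex1 hu₂u (c : F)
    have h3 : μ • g (e u₂) = (c : F) • (μ • g (e u)) := by rw [hp₂, hp, ← hc, S.smul]
    rw [← og_smul, ← og_smul, ← og_smul] at h3
    have h4 := og_inj g h3
    have h5 : e u₂ = μ⁻¹ • (μ • e u₂) := by rw [smul_smul, inv_mul_cancel₀ hμ, one_smul]
    rw [h5, h4, smul_smul, smul_smul]
    congr 1
    field_simp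
  have hc₂ := S.two_rep hpp (h1.symm.trans h2)
  refine ⟨w₂ + (⟨c₂, hc₂⟩ : F₀) • p₂, ?_⟩
  rw [S.add, S.smul, ← h2, smul_smul, mul_inv_cancel₀ hμ, one_smul]

/-- images orthogonal to a rational singular plane -/
theorem rat_of_perp (S : RM Q Q₀ e M) (T : Tri F Q₀ e M) {g : OG Q} (hg : g ∈ M) {a b : W} (ha : Q₀ a = 0) (hb : Q₀ b = 0)
    (ha0 : a ≠ 0) (hba : b ∉ Submodule.span F₀ {a}) {u w w' : W} (hu : Q₀ u = 0) (hw : Q₀ w = 0)
    (hw' : Q₀ w' = 0) (huw : pB Q₀ u w = 0) (huw' : pB Q₀ u w' = 0) (hpa : pB Q (g (e u)) (e a) = 0)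
    (hpb : pB Q (g (e u)) (e b) = 0) (hqa : pB Q (g (e w)) (e a) = 0) (hqb : pB Q (g (e w)) (e b) = 0)
    (hra : pB Q (g (e w')) (e a) = 0) (hrb : pB Q (g (e w')) (e b) = 0)
    (hind : ∀ x y z : F, x • g (e u) + y • g (e w) + z • g (e w') ∈ ex F e (Submodule.span F₀ ({a, b} : Set W)) →
      x = 0 ∧ y = 0 ∧ z = 0) : ∃ (c : F) (v : W), c ≠ 0 ∧ g (e u) = c • e v := by
  set p := g (e u) with hp
  set q := g (e w) with hq
  set r := g (e w') with hr
  set E := Submodule.span F₀ ({a, b} : Set W) with hE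
  have hb0 : b ≠ 0 := by rintro rfl; exact hba (Submodule.zero_mem _)
  have hab' : a ∉ Submodule.span F₀ {b} := notMem_single_of ha0 hba
  have hQp : Q p = 0 := by rw [hp, og_q]; exact S.Q0 hu
  -- the contraction is rational
  have key : ∀ (w : W), Q₀ w = 0 → pB Q₀ u w = 0 → pB Q (g (e w)) (e a) = 0 → pB Q (g (e w)) (e b) = 0 →
      ∀ β ∈ oc Q₀ E, ∀ γ, pB Q p (e β) * pB Q (g (e w)) (e γ) - pB Q (g (e w)) (e β) * pB Q p (e γ) ∈ F₀ := by
    intro w hw huw hqa hqb β hβ γ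
    have hβ' := mem_oc_pair.1 hβ
    have h1 := (S.hM u w hu huw).conj hg
    have hQq : Q (g (e w)) = 0 := by rw [og_q]; exact S.Q0 hw
    have hpq : pB Q p (g (e w)) = 0 := by rw [hp, og_p]; exact S.B0 huw
    have h2 := h1.comm' (S.hM a β ha hβ'.1) hQp hQq hpq (S.B0 hβ'.1) hpa hqa
    have h3 := h1.comm' (S.hM b β hb hβ'.2) hQp hQq hpq (S.B0 hβ'.2) hpb hqb
    have hap : pB Q (e a) p = 0 := by rw [pB_symm]; exact hpa
    have hbp : pB Q (e b) p = 0 := by rw [pB_symm]; exact hpb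
    have haq : pB Q (e a) (g (e w)) = 0 := by rw [pB_symm]; exact hqa
    have hbq : pB Q (e b) (g (e w)) = 0 := by rw [pB_symm]; exact hqb
    obtain ⟨w₁, c₁, hw₁⟩ := T a _ ha ha0 (by rw [pr_sub, pr_smul, pr_smul, ← hp, hap, haq]; ring) h2
    obtain ⟨w₂, c₂, hw₂⟩ := T b _ hb hb0 (by rw [pr_sub, pr_smul, pr_smul, ← hp, hbp, hbq]; ring) h3
    have hc := S.two_rep hba (hw₁.symm.trans hw₂)
    have h4 := congrArg (fun x => pB Q x (e γ)) hw₂
    beta_reduce at h4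
    rw [pl_sub, pl_smul, pl_smul, pl_add, pl_smul, S.toRS.pB, S.toRS.pB] at h4
    rw [← hp] at h4
    rw [h4]
    exact F₀.add_mem (SetLike.coe_mem _) (F₀.mul_mem hc (SetLike.coe_mem _))
  have k1 := key w hw huw hqa hqb
  have k2 := key w' hw' huw' hra hrb
  rw [← hq] at k1
  rw [← hr] at k2
  -- the choice of `β, γ, η`
  obtain ⟨β, hβ, hpβ⟩ := S.toRS.exists_det (x := p) E (by
    intro hm
    have := hind 1 0 0 (by rw [one_smul, zero_smul, zero_smul, add_zero, add_zero]; exact hm)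
    exact one_ne_zero this.1)
  obtain ⟨γ, hγ, hωγ⟩ := S.toRS.exists_det (x := pB Q p (e β) • q - pB Q q (e β) • p) E (by
    intro hm
    have := hind (-pB Q q (e β)) (pB Q p (e β)) 0 (by
      rw [zero_smul, add_zero]
      have h5 : (-pB Q q (e β)) • p + pB Q p (e β) • q = pB Q p (e β) • q - pB Q q (e β) • p := by module
      rw [h5]; exact hm)
    exact hpβ this.2.1)
  rw [pl_sub, pl_smul, pl_smul] at hωγ
  set ω1 := pB Q p (e β) * pB Q q (e γ) - pB Q q (e β) * pB Q p (e γ) with hω1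
  obtain ⟨η, hη, hD⟩ := S.toRS.exists_det (x := ω1 • r - (pB Q p (e β) * pB Q r (e γ) - pB Q r (e β) * pB Q p (e γ)) • q
      + (pB Q q (e β) * pB Q r (e γ) - pB Q r (e β) * pB Q q (e γ)) • p) E (by
    intro hm
    have := hind (pB Q q (e β) * pB Q r (e γ) - pB Q r (e β) * pB Q q (e γ))
      (-(pB Q p (e β) * pB Q r (e γ) - pB Q r (e β) * pB Q p (e γ))) ω1 (by
      have h5 : (pB Q q (e β) * pB Q r (e γ) - pB Q r (e β) * pB Q q (e γ)) • p
        + (-(pB Q p (e β) * pB Q r (e γ) - pB Q r (e β) * pB Q p (e γ))) • q + ω1 • r =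
        ω1 • r - (pB Q p (e β) * pB Q r (e γ) - pB Q r (e β) * pB Q p (e γ)) • q
        + (pB Q q (e β) * pB Q r (e γ) - pB Q r (e β) * pB Q q (e γ)) • p := by module
      rw [h5]; exact hm)
    exact hωγ this.2.2)
  rw [pl_add, pl_sub, pl_smul, pl_smul, pl_smul] at hD
  set D := ω1 * pB Q r (e η) - (pB Q p (e β) * pB Q r (e γ) - pB Q r (e β) * pB Q p (e γ)) * pB Q q (e η)
      + (pB Q q (e β) * pB Q r (e γ) - pB Q r (e β) * pB Q q (e γ)) * pB Q p (e η) with hDdef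
  have hfin : ∀ ξ, pB Q (D • p) (e ξ) ∈ F₀ := by
    intro ξ
    have e1 : pB Q (D • p) (e ξ) =
        -((pB Q p (e β) * pB Q q (e γ) - pB Q q (e β) * pB Q p (e γ)) *
          (pB Q p (e η) * pB Q r (e ξ) - pB Q r (e η) * pB Q p (e ξ)) +
        (pB Q p (e γ) * pB Q q (e η) - pB Q q (e γ) * pB Q p (e η)) *
          (pB Q p (e β) * pB Q r (e ξ) - pB Q r (e β) * pB Q p (e ξ)) +
        (pB Q p (e η) * pB Q q (e β) - pB Q q (e η) * pB Q p (e β)) *
          (pB Q p (e γ) * pB Q r (e ξ) - pB Q r (e γ) * pB Q p (e ξ))) := by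
      rw [pl_smul, hDdef, hω1]; ring
    rw [e1]
    exact F₀.neg_mem (F₀.add_mem (F₀.add_mem (F₀.mul_mem (k1 β hβ γ) (k2 η hη ξ)) (F₀.mul_mem (k1 γ hγ η) (k2 β hβ ξ)))
      (F₀.mul_mem (k1 η hη β) (k2 γ hγ ξ)))
  obtain ⟨v, hv⟩ := S.toRS.rat_of hfin
  exact ⟨D⁻¹, v, inv_ne_zero hD, by rw [← hv, smul_smul, inv_mul_cancel₀ hD, one_smul]⟩

end RM

end Cfsg.Agent.H12
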