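import Cfsg.Agent.H12.RSub3
import Cfsg.Agent.H2.Dick5

/-!
The group `SL₂` attached to two opposite singular planes.
-/

set_option autoImplicit false
set_option linter.unusedSectionVars false

namespace Cfsg.Agent.H12

open Matrix Cfsg Cfsg.Agent.H5

section sl

variable {F V : Type*} [Field F] [AddCommGroup V] [Module F V] {Q : QuadraticForm F V}

/-- two dual hyperbolic pairs -/
structure HP (Q : QuadraticForm F V) (e₁ e₂ f₁ f₂ : V) : Prop where
  q1 : Q e₁ = 0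
  q2 : Q e₂ = 0
  q3 : Q f₁ = 0
  q4 : Q f₂ = 0
  b12 : pB Q e₁ e₂ = 0
  b34 : pB Q f₁ f₂ = 0
  b13 : pB Q e₁ f₁ = 1
  b24 : pB Q e₂ f₂ = 1
  b14 : pB Q e₁ f₂ = 0
  b23 : pB Q e₂ f₁ = 0

/-- the action of a matrix -/
noncomputable def phiMap (Q : QuadraticForm F V) (e₁ e₂ f₁ f₂ : V) (A : Matrix (Fin 2) (Fin 2) F) : V →ₗ[F] V where
  toFun x := x + ((A 0 0 - 1) * pB Q f₁ x + A 0 1 * pB Q e₂ x) • e₁
    + ((A 0 0 - 1) * pB Q f₂ x - A 0 1 * pB Q e₁ x) • e₂
    + ((A 1 1 - 1) * pB Q e₁ x - A 1 0 * pB Q f₂ x) • f₁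
    + ((A 1 1 - 1) * pB Q e₂ x + A 1 0 * pB Q f₁ x) • f₂
  map_add' := by
    intro x y
    simp only [pr_add]
    module
  map_smul' := by
    intro c x
    simp only [pr_smul, RingHom.id_apply]
    module

lemma phiMap_apply (e₁ e₂ f₁ f₂ : V) (A : Matrix (Fin 2) (Fin 2) F) (x : V) : phiMap Q e₁ e₂ f₁ f₂ A x =
    x + ((A 0 0 - 1) * pB Q f₁ x + A 0 1 * pB Q e₂ x) • e₁
    + ((A 0 0 - 1) * pB Q f₂ x - A 0 1 * pB Q e₁ x) • e₂
    + ((A 1 1 - 1) * pB Q e₁ x - A 1 0 * pB Q f₂ x) • f₁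
    + ((A 1 1 - 1) * pB Q e₂ x + A 1 0 * pB Q f₁ x) • f₂ := rfl

namespace HP

variable {e₁ e₂ f₁ f₂ : V}

lemma s21 (H : HP Q e₁ e₂ f₁ f₂) : pB Q e₂ e₁ = 0 := by rw [pB_symm]; exact H.b12
lemma s43 (H : HP Q e₁ e₂ f₁ f₂) : pB Q f₂ f₁ = 0 := by rw [pB_symm]; exact H.b34
lemma s31 (H : HP Q e₁ e₂ f₁ f₂) : pB Q f₁ e₁ = 1 := by rw [pB_symm]; exact H.b13
lemma s42 (H : HP Q e₁ e₂ f₁ f₂) : pB Q f₂ e₂ = 1 := by rw [pB_symm]; exact H.b24
lemma s41 (H : HP Q e₁ e₂ f₁ f₂) : pB Q f₂ e₁ = 0 := by rw [pB_symm]; exact H.b14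
lemma s32 (H : HP Q e₁ e₂ f₁ f₂) : pB Q f₁ e₂ = 0 := by rw [pB_symm]; exact H.b23
lemma s11 (H : HP Q e₁ e₂ f₁ f₂) : pB Q e₁ e₁ = 0 := by rw [pB_self, H.q1, mul_zero]
lemma s22 (H : HP Q e₁ e₂ f₁ f₂) : pB Q e₂ e₂ = 0 := by rw [pB_self, H.q2, mul_zero]
lemma s33 (H : HP Q e₁ e₂ f₁ f₂) : pB Q f₁ f₁ = 0 := by rw [pB_self, H.q3, mul_zero]
lemma s44 (H : HP Q e₁ e₂ f₁ f₂) : pB Q f₂ f₂ = 0 := by rw [pB_self, H.q4, mul_zero]

lemma c_f1 (H : HP Q e₁ e₂ f₁ f₂) (A : Matrix (Fin 2) (Fin 2) F) (x : V) :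
    pB Q f₁ (phiMap Q e₁ e₂ f₁ f₂ A x) = A 0 0 * pB Q f₁ x + A 0 1 * pB Q e₂ x := by
  rw [phiMap_apply]
  simp only [pr_add, pr_smul, H.s31, H.s32, H.s33, H.b34]
  ring

lemma c_f2 (H : HP Q e₁ e₂ f₁ f₂) (A : Matrix (Fin 2) (Fin 2) F) (x : V) :
    pB Q f₂ (phiMap Q e₁ e₂ f₁ f₂ A x) = A 0 0 * pB Q f₂ x - A 0 1 * pB Q e₁ x := by
  rw [phiMap_apply]
  simp only [pr_add, pr_smul, H.s41, H.s42, H.s43, H.s44]
  ring

lemma c_e1 (H : HP Q e₁ e₂ f₁ f₂) (A : Matrix (Fin 2) (Fin 2) F) (x : V) :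
    pB Q e₁ (phiMap Q e₁ e₂ f₁ f₂ A x) = A 1 1 * pB Q e₁ x - A 1 0 * pB Q f₂ x := by
  rw [phiMap_apply]
  simp only [pr_add, pr_smul, H.s11, H.b12, H.b13, H.b14]
  ring

lemma c_e2 (H : HP Q e₁ e₂ f₁ f₂) (A : Matrix (Fin 2) (Fin 2) F) (x : V) :
    pB Q e₂ (phiMap Q e₁ e₂ f₁ f₂ A x) = A 1 1 * pB Q e₂ x + A 1 0 * pB Q f₁ x := by
  rw [phiMap_apply]
  simp only [pr_add, pr_smul, H.s21, H.s22, H.b23, H.b24]
  ring

lemma phi_mul (H : HP Q e₁ e₂ f₁ f₂) (A B : Matrix (Fin 2) (Fin 2) F) (x : V) :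
    phiMap Q e₁ e₂ f₁ f₂ A (phiMap Q e₁ e₂ f₁ f₂ B x) = phiMap Q e₁ e₂ f₁ f₂ (A * B) x := by
  rw [phiMap_apply e₁ e₂ f₁ f₂ A, H.c_f1, H.c_f2, H.c_e1, H.c_e2, phiMap_apply, phiMap_apply]
  simp only [Matrix.mul_apply, Fin.sum_univ_two]
  module

lemma phi_one (x : V) : phiMap Q e₁ e₂ f₁ f₂ 1 x = x := by
  rw [phiMap_apply]
  simp

lemma phi_q (H : HP Q e₁ e₂ f₁ f₂) {A : Matrix (Fin 2) (Fin 2) F} (hA : A.det = 1) (x : V) :
    Q (phiMap Q e₁ e₂ f₁ f₂ A x) = Q x := by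
  rw [Matrix.det_fin_two] at hA
  rw [phiMap_apply, q_add, q_add, q_add, q_add]
  simp only [q_smul, pl_add, pr_smul, pl_smul, H.q1, H.q2, H.q3, H.q4, H.b12, H.b34, H.b13, H.b24, H.b14, H.b23]
  rw [pB_symm Q x e₁, pB_symm Q x e₂, pB_symm Q x f₁, pB_symm Q x f₂]
  linear_combination (pB Q f₁ x * pB Q e₁ x + pB Q f₂ x * pB Q e₂ x) * hA

/-- the homomorphism -/
noncomputable def Phi (H : HP Q e₁ e₂ f₁ f₂) : Matrix.SpecialLinearGroup (Fin 2) F →* OG Q where
  toFun A := ⟨{ toLinearMap := phiMap Q e₁ e₂ f₁ f₂ A.1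
                invFun := phiMap Q e₁ e₂ f₁ f₂ (A⁻¹).1
                left_inv := by
                  intro x
                  show phiMap Q e₁ e₂ f₁ f₂ (A⁻¹).1 (phiMap Q e₁ e₂ f₁ f₂ A.1 x) = x
                  rw [H.phi_mul]
                  have h1 : (A⁻¹).1 * A.1 = 1 := congrArg Subtype.val (inv_mul_cancel A)
                  rw [h1, phi_one]
                right_inv := by
                  intro x
                  show phiMap Q e₁ e₂ f₁ f₂ A.1 (phiMap Q e₁ e₂ f₁ f₂ (A⁻¹).1 x) = x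
                  rw [H.phi_mul]
                  have h1 : A.1 * (A⁻¹).1 = 1 := congrArg Subtype.val (mul_inv_cancel A)
                  rw [h1, phi_one] }, fun x => H.phi_q A.2 x⟩
  map_one' := by
    apply og_ext
    intro x
    exact phi_one x
  map_mul' := by
    intro A B
    apply og_ext
    intro x
    exact (H.phi_mul A.1 B.1 x).symm

lemma Phi_apply (H : HP Q e₁ e₂ f₁ f₂) (A : Matrix.SpecialLinearGroup (Fin 2) F) (x : V) :
    (H.Phi A) x = phiMap Q e₁ e₂ f₁ f₂ A.1 x := rfl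

lemma Phi_neg (H : HP Q e₁ e₂ f₁ f₂) (x : V) : (H.Phi (-1)) x =
    x - (2 * pB Q f₁ x) • e₁ - (2 * pB Q f₂ x) • e₂ - (2 * pB Q e₁ x) • f₁ - (2 * pB Q e₂ x) • f₂ := by
  rw [Phi_apply, phiMap_apply]
  simp only [Matrix.SpecialLinearGroup.coe_neg, Matrix.SpecialLinearGroup.coe_one, Matrix.neg_apply, Matrix.one_apply,
    Fin.isValue, one_ne_zero, zero_ne_one, if_true, if_false, neg_zero]
  module

end HP

/-- unipotent matrices -/
def upM (s : F) : Matrix.SpecialLinearGroup (Fin 2) F := ⟨!![1, s; 0, 1], by rw [Matrix.det_fin_two_of]; ring⟩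
/-- unipotent matrices -/
def loM (s : F) : Matrix.SpecialLinearGroup (Fin 2) F := ⟨!![1, 0; s, 1], by rw [Matrix.det_fin_two_of]; ring⟩

lemma upM_pow (s : F) (k : ℕ) : upM s ^ k = upM ((k : F) * s) := by
  induction k with
  | zero =>
    rw [pow_zero, Nat.cast_zero, zero_mul]
    apply Subtype.ext
    show (1 : Matrix (Fin 2) (Fin 2) F) = !![1, 0; 0, 1]
    exact Matrix.one_fin_two
  | succ k ih =>
    rw [pow_succ, ih]
    apply Subtype.ext
    show !![1, (k : F) * s; 0, 1] * !![1, s; 0, 1] = !![1, ((k + 1 : ℕ) : F) * s; 0, 1]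
    rw [Matrix.mul_fin_two]
    push_cast
    congr 1
    · simp; ring

lemma loM_pow (s : F) (k : ℕ) : loM s ^ k = loM ((k : F) * s) := by
  induction k with
  | zero =>
    rw [pow_zero, Nat.cast_zero, zero_mul]
    apply Subtype.ext
    show (1 : Matrix (Fin 2) (Fin 2) F) = !![1, 0; 0, 1]
    exact Matrix.one_fin_two
  | succ k ih =>
    rw [pow_succ, ih]
    apply Subtype.ext
    show !![1, 0; (k : F) * s, 1] * !![1, 0; s, 1] = !![1, 0; ((k + 1 : ℕ) : F) * s, 1]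
    rw [Matrix.mul_fin_two]
    push_cast
    congr 1
    · simp; ring

lemma HP.Phi_up {e₁ e₂ f₁ f₂ : V} (H : HP Q e₁ e₂ f₁ f₂) (s : F) (h : pB Q e₁ (s • e₂) = 0) :
    H.Phi (upM (-s)) = eich H.q1 h := by
  apply og_ext
  intro x
  rw [HP.Phi_apply, phiMap_apply, eich_apply, q_smul, H.q2, pl_smul]
  simp only [upM, Matrix.of_apply, Matrix.cons_val_zero, Matrix.cons_val_one, Matrix.cons_val', Matrix.cons_val_fin_one]
  module

lemma HP.Phi_lo {e₁ e₂ f₁ f₂ : V} (H : HP Q e₁ e₂ f₁ f₂) (s : F) (h : pB Q f₁ (s • f₂) = 0) :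
    H.Phi (loM s) = eich H.q3 h := by
  apply og_ext
  intro x
  rw [HP.Phi_apply, phiMap_apply, eich_apply, q_smul, H.q4, pl_smul]
  simp only [loM, Matrix.of_apply, Matrix.cons_val_zero, Matrix.cons_val_one, Matrix.cons_val', Matrix.cons_val_fin_one]
  module

/-- the only involution of `SL₂` in odd characteristic -/
lemma sl2_invol (h2 : (2 : F) ≠ 0) {j : Matrix.SpecialLinearGroup (Fin 2) F} (hj : j * j = 1) (hj1 : j ≠ 1) : j = -1 := by
  have hd := j.2
  rw [Matrix.det_fin_two] at hd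
  have h1 : j.1 * j.1 = 1 := congrArg Subtype.val hj
  have e00 := congrFun (congrFun h1 0) 0
  have e01 := congrFun (congrFun h1 0) 1
  have e10 := congrFun (congrFun h1 1) 0
  have e11 := congrFun (congrFun h1 1) 1
  rw [Matrix.mul_apply, Fin.sum_univ_two] at e00 e01 e10 e11
  rw [Matrix.one_apply_eq] at e00 e11
  rw [Matrix.one_apply_ne (by decide)] at e01 e10
  by_cases ht : j.1 0 0 + j.1 1 1 = 0
  · exfalso
    apply h2
    linear_combination (-1 : F) * e00 - hd + (j.1 0 0) * ht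
  · have hb : j.1 0 1 = 0 := by
      have : j.1 0 1 * (j.1 0 0 + j.1 1 1) = 0 := by linear_combination e01
      exact (mul_eq_zero.mp this).resolve_right ht
    have hc : j.1 1 0 = 0 := by
      have : j.1 1 0 * (j.1 0 0 + j.1 1 1) = 0 := by linear_combination e10
      exact (mul_eq_zero.mp this).resolve_right ht
    rw [hb] at e00 hd
    have had : j.1 0 0 = j.1 1 1 := by
      have h3 : j.1 0 0 * (j.1 0 0 - j.1 1 1) = 0 := by linear_combination e00 - hd
      rcases mul_eq_zero.mp h3 with h4 | h4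
      · rw [h4] at hd
        exfalso
        have : (1 : F) = 0 := by linear_combination -hd
        exact one_ne_zero this
      · exact sub_eq_zero.1 h4
    have h3 : (j.1 0 0 - 1) * (j.1 0 0 + 1) = 0 := by linear_combination e00
    rcases mul_eq_zero.mp h3 with h4 | h4
    · exfalso
      apply hj1
      apply Subtype.ext
      have h5 : j.1 0 0 = 1 := sub_eq_zero.1 h4
      ext a b
      fin_cases a <;> fin_cases b
      · show j.1 0 0 = _
        rw [h5]; rfl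
      · show j.1 0 1 = _
        rw [hb]; rfl
      · show j.1 1 0 = _
        rw [hc]; rfl
      · show j.1 1 1 = _
        rw [← had, h5]; rfl
    · apply Subtype.ext
      have h5 : j.1 0 0 = -1 := eq_neg_of_add_eq_zero_left h4
      ext a b
      fin_cases a <;> fin_cases b
      · show j.1 0 0 = (-1 : Matrix (Fin 2) (Fin 2) F) 0 0
        rw [h5]; simp
      · show j.1 0 1 = (-1 : Matrix (Fin 2) (Fin 2) F) 0 1
        rw [hb]; simp
      · show j.1 1 0 = (-1 : Matrix (Fin 2) (Fin 2) F) 1 0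
        rw [hc]; simp
      · show j.1 1 1 = (-1 : Matrix (Fin 2) (Fin 2) F) 1 1
        rw [← had, h5]; simp

/-- `-1` on the 4-space spanned by two opposite singular planes -/
theorem HP.neg_mem [Finite F] {e₁ e₂ f₁ f₂ : V} (H : HP Q e₁ e₂ f₁ f₂) (h2 : (2 : F) ≠ 0) {M : Subgroup (OG Q)}
    {s t : F} (hs : s ≠ 0) (ht : t ≠ 0) (h1 : RI M e₁ (s • e₂)) (h3 : RI M f₁ (t • f₂)) : H.Phi (-1) ∈ M := by
  classical
  set p := ringChar F with hp
  have hpne : p ≠ 2 := ringChar_ne_two h2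
  have hcp : CharP F p := ringChar.charP F
  have hpp : Fact p.Prime := ⟨CharP.char_is_prime F p⟩
  have hA : upM (-s) ∈ M.comap H.Phi := by
    rw [Subgroup.mem_comap, H.Phi_up s (by rw [pr_smul, H.b12, mul_zero])]
    exact h1 _ _
  have hB : loM t ∈ M.comap H.Phi := by
    rw [Subgroup.mem_comap, H.Phi_lo t (by rw [pr_smul, H.b34, mul_zero])]
    exact h3 _ _
  have hfin : Finite (Matrix.SpecialLinearGroup (Fin 2) F) := by
    have : Finite (Matrix (Fin 2) (Fin 2) F) := inferInstance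
    exact Subtype.finite
  have hup0 : upM (0 : F) = 1 := by
    have := upM_pow (0 : F) 0
    rw [pow_zero, mul_zero] at this
    exact this.symm
  have hlo0 : loM (0 : F) = 1 := by
    have := loM_pow (0 : F) 0
    rw [pow_zero, mul_zero] at this
    exact this.symm
  obtain ⟨L, hL, ⟨iso⟩⟩ := Cfsg.Agent.H2.dickson_pair (p := p) hpne (M.comap H.Phi) hA hB
    (by rw [upM_pow, CharP.cast_eq_zero, zero_mul, hup0]) (by rw [loM_pow, CharP.cast_eq_zero, zero_mul, hlo0])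
    (by
      intro heq
      have h4 : (upM (-s)).1 * (loM t).1 = (loM t).1 * (upM (-s)).1 := congrArg Subtype.val heq
      have h5 := congrFun (congrFun h4 0) 0
      simp only [upM, loM, Matrix.mul_apply, Fin.sum_univ_two, Matrix.of_apply, Matrix.cons_val_zero, Matrix.cons_val_one,
        Matrix.cons_val', Matrix.cons_val_fin_one] at h5
      have h6 : s * t = 0 := by linear_combination -h5
      rcases mul_eq_zero.mp h6 with h7 | h7
      · exact hs h7
      · exact ht h7)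
  set c : Matrix.SpecialLinearGroup (Fin 2) (ZMod p) := -1 with hc
  have hcc : c * c = 1 := by rw [hc]; simp
  have hc1 : c ≠ 1 := by
    intro h4
    have h5 : (c.1 : Matrix (Fin 2) (Fin 2) (ZMod p)) 0 0 = (1 : Matrix (Fin 2) (Fin 2) (ZMod p)) 0 0 := by
      rw [h4]; rfl
    rw [hc, Matrix.SpecialLinearGroup.coe_neg, Matrix.SpecialLinearGroup.coe_one, Matrix.neg_apply,
      Matrix.one_apply_eq] at h5
    have h6 : ((2 : ℕ) : ZMod p) = 0 := by push_cast; linear_combination -h5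
    rw [ZMod.natCast_eq_zero_iff] at h6
    have h7 := Nat.le_of_dvd (by norm_num) h6
    have h8 := hpp.out.two_le
    omega
  have hj : ((iso.symm c : L) : Matrix.SpecialLinearGroup (Fin 2) F) * (iso.symm c : L) = 1 := by
    rw [← Subgroup.coe_mul, ← map_mul, hcc, map_one, Subgroup.coe_one]
  have hj1 : ((iso.symm c : L) : Matrix.SpecialLinearGroup (Fin 2) F) ≠ 1 := by
    intro h4
    apply hc1
    have h5 : iso.symm c = 1 := Subtype.ext h4
    have h6 := congrArg iso h5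
    rwa [MulEquiv.apply_symm_apply, map_one] at h6
  have h4 := sl2_invol h2 hj hj1
  have h5 : ((iso.symm c : L) : Matrix.SpecialLinearGroup (Fin 2) F) ∈ M.comap H.Phi := hL (SetLike.coe_mem _)
  rw [h4, Subgroup.mem_comap] at h5
  exact h5

/-- change of basis in a singular plane -/
lemma RI.lin2 {M : Subgroup (OG Q)} {p q : V} (hp : Q p = 0) (hq : Q q = 0) (hpq : pB Q p q = 0) {x y z t : F}
    (hdet : x * t - y * z = 1) (h : RI M p q) : RI M (x • p + y • q) (z • p + t • q) := by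
  intro h1 h3
  have h4 : eich h1 h3 = eich hp hpq := by
    apply og_ext
    intro v
    have hQ : Q (z • p + t • q) = 0 := by rw [q_add, q_smul, q_smul, hp, hq, pl_smul, pr_smul, hpq]; ring
    rw [eich_apply, eich_apply, hQ, hq, pl_add, pl_add, pl_smul, pl_smul, pl_smul, pl_smul]
    have e1 : v + (x * pB Q p v + y * pB Q q v) • (z • p + t • q) - (z * pB Q p v + t * pB Q q v) • (x • p + y • q)
        - (0 * (x * pB Q p v + y * pB Q q v)) • (x • p + y • q) =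
        v + (((x * t - y * z) * pB Q p v) • q) - (((x * t - y * z) * pB Q q v) • p) := by module
    rw [e1, hdet]
    module
  rw [h4]
  exact h hp hpq

end sl

end Cfsg.Agent.H12
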