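import Mathlib
import Cfsg.Prelude.Def_GeometricClasses
import Cfsg.Agent.H12.RSieg
import Cfsg.Agent.H12.Subfield

/-!
Subfield groups inside classical groups with transvections (symplectic and unitary): the common
set-up `SubF`, the subring `Csub` of scalars, and step 1 (vectors that are not rational but are orthogonal to a
rational isotropic vector do not occur when `Csub = ⊥`).
-/

set_option autoImplicit false
set_option linter.unusedSectionVars false

open scoped MatrixGroups Matrix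

namespace Cfsg.Agent.H12

variable {ι : Type} [Fintype ι] [DecidableEq ι] {F : Type*} [Field F]

/-- the set-up -/
structure SubF (σ : F ≃+* F) (ε : F) (f : (ι → F) → (ι → F) → F) (F₀ : Subfield F) (P : GL ι F)
    (σ₀ : F₀ ≃+* F₀) (ε₀ : F₀) (b : (ι → F₀) → (ι → F₀) → F₀) (ζ : F) (t₀ : F₀) (M : Subgroup (GL ι F)) : Prop where
  h : ReflForm σ ε f
  h₀ : ReflForm σ₀ ε₀ b
  hσ : ∀ x : F₀, ((σ₀ x : F₀) : F) = σ (x : F)
  hε : (ε₀ : F) = ε
  hζ0 : ζ ≠ 0
  hζσ : σ ζ = ζ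
  hb : ∀ u v, ((b u v : F₀) : F) = ζ * f (emb P u) (emb P v)
  ht0 : t₀ ≠ 0
  ht : σ₀ t₀ + ε₀ * t₀ = 0
  P2 : ∀ s : Finset (ι → F₀), s.card ≤ 4 → ∀ x, x ∉ Submodule.span F₀ (s : Set (ι → F₀)) →
    ∃ a, (∀ u ∈ s, b a u = 0) ∧ b a a = 0 ∧ b a x ≠ 0
  P3 : ∀ s : Finset (ι → F₀), s.card ≤ 4 → ∀ x, (∀ u ∈ s, b x u = 0) →
    ∃ y z, (∀ u ∈ s, b y u = 0) ∧ (∀ u ∈ s, b z u = 0) ∧ b y y = 0 ∧ b z z = 0 ∧ x = y + z
  dim : 13 ≤ Fintype.card ι
  hiso : ∀ g ∈ M, IsIsom f g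
  trans : ∀ a a', b a a = 0 → a ≠ 0 → b a' a' = 0 → a' ≠ 0 →
    ∃ g₀ : GL ι F₀, rho P g₀ ∈ M ∧ (g₀ : Matrix ι ι F₀) *ᵥ a = a'
  hMs : ∀ w v (l : F₀), b w w = 0 → b v w = 0 → σ₀ l + ε₀ * l + b v v = 0 →
    rs ε f (emb P w) (ζ • emb P v) (ζ * l) ∈ M

/-- orthogonal to some non-zero isotropic rational vector -/
def NF {F₀ : Subfield F} (f : (ι → F) → (ι → F) → F) (P : GL ι F) (b : (ι → F₀) → (ι → F₀) → F₀) (x : ι → F) : Prop :=
  ∃ u : ι → F₀, u ≠ 0 ∧ b u u = 0 ∧ f x (emb P u) = 0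

/-- multiple of a rational vector -/
def Rat (F₀ : Subfield F) (P : GL ι F) (x : ι → F) : Prop := ∃ (c : F) (u : ι → F₀), x = c • emb P u

lemma notMem_span_trans {K : Type*} [Field K] {a y k : ι → K} (hya : y ∉ Submodule.span K {a})
    (hk : k ∉ Submodule.span K ({a, y} : Set (ι → K))) : y ∉ Submodule.span K ({a, k} : Set (ι → K)) := by
  intro hm
  obtain ⟨α, β, hαβ⟩ := Submodule.mem_span_pair.mp hm
  by_cases hβ : β = 0
  · apply hya
    rw [← hαβ, hβ, zero_smul, add_zero]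
    exact Submodule.smul_mem _ _ (Submodule.mem_span_singleton_self a)
  · apply hk
    rw [Submodule.mem_span_pair]
    refine ⟨-(β⁻¹ * α), β⁻¹, ?_⟩
    rw [← hαβ, smul_add, smul_smul, smul_smul, inv_mul_cancel₀ hβ, one_smul]
    module

namespace SubF

variable {σ : F ≃+* F} {ε : F} {f : (ι → F) → (ι → F) → F} {F₀ : Subfield F} {P : GL ι F}
    {σ₀ : F₀ ≃+* F₀} {ε₀ : F₀} {b : (ι → F₀) → (ι → F₀) → F₀} {ζ : F} {t₀ : F₀} {M : Subgroup (GL ι F)}

lemma fE (S : SubF σ ε f F₀ P σ₀ ε₀ b ζ t₀ M) (u v : ι → F₀) : f (emb P u) (emb P v) = ζ⁻¹ * b u v := by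
  rw [S.hb, ← mul_assoc, inv_mul_cancel₀ S.hζ0, one_mul]

lemma fE0 (S : SubF σ ε f F₀ P σ₀ ε₀ b ζ t₀ M) {u v : ι → F₀} (h : b u v = 0) : f (emb P u) (emb P v) = 0 := by
  rw [S.fE, h]; simp

lemma bE0 (S : SubF σ ε f F₀ P σ₀ ε₀ b ζ t₀ M) {u v : ι → F₀} (h : f (emb P u) (emb P v) = 0) : b u v = 0 := by
  apply Subtype.ext
  rw [S.hb, h, mul_zero]; rfl

lemma eE (S : SubF σ ε f F₀ P σ₀ ε₀ b ζ t₀ M) {u v : ι → F₀} {g : GL ι F₀} (hg : rho P g ∈ M) :
    b ((g : Matrix ι ι F₀) *ᵥ u) ((g : Matrix ι ι F₀) *ᵥ v) = b u v := by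
  apply Subtype.ext
  rw [S.hb, S.hb, ← rho_mulVec_emb, ← rho_mulVec_emb, S.hiso _ hg]

/-- isotropic vectors orthogonal to, but outside the span of, few vectors -/
lemma P1 (S : SubF σ ε f F₀ P σ₀ ε₀ b ζ t₀ M) (s : Finset (ι → F₀)) (hs : s.card ≤ 4) :
    ∃ a, (∀ u ∈ s, b a u = 0) ∧ b a a = 0 ∧ a ∉ Submodule.span F₀ (s : Set (ι → F₀)) := by
  have h₀ := S.h₀
  have hdim := S.dim
  obtain ⟨x, hx, hxs⟩ : ∃ x ∈ h₀.perp s, x ∉ Submodule.span F₀ (s : Set (ι → F₀)) := by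
    have h1 := h₀.finrank_perp s
    have h2 := finrank_span_finset_le_card (R := F₀) s
    rw [Set.finrank] at h2
    have h3 : ¬ (h₀.perp s ≤ Submodule.span F₀ (s : Set (ι → F₀))) := by
      intro hle
      have h4 := Submodule.finrank_mono hle
      omega
    exact SetLike.not_le_iff_exists.mp h3
  obtain ⟨a, ha, haa, hax⟩ := S.P2 s hs x hxs
  refine ⟨a, ha, haa, fun hm => hax ?_⟩
  have hperp : ∀ y ∈ Submodule.span F₀ (s : Set (ι → F₀)), b y x = 0 := by
    intro y hy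
    induction hy using Submodule.span_induction with
    | mem y hy => exact h₀.symm_zero.mp (hx y hy)
    | zero => exact h₀.zero_left x
    | add y z _ _ hy hz => rw [h₀.add_left, hy, hz, add_zero]
    | smul c y _ hy => rw [h₀.smul_left, hy, mul_zero]
  exact hperp _ hm

lemma hMt (S : SubF σ ε f F₀ P σ₀ ε₀ b ζ t₀ M) {w : ι → F₀} (hw : b w w = 0) : utv f (emb P w) (ζ * t₀) ∈ M := by
  have h1 := S.hMs w 0 t₀ hw (S.h₀.zero_left w) (by rw [S.h₀.zero_left, add_zero]; exact S.ht)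
  rw [emb_zero, smul_zero, rs_zero_vec S.h (S.fE0 hw)] at h1
  exact h1

lemma hMs0 (S : SubF σ ε f F₀ P σ₀ ε₀ b ζ t₀ M) {w v : ι → F₀} (hw : b w w = 0) (hvw : b v w = 0) (hv : b v v = 0) :
    rs ε f (emb P w) (ζ • emb P v) 0 ∈ M := by
  have h1 := S.hMs w v 0 hw hvw (by rw [map_zero, mul_zero, hv]; ring)
  rwa [ZeroMemClass.coe_zero, mul_zero] at h1

/-- the effect of a Siegel element built from two rational vectors -/
lemma rsE (S : SubF σ ε f F₀ P σ₀ ε₀ b ζ t₀ M) {w v x : ι → F₀} (hw : b w w = 0) (hvw : b v w = 0) (hxv : b x v = 0)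
    (s : F) : ((rs ε f (emb P w) ((s * ζ) • emb P v) 0 : GL ι F) : Matrix ι ι F) *ᵥ emb P x =
      emb P x + (s * b x w) • emb P v := by
  rw [rs_mulVec S.h (S.fE0 hw) (by rw [S.h.smul_left, S.fE0 hvw, mul_zero]), S.h.smul_right, S.fE0 hxv, S.fE,
    smul_smul]
  have : ζ⁻¹ * (b x w : F) * (s * ζ) = s * b x w := by
    have := S.hζ0
    field_simp
  rw [this]
  simp

/-- the algebra of scalars -/
def Csub (S : SubF σ ε f F₀ P σ₀ ε₀ b ζ t₀ M) : Subalgebra F₀ F where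
  carrier := {s | ∀ a y : ι → F₀, b a a = 0 → b y y = 0 → b y a = 0 → a ≠ 0 → y ∉ Submodule.span F₀ {a} →
    rs ε f (emb P a) ((s * ζ) • emb P y) 0 ∈ M}
  algebraMap_mem' := by
    intro r a y ha hy hya _ _
    have h1 := S.hMs0 (v := r • y) ha (by rw [S.h₀.smul_left, hya, mul_zero])
      (by rw [S.h₀.smul_left, S.h₀.smul_right, hy]; ring)
    rw [emb_smul, smul_smul, mul_comm ζ] at h1
    exact h1
  add_mem' := by
    intro s t hs ht a y ha hy hya ha0 hyas
    have h1 := mul_mem (hs a y ha hy hya ha0 hyas) (ht a y ha hy hya ha0 hyas)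
    have hya' : ∀ c : F, f (c • emb P y) (emb P a) = 0 := fun c => by rw [S.h.smul_left, S.fE0 hya, mul_zero]
    rw [rs_mul S.h (S.fE0 ha) (hya' _) (hya' _), ← add_smul, ← add_mul, S.h.smul_left, S.h.smul_right, S.fE0 hy] at h1
    simpa using h1
  mul_mem' := by
    intro s t hs ht a y ha hy hya ha0 hyas
    classical
    have h₀ := S.h₀
    obtain ⟨d, hd, hdd, hds⟩ := S.P1 {a, y} (by
      have := Finset.card_le_two (a := a) (b := y); omega)
    rw [Finset.coe_insert, Finset.coe_singleton] at hds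
    have hda : b d a = 0 := hd a (by simp)
    have hdy : b d y = 0 := hd y (by simp)
    have hds' : d ∉ Submodule.span F₀ {a} := fun hm => hds (Submodule.span_mono (by simp) hm)
    obtain ⟨e, he, hee, hed⟩ := S.P2 {a, y} (by
      have := Finset.card_le_two (a := a) (b := y); omega) d (by rw [Finset.coe_insert, Finset.coe_singleton]; exact hds)
    have hea : b e a = 0 := he a (by simp)
    have hey : b e y = 0 := he y (by simp)
    have hde : b d e ≠ 0 := fun h' => hed (h₀.symm_zero.mp h')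
    -- scale e
    obtain ⟨c, hc, hc0⟩ : ∃ c : F₀, b d (c • e) = 1 ∧ c ≠ 0 := by
      refine ⟨σ₀ (b d e)⁻¹, ?_, ?_⟩
      · rw [h₀.smul_right, h₀.inv, inv_mul_cancel₀ hde]
      · exact (map_ne_zero σ₀).mpr (inv_ne_zero hde)
    set e' := c • e with he'
    have he'e' : b e' e' = 0 := by rw [he', h₀.smul_left, h₀.smul_right, hee]; ring
    have he'a : b e' a = 0 := by rw [he', h₀.smul_left, hea, mul_zero]
    have he'y : b e' y = 0 := by rw [he', h₀.smul_left, hey, mul_zero]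
    have hye' : b y e' = 0 := h₀.symm_zero.mp he'y
    have hae' : b a e' = 0 := h₀.symm_zero.mp he'a
    have hay : b a y = 0 := h₀.symm_zero.mp hya
    have he'0 : e' ≠ 0 := by
      intro h'
      rw [h', h₀.zero_right] at hc
      exact zero_ne_one hc
    have hye's : y ∉ Submodule.span F₀ {e'} := by
      intro hm
      obtain ⟨r, hr⟩ := Submodule.mem_span_singleton.mp hm
      have h1 : b d y = σ₀ r * b d e' := by rw [← hr, h₀.smul_right]
      rw [hdy, hc, mul_one] at h1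
      have : r = 0 := (map_eq_zero σ₀).mp h1.symm
      apply hyas
      rw [← hr, this, zero_smul]
      exact Submodule.zero_mem _
    have h1 := hs a d ha hdd hda ha0 hds'
    have h2 := ht e' y he'e' hy hye' he'0 hye's
    have hgi := S.hiso _ h2
    have hda' : f ((s * ζ) • emb P d) (emb P a) = 0 := by rw [S.h.smul_left, S.fE0 hda, mul_zero]
    have h3 := conj_rs S.h hgi (S.fE0 ha) hda' 0
    rw [Matrix.mulVec_smul, S.rsE he'e' hye' hay, S.rsE he'e' hye' hdy, hc, hae', ZeroMemClass.coe_zero, mul_zero,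
      zero_smul, add_zero, OneMemClass.coe_one, mul_one, smul_add, smul_smul] at h3
    have h4 : rs ε f (emb P a) ((s * ζ) • emb P d + (s * ζ * t) • emb P y) 0 ∈ M := by
      rw [← h3]; exact mul_mem (mul_mem h2 h1) (inv_mem h2)
    have h5 := mul_mem (inv_mem h1) h4
    rw [rs_inv S.h (S.fE0 ha) hda', rs_mul S.h (S.fE0 ha)
      (by rw [S.h.neg_left, hda', neg_zero])
      (by rw [S.h.add_left, hda', S.h.smul_left, S.fE0 hya]; ring)] at h5
    have e1 : -((s * ζ) • emb P d) + ((s * ζ) • emb P d + (s * ζ * t) • emb P y) = (s * t * ζ) • emb P y := by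
      rw [neg_add_cancel_left]; congr 1; ring
    have e2 : (-0 - ε * f ((s * ζ) • emb P d) ((s * ζ) • emb P d) + 0 -
        ε * f ((s * ζ) • emb P d + (s * ζ * t) • emb P y) (-((s * ζ) • emb P d))) = 0 := by
      rw [S.h.neg_right, S.h.add_left, S.h.smul_left, S.h.smul_left, S.h.smul_right, S.h.smul_right, S.fE0 hdd,
        S.fE0 (h₀.symm_zero.mp hdy)]
      ring
    rw [e1, e2] at h5
    exact h5

lemma mem_Csub (S : SubF σ ε f F₀ P σ₀ ε₀ b ζ t₀ M) {s : F} : s ∈ S.Csub ↔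
    ∀ a y : ι → F₀, b a a = 0 → b y y = 0 → b y a = 0 → a ≠ 0 → y ∉ Submodule.span F₀ {a} →
    rs ε f (emb P a) ((s * ζ) • emb P y) 0 ∈ M := Iff.rfl

/-- moving the second vector -/
lemma pair_step (S : SubF σ ε f F₀ P σ₀ ε₀ b ζ t₀ M) {s l : F} {a y k : ι → F₀} (ha : b a a = 0) (hy : b y y = 0)
    (hk : b k k = 0) (hya : b y a = 0) (hka : b k a = 0) (hky : b k y = 0)
    (hyk : y ∉ Submodule.span F₀ ({a, k} : Set (ι → F₀)))
    (hM : rs ε f (emb P a) ((s * ζ) • emb P y) l ∈ M) : rs ε f (emb P a) ((s * ζ) • emb P k) 0 ∈ M := by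
  classical
  have h₀ := S.h₀
  obtain ⟨e, he, hee, hey⟩ := S.P2 {a, k} (by
    have := Finset.card_le_two (a := a) (b := k); omega) y (by rw [Finset.coe_insert, Finset.coe_singleton]; exact hyk)
  have hea : b e a = 0 := he a (by simp)
  have hek : b e k = 0 := he k (by simp)
  have hye : b y e ≠ 0 := fun h' => hey (h₀.symm_zero.mp h')
  obtain ⟨c, hc⟩ : ∃ c : F₀, b y (c • e) = 1 := by
    refine ⟨σ₀ (b y e)⁻¹, ?_⟩
    rw [h₀.smul_right, h₀.inv, inv_mul_cancel₀ hye]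
  set e' := c • e with he'
  have he'e' : b e' e' = 0 := by rw [he', h₀.smul_left, h₀.smul_right, hee]; ring
  have he'a : b e' a = 0 := by rw [he', h₀.smul_left, hea, mul_zero]
  have he'k : b e' k = 0 := by rw [he', h₀.smul_left, hek, mul_zero]
  have hke' : b k e' = 0 := h₀.symm_zero.mp he'k
  have hae' : b a e' = 0 := h₀.symm_zero.mp he'a
  have hak : b a k = 0 := h₀.symm_zero.mp hka
  have hyk' : b y k = 0 := h₀.symm_zero.mp hky
  have h2 : rs ε f (emb P e') (((1 : F) * ζ) • emb P k) 0 ∈ M := by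
    rw [one_mul]; exact S.hMs0 he'e' hke' hk
  have hgi := S.hiso _ h2
  have hya' : f ((s * ζ) • emb P y) (emb P a) = 0 := by rw [S.h.smul_left, S.fE0 hya, mul_zero]
  have h3 := conj_rs S.h hgi (S.fE0 ha) hya' l
  rw [Matrix.mulVec_smul, S.rsE he'e' hke' hak, S.rsE he'e' hke' hyk', hc, hae', ZeroMemClass.coe_zero, mul_zero,
    zero_smul, add_zero, OneMemClass.coe_one, mul_one, one_smul, smul_add] at h3
  have h4 : rs ε f (emb P a) ((s * ζ) • emb P y + (s * ζ) • emb P k) l ∈ M := by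
    rw [← h3]; exact mul_mem (mul_mem h2 hM) (inv_mem h2)
  have h5 := mul_mem (inv_mem hM) h4
  rw [rs_inv S.h (S.fE0 ha) hya', rs_mul S.h (S.fE0 ha)
    (by rw [S.h.neg_left, hya', neg_zero])
    (by rw [S.h.add_left, hya', S.h.smul_left, S.fE0 hka]; ring)] at h5
  have e1 : -((s * ζ) • emb P y) + ((s * ζ) • emb P y + (s * ζ) • emb P k) = (s * ζ) • emb P k := by
    rw [neg_add_cancel_left]
  have e2 : (-l - ε * f ((s * ζ) • emb P y) ((s * ζ) • emb P y) + l -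
      ε * f ((s * ζ) • emb P y + (s * ζ) • emb P k) (-((s * ζ) • emb P y))) = 0 := by
    rw [S.h.neg_right, S.h.add_left, S.h.smul_left, S.h.smul_left, S.h.smul_right, S.h.smul_right, S.fE0 hy,
      S.fE0 hky]
    ring
  rw [e1, e2] at h5
  exact h5

/-- one pair is enough -/
lemma mem_Csub_of_pair (S : SubF σ ε f F₀ P σ₀ ε₀ b ζ t₀ M) {s l : F} {a y : ι → F₀} (ha : b a a = 0) (hy : b y y = 0)
    (hya : b y a = 0) (ha0 : a ≠ 0) (hyas : y ∉ Submodule.span F₀ {a})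
    (hM : rs ε f (emb P a) ((s * ζ) • emb P y) l ∈ M) : s ∈ S.Csub := by
  classical
  have h₀ := S.h₀
  -- same a
  have key : ∀ k, b k k = 0 → b k a = 0 → k ∉ Submodule.span F₀ {a} → rs ε f (emb P a) ((s * ζ) • emb P k) 0 ∈ M := by
    intro k hk hka hkas
    obtain ⟨m, hm, hmm, hms⟩ := S.P1 {a, y, k} (by
      have := Finset.card_le_three (a := a) (b := y) (c := k); omega)
    rw [Finset.coe_insert, Finset.coe_insert, Finset.coe_singleton] at hms
    have hma : b m a = 0 := hm a (by simp)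
    have hmy : b m y = 0 := hm y (by simp)
    have hmk : b m k = 0 := hm k (by simp)
    have h1 := S.pair_step ha hy hmm hya hma hmy (notMem_span_trans hyas (fun h' => hms (Submodule.span_mono (by
      intro t; simp only [Set.mem_insert_iff, Set.mem_singleton_iff]; tauto) h'))) hM
    refine S.pair_step ha hmm hk hma hka (h₀.symm_zero.mp hmk) (fun h' => hms (Submodule.span_mono (by
      intro t; simp only [Set.mem_insert_iff, Set.mem_singleton_iff]; tauto) h')) h1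
  rw [S.mem_Csub]
  intro a' y' ha' hy' hy'a' ha'0 hy'as
  obtain ⟨g₀, hg₀, hga⟩ := S.trans a a' ha ha0 ha' ha'0
  set k := ((g₀⁻¹ : GL ι F₀) : Matrix ι ι F₀) *ᵥ y' with hk
  have hgk : (g₀ : Matrix ι ι F₀) *ᵥ k = y' := by rw [hk, gl_mulVec_inv_mulVec]
  have h1 := key k (by rw [← S.eE hg₀, hgk]; exact hy') (by rw [← S.eE hg₀, hgk, hga]; exact hy'a') (by
    intro hm
    obtain ⟨r, hr⟩ := Submodule.mem_span_singleton.mp hm
    apply hy'as
    rw [← hgk, ← hr, Matrix.mulVec_smul, hga]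
    exact Submodule.smul_mem _ _ (Submodule.mem_span_singleton_self a'))
  have hka : b k a = 0 := by rw [← S.eE hg₀, hgk, hga]; exact hy'a'
  have h2 := conj_rs S.h (S.hiso _ hg₀) (S.fE0 ha) (show f ((s * ζ) • emb P k) (emb P a) = 0 by
    rw [S.h.smul_left, S.fE0 hka, mul_zero]) 0
  rw [Matrix.mulVec_smul, rho_mulVec_emb, rho_mulVec_emb, hga, hgk] at h2
  rw [← h2]
  exact mul_mem (mul_mem hg₀ h1) (inv_mem hg₀)

/-- the basic computation -/
lemma S1 (S : SubF σ ε f F₀ P σ₀ ε₀ b ζ t₀ M) {w : ι → F} (hw : f w w = 0) (hwM : utv f w (ζ * t₀) ∈ M)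
    {a d d' : ι → F₀} (ha : b a a = 0) (ha0 : a ≠ 0) (hwa : f w (emb P a) = 0) (hd : b d d = 0) (hda : b d a = 0)
    (hd' : b d' d' = 0) (hd'a : b d' a = 0) (hd's : d' ∉ Submodule.span F₀ {a}) :
    -ε * t₀ * t₀ * (ζ * ζ * (σ (f w (emb P d)) * f w (emb P d'))) ∈ S.Csub := by
  have h := S.h
  have h₀ := S.h₀
  have he := h.eps
  have hτ : σ (ζ * t₀) + ε * (ζ * t₀) = 0 := by
    have h1 := congrArg (Subtype.val : F₀ → F) S.ht
    push_cast at h1
    rw [S.hσ, S.hε] at h1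
    rw [map_mul, S.hζσ]
    linear_combination ζ * h1
  have haa := S.fE0 ha
  have hda' : f (ζ • emb P d) (emb P a) = 0 := by rw [h.smul_left, S.fE0 hda, mul_zero]
  have hk := S.hMs0 ha hda hd
  set α : F := -(ε * (ζ * f w (emb P d))) with hα
  have hkw : ((rs ε f (emb P a) (ζ • emb P d) 0 : GL ι F) : Matrix ι ι F) *ᵥ w = w + α • emb P a := by
    rw [rs_mulVec h haa hda', hwa, h.smul_right, S.hζσ, hα]; simp
  have h1 : utv f (w + α • emb P a) (ζ * t₀) ∈ M := by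
    rw [← hkw, ← conj_rtv h (S.hiso _ hk) _ hw]
    exact mul_mem (mul_mem hk hwM) (inv_mem hk)
  have hG := mul_mem h1 (inv_mem hwM)
  rw [rtv_add_eq_rs h hw haa hwa hτ] at hG
  -- conjugate by a transvection
  have hk' := S.hMt hd'
  have had' : f (emb P a) (emb P d') = 0 := S.fE0 (h₀.symm_zero.mp hd'a)
  have hk'a : ((utv f (emb P d') (ζ * t₀) : GL ι F) : Matrix ι ι F) *ᵥ emb P a = emb P a := by
    rw [rtv_mulVec h (S.fE0 hd'), had']; simp
  have hk'w : ((utv f (emb P d') (ζ * t₀) : GL ι F) : Matrix ι ι F) *ᵥ w = w + (ζ * t₀ * f w (emb P d')) • emb P d' := by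
    rw [rtv_mulVec h (S.fE0 hd')]
  set γ : F := ζ * t₀ * σ α with hγ
  have hγw : f (γ • w) (emb P a) = 0 := by rw [h.smul_left, hwa, mul_zero]
  have h3 := conj_rs h (S.hiso _ hk') haa hγw (ζ * t₀ * (α * σ α))
  rw [hk'a, Matrix.mulVec_smul, hk'w] at h3
  have h4 : rs ε f (emb P a) (γ • (w + (ζ * t₀ * f w (emb P d')) • emb P d')) (ζ * t₀ * (α * σ α)) ∈ M := by
    rw [← h3]; exact mul_mem (mul_mem hk' hG) (inv_mem hk')
  have h5 := mul_mem (inv_mem hG) h4
  have hd'a' : f (emb P d') (emb P a) = 0 := S.fE0 hd'a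
  rw [rs_inv h haa hγw, rs_mul h haa (by rw [h.neg_left, hγw, neg_zero])
    (by rw [h.smul_left, h.add_left, h.smul_left, hwa, hd'a']; ring)] at h5
  have e1 : -(γ • w) + γ • (w + (ζ * t₀ * f w (emb P d')) • emb P d') =
      ((-ε * t₀ * t₀ * (ζ * ζ * (σ (f w (emb P d)) * f w (emb P d')))) * ζ) • emb P d' := by
    rw [smul_add, neg_add_cancel_left, smul_smul, hγ, hα, map_neg, map_mul, map_mul, h.seps, S.hζσ]
    congr 1
    ring
  rw [e1] at h5
  exact S.mem_Csub_of_pair ha hd' hd'a ha0 hd's h5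

end SubF

end Cfsg.Agent.H12
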