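import Mathlib
import Cfsg.Prelude.Def_GeometricClasses
import Cfsg.Agent.H12.SubForm

/-!
Subfield groups, step 1: if the algebra of scalars is trivial, then an isotropic vector `w` with
`utv f w (ζ t₀) ∈ M` that is orthogonal to a non-zero isotropic rational vector is a multiple of a rational vector.
-/

set_option autoImplicit false
set_option linter.unusedSectionVars false

open scoped MatrixGroups Matrix

namespace Cfsg.Agent.H12

variable {ι : Type} [Fintype ι] [DecidableEq ι] {F : Type*} [Field F]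

namespace SubF

variable {σ : F ≃+* F} {ε : F} {f : (ι → F) → (ι → F) → F} {F₀ : Subfield F} {P : GL ι F}
    {σ₀ : F₀ ≃+* F₀} {ε₀ : F₀} {b : (ι → F₀) → (ι → F₀) → F₀} {ζ : F} {t₀ : F₀} {M : Subgroup (GL ι F)}

lemma σmem (S : SubF σ ε f F₀ P σ₀ ε₀ b ζ t₀ M) {x : F} (hx : σ x ∈ F₀) : x ∈ F₀ := by
  have h1 := S.hσ ⟨σ x, hx⟩
  change _ = σ (σ x) at h1
  rw [S.h.inv] at h1
  rw [← h1]
  exact SetLike.coe_mem _

lemma emem (S : SubF σ ε f F₀ P σ₀ ε₀ b ζ t₀ M) : ε ∈ F₀ := by rw [← S.hε]; exact SetLike.coe_mem _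

/-- a vector whose products with rational vectors lie in `F₀ δ` is a multiple of a rational vector -/
lemma rat_of (S : SubF σ ε f F₀ P σ₀ ε₀ b ζ t₀ M) {x : ι → F} {δ : F}
    (hx : ∀ d : ι → F₀, ∃ c : F₀, f x (emb P d) = c * δ) : Rat F₀ P x := by
  have h := S.h
  have h₀ := S.h₀
  choose c hc using fun j => hx (Pi.single j (1 : F₀))
  obtain ⟨u, hu⟩ := h₀.gvec_surj (fun j => ε₀ * σ₀ (c j))
  have hu' : ∀ j, b (Pi.single j 1) u = ε₀ * σ₀ (c j) := fun j => congrFun hu j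
  have hu'' : ∀ j, b u (Pi.single j 1) = c j := by
    intro j
    have he₀ := h₀.eps
    rw [h₀.herm u, hu', map_mul, h₀.seps, h₀.inv, ← mul_assoc, he₀, one_mul]
  refine ⟨ζ * δ, u, ?_⟩
  have h1 : ∀ j, f (x - (ζ * δ) • emb P u) (emb P (Pi.single j (1 : F₀))) = 0 := by
    intro j
    rw [h.sub_left, h.smul_left, hc, S.fE, hu'']
    have := S.hζ0
    field_simp
    ring
  by_contra hne
  obtain ⟨y, hy⟩ := h.nondeg (x - (ζ * δ) • emb P u) (sub_ne_zero.mpr hne)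
  apply hy
  obtain ⟨c', hc'⟩ := exists_emb_comb (F₀ := F₀) P y
  rw [hc', h.sum_left]
  apply Finset.sum_eq_zero
  intro j _
  rw [h.smul_left, h.symm_zero.mp (h1 j), mul_zero]

variable {w : ι → F}

/-- when the scalars are trivial, products have ratios in `F₀` -/
lemma claim1 (S : SubF σ ε f F₀ P σ₀ ε₀ b ζ t₀ M) (hC : ∀ s ∈ S.Csub, s ∈ F₀) (hw : f w w = 0)
    (hwM : utv f w (ζ * t₀) ∈ M) {a : ι → F₀} (ha : b a a = 0) (ha0 : a ≠ 0) (hwa : f w (emb P a) = 0)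
    {d d' : ι → F₀} (hd : b d d = 0) (hda : b d a = 0) (hd' : b d' d' = 0) (hd'a : b d' a = 0)
    (hne : f w (emb P d') ≠ 0) : ∃ c : F₀, f w (emb P d) = c * f w (emb P d') := by
  have h := S.h
  have he := h.eps
  have hε0 : ε ≠ 0 := h.eps_ne
  have hd's : d' ∉ Submodule.span F₀ {a} := by
    intro hm
    obtain ⟨r, hr⟩ := Submodule.mem_span_singleton.mp hm
    apply hne
    rw [← hr, emb_smul, h.smul_right, hwa, mul_zero]
  have h1 := hC _ (S.S1 hw hwM ha ha0 hwa hd hda hd' hd'a hd's)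
  have h2 := hC _ (S.S1 hw hwM ha ha0 hwa hd' hd'a hd' hd'a hd's)
  have ht : (t₀ : F) ≠ 0 := fun h' => S.ht0 (Subtype.ext h')
  have hσne : σ (f w (emb P d')) ≠ 0 := (map_ne_zero σ).mpr hne
  have hne2 : -ε * t₀ * t₀ * (ζ * ζ * (σ (f w (emb P d')) * f w (emb P d'))) ≠ 0 :=
    mul_ne_zero (mul_ne_zero (mul_ne_zero (neg_ne_zero.mpr hε0) ht) ht)
      (mul_ne_zero (mul_ne_zero S.hζ0 S.hζ0) (mul_ne_zero hσne hne))
  have h3 : σ (f w (emb P d) / f w (emb P d')) ∈ F₀ := by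
    have h4 := F₀.div_mem h1 h2
    have e1 : -ε * t₀ * t₀ * (ζ * ζ * (σ (f w (emb P d)) * f w (emb P d'))) /
        (-ε * t₀ * t₀ * (ζ * ζ * (σ (f w (emb P d')) * f w (emb P d')))) = σ (f w (emb P d) / f w (emb P d')) := by
      rw [map_div₀, div_eq_div_iff hne2 hσne]
      ring
    rwa [e1] at h4
  exact ⟨⟨_, S.σmem h3⟩, by rw [Subtype.coe_mk, div_mul_cancel₀ _ hne]⟩

theorem step1 (S : SubF σ ε f F₀ P σ₀ ε₀ b ζ t₀ M) (hC : ∀ s ∈ S.Csub, s ∈ F₀) (hw : f w w = 0)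
    (hwM : utv f w (ζ * t₀) ∈ M) (hnf : NF f P b w) : Rat F₀ P w := by
  classical
  obtain ⟨a, ha0, ha, hwa⟩ := hnf
  have h := S.h
  have h₀ := S.h₀
  -- e' with b e' a ≠ 0
  obtain ⟨e', he'⟩ := h₀.nondeg a ha0
  have hfe' : f (emb P a) (emb P e') ≠ 0 := by
    intro h'
    exact he' (h₀.symm_zero.mp (S.bE0 h'))
  set lam : F := f w (emb P e') / f (emb P a) (emb P e') with hlam
  have hw'e' : f (w - lam • emb P a) (emb P e') = 0 := by
    rw [h.sub_left, h.smul_left, hlam, div_mul_cancel₀ _ hfe', sub_self]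
  -- decomposition of rational vectors
  have hdec : ∀ d : ι → F₀, ∃ d1 : ι → F₀, b d1 a = 0 ∧ f (w - lam • emb P a) (emb P d) = f w (emb P d1) := by
    intro d
    refine ⟨d - (b d a / b e' a) • e', ?_, ?_⟩
    · rw [h₀.sub_left, h₀.smul_left, div_mul_cancel₀ _ he', sub_self]
    · have h1 : b (d - (b d a / b e' a) • e') a = 0 := by
        rw [h₀.sub_left, h₀.smul_left, div_mul_cancel₀ _ he', sub_self]
      have h2 : f (w - lam • emb P a) (emb P (d - (b d a / b e' a) • e')) = f (w - lam • emb P a) (emb P d) := by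
        rw [emb_sub, emb_smul, h.sub_right, h.smul_right, hw'e', mul_zero, sub_zero]
      rw [← h2, h.sub_left, h.smul_left, S.fE0 (h₀.symm_zero.mp h1), mul_zero, sub_zero]
  by_cases hcase : ∀ d : ι → F₀, b d d = 0 → b d a = 0 → f w (emb P d) = 0
  · -- w is a multiple of a
    have h1 : Rat F₀ P (w - lam • emb P a) := by
      apply S.rat_of (δ := 0)
      intro d
      obtain ⟨d1, hd1, hd⟩ := hdec d
      obtain ⟨y, z, hy, hz, hyy, hzz, hyz⟩ := S.P3 {a} (by simp) d1 (by simpa using hd1)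
      refine ⟨0, ?_⟩
      rw [hd, hyz, emb_add, h.add_right, hcase y hyy (hy a (by simp)), hcase z hzz (hz a (by simp))]
      simp
    have h2 : w - lam • emb P a = 0 := by
      by_contra hne
      obtain ⟨y, hy⟩ := h.nondeg _ hne
      apply hy
      obtain ⟨c', hc'⟩ := exists_emb_comb (F₀ := F₀) P y
      rw [hc', h.sum_left]
      apply Finset.sum_eq_zero
      intro j _
      obtain ⟨d1, hd1, hd⟩ := hdec (Pi.single j 1)
      obtain ⟨y, z, hy, hz, hyy, hzz, hyz⟩ := S.P3 {a} (by simp) d1 (by simpa using hd1)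
      have : f (w - lam • emb P a) (emb P (Pi.single j (1 : F₀))) = 0 := by
        rw [hd, hyz, emb_add, h.add_right, hcase y hyy (hy a (by simp)), hcase z hzz (hz a (by simp)), add_zero]
      rw [h.smul_left, h.symm_zero.mp this, mul_zero]
    exact ⟨lam, a, sub_eq_zero.mp h2⟩
  push Not at hcase
  obtain ⟨d0, hd0, hd0a, hd0w⟩ := hcase
  obtain ⟨μ, w0, hw0⟩ : Rat F₀ P (w - lam • emb P a) := by
    apply S.rat_of (δ := f w (emb P d0))
    intro d
    obtain ⟨d1, hd1, hd⟩ := hdec d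
    obtain ⟨y, z, hy, hz, hyy, hzz, hyz⟩ := S.P3 {a} (by simp) d1 (by simpa using hd1)
    obtain ⟨c1, hc1⟩ := S.claim1 hC hw hwM ha ha0 hwa hyy (hy a (by simp)) hd0 hd0a hd0w
    obtain ⟨c2, hc2⟩ := S.claim1 hC hw hwM ha ha0 hwa hzz (hz a (by simp)) hd0 hd0a hd0w
    refine ⟨c1 + c2, ?_⟩
    rw [hd, hyz, emb_add, h.add_right, hc1, hc2]
    push_cast
    ring
  have hwe : w = μ • emb P w0 + lam • emb P a := by rw [← hw0]; abel
  by_cases hμ : μ = 0
  · exact ⟨lam, a, by rw [hwe, hμ, zero_smul, zero_add]⟩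
  by_cases hlam0 : lam = 0
  · exact ⟨μ, w0, by rw [hwe, hlam0, zero_smul, add_zero]⟩
  by_cases hw0s : w0 ∈ Submodule.span F₀ {a}
  · obtain ⟨r, hr⟩ := Submodule.mem_span_singleton.mp hw0s
    refine ⟨μ * r + lam, a, ?_⟩
    rw [hwe, ← hr, emb_smul]; module
  -- b2
  obtain ⟨b2, hb2, hb2b, hb2s⟩ := S.P1 {a, w0} (by
    have := Finset.card_le_two (a := a) (b := w0); omega)
  rw [Finset.coe_insert, Finset.coe_singleton] at hb2s
  have hb2a : b b2 a = 0 := hb2 a (by simp)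
  have hb2w : b b2 w0 = 0 := hb2 w0 (by simp)
  have hb20 : b2 ≠ 0 := by rintro rfl; exact hb2s (Submodule.zero_mem _)
  have hwb2 : f w (emb P b2) = 0 := by
    rw [hwe, h.add_left, h.smul_left, h.smul_left, S.fE0 (h₀.symm_zero.mp hb2w), S.fE0 (h₀.symm_zero.mp hb2a)]; ring
  -- d1
  obtain ⟨d1, hd1, hd1d, hd1w⟩ := S.P2 {a, b2} (by
    have := Finset.card_le_two (a := a) (b := b2); omega) w0 (by
    rw [Finset.coe_insert, Finset.coe_singleton]
    exact notMem_span_trans hw0s hb2s)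
  have hd1a : b d1 a = 0 := hd1 a (by simp)
  have hd1b : b d1 b2 = 0 := hd1 b2 (by simp)
  -- d2
  have haw0 : a ∉ Submodule.span F₀ {w0} := by
    intro hm
    obtain ⟨r, hr⟩ := Submodule.mem_span_singleton.mp hm
    have hr0 : r ≠ 0 := by rintro rfl; exact ha0 (by rw [← hr, zero_smul])
    apply hw0s
    rw [Submodule.mem_span_singleton]
    exact ⟨r⁻¹, by rw [← hr, smul_smul, inv_mul_cancel₀ hr0, one_smul]⟩
  obtain ⟨d2, hd2, hd2d, hd2a⟩ := S.P2 {w0, b2} (by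
    have := Finset.card_le_two (a := w0) (b := b2); omega) a (by
    rw [Finset.coe_insert, Finset.coe_singleton]
    exact notMem_span_trans haw0 (by rw [Set.pair_comm]; exact hb2s))
  have hd2w : b d2 w0 = 0 := hd2 w0 (by simp)
  have hd2b : b d2 b2 = 0 := hd2 b2 (by simp)
  have hv1 : f w (emb P d1) = μ * (ζ⁻¹ * b w0 d1) := by
    rw [hwe, h.add_left, h.smul_left, h.smul_left, S.fE0 (h₀.symm_zero.mp hd1a), S.fE]; ring
  have hv2 : f w (emb P d2) = lam * (ζ⁻¹ * b a d2) := by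
    rw [hwe, h.add_left, h.smul_left, h.smul_left, S.fE0 (h₀.symm_zero.mp hd2w), S.fE]; ring
  have hbw : (b w0 d1 : F) ≠ 0 := fun h' => hd1w (h₀.symm_zero.mp (Subtype.ext h'))
  have hba : (b a d2 : F) ≠ 0 := fun h' => hd2a (h₀.symm_zero.mp (Subtype.ext h'))
  have hζ := S.hζ0
  obtain ⟨c, hc⟩ := S.claim1 hC hw hwM hb2b hb20 hwb2 hd2d hd2b hd1d hd1b (by
    rw [hv1]; exact mul_ne_zero hμ (mul_ne_zero (inv_ne_zero hζ) hbw))
  rw [hv1, hv2] at hc
  have hr : lam / μ = ((c * b w0 d1 / b a d2 : F₀) : F) := by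
    push_cast
    field_simp at hc ⊢
    linear_combination hc
  refine ⟨μ, w0 + (c * b w0 d1 / b a d2) • a, ?_⟩
  rw [emb_add, emb_smul, ← hr, smul_add, smul_smul, mul_div_cancel₀ _ hμ]
  exact hwe

end SubF

end Cfsg.Agent.H12
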