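import Mathlib
import Cfsg.Prelude.Def_GeometricClasses
import Cfsg.Agent.H12.SubForm2

/-!
Subfield groups, step 2: involution arguments.
-/

set_option autoImplicit false
set_option linter.unusedSectionVars false

open scoped MatrixGroups Matrix

namespace Cfsg.Agent.H12

/-- two involutions of a finite group that are not conjugate: there is an involution that is a power of their
product and commutes with both -/
lemma exists_central_involution {G : Type*} [Group G] [Finite G] {K : Subgroup G} {x y : G} (hxK : x ∈ K) (hyK : y ∈ K)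
    (hx : x * x = 1) (hy : y * y = 1)
    (hn : ∀ g ∈ K, g * x * g⁻¹ ≠ y) :
    ∃ (k : ℕ), (x * y) ^ k * (x * y) ^ k = 1 ∧ (x * y) ^ k ≠ 1 ∧ (x * y) ^ k * x = x * (x * y) ^ k ∧
      (x * y) ^ k * y = y * (x * y) ^ k := by
  have hxi : x⁻¹ = x := inv_eq_of_mul_eq_one_right hx
  have hyi : y⁻¹ = y := inv_eq_of_mul_eq_one_right hy
  set ρ := x * y with hρ
  have hρi : ρ⁻¹ = y * x := by rw [hρ, mul_inv_rev, hxi, hyi]
  have hconj : ∀ k : ℕ, x * ρ ^ k = (ρ ^ k)⁻¹ * x := by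
    intro k
    have h1 : x * ρ * x⁻¹ = ρ⁻¹ := by rw [hρi, hρ, hxi, ← mul_assoc, hx, one_mul]
    have h2 : x * ρ ^ k * x⁻¹ = (ρ ^ k)⁻¹ := by rw [← conj_pow, h1, inv_pow]
    rw [← h2]; group
  have hN : 0 < orderOf ρ := orderOf_pos ρ
  rcases Nat.even_or_odd' (orderOf ρ) with ⟨k, hk | hk⟩
  · refine ⟨k, ?_, ?_, ?_, ?_⟩
    · rw [← pow_add, ← two_mul, ← hk, pow_orderOf_eq_one]
    · intro h1
      have := Nat.le_of_dvd (by omega) (orderOf_dvd_of_pow_eq_one h1)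
      omega
    · have h1 : (ρ ^ k)⁻¹ = ρ ^ k := by
        apply inv_eq_of_mul_eq_one_right
        rw [← pow_add, ← two_mul, ← hk, pow_orderOf_eq_one]
      rw [hconj, h1]
    · have h1 : (ρ ^ k)⁻¹ = ρ ^ k := by
        apply inv_eq_of_mul_eq_one_right
        rw [← pow_add, ← two_mul, ← hk, pow_orderOf_eq_one]
      have h2 : y = x * ρ := by rw [hρ, ← mul_assoc, hx, one_mul]
      have h3 := hconj k
      rw [h1] at h3
      calc ρ ^ k * y = ρ ^ k * x * ρ := by rw [mul_assoc, ← h2]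
        _ = x * (ρ ^ k * ρ) := by rw [← h3, mul_assoc]
        _ = x * (ρ * ρ ^ k) := by rw [← pow_succ, ← pow_succ']
        _ = y * ρ ^ k := by rw [← mul_assoc, ← h2]
  · exfalso
    apply hn (ρ ^ k) (K.pow_mem (K.mul_mem hxK hyK) k)
    have h1 : x * (ρ ^ k)⁻¹ = ρ ^ k * x := by
      have := hconj k
      rw [eq_comm, inv_mul_eq_iff_eq_mul] at this
      rw [mul_inv_eq_iff_eq_mul, mul_assoc]
      exact this
    rw [mul_assoc, h1, ← mul_assoc, ← pow_add, ← two_mul]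
    have h2 : ρ ^ (2 * k) = ρ⁻¹ := by
      rw [eq_inv_iff_mul_eq_one, ← pow_succ, ← hk, pow_orderOf_eq_one]
    rw [h2, hρi, mul_assoc, hx, mul_one]

variable {ι : Type} [Fintype ι] [DecidableEq ι] {F : Type*} [Field F]

/-- an element carrying rational vectors to rational vectors comes from `GL` over the subfield -/
lemma rho_of_preserves {F₀ : Subfield F} {P : GL ι F} (hne : Nonempty ι) {g : GL ι F}
    (hg : ∀ u : ι → F₀, ∃ v : ι → F₀, (g : Matrix ι ι F) *ᵥ emb P u = emb P v) :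
    ∃ g₀ : GL ι F₀, g = rho P g₀ := by
  obtain ⟨g₀, c, hc, hgc⟩ := (mem_subfield_iff P g).mp (mem_subfield_of_lines P (fun u => by
    obtain ⟨v, hv⟩ := hg u
    exact ⟨1, v, by rw [hv, one_smul]⟩))
  obtain ⟨j⟩ := hne
  have he : (Pi.single j 1 : ι → F₀) ≠ 0 := by
    intro h
    have := congrFun h j
    simp at this
  have hge : (g₀ : Matrix ι ι F₀) *ᵥ (Pi.single j 1 : ι → F₀) ≠ 0 := gl_mulVec_ne_zero g₀ he
  obtain ⟨v, hv⟩ := hg (Pi.single j 1)
  obtain ⟨c₀, hc₀⟩ := emb_smul_mem P hge (hv.symm.trans (hgc _))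
  have hc₀0 : c₀ ≠ 0 := by
    rintro rfl
    apply hc
    rw [← hc₀]; rfl
  refine ⟨Units.mk0 c₀ hc₀0 • g₀, ?_⟩
  apply gl_ext_emb (F₀ := F₀) P
  intro u
  rw [hgc, rho_mulVec_emb, ← hc₀, ← emb_smul]
  congr 1
  change _ = (c₀ • (g₀ : Matrix ι ι F₀)) *ᵥ u
  rw [Matrix.smul_mulVec]

lemma rho_inj {F₀ : Subfield F} {P : GL ι F} {g g' : GL ι F₀} (h : rho P g = rho P g') : g = g' := by
  apply gl_ext
  intro u
  apply emb_inj P
  rw [← rho_mulVec_emb, ← rho_mulVec_emb, h]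

namespace SubF

variable {σ : F ≃+* F} {ε : F} {f : (ι → F) → (ι → F) → F} {F₀ : Subfield F} {P : GL ι F}
    {σ₀ : F₀ ≃+* F₀} {ε₀ : F₀} {b : (ι → F₀) → (ι → F₀) → F₀} {ζ : F} {t₀ : F₀} {M : Subgroup (GL ι F)}

/-- the conclusion of step 1 -/
def Hyp (f : (ι → F) → (ι → F) → F) (P : GL ι F) (b : (ι → F₀) → (ι → F₀) → F₀) (M : Subgroup (GL ι F)) : Prop :=
  ∀ g ∈ M, ∀ v : ι → F₀, b v v = 0 → NF f P b ((g : Matrix ι ι F) *ᵥ emb P v) →
    Rat F₀ P ((g : Matrix ι ι F) *ᵥ emb P v)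

lemma hyp_of_trivial (S : SubF σ ε f F₀ P σ₀ ε₀ b ζ t₀ M) (hC : ∀ s ∈ S.Csub, s ∈ F₀) : Hyp f P b M := by
  intro g hg v hv hnf
  have hgi := S.hiso g hg
  refine S.step1 hC (by rw [hgi]; exact S.fE0 hv) ?_ hnf
  rw [← conj_rtv S.h hgi _ (S.fE0 hv)]
  exact mul_mem (mul_mem hg (S.hMt hv)) (inv_mem hg)

lemma lam (S : SubF σ ε f F₀ P σ₀ ε₀ b ζ t₀ M) {y z : ι → F₀} (hy : b y y = 0) (hz : b z z = 0) :
    ∃ c : F₀, c ≠ 0 ∧ b (y + c • z) (y + c • z) = 0 := by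
  have h₀ := S.h₀
  have key : ∀ c : F₀, b (y + c • z) (y + c • z) = σ₀ c * b y z + c * b z y := by
    intro c
    rw [h₀.add_left, h₀.add_right, h₀.add_right, h₀.smul_left, h₀.smul_left, h₀.smul_right, h₀.smul_right, hy, hz]
    ring
  by_cases hyz : b y z = 0
  · refine ⟨1, one_ne_zero, ?_⟩
    rw [key, hyz, h₀.symm_zero.mp hyz]; ring
  · refine ⟨σ₀ (t₀ / b y z), (map_ne_zero σ₀).mpr (div_ne_zero S.ht0 hyz), ?_⟩
    have hσyz : σ₀ (b y z) ≠ 0 := (map_ne_zero σ₀).mpr hyz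
    rw [key, h₀.inv, h₀.herm z y, div_mul_cancel₀ _ hyz, map_div₀]
    have he := h₀.eps
    have ht := S.ht
    have e1 : σ₀ t₀ / σ₀ (b y z) * (ε₀ * σ₀ (b y z)) = ε₀ * σ₀ t₀ := by field_simp
    rw [e1]
    linear_combination ε₀ * ht - t₀ * he

lemma lemA (S : SubF σ ε f F₀ P σ₀ ε₀ b ζ t₀ M) (hyp : Hyp f P b M) (hsq : ∀ c : F, c * c ∈ F₀ → c ∈ F₀)
    {z : GL ι F} (hz : z ∈ M) (hzz : z * z = 1) (W : Submodule F (ι → F))
    (hW : ∀ x ∈ W, (z : Matrix ι ι F) *ᵥ x ∈ W) (hnf : ∀ x ∈ W, NF f P b x) {v : ι → F₀} (hv : b v v = 0)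
    (hvW : emb P v ∈ W) : ∃ v' : ι → F₀, (z : Matrix ι ι F) *ᵥ emb P v = emb P v' := by
  have h := S.h
  have hzi := S.hiso z hz
  by_cases hv0 : v = 0
  · refine ⟨0, ?_⟩
    rw [hv0, emb_zero, Matrix.mulVec_zero]
  have hEv0 : emb P v ≠ 0 := fun h' => hv0 ((emb_eq_zero P).mp h')
  obtain ⟨c, v', hcv⟩ := hyp z hz v hv (hnf _ (hW _ hvW))
  have hzv0 := gl_mulVec_ne_zero z hEv0
  have hc0 : c ≠ 0 := by rintro rfl; rw [hcv, zero_smul] at hzv0; exact hzv0 rfl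
  have hv'0 : v' ≠ 0 := by rintro rfl; rw [hcv, emb_zero, smul_zero] at hzv0; exact hzv0 rfl
  have hσc : σ c ≠ 0 := (map_ne_zero σ).mpr hc0
  have hzzx : ∀ x : ι → F, (z : Matrix ι ι F) *ᵥ ((z : Matrix ι ι F) *ᵥ x) = x := by
    intro x
    rw [← gl_mul_mulVec z z x, hzz]; simp
  have hv'v' : b v' v' = 0 := by
    apply S.bE0
    have h1 : f (c • emb P v') (c • emb P v') = 0 := by rw [← hcv, hzi]; exact S.fE0 hv
    rw [h.smul_left, h.smul_right] at h1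
    exact (mul_eq_zero.mp ((mul_eq_zero.mp h1).resolve_left hc0)).resolve_left hσc
  have hzv' : (z : Matrix ι ι F) *ᵥ emb P v' = c⁻¹ • emb P v := by
    have h1 : emb P v' = c⁻¹ • ((z : Matrix ι ι F) *ᵥ emb P v) := by
      rw [hcv, smul_smul, inv_mul_cancel₀ hc0, one_smul]
    rw [h1, Matrix.mulVec_smul, hzzx]
  by_cases hdep : v ∈ Submodule.span F₀ {v'}
  · obtain ⟨r, hr⟩ := Submodule.mem_span_singleton.mp hdep
    have hr0 : (r : F) ≠ 0 := by
      intro h'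
      have : r = 0 := Subtype.ext h'
      apply hv0; rw [← hr, this, zero_smul]
    have h1 : (z : Matrix ι ι F) *ᵥ emb P v = (c * (r : F)⁻¹) • emb P v := by
      rw [hcv, ← hr, emb_smul, smul_smul, mul_assoc, inv_mul_cancel₀ hr0, mul_one]
    have h2 : (c * (r : F)⁻¹) * (c * (r : F)⁻¹) = 1 := by
      have h3 := hzzx (emb P v)
      rw [h1, Matrix.mulVec_smul, h1, smul_smul] at h3
      have h4 : ((c * (r : F)⁻¹) * (c * (r : F)⁻¹) - 1) • emb P v = 0 := by rw [sub_smul, h3, one_smul, sub_self]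
      exact sub_eq_zero.mp ((smul_eq_zero.mp h4).resolve_right hEv0)
    have h3 : c * (r : F)⁻¹ ∈ F₀ := hsq _ (by rw [h2]; exact F₀.one_mem)
    refine ⟨(⟨_, h3⟩ : F₀) • v, ?_⟩
    rw [h1, emb_smul]
  · obtain ⟨l, hl0, hl⟩ := S.lam hv hv'v'
    have hv'W : emb P v' ∈ W := by
      have h1 : emb P v' = c⁻¹ • ((z : Matrix ι ι F) *ᵥ emb P v) := by
        rw [hcv, smul_smul, inv_mul_cancel₀ hc0, one_smul]
      rw [h1]; exact W.smul_mem _ (hW _ hvW)
    have hW2 : emb P (v + l • v') ∈ W := by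
      rw [emb_add, emb_smul]; exact W.add_mem hvW (W.smul_mem _ hv'W)
    obtain ⟨c3, w3, hcw⟩ := hyp z hz _ hl (hnf _ (hW _ hW2))
    have h1 : (z : Matrix ι ι F) *ᵥ emb P (v + l • v') = c • emb P v' + ((l : F) * c⁻¹) • emb P v := by
      rw [emb_add, emb_smul, Matrix.mulVec_add, Matrix.mulVec_smul, hcv, hzv', smul_smul]
    rw [h1] at hcw
    have hc30 : c3 ≠ 0 := by
      rintro rfl
      rw [zero_smul, ← h1] at hcw
      have h2 : emb P (v + l • v') = 0 := by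
        rw [← hzzx (emb P (v + l • v')), hcw, Matrix.mulVec_zero]
      have h3 := (emb_eq_zero P).mp h2
      apply hdep
      rw [eq_neg_of_add_eq_zero_left h3]
      exact Submodule.neg_mem _ (Submodule.smul_mem _ _ (Submodule.mem_span_singleton_self v'))
    obtain ⟨p, q, hp, hq⟩ := emb_ratio P hdep hv'0 hc30 hcw
    have hl0' : (l : F) ≠ 0 := fun h' => hl0 (Subtype.ext h')
    have hq0 : (q : F) ≠ 0 := by
      rw [hq]; exact div_ne_zero (mul_ne_zero hl0' (inv_ne_zero hc0)) hc30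
    have hcc : c * c = ((p * l / q : F₀) : F) := by
      push_cast
      rw [hp, hq]
      field_simp
    have hc : c ∈ F₀ := hsq c (by rw [hcc]; exact SetLike.coe_mem _)
    refine ⟨(⟨c, hc⟩ : F₀) • v', ?_⟩
    rw [hcv, emb_smul]

/-- rational involutions with rich eigenspaces -/
structure GoodI (b : (ι → F₀) → (ι → F₀) → F₀) (i : GL ι F₀) : Prop where
  sq : i * i = 1
  iso : ∀ s : F₀, (s = 1 ∨ s = -1) → ∃ u : ι → F₀, u ≠ 0 ∧ b u u = 0 ∧ (i : Matrix ι ι F₀) *ᵥ u = s • u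
  split : ∀ s : F₀, (s = 1 ∨ s = -1) → ∀ x : ι → F₀, (i : Matrix ι ι F₀) *ᵥ x = s • x →
    ∃ y z : ι → F₀, b y y = 0 ∧ b z z = 0 ∧ (i : Matrix ι ι F₀) *ᵥ y = s • y ∧ (i : Matrix ι ι F₀) *ᵥ z = s • z ∧
      x = y + z

lemma eigen_dec {i : GL ι F₀} (hi : i * i = 1) (h2 : (2 : F₀) ≠ 0) (v : ι → F₀) :
    ∃ p q : ι → F₀, (i : Matrix ι ι F₀) *ᵥ p = (1 : F₀) • p ∧ (i : Matrix ι ι F₀) *ᵥ q = (-1 : F₀) • q ∧ v = p + q := by
  have hii : ∀ x : ι → F₀, (i : Matrix ι ι F₀) *ᵥ ((i : Matrix ι ι F₀) *ᵥ x) = x := by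
    intro x
    rw [← gl_mul_mulVec i i x, hi]; simp
  refine ⟨(2 : F₀)⁻¹ • (v + (i : Matrix ι ι F₀) *ᵥ v), (2 : F₀)⁻¹ • (v - (i : Matrix ι ι F₀) *ᵥ v), ?_, ?_, ?_⟩
  · rw [Matrix.mulVec_smul, Matrix.mulVec_add, hii]; module
  · rw [Matrix.mulVec_smul, Matrix.mulVec_sub, hii]; module
  · rw [← smul_add]
    have : v + (i : Matrix ι ι F₀) *ᵥ v + (v - (i : Matrix ι ι F₀) *ᵥ v) = (2 : F₀) • v := by module
    rw [this, smul_smul, inv_mul_cancel₀ h2, one_smul]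

lemma two_ne (h2 : (2 : F) ≠ 0) : (2 : F₀) ≠ 0 := by
  intro h'
  apply h2
  have := congrArg (Subtype.val : F₀ → F) h'
  push_cast at this
  exact this

/-- opposite eigenspaces are orthogonal -/
lemma opp_orth (S : SubF σ ε f F₀ P σ₀ ε₀ b ζ t₀ M) (h2 : (2 : F) ≠ 0) {z : GL ι F} (hz : z ∈ M) {s : F}
    (hs : s = 1 ∨ s = -1) {x y : ι → F} (hx : (z : Matrix ι ι F) *ᵥ x = s • x) (hy : (z : Matrix ι ι F) *ᵥ y = (-s) • y) :
    f x y = 0 := by
  have h1 := S.hiso z hz x y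
  rw [hx, hy, S.h.smul_left, S.h.smul_right, map_neg] at h1
  have hs2 : s * σ s = 1 := by
    rcases hs with rfl | rfl
    · simp
    · simp
  have h3 : 2 * f x y = 0 := by linear_combination -(f x y) * hs2 - h1
  exact (mul_eq_zero.mp h3).resolve_left h2

lemma rational_of_comm (S : SubF σ ε f F₀ P σ₀ ε₀ b ζ t₀ M) (hyp : Hyp f P b M) (hsq : ∀ c : F, c * c ∈ F₀ → c ∈ F₀)
    (h2 : (2 : F) ≠ 0) {i : GL ι F₀} (gi : GoodI b i) (hi : rho P i ∈ M)
    {z : GL ι F} (hz : z ∈ M) (hzz : z * z = 1) (hcomm : z * rho P i = rho P i * z) :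
    ∃ z₀ : GL ι F₀, z = rho P z₀ := by
  have hdim := S.dim
  have hne : Nonempty ι := Fintype.card_pos_iff.mp (by omega)
  apply rho_of_preserves hne
  have key : ∀ s : F₀, (s = 1 ∨ s = -1) → ∀ x : ι → F₀, (i : Matrix ι ι F₀) *ᵥ x = s • x →
      ∃ x' : ι → F₀, (z : Matrix ι ι F) *ᵥ emb P x = emb P x' := by
    intro s hs x hx
    -- the eigenspace
    let W : Submodule F (ι → F) :=
      { carrier := {y | ((rho P i : GL ι F) : Matrix ι ι F) *ᵥ y = (s : F) • y}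
        add_mem' := by
          intro y y' hy hy'
          change _ *ᵥ (y + y') = _
          rw [Matrix.mulVec_add, hy, hy', smul_add]
        zero_mem' := by
          change _ *ᵥ (0 : ι → F) = _
          rw [Matrix.mulVec_zero, smul_zero]
        smul_mem' := by
          intro c y hy
          change _ *ᵥ (c • y) = _
          rw [Matrix.mulVec_smul, hy, smul_comm] }
    have hmemW : ∀ y, y ∈ W ↔ ((rho P i : GL ι F) : Matrix ι ι F) *ᵥ y = (s : F) • y := fun y => Iff.rfl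
    have hW : ∀ y ∈ W, (z : Matrix ι ι F) *ᵥ y ∈ W := by
      intro y hy
      rw [hmemW] at hy ⊢
      rw [← gl_mul_mulVec, ← hcomm, gl_mul_mulVec, hy, Matrix.mulVec_smul]
    have hsF : (s : F) = 1 ∨ (s : F) = -1 := by
      rcases hs with rfl | rfl
      · left; rfl
      · right; push_cast; rfl
    have hs' : -s = 1 ∨ -s = -1 := by
      rcases hs with rfl | rfl
      · right; rfl
      · left; ring
    obtain ⟨u, hu0, huu, hu⟩ := gi.iso (-s) hs'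
    have hnf : ∀ y ∈ W, NF f P b y := by
      intro y hy
      refine ⟨u, hu0, huu, ?_⟩
      apply S.opp_orth h2 hi hsF hy
      rw [rho_mulVec_emb, hu, emb_smul]
      push_cast
      rfl
    obtain ⟨y, y', hy, hy', hiy, hiy', hyy⟩ := gi.split s hs x hx
    have hyW : emb P y ∈ W := by rw [hmemW, rho_mulVec_emb, hiy, emb_smul]
    have hyW' : emb P y' ∈ W := by rw [hmemW, rho_mulVec_emb, hiy', emb_smul]
    obtain ⟨p, hp⟩ := S.lemA hyp hsq hz hzz W hW hnf hy hyW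
    obtain ⟨q, hq⟩ := S.lemA hyp hsq hz hzz W hW hnf hy' hyW'
    exact ⟨p + q, by rw [hyy, emb_add, Matrix.mulVec_add, hp, hq, emb_add]⟩
  intro u
  obtain ⟨p, q, hp, hq, hpq⟩ := eigen_dec gi.sq (two_ne h2) u
  obtain ⟨p', hp'⟩ := key 1 (Or.inl rfl) p hp
  obtain ⟨q', hq'⟩ := key (-1) (Or.inr rfl) q hq
  exact ⟨p' + q', by rw [hpq, emb_add, Matrix.mulVec_add, hp', hq', emb_add]⟩

lemma two_fixed (S : SubF σ ε f F₀ P σ₀ ε₀ b ζ t₀ M) (h2 : (2 : F) ≠ 0) {z₀ : GL ι F₀} (hzz : z₀ * z₀ = 1)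
    (s : Finset (ι → F)) (hs : s.card ≤ 6) (hfix : ∀ x ∈ S.h.perp s, ((rho P z₀ : GL ι F) : Matrix ι ι F) *ᵥ x = x) :
    ∃ u v : ι → F₀, (z₀ : Matrix ι ι F₀) *ᵥ u = u ∧ (z₀ : Matrix ι ι F₀) *ᵥ v = v ∧ u ≠ 0 ∧
      v ∉ Submodule.span F₀ {u} := by
  have hdim := S.dim
  have h20 := two_ne (F₀ := F₀) h2
  by_contra hcon
  push Not at hcon
  obtain ⟨u0, hu0⟩ : ∃ u0 : ι → F₀, ∀ v : ι → F₀, (z₀ : Matrix ι ι F₀) *ᵥ v = v → v ∈ Submodule.span F₀ {u0} := by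
    by_cases hex : ∃ u : ι → F₀, (z₀ : Matrix ι ι F₀) *ᵥ u = u ∧ u ≠ 0
    · obtain ⟨u, hu, hu0⟩ := hex
      exact ⟨u, fun v hv => hcon u v hu hv hu0⟩
    · push Not at hex
      exact ⟨0, fun v hv => by rw [hex v hv]; exact Submodule.zero_mem _⟩
  have hle : S.h.perp s ≤ Submodule.span F {emb P u0} := by
    intro x hx
    have h1 := hfix x hx
    obtain ⟨c, hc⟩ := exists_emb_comb (F₀ := F₀) P x
    have h3 : (2 : F) • x = ∑ j, c j • emb P (Pi.single j (1 : F₀) + (z₀ : Matrix ι ι F₀) *ᵥ (Pi.single j (1 : F₀))) := by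
      have h4 : (2 : F) • x = x + ((rho P z₀ : GL ι F) : Matrix ι ι F) *ᵥ x := by rw [h1]; module
      rw [h4]
      nth_rewrite 1 [hc]
      nth_rewrite 1 [hc]
      rw [Matrix.mulVec_sum, ← Finset.sum_add_distrib]
      apply Finset.sum_congr rfl
      intro j _
      rw [Matrix.mulVec_smul, rho_mulVec_emb, emb_add, smul_add]
    have h5 : x = (2 : F)⁻¹ • ((2 : F) • x) := by rw [smul_smul, inv_mul_cancel₀ h2, one_smul]
    rw [h5, h3]
    apply Submodule.smul_mem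
    apply Submodule.sum_mem
    intro j _
    apply Submodule.smul_mem
    have h6 : (z₀ : Matrix ι ι F₀) *ᵥ (Pi.single j (1 : F₀) + (z₀ : Matrix ι ι F₀) *ᵥ (Pi.single j (1 : F₀))) =
        Pi.single j (1 : F₀) + (z₀ : Matrix ι ι F₀) *ᵥ (Pi.single j (1 : F₀)) := by
      have hii : ∀ x : ι → F₀, (z₀ : Matrix ι ι F₀) *ᵥ ((z₀ : Matrix ι ι F₀) *ᵥ x) = x := by
        intro x
        rw [← gl_mul_mulVec z₀ z₀ x, hzz]; simp
      rw [Matrix.mulVec_add, hii, add_comm]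
    obtain ⟨r, hr⟩ := Submodule.mem_span_singleton.mp (hu0 _ h6)
    rw [← hr, emb_smul]
    exact Submodule.smul_mem _ _ (Submodule.mem_span_singleton_self _)
  have h1 := Submodule.finrank_mono hle
  have h3 := S.h.finrank_perp s
  have h4 := finrank_span_le_card (R := F) ({emb P u0} : Set (ι → F))
  simp only [Set.toFinset_singleton, Finset.card_singleton] at h4
  omega

end SubF

end Cfsg.Agent.H12
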