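import Mathlib
import Cfsg.Prelude.Def_GeometricClasses
import Cfsg.Agent.H12.SubForm3

/-!
Subfield groups: the odd case and the even case of step 2, and the conclusion when the scalars are trivial.
-/

set_option autoImplicit false
set_option linter.unusedSectionVars false

open scoped MatrixGroups Matrix

namespace Cfsg.Agent.H12

variable {ι : Type} [Fintype ι] [DecidableEq ι] {F : Type*} [Field F]

namespace SubF

variable {σ : F ≃+* F} {ε : F} {f : (ι → F) → (ι → F) → F} {F₀ : Subfield F} {P : GL ι F}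
    {σ₀ : F₀ ≃+* F₀} {ε₀ : F₀} {b : (ι → F₀) → (ι → F₀) → F₀} {ζ : F} {t₀ : F₀} {M : Subgroup (GL ι F)}

/-- a combination of few rational vectors is `NF` -/
lemma nf_of_span (S : SubF σ ε f F₀ P σ₀ ε₀ b ζ t₀ M) (s : Finset (ι → F₀)) (hs : s.card ≤ 4) {x : ι → F}
    (hx : x ∈ Submodule.span F ((fun u : ι → F₀ => emb P u) '' (s : Set (ι → F₀)))) : NF f P b x := by
  obtain ⟨a, ha, haa, has⟩ := S.P1 s hs
  have ha0 : a ≠ 0 := by rintro rfl; exact has (Submodule.zero_mem _)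
  refine ⟨a, ha0, haa, ?_⟩
  induction hx using Submodule.span_induction with
  | mem x hx =>
    obtain ⟨u, hu, rfl⟩ := hx
    exact S.fE0 (S.h₀.symm_zero.mp (ha u hu))
  | zero => exact S.h.zero_left _
  | add x y _ _ hx hy => rw [S.h.add_left, hx, hy, add_zero]
  | smul c x _ hx => rw [S.h.smul_left, hx, mul_zero]

theorem odd_core [Finite F] (S : SubF σ ε f F₀ P σ₀ ε₀ b ζ t₀ M) (hyp : Hyp f P b M)
    (hsq : ∀ c : F, c * c ∈ F₀ → c ∈ F₀)
    (h2 : (2 : F) ≠ 0) {i1 i2 : GL ι F₀} (g1 : GoodI b i1) (g2 : GoodI b i2) (h1M : rho P i1 ∈ M)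
    (h2M : rho P i2 ∈ M)
    (hgood : ∀ z₀ : GL ι F₀, z₀ * z₀ = 1 → rho P z₀ ∈ M → z₀ ≠ 1 → (∃ u v : ι → F₀, (z₀ : Matrix ι ι F₀) *ᵥ u = u ∧
      (z₀ : Matrix ι ι F₀) *ᵥ v = v ∧ u ≠ 0 ∧ v ∉ Submodule.span F₀ {u}) → GoodI b z₀)
    (fix1 : ∃ s : Finset (ι → F), s.card ≤ 4 ∧ ∀ x ∈ S.h.perp s, ((rho P i1 : GL ι F) : Matrix ι ι F) *ᵥ x = x)
    (fix2 : ∃ s : Finset (ι → F), s.card ≤ 2 ∧ ∀ x ∈ S.h.perp s, ((rho P i2 : GL ι F) : Matrix ι ι F) *ᵥ x = x)
    (htr : ∀ x : GL ι F, x * rho P i1 * x⁻¹ ≠ rho P i2) :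
    ∀ g ∈ M, ∀ v : ι → F₀, b v v = 0 → Rat F₀ P ((g : Matrix ι ι F) *ᵥ emb P v) := by
  classical
  intro g hg
  have h := S.h
  have h20 := two_ne (F₀ := F₀) h2
  have hgi := S.hiso g hg
  obtain ⟨s1, hs1, hf1⟩ := fix1
  obtain ⟨s2, hs2, hf2⟩ := fix2
  set I1 := rho P i1 with hI1
  set I2 := g * rho P i2 * g⁻¹ with hI2
  have hI2M : I2 ∈ M := mul_mem (mul_mem hg h2M) (inv_mem hg)
  have hI1sq : I1 * I1 = 1 := by rw [hI1, ← map_mul, g1.sq, map_one]
  have hI2sq : I2 * I2 = 1 := by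
    have h3 : rho P i2 * rho P i2 = 1 := by rw [← map_mul, g2.sq, map_one]
    calc I2 * I2 = g * (rho P i2 * rho P i2) * g⁻¹ := by rw [hI2]; group
      _ = 1 := by rw [h3]; group
  obtain ⟨k, hzz, hz1, hzI1, hzI2⟩ := exists_central_involution h1M hI2M hI1sq hI2sq (by
    intro x hx heq
    apply htr (g⁻¹ * x)
    calc g⁻¹ * x * I1 * (g⁻¹ * x)⁻¹ = g⁻¹ * (x * I1 * x⁻¹) * g := by group
      _ = rho P i2 := by rw [heq, hI2]; group)
  set z := (I1 * I2) ^ k with hz
  have hzM : z ∈ M := M.pow_mem (M.mul_mem h1M hI2M) k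
  -- the fixed vectors of z
  set s := s1 ∪ s2.image (fun x => (g : Matrix ι ι F) *ᵥ x) with hs
  have hscard : s.card ≤ 6 := by
    have h3 : s.card ≤ s1.card + (s2.image (fun x => (g : Matrix ι ι F) *ᵥ x)).card := by
      rw [hs]; exact Finset.card_union_le _ _
    have h4 := Finset.card_image_le (s := s2) (f := fun x => (g : Matrix ι ι F) *ᵥ x)
    omega
  have hzfix : ∀ x ∈ h.perp s, (z : Matrix ι ι F) *ᵥ x = x := by
    intro x hx
    have h3 : (I1 : Matrix ι ι F) *ᵥ x = x := hf1 x (fun a ha => hx a (Finset.mem_union_left _ ha))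
    have h4 : (I2 : Matrix ι ι F) *ᵥ x = x := by
      have h5 : ((g⁻¹ : GL ι F) : Matrix ι ι F) *ᵥ x ∈ h.perp s2 := by
        intro a ha
        have h6 : f x ((g : Matrix ι ι F) *ᵥ a) = 0 :=
          hx _ (Finset.mem_union_right _ (Finset.mem_image_of_mem _ ha))
        rw [← h6, ← hgi, gl_mulVec_inv_mulVec]
      rw [hI2, gl_mul_mulVec, gl_mul_mulVec, hf2 _ h5, gl_mulVec_inv_mulVec]
    have h5 : ∀ n : ℕ, (((I1 * I2) ^ n : GL ι F) : Matrix ι ι F) *ᵥ x = x := by
      intro n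
      induction n with
      | zero => simp
      | succ n ih => rw [pow_succ, gl_mul_mulVec, gl_mul_mulVec, h4, h3, ih]
    exact h5 k
  obtain ⟨z₀, hz₀⟩ := S.rational_of_comm hyp hsq h2 g1 h1M hzM hzz hzI1
  -- the conjugate
  set z' := g⁻¹ * z * g with hz'
  have hz'M : z' ∈ M := mul_mem (mul_mem (inv_mem hg) hzM) hg
  have hz'z' : z' * z' = 1 := by
    calc z' * z' = g⁻¹ * (z * z) * g := by rw [hz']; group
      _ = 1 := by rw [hzz]; group
  have hz'I : z' * rho P i2 = rho P i2 * z' := by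
    have h3 : rho P i2 = g⁻¹ * I2 * g := by rw [hI2]; group
    calc z' * rho P i2 = g⁻¹ * (z * I2) * g := by rw [h3, hz']; group
      _ = rho P i2 * z' := by rw [hzI2, h3, hz']; group
  obtain ⟨z₁, hz₁⟩ := S.rational_of_comm hyp hsq h2 g2 h2M hz'M hz'z' hz'I
  have hz₀1 : z₀ ≠ 1 := by rintro rfl; apply hz1; rw [hz₀, map_one]
  have hz₁1 : z₁ ≠ 1 := by
    rintro rfl
    rw [map_one, hz'] at hz₁
    apply hz1
    calc z = g * (g⁻¹ * z * g) * g⁻¹ := by group
      _ = 1 := by rw [hz₁]; group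
  have hz₀z₀ : z₀ * z₀ = 1 := by
    apply rho_inj (P := P)
    rw [map_mul, ← hz₀, hzz, map_one]
  have hz₁z₁ : z₁ * z₁ = 1 := by
    apply rho_inj (P := P)
    rw [map_mul, ← hz₁, hz'z', map_one]
  have G0 : GoodI b z₀ := by
    apply hgood z₀ hz₀z₀ (by rw [← hz₀]; exact hzM) hz₀1
    exact S.two_fixed h2 hz₀z₀ s hscard (by rw [← hz₀]; exact hzfix)
  have G1 : GoodI b z₁ := by
    apply hgood z₁ hz₁z₁ (by rw [← hz₁]; exact hz'M) hz₁1
    refine S.two_fixed h2 hz₁z₁ (s.image (fun x => ((g⁻¹ : GL ι F) : Matrix ι ι F) *ᵥ x))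
      (le_trans Finset.card_image_le hscard) ?_
    rw [← hz₁]
    intro x hx
    have h3 : (g : Matrix ι ι F) *ᵥ x ∈ h.perp s := by
      intro a ha
      have h6 : f x (((g⁻¹ : GL ι F) : Matrix ι ι F) *ᵥ a) = 0 := hx _ (Finset.mem_image_of_mem _ ha)
      rw [← h6, ← hgi x (((g⁻¹ : GL ι F) : Matrix ι ι F) *ᵥ a), gl_mulVec_inv_mulVec]
    rw [hz', gl_mul_mulVec, gl_mul_mulVec, hzfix _ h3, gl_inv_mulVec_mulVec]
  -- images of isotropic eigenvectors
  have himg : ∀ s : F₀, (s = 1 ∨ s = -1) → ∀ y : ι → F₀, b y y = 0 → (z₁ : Matrix ι ι F₀) *ᵥ y = s • y →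
      Rat F₀ P ((g : Matrix ι ι F) *ᵥ emb P y) := by
    intro s hs y hy hzy
    apply hyp g hg y hy
    have hs' : -s = 1 ∨ -s = -1 := by
      rcases hs with rfl | rfl
      · right; rfl
      · left; ring
    have hsF : (s : F) = 1 ∨ (s : F) = -1 := by
      rcases hs with rfl | rfl
      · left; rfl
      · right; push_cast; rfl
    obtain ⟨u, hu0, huu, hu⟩ := G0.iso (-s) hs'
    refine ⟨u, hu0, huu, ?_⟩
    apply S.opp_orth h2 hzM hsF
    · have h3 : (z : Matrix ι ι F) *ᵥ ((g : Matrix ι ι F) *ᵥ emb P y) =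
          (g : Matrix ι ι F) *ᵥ ((z' : Matrix ι ι F) *ᵥ emb P y) := by
        rw [← gl_mul_mulVec, ← gl_mul_mulVec g z']
        congr 2
        rw [hz']; group
      rw [h3, hz₁, rho_mulVec_emb, hzy, emb_smul, Matrix.mulVec_smul]
    · rw [hz₀, rho_mulVec_emb, hu, emb_smul]
      push_cast
      rfl
  intro v hv
  obtain ⟨p, q, hp, hq, hpq⟩ := eigen_dec hz₁z₁ h20 v
  obtain ⟨y1, y2, hy1, hy2, hzy1, hzy2, hpy⟩ := G1.split 1 (Or.inl rfl) p hp
  obtain ⟨y3, y4, hy3, hy4, hzy3, hzy4, hqy⟩ := G1.split (-1) (Or.inr rfl) q hq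
  obtain ⟨c1, u1, e1⟩ := himg 1 (Or.inl rfl) y1 hy1 hzy1
  obtain ⟨c2, u2, e2⟩ := himg 1 (Or.inl rfl) y2 hy2 hzy2
  obtain ⟨c3, u3, e3⟩ := himg (-1) (Or.inr rfl) y3 hy3 hzy3
  obtain ⟨c4, u4, e4⟩ := himg (-1) (Or.inr rfl) y4 hy4 hzy4
  apply hyp g hg v hv
  apply S.nf_of_span {u1, u2, u3, u4} Finset.card_le_four
  rw [hpq, hpy, hqy, emb_add, emb_add, emb_add, Matrix.mulVec_add, Matrix.mulVec_add, Matrix.mulVec_add, e1, e2, e3, e4]
  have hm : ∀ (c : F) (u : ι → F₀), u ∈ ({u1, u2, u3, u4} : Finset (ι → F₀)) → c • emb P u ∈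
      Submodule.span F ((fun u : ι → F₀ => emb P u) '' (({u1, u2, u3, u4} : Finset (ι → F₀)) : Set (ι → F₀))) :=
    fun c u hu => Submodule.smul_mem _ _ (Submodule.subset_span ⟨u, hu, rfl⟩)
  exact Submodule.add_mem _ (Submodule.add_mem _ (hm _ _ (by simp)) (hm _ _ (by simp)))
    (Submodule.add_mem _ (hm _ _ (by simp)) (hm _ _ (by simp)))

lemma emb_indep {a c : ι → F₀} (ha0 : a ≠ 0) (hc : c ∉ Submodule.span F₀ {a}) :
    emb P c ∉ Submodule.span F {emb P a} := by
  intro hm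
  obtain ⟨r, hr⟩ := Submodule.mem_span_singleton.mp hm
  obtain ⟨r₀, hr₀⟩ := emb_smul_mem P ha0 hr.symm
  apply hc
  rw [Submodule.mem_span_singleton]
  refine ⟨r₀, ?_⟩
  apply emb_inj P
  rw [emb_smul, hr₀, hr]

theorem even_core [Finite F] (S : SubF σ ε f F₀ P σ₀ ε₀ b ζ t₀ M) (hyp : Hyp f P b M)
    (hsq : ∀ c : F, c * c ∈ F₀ → c ∈ F₀) (h2 : (2 : F) = 0) :
    ∀ g ∈ M, ∀ v : ι → F₀, b v v = 0 → Rat F₀ P ((g : Matrix ι ι F) *ᵥ emb P v) := by
  classical
  intro g hg e hee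
  have h := S.h
  have h₀ := S.h₀
  have hgi := S.hiso g hg
  by_cases hnf : NF f P b ((g : Matrix ι ι F) *ᵥ emb P e)
  · exact hyp g hg e hee hnf
  exfalso
  set w := (g : Matrix ι ι F) *ᵥ emb P e with hw
  have hww : f w w = 0 := by rw [hw, hgi]; exact S.fE0 hee
  set τ := ζ * t₀ with hτ
  have hτ0 : τ ≠ 0 := mul_ne_zero S.hζ0 (fun h' => S.ht0 (Subtype.ext h'))
  have hsM : utv f w τ ∈ M := by
    rw [hw, ← conj_rtv h hgi _ (S.fE0 hee)]
    exact mul_mem (mul_mem hg (S.hMt hee)) (inv_mem hg)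
  clear_value w
  have hw0 : w ≠ 0 := by
    rintro rfl
    obtain ⟨a, -, haa, has⟩ := S.P1 ∅ (by simp)
    exact hnf ⟨a, by rintro rfl; exact has (Submodule.zero_mem _), haa, h.zero_left _⟩
  -- rational vectors a, c
  obtain ⟨a, -, haa, has⟩ := S.P1 ∅ (by simp)
  have ha0 : a ≠ 0 := by rintro rfl; exact has (Submodule.zero_mem _)
  obtain ⟨c, hca, hcc, hcs⟩ := S.P1 {a} (by simp)
  rw [Finset.coe_singleton] at hcs
  have hca : b c a = 0 := hca a (by simp)
  have hac : b a c = 0 := h₀.symm_zero.mp hca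
  have hEc := emb_indep (P := P) ha0 hcs
  have hEa0 : emb P a ≠ 0 := fun h' => ha0 ((emb_eq_zero P).mp h')
  have hc0 : c ≠ 0 := by rintro rfl; exact hcs (Submodule.zero_mem _)
  have hEc0 : emb P c ≠ 0 := fun h' => hc0 ((emb_eq_zero P).mp h')
  have faa := S.fE0 haa
  have fcc := S.fE0 hcc
  have fac := S.fE0 hac
  have fca := S.fE0 hca
  -- an independence statement
  have hindep : ∀ α β : F, α • emb P a + β • emb P c = 0 → α = 0 ∧ β = 0 := by
    intro α β hαβ
    have hβ : β = 0 := by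
      by_contra hβ
      apply hEc
      rw [Submodule.mem_span_singleton]
      refine ⟨-(β⁻¹ * α), ?_⟩
      have h1 : β • emb P c = -(α • emb P a) := by
        rw [eq_neg_iff_add_eq_zero, add_comm]; exact hαβ
      have h3 : emb P c = β⁻¹ • (β • emb P c) := by rw [smul_smul, inv_mul_cancel₀ hβ, one_smul]
      rw [h3, h1]; module
    refine ⟨?_, hβ⟩
    rw [hβ, zero_smul, add_zero] at hαβ
    exact (smul_eq_zero.mp hαβ).resolve_right hEa0
  set t := utv f (emb P a) τ * utv f (emb P c) τ with ht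
  have htM : t ∈ M := mul_mem (S.hMt haa) (S.hMt hcc)
  have htmul : ∀ x, (t : Matrix ι ι F) *ᵥ x = x + ((τ * f x (emb P a)) • emb P a + (τ * f x (emb P c)) • emb P c) := by
    intro x
    rw [ht, gl_mul_mulVec, rtv_mulVec h fcc, rtv_mulVec h faa, h.add_left, h.smul_left, fca]
    module
  have hττ : τ + τ = 0 := by rw [← two_mul, h2, zero_mul]
  have htt : t * t = 1 := by
    apply gl_ext
    intro x
    rw [gl_mul_mulVec t t x, htmul, htmul]
    simp only [h.add_left, h.smul_left, faa, fcc, fac, fca]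
    have e1 : τ * (f x (emb P a) + (τ * f x (emb P a) * 0 + τ * f x (emb P c) * 0)) = τ * f x (emb P a) := by ring
    have e2 : τ * (f x (emb P c) + (τ * f x (emb P a) * 0 + τ * f x (emb P c) * 0)) = τ * f x (emb P c) := by ring
    rw [e1, e2]
    have e3 : ∀ y : ι → F, y + y = 0 := by intro y; rw [← two_smul F y, h2, zero_smul]
    rw [add_assoc, e3]
    simp
  set s := utv f w τ with hs
  have hss : s * s = 1 := by rw [hs, rtv_mul h hww, hττ, rtv_zero h hww]
  obtain ⟨k, hzz, hz1, hzt, hzs⟩ := exists_central_involution htM hsM htt hss (by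
    intro m hm heq
    have hmi := S.hiso m hm
    have h1 : ∀ y, (τ * f y ((m : Matrix ι ι F) *ᵥ emb P a)) • ((m : Matrix ι ι F) *ᵥ emb P a) +
        (τ * f y ((m : Matrix ι ι F) *ᵥ emb P c)) • ((m : Matrix ι ι F) *ᵥ emb P c) = (τ * f y w) • w := by
      intro y
      have h3 : ((m * t * m⁻¹ : GL ι F) : Matrix ι ι F) *ᵥ y = (s : Matrix ι ι F) *ᵥ y := by rw [heq]
      have e1 : f (((m⁻¹ : GL ι F) : Matrix ι ι F) *ᵥ y) (emb P a) = f y ((m : Matrix ι ι F) *ᵥ emb P a) := by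
        rw [← hmi, gl_mulVec_inv_mulVec]
      have e2 : f (((m⁻¹ : GL ι F) : Matrix ι ι F) *ᵥ y) (emb P c) = f y ((m : Matrix ι ι F) *ᵥ emb P c) := by
        rw [← hmi, gl_mulVec_inv_mulVec]
      rw [gl_mul_mulVec, gl_mul_mulVec, htmul, e1, e2, Matrix.mulVec_add, gl_mulVec_inv_mulVec, hs, rtv_mulVec h hww,
        Matrix.mulVec_add, Matrix.mulVec_smul, Matrix.mulVec_smul] at h3
      exact add_left_cancel h3
    have key : ∀ p q : ι → F₀, emb P p ∉ Submodule.span F {emb P q} →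
        (∀ y, (τ * f y ((m : Matrix ι ι F) *ᵥ emb P p)) • ((m : Matrix ι ι F) *ᵥ emb P p) +
        (τ * f y ((m : Matrix ι ι F) *ᵥ emb P q)) • ((m : Matrix ι ι F) *ᵥ emb P q) = (τ * f y w) • w) →
        (m : Matrix ι ι F) *ᵥ emb P p ∈ Submodule.span F {w} := by
      intro p q hpq hy
      have hns : (m : Matrix ι ι F) *ᵥ emb P p ∉ Submodule.span F {(m : Matrix ι ι F) *ᵥ emb P q} := by
        intro hmm
        obtain ⟨r, hr⟩ := Submodule.mem_span_singleton.mp hmm
        apply hpq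
        rw [Submodule.mem_span_singleton]
        refine ⟨r, ?_⟩
        rw [← Matrix.mulVec_smul] at hr
        have := congrArg (fun x => ((m⁻¹ : GL ι F) : Matrix ι ι F) *ᵥ x) hr
        simp only [gl_inv_mulVec_mulVec] at this
        exact this
      obtain ⟨y, hy1, hy2⟩ := h.exists_perp_not_orth {(m : Matrix ι ι F) *ᵥ emb P q} (x := (m : Matrix ι ι F) *ᵥ emb P p)
        (by simpa using hns)
      have h3 := hy y
      rw [hy1 ((m : Matrix ι ι F) *ᵥ emb P q) (by simp), mul_zero, zero_smul, add_zero] at h3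
      have h4 : τ * f y ((m : Matrix ι ι F) *ᵥ emb P p) ≠ 0 := mul_ne_zero hτ0 hy2
      rw [Submodule.mem_span_singleton]
      refine ⟨(τ * f y ((m : Matrix ι ι F) *ᵥ emb P p))⁻¹ * (τ * f y w), ?_⟩
      rw [mul_smul, ← h3, smul_smul, inv_mul_cancel₀ h4, one_smul]
    have hEa : emb P a ∉ Submodule.span F {emb P c} := by
      intro hmm
      obtain ⟨r, hr⟩ := Submodule.mem_span_singleton.mp hmm
      have h3 := hindep 1 (-r) (by rw [one_smul, neg_smul, hr, add_neg_cancel])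
      exact one_ne_zero h3.1
    obtain ⟨α, hα⟩ := Submodule.mem_span_singleton.mp (key a c hEa h1)
    obtain ⟨β, hβ⟩ := Submodule.mem_span_singleton.mp (key c a hEc (fun y => by rw [add_comm]; exact h1 y))
    have hα0 : α ≠ 0 := by
      rintro rfl
      rw [zero_smul] at hα
      exact gl_mulVec_ne_zero m hEa0 hα.symm
    have h3 : (m : Matrix ι ι F) *ᵥ (β • emb P a + (-α) • emb P c) = 0 := by
      rw [Matrix.mulVec_add, Matrix.mulVec_smul, Matrix.mulVec_smul, ← hα, ← hβ]; module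
    have h4 : β • emb P a + (-α) • emb P c = 0 := by
      rw [← gl_inv_mulVec_mulVec m (β • emb P a + (-α) • emb P c), h3, Matrix.mulVec_zero]
    exact hα0 (neg_eq_zero.mp (hindep _ _ h4).2))
  set z := (t * s) ^ k with hz
  have hzM : z ∈ M := M.pow_mem (M.mul_mem htM hsM) k
  have hzi := S.hiso z hzM
  clear_value z
  have hzzx : ∀ x : ι → F, (z : Matrix ι ι F) *ᵥ ((z : Matrix ι ι F) *ᵥ x) = x := by
    intro x
    rw [← gl_mul_mulVec z z x, hzz]; simp
  -- z fixes w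
  have hzw : (z : Matrix ι ι F) *ᵥ w = w := by
    have h1 : z * s * z⁻¹ = s := by rw [hzs]; group
    rw [hs, conj_rtv h hzi _ hww] at h1
    have hzw0 : (z : Matrix ι ι F) *ᵥ w ≠ 0 := gl_mulVec_ne_zero z hw0
    obtain ⟨y, hy⟩ := h.nondeg _ hzw0
    have h3 := congrArg (fun m : GL ι F => (m : Matrix ι ι F) *ᵥ y) h1
    simp only [rtv_mulVec h hww, rtv_mulVec h (show f ((z : Matrix ι ι F) *ᵥ w) ((z : Matrix ι ι F) *ᵥ w) = 0 by
      rw [hzi]; exact hww)] at h3
    have h4 := add_left_cancel h3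
    have h5 : τ * f y ((z : Matrix ι ι F) *ᵥ w) ≠ 0 := mul_ne_zero hτ0 hy
    set r := (τ * f y ((z : Matrix ι ι F) *ᵥ w))⁻¹ * (τ * f y w) with hr
    have h6 : (z : Matrix ι ι F) *ᵥ w = r • w := by
      rw [hr, mul_smul, ← h4, smul_smul, inv_mul_cancel₀ h5, one_smul]
    clear_value r
    have h7 := hzzx w
    rw [h6, Matrix.mulVec_smul, h6, smul_smul] at h7
    have h8 : (r * r - 1) • w = 0 := by rw [sub_smul, h7, one_smul, sub_self]
    have h9 := (smul_eq_zero.mp h8).resolve_right hw0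
    have h10 : (r - 1) * (r - 1) = 0 := by linear_combination h9 - (r - 1) * h2
    have h11 : r = 1 := sub_eq_zero.mp (mul_self_eq_zero.mp h10)
    rw [h6, h11, one_smul]
  -- rational images are equal
  have hfixE : ∀ v v' : ι → F₀, b v v = 0 → (z : Matrix ι ι F) *ᵥ emb P v = emb P v' → v' = v := by
    intro v v' hv hvv'
    by_contra hne
    apply hnf
    refine ⟨v' - v, sub_ne_zero.mpr hne, ?_, ?_⟩
    · have h1 : b v' v' = 0 := by
        apply S.bE0
        rw [← hvv', hzi]; exact S.fE0 hv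
      have h3 : b v' v = b v v' := by
        apply Subtype.ext
        rw [S.hb, S.hb, ← hvv']
        rw [← hzi (emb P v), hzzx]
      rw [h₀.sub_left, h₀.sub_right, h₀.sub_right, h1, hv, h3]
      have h20 : (2 : F₀) = 0 := by
        apply Subtype.ext
        push_cast
        exact h2
      linear_combination -(b v v') * h20
    · rw [emb_sub, h.sub_right, ← hvv']
      nth_rewrite 1 [← hzw]
      rw [hzi, sub_self]
  -- the subspace orthogonal to a and c
  have hmem1 : ∀ x, x ∈ h.perp {emb P a, emb P c} ↔ (t : Matrix ι ι F) *ᵥ x = x := by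
    intro x
    constructor
    · intro hx
      rw [htmul, hx _ (by simp), hx _ (by simp)]; simp
    · intro hx
      rw [htmul] at hx
      have h1 := hindep _ _ (add_eq_left.mp hx)
      intro y hy
      rcases Finset.mem_insert.mp hy with rfl | hy
      · exact (mul_eq_zero.mp h1.1).resolve_left hτ0
      · rw [Finset.mem_singleton.mp hy]; exact (mul_eq_zero.mp h1.2).resolve_left hτ0
  have hW1 : ∀ x ∈ h.perp {emb P a, emb P c}, (z : Matrix ι ι F) *ᵥ x ∈ h.perp {emb P a, emb P c} := by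
    intro x hx
    rw [hmem1] at hx ⊢
    rw [← gl_mul_mulVec, ← hzt, gl_mul_mulVec, hx]
  have hfix1 : ∀ v : ι → F₀, b v v = 0 → b v a = 0 → b v c = 0 → (z : Matrix ι ι F) *ᵥ emb P v = emb P v := by
    intro v hv hva hvc
    have hvW : emb P v ∈ h.perp {emb P a, emb P c} := by
      intro y hy
      rcases Finset.mem_insert.mp hy with rfl | hy
      · exact S.fE0 hva
      · rw [Finset.mem_singleton.mp hy]; exact S.fE0 hvc
    obtain ⟨v', hv'⟩ := S.lemA hyp hsq hzM hzz _ hW1 (fun x hx => ⟨a, ha0, haa, hx _ (by simp)⟩) hv hvW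
    rw [hv', hfixE v v' hv hv']
  have hfix2 : ∀ v : ι → F₀, b v a = 0 → b v c = 0 → (z : Matrix ι ι F) *ᵥ emb P v = emb P v := by
    intro v hva hvc
    obtain ⟨y, y', hy, hy', hyy, hyy', hyv⟩ := S.P3 {a, c} (by
      have := Finset.card_le_two (a := a) (b := c); omega) v (by
      intro u hu
      rcases Finset.mem_insert.mp hu with rfl | hu
      · exact hva
      · rw [Finset.mem_singleton.mp hu]; exact hvc)
    rw [hyv, emb_add, Matrix.mulVec_add, hfix1 y hyy (hy a (by simp)) (hy c (by simp)),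
      hfix1 y' hyy' (hy' a (by simp)) (hy' c (by simp))]
  -- dual vectors
  obtain ⟨a', ha'c, ha'a⟩ := h₀.exists_perp_not_orth {c} (x := a) (by
    rw [Finset.coe_singleton]
    intro hm
    obtain ⟨r, hr⟩ := Submodule.mem_span_singleton.mp hm
    have hr0 : r ≠ 0 := by rintro rfl; exact ha0 (by rw [← hr, zero_smul])
    apply hcs
    rw [Submodule.mem_span_singleton]
    exact ⟨r⁻¹, by rw [← hr, smul_smul, inv_mul_cancel₀ hr0, one_smul]⟩)
  obtain ⟨c', hc'a, hc'c⟩ := h₀.exists_perp_not_orth {a} (x := c) (by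
    rw [Finset.coe_singleton]; exact hcs)
  have ha'c : b a' c = 0 := ha'c c (by simp)
  have hc'a : b c' a = 0 := hc'a a (by simp)
  have hspan : ∀ x : ι → F, (∀ u : ι → F₀, b u a = 0 → b u c = 0 → f x (emb P u) = 0) →
      ∃ α β : F, x = α • emb P a + β • emb P c := by
    intro x hx
    have n1 : f (emb P a) (emb P a') ≠ 0 := fun h' => ha'a (h₀.symm_zero.mp (S.bE0 h'))
    have n2 : f (emb P c) (emb P c') ≠ 0 := fun h' => hc'c (h₀.symm_zero.mp (S.bE0 h'))
    have n3 : f (emb P c) (emb P a') = 0 := S.fE0 (h₀.symm_zero.mp ha'c)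
    have n4 : f (emb P a) (emb P c') = 0 := S.fE0 (h₀.symm_zero.mp hc'a)
    refine ⟨f x (emb P a') / f (emb P a) (emb P a'), f x (emb P c') / f (emb P c) (emb P c'), ?_⟩
    set α := f x (emb P a') / f (emb P a) (emb P a') with hα
    set β := f x (emb P c') / f (emb P c) (emb P c') with hβ
    have m1 : f (x - (α • emb P a + β • emb P c)) (emb P a') = 0 := by
      rw [h.sub_left, h.add_left, h.smul_left, h.smul_left, n3, hα, div_mul_cancel₀ _ n1]; ring
    have m2 : f (x - (α • emb P a + β • emb P c)) (emb P c') = 0 := by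
      rw [h.sub_left, h.add_left, h.smul_left, h.smul_left, n4, hβ, div_mul_cancel₀ _ n2]; ring
    by_contra hne
    obtain ⟨y, hy⟩ := h.nondeg _ (sub_ne_zero.mpr hne)
    apply hy
    obtain ⟨cc, hcc'⟩ := exists_emb_comb (F₀ := F₀) P y
    rw [hcc', h.sum_left]
    apply Finset.sum_eq_zero
    intro j _
    rw [h.smul_left]
    have m3 : ∀ d : ι → F₀, f (x - (α • emb P a + β • emb P c)) (emb P d) = 0 := by
      intro d
      set d1 := d - ((b d a / b a' a) • a' + (b d c / b c' c) • c') with hd1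
      have q1 : b d1 a = 0 := by
        rw [hd1, h₀.sub_left, h₀.add_left, h₀.smul_left, h₀.smul_left, hc'a, div_mul_cancel₀ _ ha'a]; ring
      have q2 : b d1 c = 0 := by
        rw [hd1, h₀.sub_left, h₀.add_left, h₀.smul_left, h₀.smul_left, ha'c, div_mul_cancel₀ _ hc'c]; ring
      have q3 : d = d1 + ((b d a / b a' a) • a' + (b d c / b c' c) • c') := by rw [hd1]; abel
      rw [q3, emb_add, emb_add, emb_smul, emb_smul, h.add_right, h.add_right, h.smul_right, h.smul_right, m1, m2,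
        h.sub_left, h.add_left, h.smul_left, h.smul_left, hx d1 q1 q2, S.fE0 (h₀.symm_zero.mp q1),
        S.fE0 (h₀.symm_zero.mp q2)]
      ring
    rw [h.symm_zero.mp (m3 _), mul_zero]
  have hfix3 : ∀ v : ι → F₀, b v v = 0 → (z : Matrix ι ι F) *ᵥ emb P v = emb P v := by
    intro v hv
    obtain ⟨α, β, hαβ⟩ := hspan ((z : Matrix ι ι F) *ᵥ emb P v - emb P v) (by
      intro u hua huc
      rw [h.sub_left]
      nth_rewrite 1 [← hfix2 u hua huc]
      rw [hzi, sub_self])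
    have hzv : (z : Matrix ι ι F) *ᵥ emb P v = emb P v + (α • emb P a + β • emb P c) := by
      rw [← hαβ]; abel
    set W2 := Submodule.span F ((fun u : ι → F₀ => emb P u) '' (({v, a, c} : Finset (ι → F₀)) : Set (ι → F₀))) with hW2
    have mv : emb P v ∈ W2 := Submodule.subset_span ⟨v, by simp, rfl⟩
    have ma : emb P a ∈ W2 := Submodule.subset_span ⟨a, by simp, rfl⟩
    have mc : emb P c ∈ W2 := Submodule.subset_span ⟨c, by simp, rfl⟩
    have hzW : ∀ x ∈ W2, (z : Matrix ι ι F) *ᵥ x ∈ W2 := by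
      intro x hx
      induction hx using Submodule.span_induction with
      | mem x hx =>
        obtain ⟨u, hu, rfl⟩ := hx
        simp only [Finset.coe_insert, Finset.coe_singleton, Set.mem_insert_iff, Set.mem_singleton_iff] at hu
        rcases hu with rfl | rfl | rfl
        · change (z : Matrix ι ι F) *ᵥ emb P u ∈ W2
          rw [hzv]
          exact W2.add_mem mv (W2.add_mem (W2.smul_mem _ ma) (W2.smul_mem _ mc))
        · change (z : Matrix ι ι F) *ᵥ emb P u ∈ W2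
          rw [hfix2 u haa hac]; exact ma
        · change (z : Matrix ι ι F) *ᵥ emb P u ∈ W2
          rw [hfix2 u hca hcc]; exact mc
      | zero => rw [Matrix.mulVec_zero]; exact W2.zero_mem
      | add x y _ _ hx hy => rw [Matrix.mulVec_add]; exact W2.add_mem hx hy
      | smul r x _ hx => rw [Matrix.mulVec_smul]; exact W2.smul_mem _ hx
    obtain ⟨v', hv'⟩ := S.lemA hyp hsq hzM hzz W2 hzW (fun x hx => S.nf_of_span {v, a, c} (by
      have := Finset.card_le_three (a := v) (b := a) (c := c); omega) hx) hv mv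
    rw [hv', hfixE v v' hv hv']
  apply hz1
  apply gl_ext_emb (F₀ := F₀) P
  intro u
  obtain ⟨y, y', -, -, hyy, hyy', hyv⟩ := S.P3 ∅ (by simp) u (by simp)
  rw [hyv, emb_add, Matrix.mulVec_add, hfix3 y hyy, hfix3 y' hyy']
  simp

/-- from isotropic vectors to all vectors -/
theorem le_subfield_of_rat (S : SubF σ ε f F₀ P σ₀ ε₀ b ζ t₀ M) {g : GL ι F}
    (hR : ∀ v : ι → F₀, b v v = 0 → Rat F₀ P ((g : Matrix ι ι F) *ᵥ emb P v)) : g ∈ Geo.subfieldSubgroup F₀ P := by
  apply mem_subfield_of_lines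
  intro u
  obtain ⟨y, z, -, -, hy, hz, rfl⟩ := S.P3 ∅ (by simp) u (by simp)
  obtain ⟨c1, y', h1⟩ := hR y hy
  obtain ⟨c2, z', h2⟩ := hR z hz
  have hrw : (g : Matrix ι ι F) *ᵥ emb P (y + z) = c1 • emb P y' + c2 • emb P z' := by
    rw [emb_add, Matrix.mulVec_add, h1, h2]
  by_cases hy'0 : y' = 0
  · exact ⟨c2, z', by rw [hrw, hy'0, emb_zero, smul_zero, zero_add]⟩
  by_cases hdep : z' ∈ Submodule.span F₀ {y'}
  · obtain ⟨r, hr⟩ := Submodule.mem_span_singleton.mp hdep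
    refine ⟨c1 + c2 * r, y', ?_⟩
    rw [hrw, ← hr, emb_smul]; module
  by_cases hc2 : c2 = 0
  · exact ⟨c1, y', by rw [hrw, hc2, zero_smul, add_zero]⟩
  obtain ⟨l, hl0, hl⟩ := S.lam hy hz
  obtain ⟨c3, w', h3⟩ := hR _ hl
  rw [emb_add, emb_smul, Matrix.mulVec_add, Matrix.mulVec_smul, h1, h2, smul_smul] at h3
  have hl0' : (l : F) ≠ 0 := fun h' => hl0 (Subtype.ext h')
  have hz'0 : z' ≠ 0 := by rintro rfl; exact hdep (Submodule.zero_mem _)
  have hc3 : c3 ≠ 0 := by
    rintro rfl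
    rw [zero_smul] at h3
    apply emb_indep (P := P) hy'0 hdep
    rw [Submodule.mem_span_singleton]
    refine ⟨-((l : F) * c2)⁻¹ * c1, ?_⟩
    have hlc : (l : F) * c2 ≠ 0 := mul_ne_zero hl0' hc2
    have h4 : ((l : F) * c2) • emb P z' = -(c1 • emb P y') := by
      rw [eq_neg_iff_add_eq_zero, add_comm]; exact h3
    have h5 : emb P z' = ((l : F) * c2)⁻¹ • (((l : F) * c2) • emb P z') := by
      rw [smul_smul, inv_mul_cancel₀ hlc, one_smul]
    rw [h5, h4]; module
  obtain ⟨p, q, hp, hq⟩ := emb_ratio P hdep hy'0 hc3 h3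
  refine ⟨c3, p • y' + (q / l) • z', ?_⟩
  have hq' : ((q / l : F₀) : F) = c2 / c3 := by
    push_cast
    rw [hq]
    field_simp
  rw [hrw, emb_add, emb_smul, emb_smul, hq', hp, smul_add, smul_smul, smul_smul, mul_div_cancel₀ _ hc3,
    mul_div_cancel₀ _ hc3]

end SubF

end Cfsg.Agent.H12
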