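import Mathlib
import Cfsg.Prelude.Def_GeometricClasses
import Cfsg.Agent.H12.SubForm4

/-!
Subfield groups: the case where all scalars occur, and the main dichotomy.
-/

set_option autoImplicit false
set_option linter.unusedSectionVars false

open scoped MatrixGroups Matrix

namespace Cfsg.Agent.H12

variable {ι : Type} [Fintype ι] [DecidableEq ι] {F : Type*} [Field F]

lemma rtv_smul {σ : F ≃+* F} {ε : F} {f : (ι → F) → (ι → F) → F} (h : ReflForm σ ε f) {w : ι → F} (hw : f w w = 0)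
    (c l : F) : utv f (c • w) l = utv f w (l * (c * σ c)) := by
  rw [← rs_zero_vec h (by rw [h.smul_left, h.smul_right, hw, mul_zero, mul_zero]), rs_smul_left h hw (h.zero_left w),
    smul_zero, rs_zero_vec h hw]

namespace SubF

variable {σ : F ≃+* F} {ε : F} {f : (ι → F) → (ι → F) → F} {F₀ : Subfield F} {P : GL ι F}
    {σ₀ : F₀ ≃+* F₀} {ε₀ : F₀} {b : (ι → F₀) → (ι → F₀) → F₀} {ζ : F} {t₀ : F₀} {M : Subgroup (GL ι F)}

lemma radical (S : SubF σ ε f F₀ P σ₀ ε₀ b ζ t₀ M) (hC : ∀ s, s ∈ S.Csub)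
    (hTV : ∀ a, b a a = 0 → ∀ l, σ l + ε * l = 0 → utv f (emb P a) l ∈ M) {a : ι → F₀} (ha : b a a = 0) (ha0 : a ≠ 0)
    {y : ι → F} (hya : f y (emb P a) = 0) {l : F} (hl : σ l + ε * l + f y y = 0) : rs ε f (emb P a) y l ∈ M := by
  have h := S.h
  have h₀ := S.h₀
  have he := h.eps
  have faa := S.fE0 ha
  let Y : (ι → F) → Prop := fun y => f y (emb P a) = 0 ∧ ∃ l, σ l + ε * l + f y y = 0 ∧ rs ε f (emb P a) y l ∈ M
  have hYadd : ∀ y y', Y y → Y y' → Y (y + y') := by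
    rintro y y' ⟨h1, l, hl, hM⟩ ⟨h1', l', hl', hM'⟩
    refine ⟨by rw [h.add_left, h1, h1', add_zero], l + l' - ε * f y' y, ?_, ?_⟩
    · rw [map_sub, map_add, map_mul, h.seps, herm_rev h, h.add_left, h.add_right, h.add_right]
      linear_combination hl + hl' - (f y y' + f y' y) * he
    · rw [← rs_mul h faa h1 h1']; exact mul_mem hM hM'
  have hYiso : ∀ x : ι → F₀, b x x = 0 → b x a = 0 → ∀ c : F, Y (c • emb P x) := by
    intro x hx hxa c
    refine ⟨by rw [h.smul_left, S.fE0 hxa, mul_zero], 0, by rw [h.smul_left, h.smul_right, S.fE0 hx]; simp, ?_⟩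
    by_cases hxs : x ∈ Submodule.span F₀ {a}
    · obtain ⟨r, rfl⟩ := Submodule.mem_span_singleton.mp hxs
      have h1 : rs ε f (emb P a) (c • emb P (r • a)) 0 = utv f (emb P a) (c * r - ε * σ (c * r)) := by
        apply gl_ext
        intro z
        rw [rs_mulVec h faa (by rw [h.smul_left, S.fE0 hxa, mul_zero]), rtv_mulVec h faa, emb_smul, h.smul_right,
          h.smul_right, map_mul]
        module
      rw [h1]
      apply hTV a ha
      simp only [map_sub, map_mul, h.seps, h.inv]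
      linear_combination -(σ c * σ (r : F)) * he
    · have h1 := (S.mem_Csub.mp (hC (c / ζ))) a x ha hx hxa ha0 hxs
      rwa [div_mul_cancel₀ _ S.hζ0] at h1
  have hYrat : ∀ x : ι → F₀, b x a = 0 → ∀ c : F, Y (c • emb P x) := by
    intro x hx c
    obtain ⟨y, z, hy, hz, hyy, hzz, hyz⟩ := S.P3 {a} (by simp) x (by simpa using hx)
    rw [hyz, emb_add, smul_add]
    exact hYadd _ _ (hYiso y hyy (hy a (by simp)) c) (hYiso z hzz (hz a (by simp)) c)
  have hY : Y y := by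
    obtain ⟨e', he'⟩ := h₀.nondeg a ha0
    obtain ⟨c, hc⟩ := exists_emb_comb (F₀ := F₀) P y
    have h1 : y = ∑ j, c j • emb P (Pi.single j (1 : F₀) - (b (Pi.single j (1 : F₀)) a / b e' a) • e') +
        (∑ j, c j * ((b (Pi.single j (1 : F₀)) a / b e' a : F₀) : F)) • emb P e' := by
      rw [Finset.sum_smul, ← Finset.sum_add_distrib]
      nth_rewrite 1 [hc]
      apply Finset.sum_congr rfl
      intro j _
      rw [emb_sub, emb_smul]; module
    have h3 : ∀ j, b (Pi.single j (1 : F₀) - (b (Pi.single j (1 : F₀)) a / b e' a) • e') a = 0 := by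
      intro j
      rw [h₀.sub_left, h₀.smul_left, div_mul_cancel₀ _ he', sub_self]
    have h4 : ∑ j, c j * ((b (Pi.single j (1 : F₀)) a / b e' a : F₀) : F) = 0 := by
      rw [h1, h.add_left, h.smul_left, h.sum_left, Finset.sum_eq_zero, zero_add] at hya
      · exact (mul_eq_zero.mp hya).resolve_right (fun h' => he' (S.bE0 h'))
      · intro j _
        rw [h.smul_left, S.fE0 (h3 j), mul_zero]
    rw [h4, zero_smul, add_zero] at h1
    rw [h1]
    have h5 : ∀ s : Finset ι, Y (∑ j ∈ s, c j • emb P (Pi.single j (1 : F₀) - (b (Pi.single j (1 : F₀)) a / b e' a) • e')) := by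
      intro s
      induction s using Finset.induction_on with
      | empty =>
        rw [Finset.sum_empty]
        exact ⟨h.zero_left _, 0, by rw [map_zero, h.zero_left]; ring, by rw [rs_zero h faa]; exact one_mem M⟩
      | insert i s hi ih => rw [Finset.sum_insert hi]; exact hYadd _ _ (hYrat _ (h3 i) _) ih
    exact h5 Finset.univ
  obtain ⟨-, l', hl', hM⟩ := hY
  have h1 : rs ε f (emb P a) y l = rs ε f (emb P a) y l' * utv f (emb P a) (l - l') := by
    rw [← rs_zero_vec h faa, rs_mul h faa hya (h.zero_left _), add_zero, h.zero_left]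
    congr 1; ring
  rw [h1]
  apply mul_mem hM
  apply hTV a ha
  rw [map_sub]
  linear_combination hl - hl'

lemma radical_trans (S : SubF σ ε f F₀ P σ₀ ε₀ b ζ t₀ M) (hC : ∀ s, s ∈ S.Csub)
    (hTV : ∀ a, b a a = 0 → ∀ l, σ l + ε * l = 0 → utv f (emb P a) l ∈ M) {a : ι → F₀} (ha : b a a = 0) (ha0 : a ≠ 0)
    {v v' : ι → F} (hv : f v v = 0) (hv' : f v' v' = 0) (hne : f v (emb P a) ≠ 0)
    (heq : f v' (emb P a) = f v (emb P a)) : ∃ g ∈ M, ((g : GL ι F) : Matrix ι ι F) *ᵥ v = v' := by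
  have h := S.h
  have he := h.eps
  set κ := f v (emb P a) with hκ
  have hσκ : σ κ ≠ 0 := (map_ne_zero σ).mpr hne
  set y := κ⁻¹ • (v' - v) with hy
  have hya : f y (emb P a) = 0 := by rw [hy, h.smul_left, h.sub_left, heq, ← hκ, sub_self, mul_zero]
  have hvy : f v y = (σ κ)⁻¹ * f v v' := by
    rw [hy, h.smul_right, h.sub_right, hv, sub_zero, map_inv₀]
  have hyy : f y y = κ⁻¹ * (σ κ)⁻¹ * (-(f v v') - f v' v) := by
    rw [hy, h.smul_left, h.smul_right, h.sub_left, h.sub_right, h.sub_right, hv, hv', map_inv₀]; ring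
  set l := ε * f v y / κ with hl
  have hcond : σ l + ε * l + f y y = 0 := by
    rw [hl, map_div₀, map_mul, h.seps, hvy, map_mul, map_inv₀, h.inv, hyy, herm_rev h v v']
    field_simp
    linear_combination (f v v' + f v' v) * he
  refine ⟨rs ε f (emb P a) y l, S.radical hC hTV ha ha0 hya hcond, ?_⟩
  rw [rs_mulVec h (S.fE0 ha) hya, ← hκ, hl, div_mul_cancel₀ _ hne, sub_self, zero_smul, add_zero, hy, smul_smul,
    mul_inv_cancel₀ hne, one_smul]
  abel

lemma eq_zero_of_orth (S : SubF σ ε f F₀ P σ₀ ε₀ b ζ t₀ M) {v : ι → F}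
    (hv : ∀ a : ι → F₀, b a a = 0 → f v (emb P a) = 0) : v = 0 := by
  have h := S.h
  by_contra hne
  obtain ⟨y, hy⟩ := h.nondeg _ hne
  apply hy
  obtain ⟨c, hc⟩ := exists_emb_comb (F₀ := F₀) P y
  rw [hc, h.sum_left]
  apply Finset.sum_eq_zero
  intro j _
  obtain ⟨y, z, -, -, hyy, hzz, hyz⟩ := S.P3 ∅ (by simp) (Pi.single j (1 : F₀)) (by simp)
  rw [h.smul_left, hyz, emb_add, h.add_left, h.symm_zero.mp (hv y hyy), h.symm_zero.mp (hv z hzz)]
  ring

theorem top_case (S : SubF σ ε f F₀ P σ₀ ε₀ b ζ t₀ M) (hC : ∀ s, s ∈ S.Csub)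
    (hTV : ∀ a, b a a = 0 → ∀ l, σ l + ε * l = 0 → utv f (emb P a) l ∈ M) :
    ∀ v, f v v = 0 → ∀ l, σ l + ε * l = 0 → utv f v l ∈ M := by
  intro v hv l hl
  have h := S.h
  by_cases hv0 : v = 0
  · have : utv f v l = 1 := by
      apply gl_ext
      intro x
      rw [rtv_mulVec h hv, hv0]; simp
    rw [this]; exact one_mem M
  obtain ⟨a, ha, hva⟩ : ∃ a : ι → F₀, b a a = 0 ∧ f v (emb P a) ≠ 0 := by
    by_contra hcon
    push Not at hcon
    exact hv0 (S.eq_zero_of_orth hcon)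
  have ha0 : a ≠ 0 := by rintro rfl; rw [emb_zero, h.zero_right] at hva; exact hva rfl
  obtain ⟨u, -, huu, hua⟩ := S.P2 ∅ (by simp) a (by simpa using ha0)
  have hua' : f (emb P u) (emb P a) ≠ 0 := fun h' => hua (S.bE0 h')
  set c := f v (emb P a) / f (emb P u) (emb P a) with hc
  obtain ⟨g, hg, hgv⟩ := S.radical_trans hC hTV ha ha0 hv (v' := c • emb P u)
    (by rw [h.smul_left, h.smul_right, S.fE0 huu]; ring) hva (by rw [h.smul_left, hc, div_mul_cancel₀ _ hua'])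
  have h1 := conj_rtv h (S.hiso g hg) l hv
  rw [hgv, rtv_smul h (S.fE0 huu)] at h1
  have h3 : utv f v l = g⁻¹ * utv f (emb P u) (l * (c * σ c)) * g := by rw [← h1]; group
  rw [h3]
  refine mul_mem (mul_mem (inv_mem hg) (hTV u huu _ ?_)) hg
  rw [map_mul, map_mul, h.inv]
  linear_combination (c * σ c) * hl

/-- data for the odd case -/
structure OddData (S : SubF σ ε f F₀ P σ₀ ε₀ b ζ t₀ M) : Prop where
  two : (2 : F) ≠ 0
  data : ∃ i1 i2 : GL ι F₀, GoodI b i1 ∧ GoodI b i2 ∧ rho P i1 ∈ M ∧ rho P i2 ∈ M ∧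
    (∃ s : Finset (ι → F), s.card ≤ 4 ∧ ∀ x ∈ S.h.perp s, ((rho P i1 : GL ι F) : Matrix ι ι F) *ᵥ x = x) ∧
    (∃ s : Finset (ι → F), s.card ≤ 2 ∧ ∀ x ∈ S.h.perp s, ((rho P i2 : GL ι F) : Matrix ι ι F) *ᵥ x = x) ∧
    (∀ x : GL ι F, x * rho P i1 * x⁻¹ ≠ rho P i2)
  good : ∀ z₀ : GL ι F₀, z₀ * z₀ = 1 → rho P z₀ ∈ M → z₀ ≠ 1 → (∃ u v : ι → F₀, (z₀ : Matrix ι ι F₀) *ᵥ u = u ∧
      (z₀ : Matrix ι ι F₀) *ᵥ v = v ∧ u ≠ 0 ∧ v ∉ Submodule.span F₀ {u}) → GoodI b z₀

theorem main [Finite F] (S : SubF σ ε f F₀ P σ₀ ε₀ b ζ t₀ M) (hfin : (Module.finrank F₀ F).Prime)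
    (hTV : (∀ s, s ∈ S.Csub) → ∀ a, b a a = 0 → ∀ l, σ l + ε * l = 0 → utv f (emb P a) l ∈ M)
    (hcase : (∀ w, f w w = 0 → NF f P b w) ∨ ((∀ c : F, c * c ∈ F₀ → c ∈ F₀) ∧ ((2 : F) = 0 ∨ S.OddData))) :
    M ≤ Geo.subfieldSubgroup F₀ P ∨ ∀ v, f v v = 0 → ∀ l, σ l + ε * l = 0 → utv f v l ∈ M := by
  have := Subalgebra.isSimpleOrder_of_finrank_prime F₀ F hfin
  rcases eq_bot_or_eq_top S.Csub with hbot | htop
  · left
    have hC : ∀ s ∈ S.Csub, s ∈ F₀ := by
      intro s hs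
      rw [hbot, Algebra.mem_bot] at hs
      obtain ⟨r, rfl⟩ := hs
      exact SetLike.coe_mem r
    have hyp := S.hyp_of_trivial hC
    have hR : ∀ g ∈ M, ∀ v : ι → F₀, b v v = 0 → Rat F₀ P ((g : Matrix ι ι F) *ᵥ emb P v) := by
      rcases hcase with hall | ⟨hsq, h2 | hodd⟩
      · intro g hg v hv
        exact hyp g hg v hv (hall _ (by rw [S.hiso g hg]; exact S.fE0 hv))
      · exact S.even_core hyp hsq h2
      · obtain ⟨i1, i2, G1, G2, h1M, h2M, f1, f2, htr⟩ := hodd.data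
        exact S.odd_core hyp hsq hodd.two G1 G2 h1M h2M hodd.good f1 f2 htr
    intro g hg
    exact S.le_subfield_of_rat (hR g hg)
  · right
    have hC : ∀ s, s ∈ S.Csub := by intro s; rw [htop]; trivial
    exact S.top_case hC (hTV hC)

end SubF

end Cfsg.Agent.H12
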