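import Mathlib
import Cfsg.Prelude.Def_GeometricClasses
import Cfsg.Agent.H12.SubForm5

/-!
Subfield groups: the data for the odd case (involutions inverting hyperbolic planes), Siegel elements over the
subfield, and a fact on square roots in extensions of odd degree.
-/

set_option autoImplicit false
set_option linter.unusedSectionVars false

open scoped MatrixGroups Matrix

namespace Cfsg.Agent.H12

variable {ι : Type} [Fintype ι] [DecidableEq ι]

section involution

variable {K : Type*} [Field K] {σ₀ : K ≃+* K} {ε₀ : K} {b : (ι → K) → (ι → K) → K}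

open Classical in
/-- the involution inverting the hyperbolic plane spanned by `e`, `d` (junk value 1) -/
noncomputable def rinv (ε₀ : K) (b : (ι → K) → (ι → K) → K) (e d : ι → K) : GL ι K :=
  if h : (tvm e ((-2 : K) • gvec b d) * tvm d ((-2 * ε₀) • gvec b e)).det ≠ 0 then
    Matrix.GeneralLinearGroup.mkOfDetNeZero _ h else 1

lemma det_rinv_aux (h : ReflForm σ₀ ε₀ b) {e d : ι → K} (hed : b e d = 1) :
    (tvm e ((-2 : K) • gvec b d) * tvm d ((-2 * ε₀) • gvec b e)).det = 1 := by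
  have hde : b d e = ε₀ := by rw [h.herm, hed, map_one, mul_one]
  rw [Matrix.det_mul, det_tvm, det_tvm, smul_dotProduct, smul_dotProduct, h.gvec_dot, h.gvec_dot, hed, hde,
    smul_eq_mul, smul_eq_mul]
  linear_combination 2 * h.eps

lemma det_rinv (h : ReflForm σ₀ ε₀ b) {e d : ι → K} (hed : b e d = 1) :
    ((rinv ε₀ b e d : GL ι K) : Matrix ι ι K).det = 1 := by
  have h1 : (tvm e ((-2 : K) • gvec b d) * tvm d ((-2 * ε₀) • gvec b e)).det ≠ 0 := by
    rw [det_rinv_aux h hed]; exact one_ne_zero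
  rw [rinv, dif_pos h1]
  exact det_rinv_aux h hed

lemma rinv_mulVec (h : ReflForm σ₀ ε₀ b) {e d : ι → K} (hd : b d d = 0) (hed : b e d = 1) (x : ι → K) :
    ((rinv ε₀ b e d : GL ι K) : Matrix ι ι K) *ᵥ x = x + ((-2 * b x d) • e + (-2 * ε₀ * b x e) • d) := by
  have h1 : (tvm e ((-2 : K) • gvec b d) * tvm d ((-2 * ε₀) • gvec b e)).det ≠ 0 := by
    rw [det_rinv_aux h hed]; exact one_ne_zero
  rw [rinv, dif_pos h1]
  change (tvm e ((-2 : K) • gvec b d) * tvm d ((-2 * ε₀) • gvec b e)) *ᵥ x = _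
  rw [← Matrix.mulVec_mulVec, tvm_mulVec, tvm_mulVec, smul_dotProduct, smul_dotProduct, h.gvec_dot, h.gvec_dot,
    h.add_left, h.smul_left, hd, smul_eq_mul, smul_eq_mul]
  module

lemma rinv_isom (h : ReflForm σ₀ ε₀ b) {e d : ι → K} (he : b e e = 0) (hd : b d d = 0) (hed : b e d = 1) :
    IsIsom b (rinv ε₀ b e d) := by
  have hde : b d e = ε₀ := by rw [h.herm, hed, map_one, mul_one]
  have hee := h.eps
  intro x y
  rw [rinv_mulVec h hd hed, rinv_mulVec h hd hed]
  simp only [h.add_left, h.add_right, h.smul_left, h.smul_right, he, hd, hed, hde, map_mul, map_neg, map_ofNat, h.seps]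
  rw [h.herm e y, h.herm d y]
  linear_combination (2 * b x e * σ₀ (b y d)) * hee

lemma mat_eq_of_mulVec {A : Matrix ι ι K} {κ : Type*} (s : Finset κ) (v φ : κ → ι → K)
    (hA : ∀ x, A *ᵥ x = x + ∑ k ∈ s, (φ k ⬝ᵥ x) • v k) :
    A.trace = Fintype.card ι + ∑ k ∈ s, φ k ⬝ᵥ v k := by
  have h1 : A = 1 + ∑ k ∈ s, Matrix.vecMulVec (v k) (φ k) := by
    apply Matrix.toLin'.injective
    apply LinearMap.ext
    intro x
    rw [Matrix.toLin'_apply, Matrix.toLin'_apply, hA, Matrix.add_mulVec, Matrix.one_mulVec, Matrix.sum_mulVec]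
    congr 1
    apply Finset.sum_congr rfl
    intro k _
    have h3 := tvm_mulVec (v k) (φ k) x
    rw [tvm, Matrix.add_mulVec, Matrix.one_mulVec] at h3
    exact (add_left_cancel h3).symm
  rw [h1, Matrix.trace_add, Matrix.trace_one, Matrix.trace_sum]
  congr 1
  apply Finset.sum_congr rfl
  intro k _
  rw [Matrix.trace, dotProduct]
  apply Finset.sum_congr rfl
  intro j _
  rw [Matrix.diag_apply, Matrix.vecMulVec_apply, mul_comm]

end involution

variable {F : Type*} [Field F]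

lemma rho_trace {F₀ : Subfield F} (P : GL ι F) (g : GL ι F₀) :
    ((rho P g : GL ι F) : Matrix ι ι F).trace = (((g : Matrix ι ι F₀).trace : F₀) : F) := by
  have h1 : ((rho P g : GL ι F) : Matrix ι ι F) =
      (P : Matrix ι ι F) * ((g : Matrix ι ι F₀).map (F₀.subtype)) * ((P⁻¹ : GL ι F) : Matrix ι ι F) := rfl
  rw [h1, Matrix.trace_mul_comm, ← mul_assoc, ← Units.val_mul, inv_mul_cancel, Units.val_one, one_mul]
  simp only [Matrix.trace, Matrix.diag_apply, Matrix.map_apply]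
  push_cast
  rfl

lemma conj_trace {x g : GL ι F} : ((x * g * x⁻¹ : GL ι F) : Matrix ι ι F).trace = (g : Matrix ι ι F).trace := by
  rw [Units.val_mul, Matrix.trace_mul_comm, Units.val_mul, ← mul_assoc, ← Units.val_mul, inv_mul_cancel,
    Units.val_one, one_mul]

lemma rho_rs {σ : F ≃+* F} {ε : F} {f : (ι → F) → (ι → F) → F} {F₀ : Subfield F} {P : GL ι F}
    {σ₀ : F₀ ≃+* F₀} {ε₀ : F₀} {b : (ι → F₀) → (ι → F₀) → F₀} {ζ : F} (h : ReflForm σ ε f) (h₀ : ReflForm σ₀ ε₀ b)
    (hε : (ε₀ : F) = ε) (hζσ : σ ζ = ζ) (hζ0 : ζ ≠ 0)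
    (hb : ∀ u v, ((b u v : F₀) : F) = ζ * f (emb P u) (emb P v)) {w v : ι → F₀} (hw : b w w = 0) (hvw : b v w = 0)
    (l : F₀) : rho P (rs ε₀ b w v l) = rs ε f (emb P w) (ζ • emb P v) (ζ * l) := by
  have fE0 : ∀ {u v : ι → F₀}, b u v = 0 → f (emb P u) (emb P v) = 0 := by
    intro u v huv
    have h1 := hb u v
    rw [huv] at h1
    exact (mul_eq_zero.mp h1.symm).resolve_left hζ0
  apply gl_ext_emb (F₀ := F₀) P
  intro u
  rw [rho_mulVec_emb, rs_mulVec h₀ hw hvw, rs_mulVec h (fE0 hw) (by rw [h.smul_left, fE0 hvw, mul_zero]), emb_add,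
    emb_add, emb_smul, emb_smul, h.smul_right, hζσ]
  push_cast
  rw [hb, hb, hε]
  module

lemma rho_rinv {σ : F ≃+* F} {ε : F} {f : (ι → F) → (ι → F) → F} {F₀ : Subfield F} {P : GL ι F}
    {σ₀ : F₀ ≃+* F₀} {ε₀ : F₀} {b : (ι → F₀) → (ι → F₀) → F₀} {ζ : F} (h : ReflForm σ ε f) (h₀ : ReflForm σ₀ ε₀ b)
    (hε : (ε₀ : F) = ε) (hζσ : σ ζ = ζ) (hζ0 : ζ ≠ 0)
    (hb : ∀ u v, ((b u v : F₀) : F) = ζ * f (emb P u) (emb P v)) {e d : ι → F₀} (hd : b d d = 0) (hed : b e d = 1)
    (x : ι → F) : ((rho P (rinv ε₀ b e d) : GL ι F) : Matrix ι ι F) *ᵥ x =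
      x + ((-2 * ζ * f x (emb P d)) • emb P e + (-2 * ε * ζ * f x (emb P e)) • emb P d) := by
  have h1 : f (ζ • emb P d) (ζ • emb P d) = 0 := by
    have h3 := hb d d
    rw [hd] at h3
    rw [h.smul_left, h.smul_right, (mul_eq_zero.mp h3.symm).resolve_left hζ0]; ring
  have h3 : f (emb P e) (ζ • emb P d) = 1 := by
    have h4 := hb e d
    rw [hed] at h4
    rw [h.smul_right, hζσ, ← h4]; rfl
  have h5 : rho P (rinv ε₀ b e d) = rinv ε f (emb P e) (ζ • emb P d) := by
    apply gl_ext_emb (F₀ := F₀) P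
    intro u
    rw [rho_mulVec_emb, rinv_mulVec h₀ hd hed, rinv_mulVec h h1 h3, emb_add, emb_add, emb_smul, emb_smul,
      h.smul_right, hζσ]
    have c2 : ((2 : F₀) : F) = 2 := rfl
    push_cast
    rw [hb, hb, hε, c2]
    module
  rw [h5, rinv_mulVec h h1 h3, h.smul_right, hζσ]
  module

namespace SubF

variable {σ : F ≃+* F} {ε : F} {f : (ι → F) → (ι → F) → F} {F₀ : Subfield F} {P : GL ι F}
    {σ₀ : F₀ ≃+* F₀} {ε₀ : F₀} {b : (ι → F₀) → (ι → F₀) → F₀} {ζ : F} {t₀ : F₀} {M : Subgroup (GL ι F)}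

lemma exists_hyp_pair (S : SubF σ ε f F₀ P σ₀ ε₀ b ζ t₀ M) (s : Finset (ι → F₀)) (hs : s.card ≤ 4) :
    ∃ e d : ι → F₀, (∀ u ∈ s, b e u = 0) ∧ (∀ u ∈ s, b d u = 0) ∧ b e e = 0 ∧ b d d = 0 ∧ b e d = 1 := by
  have h₀ := S.h₀
  obtain ⟨e, he, hee, hes⟩ := S.P1 s hs
  obtain ⟨d, hd, hdd, hde⟩ := S.P2 s hs e hes
  have hed : b e d ≠ 0 := fun h' => hde (h₀.symm_zero.mp h')
  refine ⟨(b e d)⁻¹ • e, d, fun u hu => by rw [h₀.smul_left, he u hu, mul_zero], hd, ?_, hdd, ?_⟩
  · rw [h₀.smul_left, h₀.smul_right, hee]; ring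
  · rw [h₀.smul_left, inv_mul_cancel₀ hed]

theorem oddData (S : SubF σ ε f F₀ P σ₀ ε₀ b ζ t₀ M) (h2 : (2 : F) ≠ 0)
    (hrho : ∀ g₀ : GL ι F₀, IsIsom b g₀ → ((g₀ : Matrix ι ι F₀)).det = 1 → rho P g₀ ∈ M)
    (hgood : ∀ z₀ : GL ι F₀, z₀ * z₀ = 1 → rho P z₀ ∈ M → z₀ ≠ 1 → (∃ u v : ι → F₀, (z₀ : Matrix ι ι F₀) *ᵥ u = u ∧
      (z₀ : Matrix ι ι F₀) *ᵥ v = v ∧ u ≠ 0 ∧ v ∉ Submodule.span F₀ {u}) → GoodI b z₀) : S.OddData := by
  classical
  have h₀ := S.h₀
  have he₀ := h₀.eps
  have h20 := two_ne (F₀ := F₀) h2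
  obtain ⟨e1, d1, -, -, he1, hd1, hed1⟩ := S.exists_hyp_pair ∅ (by simp)
  obtain ⟨e2, d2, he2, hd2, he2e, hd2d, hed2⟩ := S.exists_hyp_pair {e1, d1} (by
    have := Finset.card_le_two (a := e1) (b := d1); omega)
  have a1 : b e2 e1 = 0 := he2 e1 (by simp)
  have a2 : b e2 d1 = 0 := he2 d1 (by simp)
  have a3 : b d2 e1 = 0 := hd2 e1 (by simp)
  have a4 : b d2 d1 = 0 := hd2 d1 (by simp)
  have a1' : b e1 e2 = 0 := h₀.symm_zero.mp a1
  have a2' : b d1 e2 = 0 := h₀.symm_zero.mp a2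
  have a3' : b e1 d2 = 0 := h₀.symm_zero.mp a3
  have a4' : b d1 d2 = 0 := h₀.symm_zero.mp a4
  have hde1 : b d1 e1 = ε₀ := by rw [h₀.herm, hed1, map_one, mul_one]
  have hde2 : b d2 e2 = ε₀ := by rw [h₀.herm, hed2, map_one, mul_one]
  have he10 : e1 ≠ 0 := by rintro rfl; rw [h₀.zero_left] at hed1; exact zero_ne_one hed1
  set i2 := rinv ε₀ b e1 d1 with hi2
  set i1 := rinv ε₀ b e1 d1 * rinv ε₀ b e2 d2 with hi1
  have m2 : ∀ x, (i2 : Matrix ι ι F₀) *ᵥ x = x + ((-2 * b x d1) • e1 + (-2 * ε₀ * b x e1) • d1) :=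
    rinv_mulVec h₀ hd1 hed1
  have m1 : ∀ x, (i1 : Matrix ι ι F₀) *ᵥ x = x + ((-2 * b x d1) • e1 + (-2 * ε₀ * b x e1) • d1) +
      ((-2 * b x d2) • e2 + (-2 * ε₀ * b x e2) • d2) := by
    intro x
    rw [hi1, gl_mul_mulVec, rinv_mulVec h₀ hd1 hed1, rinv_mulVec h₀ hd2d hed2]
    simp only [h₀.add_left, h₀.smul_left, a1, a2, a3, a4, mul_zero, add_zero]
    module
  have s2 : i2 * i2 = 1 := by
    apply gl_ext
    intro x
    rw [gl_mul_mulVec i2 i2 x, m2, m2]
    simp only [h₀.add_left, h₀.smul_left, he1, hd1, hed1, hde1, Units.val_one, Matrix.one_mulVec]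
    have q1 : -2 * (b x d1 + (-2 * b x d1 * 1 + -2 * ε₀ * b x e1 * 0)) = 2 * b x d1 := by ring
    have q2 : -2 * ε₀ * (b x e1 + (-2 * b x d1 * 0 + -2 * ε₀ * b x e1 * ε₀)) = 2 * ε₀ * b x e1 := by
      linear_combination (4 * b x e1 * ε₀) * he₀
    rw [q1, q2]; module
  have s1 : i1 * i1 = 1 := by
    apply gl_ext
    intro x
    rw [gl_mul_mulVec i1 i1 x, m1, m1]
    simp only [h₀.add_left, h₀.smul_left, he1, hd1, hed1, hde1, he2e, hd2d, hed2, hde2, a1, a2, a3, a4, a1', a2', a3', a4',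
      Units.val_one, Matrix.one_mulVec]
    have q1 : -2 * (b x d1 + (-2 * b x d1 * 1 + -2 * ε₀ * b x e1 * 0) + (-2 * b x d2 * 0 + -2 * ε₀ * b x e2 * 0)) =
        2 * b x d1 := by ring
    have q2 : -2 * ε₀ * (b x e1 + (-2 * b x d1 * 0 + -2 * ε₀ * b x e1 * ε₀) + (-2 * b x d2 * 0 + -2 * ε₀ * b x e2 * 0)) =
        2 * ε₀ * b x e1 := by
      linear_combination (4 * b x e1 * ε₀) * he₀
    have q3 : -2 * (b x d2 + (-2 * b x d1 * 0 + -2 * ε₀ * b x e1 * 0) + (-2 * b x d2 * 1 + -2 * ε₀ * b x e2 * 0)) =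
        2 * b x d2 := by ring
    have q4 : -2 * ε₀ * (b x e2 + (-2 * b x d1 * 0 + -2 * ε₀ * b x e1 * 0) + (-2 * b x d2 * 0 + -2 * ε₀ * b x e2 * ε₀)) =
        2 * ε₀ * b x e2 := by
      linear_combination (4 * b x e2 * ε₀) * he₀
    rw [q1, q2, q3, q4]; module
  have hi1s : IsIsom b i1 := by
    intro x y
    rw [hi1, gl_mul_mulVec, gl_mul_mulVec, rinv_isom h₀ he1 hd1 hed1, rinv_isom h₀ he2e hd2d hed2]
  have hM2 : rho P i2 ∈ M := hrho i2 (rinv_isom h₀ he1 hd1 hed1) (det_rinv h₀ hed1)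
  have hM1 : rho P i1 ∈ M := hrho i1 hi1s (by
    rw [hi1, Units.val_mul, Matrix.det_mul, det_rinv h₀ hed1, det_rinv h₀ hed2, one_mul])
  have G2 : GoodI b i2 := by
    refine ⟨s2, ?_, ?_⟩
    · rintro s (rfl | rfl)
      · obtain ⟨u, hu, huu, hus⟩ := S.P1 {e1, d1} (by
          have := Finset.card_le_two (a := e1) (b := d1); omega)
        refine ⟨u, by rintro rfl; exact hus (Submodule.zero_mem _), huu, ?_⟩
        rw [m2, hu e1 (by simp), hu d1 (by simp)]; simp
      · refine ⟨e1, he10, he1, ?_⟩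
        rw [m2, hed1, he1]; module
    · rintro s (rfl | rfl) x hx
      · rw [m2, one_smul] at hx
        have hx' := add_eq_left.mp hx
        have t1 : b x d1 = 0 := by
          have h3 := congrArg (fun y => b y d1) hx'
          simp only [h₀.add_left, h₀.smul_left, hed1, hd1, h₀.zero_left] at h3
          have h4 : (2 : F₀) * b x d1 = 0 := by linear_combination -h3
          exact (mul_eq_zero.mp h4).resolve_left h20
        have t2 : b x e1 = 0 := by
          have h3 := congrArg (fun y => b y e1) hx'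
          simp only [h₀.add_left, h₀.smul_left, hde1, he1, h₀.zero_left] at h3
          have h4 : (2 : F₀) * b x e1 = 0 := by linear_combination -h3 - 2 * b x e1 * he₀
          exact (mul_eq_zero.mp h4).resolve_left h20
        obtain ⟨y, z, hy, hz, hyy, hzz, hyz⟩ := S.P3 {e1, d1} (by
          have := Finset.card_le_two (a := e1) (b := d1); omega) x (by
          intro u hu
          rcases Finset.mem_insert.mp hu with rfl | hu
          · exact t2
          · rw [Finset.mem_singleton.mp hu]; exact t1)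
        refine ⟨y, z, hyy, hzz, ?_, ?_, hyz⟩
        · rw [m2, hy e1 (by simp), hy d1 (by simp)]; simp
        · rw [m2, hz e1 (by simp), hz d1 (by simp)]; simp
      · refine ⟨b x d1 • e1, (ε₀ * b x e1) • d1, ?_, ?_, ?_, ?_, ?_⟩
        · rw [h₀.smul_left, h₀.smul_right, he1]; ring
        · rw [h₀.smul_left, h₀.smul_right, hd1]; ring
        · rw [Matrix.mulVec_smul, m2, hed1, he1]; module
        · rw [Matrix.mulVec_smul, m2, hde1, hd1]
          have : (-2 * 0 : F₀) • e1 + (-2 * ε₀ * ε₀) • d1 = (-2 : F₀) • d1 := by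
            rw [mul_zero, zero_smul, zero_add, mul_assoc, he₀, mul_one]
          rw [this]; module
        · rw [m2] at hx
          have h3 : (2 : F₀) • x = (2 : F₀) • (b x d1 • e1 + (ε₀ * b x e1) • d1) := by
            have h4 : x + x = -((-2 * b x d1) • e1 + (-2 * ε₀ * b x e1) • d1) := by
              rw [neg_smul, one_smul] at hx
              have h5 : x + ((-2 * b x d1) • e1 + (-2 * ε₀ * b x e1) • d1) + x = 0 := by rw [hx]; abel
              rw [eq_neg_iff_add_eq_zero, ← h5]; abel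
            rw [two_smul, h4]; module
          have h5 := congrArg (fun y => (2 : F₀)⁻¹ • y) h3
          simpa only [smul_smul, inv_mul_cancel₀ h20, one_smul] using h5
  have G1 : GoodI b i1 := by
    have c4 : ({e1, d1, e2, d2} : Finset (ι → F₀)).card ≤ 4 := Finset.card_le_four
    refine ⟨s1, ?_, ?_⟩
    · rintro s (rfl | rfl)
      · obtain ⟨u, hu, huu, hus⟩ := S.P1 {e1, d1, e2, d2} c4
        refine ⟨u, by rintro rfl; exact hus (Submodule.zero_mem _), huu, ?_⟩
        rw [m1, hu e1 (by simp), hu d1 (by simp), hu e2 (by simp), hu d2 (by simp)]; simp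
      · refine ⟨e1, he10, he1, ?_⟩
        rw [m1, hed1, he1, a1', a3']; module
    · rintro s (rfl | rfl) x hx
      · rw [m1, one_smul] at hx
        have hx' : ((-2 * b x d1) • e1 + (-2 * ε₀ * b x e1) • d1) +
            ((-2 * b x d2) • e2 + (-2 * ε₀ * b x e2) • d2) = 0 := by
          rw [add_assoc] at hx
          exact add_eq_left.mp hx
        have t1 : b x d1 = 0 := by
          have h3 := congrArg (fun y => b y d1) hx'
          simp only [h₀.add_left, h₀.smul_left, hed1, hd1, h₀.zero_left, a2, a4] at h3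
          have h4 : (2 : F₀) * b x d1 = 0 := by linear_combination -h3
          exact (mul_eq_zero.mp h4).resolve_left h20
        have t2 : b x e1 = 0 := by
          have h3 := congrArg (fun y => b y e1) hx'
          simp only [h₀.add_left, h₀.smul_left, hde1, he1, h₀.zero_left, a1, a3] at h3
          have h4 : (2 : F₀) * b x e1 = 0 := by linear_combination -h3 - 2 * b x e1 * he₀
          exact (mul_eq_zero.mp h4).resolve_left h20
        have t3 : b x d2 = 0 := by
          have h3 := congrArg (fun y => b y d2) hx'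
          simp only [h₀.add_left, h₀.smul_left, hed2, hd2d, h₀.zero_left, a3', a4'] at h3
          have h4 : (2 : F₀) * b x d2 = 0 := by linear_combination -h3
          exact (mul_eq_zero.mp h4).resolve_left h20
        have t4 : b x e2 = 0 := by
          have h3 := congrArg (fun y => b y e2) hx'
          simp only [h₀.add_left, h₀.smul_left, hde2, he2e, h₀.zero_left, a1', a2'] at h3
          have h4 : (2 : F₀) * b x e2 = 0 := by linear_combination -h3 - 2 * b x e2 * he₀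
          exact (mul_eq_zero.mp h4).resolve_left h20
        obtain ⟨y, z, hy, hz, hyy, hzz, hyz⟩ := S.P3 {e1, d1, e2, d2} c4 x (by
          intro u hu
          simp only [Finset.mem_insert, Finset.mem_singleton] at hu
          rcases hu with rfl | rfl | rfl | rfl
          · exact t2
          · exact t1
          · exact t4
          · exact t3)
        refine ⟨y, z, hyy, hzz, ?_, ?_, hyz⟩
        · rw [m1, hy e1 (by simp), hy d1 (by simp), hy e2 (by simp), hy d2 (by simp)]; simp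
        · rw [m1, hz e1 (by simp), hz d1 (by simp), hz e2 (by simp), hz d2 (by simp)]; simp
      · refine ⟨b x d1 • e1 + b x d2 • e2, (ε₀ * b x e1) • d1 + (ε₀ * b x e2) • d2, ?_, ?_, ?_, ?_, ?_⟩
        · simp only [h₀.add_left, h₀.add_right, h₀.smul_left, h₀.smul_right, he1, he2e, a1, a1']; ring
        · simp only [h₀.add_left, h₀.add_right, h₀.smul_left, h₀.smul_right, hd1, hd2d, a4, a4']; ring
        · rw [m1]
          simp only [h₀.add_left, h₀.smul_left, hed1, he1, a1, a2, a1', a3', hed2, he2e]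
          module
        · rw [m1]
          simp only [h₀.add_left, h₀.smul_left, hde1, hd1, a3, a4, a2', a4', hde2, hd2d]
          have q1 : -2 * ε₀ * (ε₀ * b x e1 * ε₀ + ε₀ * b x e2 * 0) = -2 * (ε₀ * b x e1) := by
            linear_combination (-2 * ε₀ * b x e1) * he₀
          have q2 : -2 * ε₀ * (ε₀ * b x e1 * 0 + ε₀ * b x e2 * ε₀) = -2 * (ε₀ * b x e2) := by
            linear_combination (-2 * ε₀ * b x e2) * he₀
          rw [q1, q2]; module
        · rw [m1] at hx
          have h3 : (2 : F₀) • x = (2 : F₀) • (b x d1 • e1 + b x d2 • e2 + ((ε₀ * b x e1) • d1 + (ε₀ * b x e2) • d2)) := by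
            have h4 : x + x = -(((-2 * b x d1) • e1 + (-2 * ε₀ * b x e1) • d1) +
                ((-2 * b x d2) • e2 + (-2 * ε₀ * b x e2) • d2)) := by
              rw [neg_smul, one_smul] at hx
              have h5 : x + ((-2 * b x d1) • e1 + (-2 * ε₀ * b x e1) • d1) +
                ((-2 * b x d2) • e2 + (-2 * ε₀ * b x e2) • d2) + x = 0 := by rw [hx]; abel
              rw [eq_neg_iff_add_eq_zero, ← h5]; abel
            rw [two_smul, h4]; module
          have h5 := congrArg (fun y => (2 : F₀)⁻¹ • y) h3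
          simpa only [smul_smul, inv_mul_cancel₀ h20, one_smul] using h5
  -- rational vectors: the fixed space
  have hr2 := rho_rinv S.h h₀ S.hε S.hζσ S.hζ0 S.hb hd1 hed1
  have hr2' := rho_rinv S.h h₀ S.hε S.hζσ S.hζ0 S.hb hd2d hed2
  have fix2 : ∀ x : ι → F, f x (emb P e1) = 0 → f x (emb P d1) = 0 → ((rho P i2 : GL ι F) : Matrix ι ι F) *ᵥ x = x := by
    intro x hx hx'
    rw [hi2, hr2 x, hx, hx']; simp
  have fix1 : ∀ x : ι → F, f x (emb P e1) = 0 → f x (emb P d1) = 0 → f x (emb P e2) = 0 → f x (emb P d2) = 0 →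
      ((rho P i1 : GL ι F) : Matrix ι ι F) *ᵥ x = x := by
    intro x hx hx' hx2 hx2'
    rw [hi1, map_mul, gl_mul_mulVec, hr2' x, hx2, hx2']
    simp only [mul_zero, zero_smul, add_zero]
    rw [hr2 x, hx, hx']; simp
  have tr2 : (i2 : Matrix ι ι F₀).trace = Fintype.card ι - 4 := by
    rw [mat_eq_of_mulVec (A := (i2 : Matrix ι ι F₀)) Finset.univ ![e1, d1]
      ![(-2 : F₀) • gvec b d1, (-2 * ε₀) • gvec b e1] (by
        intro x
        rw [Fin.sum_univ_two, m2]
        simp only [Matrix.cons_val_zero, Matrix.cons_val_one, smul_dotProduct, h₀.gvec_dot, smul_eq_mul])]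
    rw [Fin.sum_univ_two]
    simp only [Matrix.cons_val_zero, Matrix.cons_val_one, smul_dotProduct, h₀.gvec_dot, smul_eq_mul, hed1, hde1]
    linear_combination (-2) * he₀
  have tr1 : (i1 : Matrix ι ι F₀).trace = Fintype.card ι - 8 := by
    rw [mat_eq_of_mulVec (A := (i1 : Matrix ι ι F₀)) Finset.univ ![e1, d1, e2, d2]
      ![(-2 : F₀) • gvec b d1, (-2 * ε₀) • gvec b e1, (-2 : F₀) • gvec b d2, (-2 * ε₀) • gvec b e2] (by
        intro x
        rw [Fin.sum_univ_four, m1]
        simp only [Matrix.cons_val_zero, Matrix.cons_val_one, Matrix.cons_val, smul_dotProduct, h₀.gvec_dot,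
          smul_eq_mul]
        abel)]
    rw [Fin.sum_univ_four]
    simp only [Matrix.cons_val_zero, Matrix.cons_val_one, Matrix.cons_val, smul_dotProduct, h₀.gvec_dot, smul_eq_mul,
      hed1, hde1, hed2, hde2]
    linear_combination (-4) * he₀
  refine ⟨h2, ⟨i1, i2, G1, G2, hM1, hM2, ?_, ?_, ?_⟩, hgood⟩
  · refine ⟨{emb P e1, emb P d1, emb P e2, emb P d2}, Finset.card_le_four, fun x hx => ?_⟩
    exact fix1 x (hx _ (by simp)) (hx _ (by simp)) (hx _ (by simp)) (hx _ (by simp))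
  · refine ⟨{emb P e1, emb P d1}, Finset.card_le_two, fun x hx => ?_⟩
    exact fix2 x (hx _ (by simp)) (hx _ (by simp))
  · intro x hx
    have h3 : ((x * rho P i1 * x⁻¹ : GL ι F) : Matrix ι ι F).trace = ((rho P i2 : GL ι F) : Matrix ι ι F).trace := by
      rw [hx]
    rw [conj_trace, rho_trace, rho_trace, tr1, tr2] at h3
    have h4 : (4 : F₀) = 0 := by
      have := Subtype.ext h3
      linear_combination -this
    have h5 : (2 : F₀) * 2 = 0 := by linear_combination h4
    rcases mul_eq_zero.mp h5 with h6 | h6 <;> exact h20 h6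

end SubF

end Cfsg.Agent.H12
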