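import Mathlib
import Cfsg.Prelude.Def_GeometricClasses
import Cfsg.Agent.H12.SubForm6

/-!
Counting facts for a subfield `F₀` of a finite field with `|F| = |F₀|^r`.
-/

set_option autoImplicit false
set_option linter.unusedSectionVars false

namespace Cfsg.Agent.H12

variable {F : Type*} [Field F] [Fintype F] {F₀ : Subfield F}

lemma finrank_sub {r : ℕ} (hcard : Fintype.card F = Nat.card F₀ ^ r) : Module.finrank F₀ F = r := by
  haveI : Fintype F₀ := Fintype.ofFinite F₀
  have h1 := Module.card_eq_pow_finrank (K := F₀) (V := F)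
  rw [hcard, Nat.card_eq_fintype_card] at h1
  exact (Nat.pow_right_injective (Fintype.one_lt_card (α := F₀)) h1).symm

lemma sub_pow_card (x : F₀) : (x : F) ^ Nat.card F₀ = x := by
  haveI : Fintype F₀ := Fintype.ofFinite F₀
  have h2 := FiniteField.pow_card x
  rw [← Nat.card_eq_fintype_card] at h2
  have := congrArg Subtype.val h2
  simpa using this

lemma mem_sub_of_pow_card {x : F} (hx : x ^ Nat.card F₀ = x) : x ∈ F₀ := by
  classical
  haveI : Fintype F₀ := Fintype.ofFinite F₀
  set q := Nat.card F₀ with hq
  have hq1 : 1 < q := by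
    rw [hq, Nat.card_eq_fintype_card]
    exact Fintype.one_lt_card
  have hne : (Polynomial.X ^ q - Polynomial.X : Polynomial F) ≠ 0 := FiniteField.X_pow_card_sub_X_ne_zero F hq1
  set R := (Polynomial.X ^ q - Polynomial.X : Polynomial F).roots.toFinset with hR
  have h2 : Finset.image (Subtype.val : F₀ → F) Finset.univ ⊆ R := by
    intro y hy
    obtain ⟨z, -, rfl⟩ := Finset.mem_image.mp hy
    rw [hR, Multiset.mem_toFinset, Polynomial.mem_roots hne]
    have : (z : F) ^ q = z := sub_pow_card z
    simp [this]
  have h3 : R.card ≤ q := by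
    rw [hR]
    have h6 := Multiset.toFinset_card_le (Polynomial.X ^ q - Polynomial.X : Polynomial F).roots
    have h7 := Polynomial.card_roots' (Polynomial.X ^ q - Polynomial.X : Polynomial F)
    rw [FiniteField.X_pow_card_sub_X_natDegree_eq F hq1] at h7
    omega
  have h4 : (Finset.image (Subtype.val : F₀ → F) Finset.univ).card = q := by
    rw [Finset.card_image_of_injective _ Subtype.val_injective, Finset.card_univ, ← Nat.card_eq_fintype_card, hq]
  have h5 := Finset.eq_of_subset_of_card_le h2 (by rw [h4]; exact h3)
  have h6 : x ∈ R := by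
    rw [hR, Multiset.mem_toFinset, Polynomial.mem_roots hne]
    simp [hx]
  rw [← h5] at h6
  obtain ⟨z, -, rfl⟩ := Finset.mem_image.mp h6
  exact z.2

/-- square roots of elements of `F₀` are in `F₀` when the degree is odd -/
lemma sq_mem_of_odd {r : ℕ} (hr : Odd r) (hcard : Fintype.card F = Nat.card F₀ ^ r) {c : F} (hc : c * c ∈ F₀) :
    c ∈ F₀ := by
  have h1 := sub_pow_card (⟨c * c, hc⟩ : F₀)
  change (c * c) ^ Nat.card F₀ = c * c at h1
  set q := Nat.card F₀ with hq
  have h2 : c ^ q * c ^ q = c * c := by rw [← mul_pow, h1]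
  have h3 : (c ^ q - c) * (c ^ q + c) = 0 := by linear_combination h2
  rcases mul_eq_zero.mp h3 with h4 | h4
  · exact mem_sub_of_pow_card (sub_eq_zero.mp h4)
  · have h5 : c ^ q = -c := by linear_combination h4
    rcases Nat.even_or_odd q with hev | hodd
    · -- characteristic two
      haveI : Fintype F₀ := Fintype.ofFinite F₀
      have h6 : ringChar F₀ = 2 := by
        by_contra hne
        have := FiniteField.odd_card_of_char_ne_two hne
        rw [hq, Nat.card_eq_fintype_card] at hev
        rw [Nat.even_iff] at hev
        omega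
      have h7 : (2 : F₀) = 0 := by
        have := ringChar.Nat.cast_ringChar (R := F₀)
        rw [h6] at this
        exact_mod_cast this
      have h8 : (2 : F) = 0 := congrArg (Subtype.val : F₀ → F) h7
      have h9 : c ^ q = c := by rw [h5]; linear_combination -c * h8
      exact mem_sub_of_pow_card h9
    · have h6 : ∀ k : ℕ, c ^ (q ^ k) = (-1) ^ k * c := by
        intro k
        induction k with
        | zero => simp
        | succ k ih =>
          rw [pow_succ, pow_mul, ih, mul_pow, h5, ← pow_mul, mul_comm k q, pow_mul, hodd.neg_one_pow, pow_succ]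
          ring
      have h7 := h6 r
      rw [← hcard, FiniteField.pow_card, hr.neg_one_pow] at h7
      have h8 : (2 : F) * c = 0 := by linear_combination h7
      rcases mul_eq_zero.mp h8 with h9 | h9
      · have h10 : c ^ q = c := by rw [h5]; linear_combination -c * h9
        exact mem_sub_of_pow_card h10
      · rw [h9]; exact F₀.zero_mem

/-- square roots of elements of `F₀` are in `F₀` in characteristic two -/
lemma sq_mem_of_two (h2 : (2 : F) = 0) {c : F} (hc : c * c ∈ F₀) : c ∈ F₀ := by
  have h1 := sub_pow_card (⟨c * c, hc⟩ : F₀)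
  change (c * c) ^ Nat.card F₀ = c * c at h1
  set q := Nat.card F₀ with hq
  have h3 : c ^ q * c ^ q = c * c := by rw [← mul_pow, h1]
  have h4 : (c ^ q - c) * (c ^ q - c) = 0 := by linear_combination h3 - (c ^ q * c - c * c) * h2
  exact mem_sub_of_pow_card (sub_eq_zero.mp (mul_self_eq_zero.mp h4))

end Cfsg.Agent.H12
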