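import Cfsg.Agent.H12.RSub4
import Cfsg.Agent.H12.OmPar
import Cfsg.Agent.H12.SubForm3
import Cfsg.Agent.H12.SubCard

/-!
Overgroups of subfield groups: the end of the proof.
-/

set_option autoImplicit false
set_option linter.unusedSectionVars false

namespace Cfsg.Agent.H12

open Matrix Cfsg Cfsg.Agent.H5

variable {F : Type*} [Field F] [Finite F] {F₀ : Subfield F} {V : Type*} [AddCommGroup V] [Module F V] [FiniteDimensional F V]
  {W : Type*} [AddCommGroup W] [Module F₀ W] [FiniteDimensional F₀ W] {Q : QuadraticForm F V} {Q₀ : QuadraticForm F₀ W}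
  {e : W → V} {M : Subgroup (OG Q)}

namespace RS

/-- the map induced on the rational vectors -/
noncomputable def desc (S : RS Q Q₀ e) {h : OG Q} (hr : ∀ v, ∃ w, h (e v) = e w) : W →ₗ[F₀] W where
  toFun v := (hr v).choose
  map_add' := by
    intro v w
    apply S.inj'
    have h1 : h (e (v + w)) = h (e v) + h (e w) := by rw [S.add, og_add]
    exact ((hr (v + w)).choose_spec.symm.trans h1).trans
      ((congrArg₂ (· + ·) (hr v).choose_spec (hr w).choose_spec).trans (S.add _ _).symm)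
  map_smul' := by
    intro c v
    apply S.inj'
    have h1 : h (e (c • v)) = (c : F) • h (e v) := by rw [S.smul, og_smul]
    exact ((hr (c • v)).choose_spec.symm.trans h1).trans
      ((congrArg (fun x => (c : F) • x) (hr v).choose_spec).trans (S.smul _ _).symm)

lemma desc_spec (S : RS Q Q₀ e) {h : OG Q} (hr : ∀ v, ∃ w, h (e v) = e w) (v : W) : h (e v) = e (S.desc hr v) :=
  (hr v).choose_spec

/-- moved vectors -/
noncomputable def mv (S : RS Q Q₀ e) {h : OG Q} (hr : ∀ v, ∃ w, h (e v) = e w) : Submodule F₀ W :=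
  LinearMap.range (S.desc hr - LinearMap.id)

/-- fixed vectors -/
noncomputable def fx (S : RS Q Q₀ e) {h : OG Q} (hr : ∀ v, ∃ w, h (e v) = e w) : Submodule F₀ W :=
  LinearMap.ker (S.desc hr - LinearMap.id)

lemma mem_mv (S : RS Q Q₀ e) {h : OG Q} (hr : ∀ v, ∃ w, h (e v) = e w) {x : W} :
    x ∈ S.mv hr ↔ ∃ v, e x = h (e v) - e v := by
  constructor
  · rintro ⟨v, rfl⟩
    refine ⟨v, ?_⟩
    rw [LinearMap.sub_apply, LinearMap.id_apply, S.sub, S.desc_spec hr]
  · rintro ⟨v, hv⟩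
    refine ⟨v, ?_⟩
    apply S.inj'
    rw [LinearMap.sub_apply, LinearMap.id_apply, S.sub, ← S.desc_spec hr, hv]

lemma mem_fx (S : RS Q Q₀ e) {h : OG Q} (hr : ∀ v, ∃ w, h (e v) = e w) {x : W} :
    x ∈ S.fx hr ↔ h (e x) = e x := by
  rw [fx, LinearMap.mem_ker, LinearMap.sub_apply, LinearMap.id_apply, sub_eq_zero, S.desc_spec hr]
  constructor
  · intro h; rw [h]
  · intro h; exact S.inj' h

lemma fr_fx (S : RS Q Q₀ e) {h : OG Q} (hr : ∀ v, ∃ w, h (e v) = e w) :
    Module.finrank F₀ (S.mv hr) + Module.finrank F₀ (S.fx hr) = Module.finrank F₀ W :=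
  LinearMap.finrank_range_add_finrank_ker _

lemma ex_mv (S : RS Q Q₀ e) {h : OG Q} (hr : ∀ v, ∃ w, h (e v) = e w) : ex F e (S.mv hr) = movS h := by
  apply le_antisymm
  · rw [ex, Submodule.span_le]
    rintro _ ⟨x, hx, rfl⟩
    obtain ⟨v, hv⟩ := (S.mem_mv hr).1 hx
    rw [SetLike.mem_coe, mem_movS]
    exact ⟨e v, hv.symm⟩
  · intro x hx
    rw [mem_movS] at hx
    obtain ⟨y, rfl⟩ := hx
    have hy : y ∈ Submodule.span F (Set.range e) := by rw [S.span]; trivial
    induction hy using Submodule.span_induction with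
    | mem y hy =>
      obtain ⟨w, rfl⟩ := hy
      rw [S.desc_spec hr, ← S.sub]
      exact mem_ex e ⟨w, by rw [LinearMap.sub_apply, LinearMap.id_apply]⟩
    | zero => rw [og_zero, sub_zero]; exact Submodule.zero_mem _
    | add a b _ _ ha hb =>
      have : h (a + b) - (a + b) = (h a - a) + (h b - b) := by rw [og_add]; abel
      rw [this]; exact Submodule.add_mem _ ha hb
    | smul c a _ ha =>
      have : h (c • a) - c • a = c • (h a - a) := by rw [og_smul, smul_sub]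
      rw [this]; exact Submodule.smul_mem _ _ ha

lemma fr_mv (S : RS Q Q₀ e) {h : OG Q} (hr : ∀ v, ∃ w, h (e v) = e w) :
    Module.finrank F₀ (S.mv hr) = Module.finrank F (movS h) := by
  rw [← S.finrank_ex, S.ex_mv]

/-- independence over the big field -/
lemma ind3 (S : RS Q Q₀ e) {K : Submodule F₀ W} {u w w' : W} (hu : u ∉ K) (hw : w ∉ K ⊔ Submodule.span F₀ {u})
    (hw' : w' ∉ K ⊔ Submodule.span F₀ ({u, w} : Set W)) {x y z : F}
    (h : x • e u + y • e w + z • e w' ∈ ex F e K) : x = 0 ∧ y = 0 ∧ z = 0 := by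
  have hz : z = 0 := by
    by_contra hz
    apply hw'
    apply S.mem_of_mem_ex (F := F)
    have h1 : e w' = z⁻¹ • ((x • e u + y • e w + z • e w') - (x • e u + y • e w)) := by
      rw [add_sub_cancel_left, smul_smul, inv_mul_cancel₀ hz, one_smul]
    rw [h1]
    apply Submodule.smul_mem
    apply Submodule.sub_mem
    · exact ex_mono e le_sup_left h
    · apply ex_mono e (le_sup_right (a := K))
      exact Submodule.add_mem _ (Submodule.smul_mem _ _ (mem_ex e (Submodule.subset_span (by simp))))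
        (Submodule.smul_mem _ _ (mem_ex e (Submodule.subset_span (by simp))))
  rw [hz, zero_smul, add_zero] at h
  have hy : y = 0 := by
    by_contra hy
    apply hw
    apply S.mem_of_mem_ex (F := F)
    have h1 : e w = y⁻¹ • ((x • e u + y • e w) - x • e u) := by
      rw [add_sub_cancel_left, smul_smul, inv_mul_cancel₀ hy, one_smul]
    rw [h1]
    apply Submodule.smul_mem
    apply Submodule.sub_mem
    · exact ex_mono e le_sup_left h
    · apply ex_mono e (le_sup_right (a := K))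
      exact Submodule.smul_mem _ _ (mem_ex e (Submodule.mem_span_singleton_self u))
  rw [hy, zero_smul, add_zero] at h
  refine ⟨?_, hy, hz⟩
  by_contra hx
  apply hu
  apply S.mem_of_mem_ex (F := F)
  have h1 : e u = x⁻¹ • (x • e u) := by rw [smul_smul, inv_mul_cancel₀ hx, one_smul]
  rw [h1]
  exact Submodule.smul_mem _ _ h

end RS

lemma finrank_inf_oc_ge {K X : Type*} [Field K] [AddCommGroup X] [Module K X] [FiniteDimensional K X]
    {q : QuadraticForm K X} (hnd : ND q) (T : Submodule K X) (u : X) :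
    Module.finrank K T ≤ Module.finrank K (T ⊓ oc q (Submodule.span K {u}) : Submodule K X) + 1 := by
  have h1 := Submodule.finrank_sup_add_finrank_inf_eq T (oc q (Submodule.span K {u}))
  have h2 := finrank_oc hnd (Submodule.span K {u})
  have h3 := finrank_span_one_le (F := K) u
  have h4 := Submodule.finrank_le (T ⊔ oc q (Submodule.span K {u}))
  omega

namespace RM

/-- images of fixed vectors -/
theorem rat_of_conj (S : RM Q Q₀ e M) (T : Tri F Q₀ e M) {g z z' : OG Q} (hg : g ∈ M) (hzz' : g * z' = z * g)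
    (hr : ∀ v, ∃ w, z (e v) = e w) (hr' : ∀ v, ∃ w, z' (e v) = e w) {a b : W} (ha : Q₀ a = 0) (hb : Q₀ b = 0)
    (ha0 : a ≠ 0) (hba : b ∉ Submodule.span F₀ {a}) (haR : a ∈ S.toRS.mv hr) (hbR : b ∈ S.toRS.mv hr)
    {u w w' : W} (hu : Q₀ u = 0) (hw : Q₀ w = 0)
    (hw' : Q₀ w' = 0) (huw : pB Q₀ u w = 0) (huw' : pB Q₀ u w' = 0) (huT : u ∈ S.toRS.fx hr') (hwT : w ∈ S.toRS.fx hr')
    (hwT' : w' ∈ S.toRS.fx hr')
    (hind : ∀ x y z : F, x • e u + y • e w + z • e w' ∈ ex F e (S.toRS.mv hr') → x = 0 ∧ y = 0 ∧ z = 0) :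
    ∃ (c : F) (v : W), c ≠ 0 ∧ g (e u) = c • e v := by
  have hfix : ∀ v ∈ S.toRS.fx hr', z (g (e v)) = g (e v) := by
    intro v hv
    have h1 : (g * z') (e v) = (z * g) (e v) := by rw [hzz']
    rw [og_mul, og_mul, (S.toRS.mem_fx hr').1 hv] at h1
    exact h1.symm
  have hperp : ∀ v ∈ S.toRS.fx hr', ∀ r ∈ S.toRS.mv hr, pB Q (g (e v)) (e r) = 0 := by
    intro v hv r hrr
    obtain ⟨y, hy⟩ := (S.toRS.mem_mv hr).1 hrr
    rw [hy, pr_sub]
    have h1 : pB Q (z (g (e v))) (z (e y)) = pB Q (g (e v)) (e y) := og_p z _ _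
    rw [hfix v hv] at h1
    rw [h1, sub_self]
  refine S.rat_of_perp T hg ha hb ha0 hba hu hw hw' huw huw' (hperp u huT a haR) (hperp u huT b hbR)
    (hperp w hwT a haR) (hperp w hwT b hbR) (hperp w' hwT' a haR) (hperp w' hwT' b hbR) ?_
  intro x y t hxy
  apply hind
  have h1 : ex F e (Submodule.span F₀ ({a, b} : Set W)) ≤ ex F e (S.toRS.mv hr) := by
    apply RS.ex_mono
    rw [Submodule.span_le]
    intro v hv
    rw [Set.mem_insert_iff, Set.mem_singleton_iff] at hv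
    rcases hv with rfl | rfl
    · exact haR
    · exact hbR
  have h2 := h1 hxy
  rw [S.toRS.ex_mv, mem_movS] at h2
  obtain ⟨v, hv⟩ := h2
  rw [S.toRS.ex_mv, mem_movS]
  refine ⟨(g⁻¹ : OG Q) v, ?_⟩
  apply og_inj g
  have h3 : (g * z') ((g⁻¹ : OG Q) v) = (z * g) ((g⁻¹ : OG Q) v) := by rw [hzz']
  rw [og_mul, og_mul, og_inv'] at h3
  rw [og_sub, h3, og_inv', hv, og_add, og_add, og_smul, og_smul, og_smul]

/-- nondegenerate pairing with a rational pair -/
lemma exists_pair (S : RM Q Q₀ e M) {p q : V} (hpq : pB Q p q = 0) (hp : Q p = 0) (hp0 : p ≠ 0)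
    (hind : q ∉ Submodule.span F {p}) :
    ∃ a b : W, Q₀ a = 0 ∧ Q₀ b = 0 ∧ pB Q₀ a b = 0 ∧
      pB Q (e a) p * pB Q (e b) q - pB Q (e a) q * pB Q (e b) p ≠ 0 := by
  by_contra hcon
  push Not at hcon
  -- every singular `a` is orthogonal to `p`
  have h1 : ∀ a : W, Q₀ a = 0 → pB Q (e a) p = 0 := by
    intro a ha
    by_cases ha0 : a = 0
    · rw [ha0, S.toRS.zero, map_zero]; rfl
    by_contra hap
    set c := pB Q (e a) p • q - pB Q (e a) q • p with hc
    have hc1 : c ∈ ex F e (Submodule.span F₀ {a}) := by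
      by_contra hcn
      obtain ⟨d, hd, hcd⟩ := S.toRS.exists_det _ hcn
      apply hcd
      have had : pB Q₀ a d = 0 := (mem_oc.1 hd) a (Submodule.mem_span_singleton_self a)
      have h2 : ∀ b, Q₀ b = 0 → pB Q₀ a b = 0 → pB Q c (e b) = 0 := by
        intro b hb hab
        have := hcon a b ha hb hab
        rw [hc, pl_sub, pl_smul, pl_smul, pB_symm Q q, pB_symm Q p]
        linear_combination this
      by_cases hda : d ∈ Submodule.span F₀ {a}
      · obtain ⟨t, rfl⟩ := Submodule.mem_span_singleton.mp hda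
        rw [S.smul, pr_smul, h2 a ha (by rw [pB_self, ha, mul_zero]), mul_zero]
      · obtain ⟨y, z, hy, hz, hay, haz, rfl⟩ := S.sing_dec had hda
        rw [S.add, pr_add, h2 y hy hay, h2 z hz haz, add_zero]
    obtain ⟨t, ht⟩ := S.ex_single hc1
    have ht0 : t ≠ 0 := by
      rintro rfl
      rw [zero_smul, hc, sub_eq_zero] at ht
      apply hind
      rw [Submodule.mem_span_singleton]
      refine ⟨(pB Q (e a) p)⁻¹ * pB Q (e a) q, ?_⟩
      rw [mul_smul, ← ht, smul_smul, inv_mul_cancel₀ hap, one_smul]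
    apply hap
    have h3 : pB Q c p = 0 := by
      rw [hc, pl_sub, pl_smul, pl_smul, pB_symm Q q p, hpq, pB_self, hp]; ring
    rw [ht, pl_smul] at h3
    exact (mul_eq_zero.mp h3).resolve_left ht0
  apply hp0
  apply S.toRS.span_ind
  intro w
  by_cases hw0 : w = 0
  · rw [hw0, S.toRS.zero, map_zero]
  have h2 := S.dim₀
  obtain ⟨y, -, z, -, hy, hz, hyz⟩ := sing_add (Q := Q₀) S.nd₀ ⊥ (by rw [finrank_bot]; omega) (x := w)
    (by rw [mem_oc]; intro n hn; rw [(Submodule.mem_bot F₀).1 hn, map_zero]; rfl) (fun h => hw0 ((Submodule.mem_bot F₀).1 h))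
  rw [hyz, S.add, pr_add, pB_symm Q p, pB_symm Q p, h1 y hy, h1 z hz, add_zero]

/-- odd characteristic -/
theorem rat_odd (S : RM Q Q₀ e M) (T : Tri F Q₀ e M) (h2 : (2 : F) ≠ 0) {g : OG Q} (hg : g ∈ M) :
    ∃ μ : F, ∀ v, ∃ w, g (e v) = μ • e w := by
  have h20 : (2 : F₀) ≠ 0 := by
    intro h
    exact h2 (congrArg (Subtype.val : F₀ → F) h)
  obtain ⟨u₁, w₁, hu₁, hw₁, huw₁, hu₁0, hwu₁⟩ := S.pair
  set p := g (e u₁) with hp
  set q := g (e w₁) with hq
  have hQp : Q p = 0 := by rw [hp, og_q]; exact S.Q0 hu₁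
  have hQq : Q q = 0 := by rw [hq, og_q]; exact S.Q0 hw₁
  have hpq : pB Q p q = 0 := by rw [hp, hq, og_p]; exact S.B0 huw₁
  have hp0 : p ≠ 0 := fun h => hu₁0 (S.toRS.inj (og_inj g (h.trans (og_zero g).symm)))
  have hqp : q ∉ Submodule.span F {p} := by
    intro hm
    obtain ⟨c, hc⟩ := Submodule.mem_span_singleton.mp hm
    apply S.notMem_ex1 hwu₁ c
    apply og_inj g
    rw [og_smul, ← hp, hc]
  obtain ⟨a, b, ha, hb, hab, hδ⟩ := S.exists_pair hpq hQp hp0 hqp
  set δ := pB Q (e a) p * pB Q (e b) q - pB Q (e a) q * pB Q (e b) p with hδdef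
  set f₁ := (δ⁻¹ * pB Q (e b) q) • p + (-(δ⁻¹ * pB Q (e b) p)) • q with hf₁
  set f₂ := (-(δ⁻¹ * pB Q (e a) q)) • p + (δ⁻¹ * pB Q (e a) p) • q with hf₂
  have hqq : pB Q q q = 0 := by rw [pB_self, hQq, mul_zero]
  have hpp : pB Q p p = 0 := by rw [pB_self, hQp, mul_zero]
  have hqp' : pB Q q p = 0 := by rw [pB_symm]; exact hpq
  have H : HP Q (e a) (e b) f₁ f₂ := by
    refine ⟨S.Q0 ha, S.Q0 hb, ?_, ?_, S.B0 hab, ?_, ?_, ?_, ?_, ?_⟩
    · rw [hf₁, q_add, q_smul, q_smul, hQp, hQq, pl_smul, pr_smul, hpq]; ring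
    · rw [hf₂, q_add, q_smul, q_smul, hQp, hQq, pl_smul, pr_smul, hpq]; ring
    · rw [hf₁, hf₂, pl_add, pr_add, pr_add, pl_smul, pl_smul, pl_smul, pl_smul, pr_smul, pr_smul, pr_smul, pr_smul,
        hpp, hpq, hqp', hqq]; ring
    · rw [hf₁, pr_add, pr_smul, pr_smul]
      have : δ⁻¹ * pB Q (e b) q * pB Q (e a) p + -(δ⁻¹ * pB Q (e b) p) * pB Q (e a) q = δ⁻¹ * δ := by rw [hδdef]; ring
      rw [this, inv_mul_cancel₀ hδ]
    · rw [hf₂, pr_add, pr_smul, pr_smul]
      have : -(δ⁻¹ * pB Q (e a) q) * pB Q (e b) p + δ⁻¹ * pB Q (e a) p * pB Q (e b) q = δ⁻¹ * δ := by rw [hδdef]; ring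
      rw [this, inv_mul_cancel₀ hδ]
    · rw [hf₂, pr_add, pr_smul, pr_smul]; ring
    · rw [hf₁, pr_add, pr_smul, pr_smul]; ring
  -- the Siegel elements
  have hM1 : RI M (e a) ((1 : F) • e b) := by rw [one_smul]; exact S.hM a b ha hab
  have hM2 : RI M f₁ (δ • f₂) := by
    have h3 : RI M p q := (S.hM u₁ w₁ hu₁ huw₁).conj hg
    have h4 : δ • f₂ = (-(pB Q (e a) q)) • p + (pB Q (e a) p) • q := by
      rw [hf₂, smul_add, smul_smul, smul_smul]
      congr 2
      · field_simp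
      · field_simp
    rw [h4, hf₁]
    apply RI.lin2 hQp hQq hpq _ h3
    have : δ⁻¹ * pB Q (e b) q * pB Q (e a) p - -(δ⁻¹ * pB Q (e b) p) * -(pB Q (e a) q) = δ⁻¹ * δ := by rw [hδdef]; ring
    rw [this, inv_mul_cancel₀ hδ]
  have hzM := H.neg_mem h2 one_ne_zero hδ hM1 hM2
  set z := H.Phi (-1) with hz
  have hz1 : ∀ x, z x = x - (2 * pB Q f₁ x) • e a - (2 * pB Q f₂ x) • e b - (2 * pB Q (e a) x) • f₁ - (2 * pB Q (e b) x) • f₂ :=
    fun x => H.Phi_neg x
  have hza : z (e a) = (-1 : F) • e a := by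
    rw [hz1, H.s31, H.s41, H.s11, H.s21]; module
  have hzb : z (e b) = (-1 : F) • e b := by
    rw [hz1, H.s32, H.s42, H.b12, H.s22]; module
  have hzf1 : z f₁ = (-1 : F) • f₁ := by
    rw [hz1, H.s33, H.s43, H.b13, H.b23]; module
  have hzf2 : z f₂ = (-1 : F) • f₂ := by
    rw [hz1, H.b34, H.s44, H.b14, H.b24]; module
  have hpf : p = pB Q (e a) p • f₁ + pB Q (e b) p • f₂ := by
    have e1 : pB Q (e a) p • f₁ + pB Q (e b) p • f₂ = (δ⁻¹ * δ) • p := by
      rw [hf₁, hf₂, hδdef]; module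
    rw [e1, inv_mul_cancel₀ hδ, one_smul]
  have hzp : z p = (-1 : F) • p := by
    rw [hpf, og_add, og_smul, og_smul, hzf1, hzf2]; module
  have hzz : ∀ x, z (z x) = x := by
    intro x
    rw [hz1 x, og_sub, og_sub, og_sub, og_sub, og_smul, og_smul, og_smul, og_smul, hza, hzb, hzf1, hzf2, hz1 x]
    module
  have ha0 : a ≠ 0 := by
    rintro rfl
    have := H.b13
    rw [S.toRS.zero, map_zero] at this
    exact zero_ne_one this
  have hba : b ∉ Submodule.span F₀ {a} := by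
    intro hm
    obtain ⟨c, rfl⟩ := Submodule.mem_span_singleton.mp hm
    have h3 := H.b24
    have h4 := H.b14
    rw [S.smul, pl_smul, h4, mul_zero] at h3
    exact zero_ne_one h3
  -- rationality of `z` and its conjugate
  have hr : ∀ v, ∃ w, z (e v) = e w := by
    intro v
    obtain ⟨w, hw⟩ := S.all_rat T hzM ha ha0 hza v
    exact ⟨-w, by rw [hw, S.toRS.neg]; module⟩
  set z' := g⁻¹ * z * g with hz'
  have hz'M : z' ∈ M := mul_mem (mul_mem (inv_mem hg) hzM) hg
  have hz'u : z' (e u₁) = (-1 : F) • e u₁ := by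
    rw [hz', og_mul, og_mul, ← hp, hzp, og_smul, hp, og_inv]
  have hr' : ∀ v, ∃ w, z' (e v) = e w := by
    intro v
    obtain ⟨w, hw⟩ := S.all_rat T hz'M hu₁ hu₁0 hz'u v
    exact ⟨-w, by rw [hw, S.toRS.neg]; module⟩
  have hconj : g * z' = z * g := by rw [hz']; group
  have hz'z' : ∀ x, z' (z' x) = x := by
    intro x
    rw [hz', og_mul, og_mul, og_mul, og_mul, og_inv', hzz, og_inv]
  -- moved vectors of `z'` are negated
  have hneg : ∀ x ∈ ex F e (S.toRS.mv hr'), z' x = -x := by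
    intro x hx
    rw [S.toRS.ex_mv, mem_movS] at hx
    obtain ⟨y, rfl⟩ := hx
    rw [og_sub, hz'z']; abel
  -- dimension
  have hdim : Module.finrank F₀ (S.toRS.mv hr') ≤ 4 := by
    rw [S.toRS.fr_mv]
    have h3 : movS z' ≤ Submodule.span F ({(g⁻¹ : OG Q) (e a), (g⁻¹ : OG Q) (e b), (g⁻¹ : OG Q) f₁, (g⁻¹ : OG Q) f₂} : Set V) := by
      intro x hx
      rw [mem_movS] at hx
      obtain ⟨y, rfl⟩ := hx
      have h4 : z' y - y = -(2 * pB Q f₁ (g y)) • (g⁻¹ : OG Q) (e a) + (-(2 * pB Q f₂ (g y)) • (g⁻¹ : OG Q) (e b) +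
          (-(2 * pB Q (e a) (g y)) • (g⁻¹ : OG Q) f₁ + -(2 * pB Q (e b) (g y)) • (g⁻¹ : OG Q) f₂)) := by
        rw [hz', og_mul, og_mul, hz1, og_sub, og_sub, og_sub, og_sub, og_smul, og_smul, og_smul, og_smul, og_inv]
        module
      rw [h4]
      refine Submodule.add_mem _ (Submodule.smul_mem _ _ (Submodule.subset_span (by simp))) (Submodule.add_mem _
        (Submodule.smul_mem _ _ (Submodule.subset_span (by simp))) (Submodule.add_mem _
        (Submodule.smul_mem _ _ (Submodule.subset_span (by simp))) (Submodule.smul_mem _ _ (Submodule.subset_span (by simp)))))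
    classical
    have h4 := finrank_span_finset_le_card (R := F) (M := V) ({(g⁻¹ : OG Q) (e a), (g⁻¹ : OG Q) (e b), (g⁻¹ : OG Q) f₁, (g⁻¹ : OG Q) f₂} : Finset V)
    have h5 : Module.finrank F (Submodule.span F ({(g⁻¹ : OG Q) (e a), (g⁻¹ : OG Q) (e b), (g⁻¹ : OG Q) f₁, (g⁻¹ : OG Q) f₂} : Set V)) ≤ 4 := by
      rw [Finset.coe_insert, Finset.coe_insert, Finset.coe_insert, Finset.coe_singleton] at h4
      exact h4.trans Finset.card_le_four
    exact (Submodule.finrank_mono h3).trans h5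
  have hfr := S.toRS.fr_fx hr'
  have hd0 := S.dim₀
  -- the three vectors
  obtain ⟨u, huT, hu0, hu⟩ := exists_sing_off (Q := Q₀) (S.toRS.fx hr') ⊥ (by rw [finrank_bot]; omega)
  have e1 := finrank_inf_oc_ge S.nd₀ (S.toRS.fx hr') u
  have e2 := finrank_span_one_le (F := F₀) u
  obtain ⟨w, hwT, hwu, hw⟩ := exists_sing_off (Q := Q₀) (S.toRS.fx hr' ⊓ oc Q₀ (Submodule.span F₀ {u})) (Submodule.span F₀ {u})
    (by omega)
  have e3 := finrank_span_pair_le (F := F₀) u w
  obtain ⟨w', hwT', hwu', hw'⟩ := exists_sing_off (Q := Q₀) (S.toRS.fx hr' ⊓ oc Q₀ (Submodule.span F₀ {u}))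
    (Submodule.span F₀ ({u, w} : Set W)) (by omega)
  rw [Submodule.mem_inf, mem_oc] at hwT hwT'
  have huu : u ≠ 0 := fun h => hu0 ((Submodule.mem_bot F₀).2 h)
  obtain ⟨c, v, hc, hcv⟩ := S.rat_of_conj T hg hconj hr hr' ha hb ha0 hba
    (by
      rw [S.toRS.mem_mv]
      refine ⟨(-(2 : F₀)⁻¹) • a, ?_⟩
      rw [S.smul, og_smul, hza]
      have h22 : ((2 : F₀) : F) = 2 := rfl
      push_cast
      rw [h22]
      have : (-(2 : F)⁻¹) • ((-1 : F) • e a) - (-(2 : F)⁻¹) • e a = ((2 : F)⁻¹ * 2) • e a := by module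
      rw [this, inv_mul_cancel₀ h2, one_smul])
    (by
      rw [S.toRS.mem_mv]
      refine ⟨(-(2 : F₀)⁻¹) • b, ?_⟩
      rw [S.smul, og_smul, hzb]
      have h22 : ((2 : F₀) : F) = 2 := rfl
      push_cast
      rw [h22]
      have : (-(2 : F)⁻¹) • ((-1 : F) • e b) - (-(2 : F)⁻¹) • e b = ((2 : F)⁻¹ * 2) • e b := by module
      rw [this, inv_mul_cancel₀ h2, one_smul])
    hu hw hw' (hwT.2 u (Submodule.mem_span_singleton_self u)) (hwT'.2 u (Submodule.mem_span_singleton_self u)) huT hwT.1 hwT'.1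
    (by
      intro x y t hx
      have h3 := hneg _ hx
      rw [og_add, og_add, og_smul, og_smul, og_smul, (S.toRS.mem_fx hr').1 huT, (S.toRS.mem_fx hr').1 hwT.1,
        (S.toRS.mem_fx hr').1 hwT'.1, eq_neg_iff_add_eq_zero, ← two_smul F] at h3
      have h4 := (smul_eq_zero.mp h3).resolve_left h2
      exact S.toRS.ind3 (K := ⊥) hu0 (by rw [bot_sup_eq]; exact hwu) (by rw [bot_sup_eq]; exact hwu')
        (by rw [h4]; exact Submodule.zero_mem _))
  exact ⟨c, S.all_rat T hg hu huu hcv⟩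

end RM

end Cfsg.Agent.H12
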