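import Cfsg.Agent.H12.RSub5

/-!
Overgroups of subfield groups: characteristic two.
-/

set_option autoImplicit false
set_option linter.unusedSectionVars false

namespace Cfsg.Agent.H12

open Matrix Cfsg Cfsg.Agent.H5

variable {F : Type*} [Field F] [Finite F] {F₀ : Subfield F} {V : Type*} [AddCommGroup V] [Module F V] [FiniteDimensional F V]
  {W : Type*} [AddCommGroup W] [Module F₀ W] [FiniteDimensional F₀ W] {Q : QuadraticForm F V} {Q₀ : QuadraticForm F₀ W}
  {e : W → V} {M : Subgroup (OG Q)}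

/-- in characteristic two Siegel elements are involutions -/
lemma eich_sq (h2 : (2 : F) = 0) {u w : V} (hu : Q u = 0) (huw : pB Q u w = 0) : eich hu huw * eich hu huw = 1 := by
  have h1 : pB Q u (w + w) = 0 := by rw [pr_add, huw, add_zero]
  rw [eich_mul hu huw huw h1]
  have h3 : w + w = 0 := by rw [← two_smul F w, h2, zero_smul]
  apply og_ext
  intro x
  rw [eich_apply, h3, map_zero, q_zero, og_one]
  simp

/-- moved vectors of a power of a product -/
lemma movS_pow (x y : OG Q) (k : ℕ) : movS ((x * y) ^ k) ≤ movS x ⊔ movS y := by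
  induction k with
  | zero =>
    intro v hv
    rw [mem_movS] at hv
    obtain ⟨t, rfl⟩ := hv
    rw [pow_zero, og_one, sub_self]
    exact Submodule.zero_mem _
  | succ k ih =>
    intro v hv
    rw [mem_movS] at hv
    obtain ⟨t, rfl⟩ := hv
    have h1 : ((x * y) ^ (k + 1)) t - t = (x (y (((x * y) ^ k) t)) - y (((x * y) ^ k) t)) +
        (y (((x * y) ^ k) t) - ((x * y) ^ k) t) + (((x * y) ^ k) t - t) := by
      rw [pow_succ', og_mul, og_mul]; abel
    rw [h1]
    refine Submodule.add_mem _ (Submodule.add_mem _ (Submodule.mem_sup_left ?_) (Submodule.mem_sup_right ?_)) (ih ?_)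
    · rw [mem_movS]; exact ⟨_, rfl⟩
    · rw [mem_movS]; exact ⟨_, rfl⟩
    · rw [mem_movS]; exact ⟨_, rfl⟩

namespace RM

/-- commuting involutions fixing a rational point up to scalars are rational -/
lemma rat_inv (S : RM Q Q₀ e M) (T : Tri F Q₀ e M) (h2 : (2 : F) = 0) {z : OG Q} (hz : z ∈ M) {a a' : W}
    (ha : Q₀ a = 0) (ha0 : a ≠ 0) {μ : F} (h : z (e a) = μ • e a') : ∀ v, ∃ w, z (e v) = e w := by
  have hea : z (e a) ≠ 0 := by
    intro h1
    apply ha0
    apply S.toRS.inj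
    exact og_inj z (h1.trans (og_zero z).symm)
  have hμ : μ ≠ 0 := by
    rintro rfl
    rw [zero_smul] at h
    exact hea h
  have ha'0 : a' ≠ 0 := by
    rintro rfl
    rw [S.toRS.zero, smul_zero] at h
    exact hea h
  have ha' : Q₀ a' = 0 := by
    have h1 := congrArg (fun x => Q x) h
    beta_reduce at h1
    rw [og_q, S.Q0 ha, q_smul, S.q] at h1
    have h3 := (mul_eq_zero.mp h1.symm).resolve_left (mul_ne_zero hμ hμ)
    exact_mod_cast h3
  have hμ2 := S.mu_sq T hz ha ha0 hμ ha' ha'0 h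
  have : Fintype F := Fintype.ofFinite F
  have hμ0 : μ ∈ F₀ := sq_mem_of_two h2 hμ2
  intro v
  obtain ⟨w, hw⟩ := S.all_rat T hz ha ha0 h v
  exact ⟨(⟨μ, hμ0⟩ : F₀) • w, by rw [hw, S.smul]⟩

/-- an involution commuting with a rational long root element is rational -/
lemma rat_comm_root (S : RM Q Q₀ e M) (T : Tri F Q₀ e M) (h2 : (2 : F) = 0) (hd : 14 ≤ Module.finrank F V) {z : OG Q}
    (hz : z ∈ M) (hzz : z * z = 1)
    {a b : W} (ha : Q₀ a = 0) (hb : Q₀ b = 0) (hab : pB Q₀ a b = 0) (ha0 : a ≠ 0) (hba : b ∉ Submodule.span F₀ {a})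
    (hcomm : ∀ (h1 : Q (e a) = 0) (h3 : pB Q (e a) (e b) = 0), z * eich h1 h3 = eich h1 h3 * z) :
    ∀ v, ∃ w, z (e v) = e w := by
  have h1 := S.Q0 ha
  have h3 := S.B0 hab
  have hcm := hcomm h1 h3
  set x := eich h1 h3 with hx
  have hxa : ∀ t, x t = t + pB Q (e a) t • e b - pB Q (e b) t • e a := by
    intro t
    rw [hx, eich_apply, S.Q0 hb]; module
  have hcomm' : ∀ t, z (x t) = x (z t) := by
    intro t
    rw [← og_mul, ← og_mul, hcm]
  -- centralizer space
  have hfix : ∀ t, x t = t → pB Q (e a) t = 0 ∧ pB Q (e b) t = 0 := by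
    intro t ht
    rw [hxa] at ht
    have h4 : pB Q (e a) t • e b = pB Q (e b) t • e a := by
      have h5 : pB Q (e a) t • e b - pB Q (e b) t • e a = (t + pB Q (e a) t • e b - pB Q (e b) t • e a) - t := by abel
      rw [ht, sub_self, sub_eq_zero] at h5
      exact h5
    have h5 : pB Q (e a) t = 0 := by
      by_contra h6
      apply S.notMem_ex1 hba ((pB Q (e a) t)⁻¹ * pB Q (e b) t)
      rw [mul_smul, ← h4, smul_smul, inv_mul_cancel₀ h6, one_smul]
    refine ⟨h5, ?_⟩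
    rw [h5, zero_smul] at h4
    have h6 : e a ≠ 0 := fun h => ha0 (S.toRS.inj h)
    exact (smul_eq_zero.mp h4.symm).resolve_right h6
  have hperp : ∀ v, pB Q₀ a v = 0 → pB Q₀ b v = 0 → pB Q (z (e v)) (e a) = 0 ∧ pB Q (z (e v)) (e b) = 0 := by
    intro v hav hbv
    have h4 : x (z (e v)) = z (e v) := by
      rw [← hcomm', hxa, S.B0 hav, S.B0 hbv]
      congr 1; module
    have h5 := hfix _ h4
    rw [pB_symm, pB_symm Q (z (e v)) (e b)]
    exact h5
  -- `z` preserves the plane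
  have hpl : ∀ y ∈ ex F e (Submodule.span F₀ ({a, b} : Set W)), z y ∈ ex F e (Submodule.span F₀ ({a, b} : Set W)) := by
    have hsub : ∀ t, x t - t ∈ ex F e (Submodule.span F₀ ({a, b} : Set W)) := by
      intro t
      have h4 : x t - t = pB Q (e a) t • e b - pB Q (e b) t • e a := by rw [hxa]; abel
      rw [h4]
      exact Submodule.sub_mem _ (Submodule.smul_mem _ _ (RS.mem_ex e (Submodule.subset_span (by simp))))
        (Submodule.smul_mem _ _ (RS.mem_ex e (Submodule.subset_span (by simp))))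
    have hgen : ∀ y ∈ ({a, b} : Set W), ∃ t, e y = x t - t := by
      intro y hy
      rw [Set.mem_insert_iff, Set.mem_singleton_iff] at hy
      rcases hy with rfl | rfl
      · -- `e a`
        obtain ⟨u, hbu, -, -, hua⟩ := S.det2 (a := b) (b := b) (y := y) (by simpa using notMem_single_of ha0 hba)
        obtain ⟨u', hau', -, -, hub'⟩ := S.det2 (a := y) (b := y) (y := b) (by simpa using hba)
        refine ⟨-e u', ?_⟩
        rw [hxa, pr_neg, pr_neg, S.B0 hau', pB_symm Q (e b), S.toRS.pB u' b, hub', OneMemClass.coe_one]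
        module
      · obtain ⟨u, hbu, -, -, hua⟩ := S.det2 (a := y) (b := y) (y := a) (by simpa using notMem_single_of ha0 hba)
        refine ⟨e u, ?_⟩
        rw [hxa, S.B0 hbu, pB_symm Q (e a), S.toRS.pB u a, hua, OneMemClass.coe_one]
        module
    intro y hy
    rw [ex] at hy
    induction hy using Submodule.span_induction with
    | mem y hy =>
      obtain ⟨w, hw, rfl⟩ := hy
      obtain ⟨α, β, rfl⟩ := Submodule.mem_span_pair.mp hw
      obtain ⟨t, ht⟩ := hgen a (by simp)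
      obtain ⟨s, hs⟩ := hgen b (by simp)
      rw [S.add, S.smul, S.smul, og_add, og_smul, og_smul, ht, hs, og_sub, og_sub, hcomm', hcomm']
      exact Submodule.add_mem _ (Submodule.smul_mem _ _ (hsub _)) (Submodule.smul_mem _ _ (hsub _))
    | zero => rw [og_zero]; exact Submodule.zero_mem _
    | add a b _ _ ha hb => rw [og_add]; exact Submodule.add_mem _ ha hb
    | smul c a _ ha => rw [og_smul]; exact Submodule.smul_mem _ _ ha
  -- three vectors
  have hK := finrank_span_pair_le (F := F₀) a b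
  have hoc := finrank_oc S.nd₀ (Submodule.span F₀ ({a, b} : Set W))
  have hfr := S.fr
  set K := Submodule.span F₀ ({a, b} : Set W) with hKdef
  obtain ⟨u, huT, hu0, hu⟩ := exists_sing_off (Q := Q₀) (oc Q₀ K) K (by omega)
  have e1 := finrank_inf_oc_ge S.nd₀ (oc Q₀ K) u
  have e2 := finrank_span_one_le (F := F₀) u
  have e2' := Submodule.finrank_add_le_finrank_add_finrank K (Submodule.span F₀ {u})
  obtain ⟨w, hwT, hwu, hw⟩ := exists_sing_off (Q := Q₀) (oc Q₀ K ⊓ oc Q₀ (Submodule.span F₀ {u})) (K ⊔ Submodule.span F₀ {u})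
    (by omega)
  have e3 := finrank_span_pair_le (F := F₀) u w
  have e3' := Submodule.finrank_add_le_finrank_add_finrank K (Submodule.span F₀ ({u, w} : Set W))
  obtain ⟨w', hwT', hwu', hw'⟩ := exists_sing_off (Q := Q₀) (oc Q₀ K ⊓ oc Q₀ (Submodule.span F₀ {u}))
    (K ⊔ Submodule.span F₀ ({u, w} : Set W)) (by omega)
  rw [Submodule.mem_inf] at hwT hwT'
  have huT' := mem_oc_pair.1 huT
  have hwT1 := mem_oc_pair.1 hwT.1
  have hwT1' := mem_oc_pair.1 hwT'.1
  have hwT2 := (mem_oc.1 hwT.2) u (Submodule.mem_span_singleton_self u)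
  have hwT2' := (mem_oc.1 hwT'.2) u (Submodule.mem_span_singleton_self u)
  have huu : u ≠ 0 := fun h => hu0 (by rw [h]; exact Submodule.zero_mem _)
  have p1 := hperp u huT'.1 huT'.2
  have p2 := hperp w hwT1.1 hwT1.2
  have p3 := hperp w' hwT1'.1 hwT1'.2
  obtain ⟨c, v, hc, hcv⟩ := S.rat_of_perp T hz ha hb ha0 hba hu hw hw' hwT2 hwT2' p1.1 p1.2 p2.1 p2.2 p3.1 p3.2 (by
    intro x y t hxy
    have h4 := hpl _ hxy
    rw [← og_smul, ← og_smul, ← og_smul, ← og_add, ← og_add, ← og_mul, hzz, og_one] at h4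
    exact S.toRS.ind3 hu0 hwu hwu' h4)
  exact S.rat_inv T h2 hz hu huu hcv

lemma ex_pair (S : RM Q Q₀ e M) {a b : W} {x : V} (h : x ∈ ex F e (Submodule.span F₀ ({a, b} : Set W))) :
    ∃ α β : F, x = α • e a + β • e b := by
  rw [ex] at h
  induction h using Submodule.span_induction with
  | mem y hy =>
    obtain ⟨w, hw, rfl⟩ := hy
    obtain ⟨α, β, rfl⟩ := Submodule.mem_span_pair.mp hw
    exact ⟨α, β, by rw [S.add, S.smul, S.smul]⟩
  | zero => exact ⟨0, 0, by rw [zero_smul, zero_smul, add_zero]⟩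
  | add x y _ _ hx hy =>
    obtain ⟨α, β, rfl⟩ := hx
    obtain ⟨γ, δ, rfl⟩ := hy
    exact ⟨α + γ, β + δ, by module⟩
  | smul c x _ hx =>
    obtain ⟨α, β, rfl⟩ := hx
    exact ⟨c * α, c * β, by module⟩

/-- parity -/
lemma two_le_mov (S : RM Q Q₀ e M) (hrg : RG Q = ⊤) {h : OG Q} (hh : h ∈ EG Q) (h1 : h ≠ 1) :
    2 ≤ Module.finrank F (movS h) := by
  have hdim := S.dim
  have h3 := dg_parity S.hnd (eg_le_dg S.hnd (by omega) hrg hh)
  have h4 := finrank_oc S.hnd (movS h)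
  rw [← fixS_eq_oc S.hnd h] at h4
  have h5 : Module.finrank F (movS h) ≠ 0 := by
    intro h6
    rw [Submodule.finrank_eq_zero] at h6
    apply h1
    apply og_ext
    intro x
    have h7 : h x - x ∈ movS h := by rw [mem_movS]; exact ⟨x, rfl⟩
    rw [h6, Submodule.mem_bot, sub_eq_zero] at h7
    rw [h7, og_one]
  rw [Nat.even_iff] at h3
  omega

lemma iso_mv (S : RM Q Q₀ e M) (h2 : (2 : F) = 0) {z : OG Q} (hzz : z * z = 1) (hr : ∀ v, ∃ w, z (e v) = e w) {r r' : W}
    (h : r ∈ S.toRS.mv hr) (h' : r' ∈ S.toRS.mv hr) : pB Q₀ r r' = 0 := by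
  have hz : ∀ x, z (z x) = x := by
    intro x
    rw [← og_mul, hzz, og_one]
  obtain ⟨v, hv⟩ := (S.toRS.mem_mv hr).1 h
  obtain ⟨v', hv'⟩ := (S.toRS.mem_mv hr).1 h'
  apply Subtype.ext
  rw [← S.toRS.pB, hv, hv', pl_sub, pr_sub, pr_sub, og_p]
  have h3 : pB Q (e v) (z (e v')) = pB Q (z (e v)) (e v') := by
    rw [← og_p z (e v), hz]
  rw [h3]
  show pB Q (e v) (e v') - pB Q (z (e v)) (e v') - (pB Q (z (e v)) (e v') - pB Q (e v) (e v')) = 0
  linear_combination (pB Q (e v) (e v') - pB Q (z (e v)) (e v')) * h2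

/-- singular vectors in a totally isotropic space -/
lemma exists_sing_iso (h20 : (2 : F₀) = 0) {R : Submodule F₀ W} (hR : ∀ r ∈ R, ∀ r' ∈ R, pB Q₀ r r' = 0) {v r : W}
    (hv : v ∈ R) (hr : r ∈ R) (hQ : Q₀ v ≠ 0) : ∃ c : F₀, Q₀ (r - c • v) = 0 := by
  obtain ⟨c, hc⟩ := sq_char_two h20 (Q₀ r / Q₀ v)
  refine ⟨c, ?_⟩
  rw [q_sub, q_smul, pr_smul, hR r hr v hv, ← hc, div_mul_cancel₀ _ hQ]
  linear_combination (Q₀ r) * h20

/-- characteristic two -/
theorem rat_even (S : RM Q Q₀ e M) (T : Tri F Q₀ e M) (h2 : (2 : F) = 0) (hd : 14 ≤ Module.finrank F V) (hrg : RG Q = ⊤)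
    (hME : M ≤ EG Q) {g : OG Q} (hg : g ∈ M) : ∃ μ : F, ∀ v, ∃ w, g (e v) = μ • e w := by
  classical
  have h20 : (2 : F₀) = 0 := by
    apply Subtype.ext
    exact h2
  obtain ⟨a, b, ha, hb, hab, ha0, hba⟩ := S.pair
  obtain ⟨w₀, haw₀, hw₀⟩ : ∃ v, pB Q₀ a v = 0 ∧ Q₀ v ≠ 0 := by
    obtain ⟨x, hax, -, hx, hxS⟩ := S.off2 a a
    obtain ⟨u, hau, -, hu, hux⟩ := S.det2 hxS
    refine ⟨u + x, by rw [pr_add, hau, hax, add_zero], ?_⟩
    rw [q_add, hu, hx, hux]
    simp
  have hQa := S.Q0 ha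
  have hBab := S.B0 hab
  have hBaw := S.B0 haw₀
  set X := eich hQa hBab with hX
  set t := eich hQa hBaw with ht
  have hXM : X ∈ M := S.hM a b ha hab _ _
  have htM : t ∈ M := S.hM a w₀ ha haw₀ _ _
  set y := g * t * g⁻¹ with hy
  have hyM : y ∈ M := mul_mem (mul_mem hg htM) (inv_mem hg)
  have hXX : X * X = 1 := eich_sq h2 _ _
  have htt : t * t = 1 := eich_sq h2 _ _
  have hyy : y * y = 1 := by
    rw [hy]
    have : g * t * g⁻¹ * (g * t * g⁻¹) = g * (t * t) * g⁻¹ := by group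
    rw [this, htt]; group
  have hXa : ∀ s, X s - s = pB Q (e a) s • e b - pB Q (e b) s • e a := by
    intro s
    rw [hX, eich_apply, S.Q0 hb]; module
  have hta : ∀ s, t s - s = pB Q (e a) s • e w₀ + (-(pB Q (e w₀) s) - Q (e w₀) * pB Q (e a) s) • e a := by
    intro s
    rw [ht, eich_apply]; module
  have hw₀a : w₀ ∉ Submodule.span F₀ {a} := by
    intro hm
    obtain ⟨c, rfl⟩ := Submodule.mem_span_singleton.mp hm
    apply hw₀
    rw [q_smul, ha, mul_zero]
  have hQw : Q (e w₀) ≠ 0 := by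
    rw [S.q]
    intro h
    exact hw₀ (by exact_mod_cast h)
  have hn : ∀ m ∈ M, m * X * m⁻¹ ≠ y := by
    intro m _ heq
    -- a vector with `Q (t s - s) ≠ 0`
    obtain ⟨s, -, -, -, hsa⟩ := S.det2 (a := 0) (b := 0) (y := a) (by
      intro h
      have h3 : ({0, 0} : Set W) = {0} := by simp
      rw [h3, Submodule.span_zero_singleton, Submodule.mem_bot] at h
      exact ha0 h)
    have hs : pB Q (e a) (e s) = 1 := by rw [pB_symm, S.toRS.pB, hsa]; rfl
    have hQ1 : Q (t (e s) - e s) = Q (e w₀) := by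
      rw [hta, hs, q_add, q_smul, q_smul, hQa, pl_smul, pr_smul, pB_symm Q (e w₀) (e a), hBaw]; ring
    have hQ2 : Q (y (g (e s)) - g (e s)) = Q (e w₀) := by
      rw [hy, og_mul, og_mul, og_inv, ← og_sub, og_q, hQ1]
    rw [← heq] at hQ2
    have hQ3 : Q ((m * X * m⁻¹ : OG Q) (g (e s)) - g (e s)) = 0 := by
      have h3 : (m * X * m⁻¹ : OG Q) (g (e s)) - g (e s) =
          m (X ((m⁻¹ : OG Q) (g (e s))) - (m⁻¹ : OG Q) (g (e s))) := by
        rw [og_sub, og_inv', og_mul, og_mul]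
      rw [h3, og_q, hXa, q_sub, q_smul, q_smul, S.Q0 hb, hQa, pl_smul, pr_smul, pB_symm Q (e b) (e a), hBab]; ring
    rw [hQ3] at hQ2
    exact hQw hQ2.symm
  have hVfin : Finite V := Module.finite_of_finite F
  have hOfin : Finite (OG Q) := Finite.of_injective (fun g : OG Q => (fun v => g v))
    (fun g h hgh => og_ext (fun v => congrFun hgh v))
  obtain ⟨k, hzz, hz1, hzX, hzy⟩ := exists_central_involution hXM hyM hXX hyy hn
  have hmov1 := movS_pow X y k
  set z := (X * y) ^ k with hz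
  have hzM : z ∈ M := M.pow_mem (M.mul_mem hXM hyM) k
  clear_value z
  -- rationality
  have hr : ∀ v, ∃ w, z (e v) = e w := S.rat_comm_root T h2 hd hzM hzz ha hb hab ha0 hba (fun h1 h3 => hzX)
  set z' := g⁻¹ * z * g with hz'
  have hz'M : z' ∈ M := mul_mem (mul_mem (inv_mem hg) hzM) hg
  have hz'z' : z' * z' = 1 := by
    rw [hz']
    have : g⁻¹ * z * g * (g⁻¹ * z * g) = g⁻¹ * (z * z) * g := by group
    rw [this, hzz]; group
  have hz'1 : z' ≠ 1 := by
    intro h
    apply hz1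
    have : z = g * z' * g⁻¹ := by rw [hz']; group
    rw [this, h]; group
  have hz't : z' * t = t * z' := by
    have h3 : t = g⁻¹ * y * g := by rw [hy]; group
    rw [h3, hz']
    have h4 : g⁻¹ * z * g * (g⁻¹ * y * g) = g⁻¹ * (z * y) * g := by group
    have h5 : g⁻¹ * y * g * (g⁻¹ * z * g) = g⁻¹ * (y * z) * g := by group
    rw [h4, h5, hzy]
  have hz'a : ∃ γ : F, z' (e a) = γ • e a := by
    obtain ⟨u, hau, -, -, huw⟩ := S.det2 (a := a) (b := a) (y := w₀) (by simpa using hw₀a)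
    have hs : e a = t (-e u) - (-e u) := by
      rw [hta, pr_neg, pr_neg, S.B0 hau, pB_symm Q (e w₀), S.toRS.pB u w₀, huw, OneMemClass.coe_one]; module
    have h3 : z' (e a) = t (z' (-e u)) - z' (-e u) := by
      conv_lhs => rw [hs]
      rw [og_sub, ← og_mul, hz't, og_mul]
    have h4 : Q (z' (e a)) = 0 := by rw [og_q]; exact hQa
    rw [h3, hta, q_add, q_smul, q_smul, hQa, pl_smul, pr_smul, pB_symm Q (e w₀) (e a), hBaw] at h4
    have h5 : pB Q (e a) (z' (-e u)) = 0 := by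
      have h6 : pB Q (e a) (z' (-e u)) * pB Q (e a) (z' (-e u)) * Q (e w₀) = 0 := by linear_combination h4
      exact mul_self_eq_zero.mp ((mul_eq_zero.mp h6).resolve_right hQw)
    rw [h3, hta, h5, zero_smul, zero_add]
    exact ⟨_, rfl⟩
  obtain ⟨γ, hγ⟩ := hz'a
  have hr' : ∀ v, ∃ w, z' (e v) = e w := S.rat_inv T h2 hz'M ha ha0 hγ
  have hconj : g * z' = z * g := by rw [hz']; group
  -- dimensions
  have hmz : Module.finrank F (movS z) ≤ 4 := by
    have h3 : movS X ≤ Submodule.span F ({e a, e b} : Set V) := by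
      intro x hx
      rw [mem_movS] at hx
      obtain ⟨s, rfl⟩ := hx
      rw [hXa]
      exact Submodule.sub_mem _ (Submodule.smul_mem _ _ (Submodule.subset_span (by simp)))
        (Submodule.smul_mem _ _ (Submodule.subset_span (by simp)))
    have h4 : movS y ≤ Submodule.span F ({g (e a), g (e w₀)} : Set V) := by
      intro x hx
      rw [mem_movS] at hx
      obtain ⟨s, rfl⟩ := hx
      have h5 : y s - s = g (t ((g⁻¹ : OG Q) s) - (g⁻¹ : OG Q) s) := by
        rw [og_sub, og_inv', hy, og_mul, og_mul]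
      rw [h5, hta, og_add, og_smul, og_smul]
      exact Submodule.add_mem _ (Submodule.smul_mem _ _ (Submodule.subset_span (by simp)))
        (Submodule.smul_mem _ _ (Submodule.subset_span (by simp)))
    have h5 := Submodule.finrank_mono h3
    have h6 := Submodule.finrank_mono h4
    have h7 := finrank_span_pair_le (F := F) (e a) (e b)
    have h8 := finrank_span_pair_le (F := F) (g (e a)) (g (e w₀))
    have h9 := Submodule.finrank_mono hmov1
    have h10 := Submodule.finrank_add_le_finrank_add_finrank (movS X) (movS y)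
    omega
  have hmz' : Module.finrank F (movS z') ≤ 4 := by
    have h3 : movS z' ≤ (movS z).map (g⁻¹ : OG Q).1.toLinearMap := by
      intro x hx
      rw [mem_movS] at hx
      obtain ⟨s, rfl⟩ := hx
      refine ⟨z (g s) - g s, ?_, ?_⟩
      · rw [SetLike.mem_coe, mem_movS]; exact ⟨_, rfl⟩
      · show (g⁻¹ : OG Q) (z (g s) - g s) = z' s - s
        rw [og_sub, og_inv, hz', og_mul, og_mul]
    exact (Submodule.finrank_mono h3).trans ((Submodule.finrank_map_le _ _).trans hmz)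
  have hR2 := S.two_le_mov hrg (hME hzM) hz1
  have hR'2 := S.two_le_mov hrg (hME hz'M) hz'1
  rw [← S.toRS.fr_mv hr] at hmz hR2
  rw [← S.toRS.fr_mv hr'] at hmz' hR'2
  have hfr := S.toRS.fr_fx hr'
  have hd0 : 14 ≤ Module.finrank F₀ W := by rw [S.fr]; exact hd
  -- singular vectors
  have hsing : ∀ {h : OG Q} (hh : h * h = 1) (hr : ∀ v, ∃ w, h (e v) = e w), 2 ≤ Module.finrank F₀ (S.toRS.mv hr) →
      ∃ a₁ ∈ S.toRS.mv hr, a₁ ≠ 0 ∧ Q₀ a₁ = 0 := by
    intro h hh hr h3
    have h4 : S.toRS.mv hr ≠ ⊥ := by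
      intro h5
      rw [h5, finrank_bot] at h3
      omega
    obtain ⟨r, hrR, hr0⟩ := (Submodule.ne_bot_iff _).mp h4
    by_cases hQr : Q₀ r = 0
    · exact ⟨r, hrR, hr0, hQr⟩
    obtain ⟨r₂, hr₂, hr₂n⟩ : ∃ r₂ ∈ S.toRS.mv hr, r₂ ∉ Submodule.span F₀ {r} := by
      by_contra hcon
      push Not at hcon
      have h5 := Submodule.finrank_mono (show S.toRS.mv hr ≤ Submodule.span F₀ {r} from fun x hx => hcon x hx)
      have h6 := finrank_span_one_le (F := F₀) r
      omega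
    obtain ⟨c, hc⟩ := exists_sing_iso h20 (fun x hx y hy => S.iso_mv h2 hh hr hx hy) hrR hr₂ hQr
    refine ⟨r₂ - c • r, Submodule.sub_mem _ hr₂ (Submodule.smul_mem _ _ hrR), ?_, hc⟩
    intro h5
    apply hr₂n
    rw [sub_eq_zero.mp h5]
    exact Submodule.smul_mem _ _ (Submodule.mem_span_singleton_self r)
  obtain ⟨a₁, ha₁R, ha₁0, ha₁⟩ := hsing hzz hr hR2
  obtain ⟨a₂, ha₂R, ha₂0, ha₂⟩ := hsing hz'z' hr' hR'2
  by_cases hcase : ∃ b₁ ∈ S.toRS.mv hr, Q₀ b₁ = 0 ∧ b₁ ∉ Submodule.span F₀ {a₁}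
  · obtain ⟨b₁, hb₁R, hb₁, hb₁a⟩ := hcase
    set R' := S.toRS.mv hr' with hR'
    set T' := S.toRS.fx hr' with hT'
    obtain ⟨u, huT, hu0, hu⟩ := exists_sing_off (Q := Q₀) T' R' (by omega)
    have e1 := finrank_inf_oc_ge S.nd₀ T' u
    have e2 := finrank_span_one_le (F := F₀) u
    have e2' := Submodule.finrank_add_le_finrank_add_finrank R' (Submodule.span F₀ {u})
    obtain ⟨w, hwT, hwu, hw⟩ := exists_sing_off (Q := Q₀) (T' ⊓ oc Q₀ (Submodule.span F₀ {u})) (R' ⊔ Submodule.span F₀ {u})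
      (by omega)
    have e3 := finrank_span_pair_le (F := F₀) u w
    have e3' := Submodule.finrank_add_le_finrank_add_finrank R' (Submodule.span F₀ ({u, w} : Set W))
    obtain ⟨w', hwT', hwu', hw'⟩ := exists_sing_off (Q := Q₀) (T' ⊓ oc Q₀ (Submodule.span F₀ {u}))
      (R' ⊔ Submodule.span F₀ ({u, w} : Set W)) (by omega)
    rw [Submodule.mem_inf] at hwT hwT'
    have hwT2 := (mem_oc.1 hwT.2) u (Submodule.mem_span_singleton_self u)
    have hwT2' := (mem_oc.1 hwT'.2) u (Submodule.mem_span_singleton_self u)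
    have huu : u ≠ 0 := fun h => hu0 (by rw [h]; exact Submodule.zero_mem _)
    obtain ⟨c, v, hc, hcv⟩ := S.rat_of_conj T hg hconj hr hr' ha₁ hb₁ ha₁0 hb₁a ha₁R hb₁R hu hw hw' hwT2 hwT2' huT hwT.1 hwT'.1
      (fun x y t hx => S.toRS.ind3 hu0 hwu hwu' hx)
    exact ⟨c, S.all_rat T hg hu huu hcv⟩
  · push Not at hcase
    obtain ⟨v₁, hv₁R, hv₁n⟩ : ∃ r₂ ∈ S.toRS.mv hr, r₂ ∉ Submodule.span F₀ {a₁} := by
      by_contra hcon
      push Not at hcon
      have h5 := Submodule.finrank_mono (show S.toRS.mv hr ≤ Submodule.span F₀ {a₁} from fun x hx => hcon x hx)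
      have h6 := finrank_span_one_le (F := F₀) a₁
      omega
    have hQv : Q₀ v₁ ≠ 0 := fun h => hv₁n (hcase v₁ hv₁R h)
    have hle : S.toRS.mv hr ≤ Submodule.span F₀ ({a₁, v₁} : Set W) := by
      intro r hrr
      obtain ⟨c, hc⟩ := exists_sing_iso h20 (fun x hx y hy => S.iso_mv h2 hzz hr hx hy) hv₁R hrr hQv
      have h3 := hcase _ (Submodule.sub_mem _ hrr (Submodule.smul_mem _ _ hv₁R)) hc
      obtain ⟨s, hs⟩ := Submodule.mem_span_singleton.mp h3
      rw [Submodule.mem_span_pair]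
      exact ⟨s, c, by rw [hs]; abel⟩
    have h3 : g (e a₂) ∈ ex F e (S.toRS.mv hr) := by
      rw [S.toRS.ex_mv, mem_movS]
      obtain ⟨s, hs⟩ := (S.toRS.mem_mv hr').1 ha₂R
      refine ⟨g (e s), ?_⟩
      rw [hs, og_sub, ← og_mul g z', hconj, og_mul]
    obtain ⟨α, β, hαβ⟩ := S.ex_pair (RS.ex_mono e hle h3)
    have h4 : Q (g (e a₂)) = 0 := by rw [og_q]; exact S.Q0 ha₂
    have hav : pB Q (e a₁) (e v₁) = 0 := S.B0 (S.iso_mv h2 hzz hr ha₁R hv₁R)
    have hQv' : Q (e v₁) ≠ 0 := by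
      rw [S.q]
      intro h
      exact hQv (by exact_mod_cast h)
    rw [hαβ, q_add, q_smul, q_smul, S.Q0 ha₁, pl_smul, pr_smul, hav] at h4
    have h5 : β = 0 := by
      have h6 : β * β * Q (e v₁) = 0 := by linear_combination h4
      exact mul_self_eq_zero.mp ((mul_eq_zero.mp h6).resolve_right hQv')
    rw [h5, zero_smul, add_zero] at hαβ
    exact ⟨α, S.all_rat T hg ha₂ ha₂0 hαβ⟩

end RM

end Cfsg.Agent.H12
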