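import Cfsg.Agent.H12.RSub6
import Cfsg.Agent.H12.OmTS2

/-!
Subfield subgroups of orthogonal groups are maximal.
-/

set_option autoImplicit false
set_option linter.unusedSectionVars false

namespace Cfsg.Agent.H12

open Matrix Cfsg Cfsg.Agent.H5

section abs

variable {F : Type*} [Field F] [Finite F] {F₀ : Subfield F} {V : Type*} [AddCommGroup V] [Module F V] [FiniteDimensional F V]
  {W : Type*} [AddCommGroup W] [Module F₀ W] [FiniteDimensional F₀ W] {Q : QuadraticForm F V} {Q₀ : QuadraticForm F₀ W}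
  {e : W → V} {M : Subgroup (OG Q)}

theorem rs_maximal (S : RS Q Q₀ e) (hfin : (Module.finrank F₀ F).Prime) (hrg : RG Q = ⊤)
    (hcase : (2 : F) ≠ 0 ∨ 14 ≤ Module.finrank F V) (X : Subgroup (OG Q))
    (hX1 : ∀ g ∈ X, ∀ v, ∃ (c : F) (w : W), g (e v) = c • e w)
    (hX2 : ∀ g : OG Q, (∀ v, ∃ (c : F) (w : W), g (e v) = c • e w) → g ∈ X) :
    Geo.IsMaximalIn (EG Q) (X ⊓ EG Q) := by
  -- Siegel elements
  have hM : ∀ M : Subgroup (OG Q), X ⊓ EG Q ≤ M → RM Q Q₀ e M := by
    intro M hXM
    refine ⟨S, fun a y ha hay hQ hB => hXM (Subgroup.mem_inf.2 ⟨hX2 _ (fun v => ?_), eg_mem _ _⟩)⟩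
    refine ⟨1, v + pB Q₀ a v • y - pB Q₀ y v • a - (Q₀ y * pB Q₀ a v) • a, ?_⟩
    rw [one_smul, eich_apply, S.sub, S.sub, S.add, S.smul, S.smul, S.smul, S.pB, S.pB, S.q]
    push_cast
    rfl
  refine ⟨lt_of_le_of_ne inf_le_right ?_, ?_⟩
  · intro heq
    have S' := hM ⊤ le_top
    -- a scalar outside the subfield
    obtain ⟨s, hs⟩ : ∃ s : F, s ∉ F₀ := by
      by_contra hcon
      push Not at hcon
      have h1 : Module.finrank F₀ F = 1 := by
        rw [finrank_eq_one_iff_of_nonzero' (1 : F) one_ne_zero]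
        intro w
        exact ⟨⟨w, hcon w⟩, by
          show w * 1 = w
          rw [mul_one]⟩
      rw [h1] at hfin
      exact Nat.not_prime_one hfin
    obtain ⟨a, y, ha, hy, hay, ha0, hya⟩ := S'.pair
    have hQa := S'.Q0 ha
    have hB : pB Q (e a) (s • e y) = 0 := by rw [pr_smul, S'.B0 hay, mul_zero]
    have h1 : eich hQa hB ∈ X ⊓ EG Q := by rw [heq]; exact eg_mem _ _
    have hy0 : y ≠ 0 := by rintro rfl; exact hya (Submodule.zero_mem _)
    obtain ⟨v, hyv, -, -, hva⟩ := S'.det2 (a := y) (b := y) (y := a) (by simpa using notMem_single_of ha0 hya)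
    obtain ⟨c, w, hcw⟩ := hX1 _ (Subgroup.mem_inf.1 h1).1 v
    rw [eich_apply, q_smul, S'.Q0 hy, pl_smul, S'.B0 hyv, pB_symm Q (e a), S.pB v a, hva, OneMemClass.coe_one] at hcw
    have hcw' : e v + s • e y = c • e w := by rw [← hcw]; module
    have hvy : v ∉ Submodule.span F₀ {y} := by
      intro hm
      obtain ⟨t, rfl⟩ := Submodule.mem_span_singleton.mp hm
      rw [pl_smul, pB_symm Q₀ y a, hay, mul_zero] at hva
      exact zero_ne_one hva
    obtain ⟨d, hyd, -, -, hdv⟩ := S'.det2 (a := y) (b := y) (y := v) (by simpa using hvy)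
    obtain ⟨d', hvd', -, -, hdy'⟩ := S'.det2 (a := v) (b := v) (y := y) (by simpa using notMem_single_of hy0 hvy)
    have e1 := congrArg (fun x => pB Q (e d) x) hcw'
    have e2 := congrArg (fun x => pB Q (e d') x) hcw'
    beta_reduce at e1 e2
    have hdy : pB Q₀ d y = 0 := by rw [pB_symm]; exact hyd
    have hdv' : pB Q₀ d' v = 0 := by rw [pB_symm]; exact hvd'
    rw [pr_add, pr_smul, pr_smul, S'.B0 hdy, S.pB d v, hdv, OneMemClass.coe_one, mul_zero, add_zero, S.pB] at e1
    rw [pr_add, pr_smul, pr_smul, S'.B0 hdv', S.pB d' y, hdy', OneMemClass.coe_one, mul_one, zero_add, S.pB] at e2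
    apply hs
    have h0 : (pB Q₀ d w : F) ≠ 0 := by
      intro h0
      rw [h0, mul_zero] at e1
      exact one_ne_zero e1
    have h3 : s = ((pB Q₀ d' w / pB Q₀ d w : F₀) : F) := by
      push_cast
      rw [eq_div_iff h0, e2]
      linear_combination -(pB Q₀ d' w : F) * e1
    rw [h3]
    exact SetLike.coe_mem _
  · intro M hXM hME
    have S' := hM M hXM
    rcases S'.dicho hfin with T | htop
    · left
      apply le_antisymm _ hXM
      refine le_inf ?_ hME
      intro g hg
      apply hX2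
      have h1 : ∃ μ : F, ∀ v, ∃ w, g (e v) = μ • e w := by
        by_cases h2 : (2 : F) = 0
        · rcases hcase with h3 | h3
          · exact absurd h2 h3
          · exact S'.rat_even T h2 h3 hrg hME hg
        · exact S'.rat_odd T h2 hg
      obtain ⟨μ, hμ⟩ := h1
      intro v
      obtain ⟨w, hw⟩ := hμ v
      exact ⟨μ, w, hw⟩
    · right
      exact le_antisymm hME htop

end abs

section mat

variable {F : Type*} [Field F] [Fintype F] {ι : Type} [Fintype ι] [DecidableEq ι] {F₀ : Subfield F}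

/-- the rational quadratic form -/
noncomputable def ratQ (q : QuadraticForm F (ι → F)) (P : GL ι F) (hP : Geo.IsQuadFormRationalStructure (⇑q) F₀ P) :
    QuadraticForm F₀ (ι → F₀) :=
  QuadraticMap.ofPolar (fun w => ⟨q (emb P w), hP _ (fun i => SetLike.coe_mem _)⟩)
    (fun a x => by
      apply Subtype.ext
      show q (emb P (a • x)) = ((a * a : F₀) : F) * q (emb P x)
      rw [emb_smul, q_smul]
      push_cast
      rfl)
    (fun x x' y => by
      apply Subtype.ext
      show q (emb P (x + x' + y)) - q (emb P (x + x')) - q (emb P y) =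
        (q (emb P (x + y)) - q (emb P x) - q (emb P y)) + (q (emb P (x' + y)) - q (emb P x') - q (emb P y))
      simp only [emb_add, q_add, pl_add]
      ring)
    (fun a x y => by
      apply Subtype.ext
      show q (emb P (a • x + y)) - q (emb P (a • x)) - q (emb P y) =
        (a : F) * (q (emb P (x + y)) - q (emb P x) - q (emb P y))
      simp only [emb_add, q_add, emb_smul, pl_smul]
      ring)

lemma ratQ_coe (q : QuadraticForm F (ι → F)) (P : GL ι F) (hP : Geo.IsQuadFormRationalStructure (⇑q) F₀ P) (w : ι → F₀) :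
    q (emb P w) = (ratQ q P hP w : F) := rfl

theorem rs_of {q : QuadraticForm F (ι → F)} (hnd : ND q) (hd : 13 ≤ Fintype.card ι) (P : GL ι F)
    (hP : Geo.IsQuadFormRationalStructure (⇑q) F₀ P) : RS q (ratQ q P hP) (emb P) where
  hnd := hnd
  add := emb_add P
  smul := emb_smul P
  q := ratQ_coe q P hP
  span := by
    rw [eq_top_iff]
    intro x _
    obtain ⟨c, hc⟩ := exists_emb_comb (F₀ := F₀) P x
    rw [hc]
    exact Submodule.sum_mem _ (fun j _ => Submodule.smul_mem _ _ (Submodule.subset_span ⟨_, rfl⟩))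
  fr := by rw [Module.finrank_fintype_fun_eq_card, Module.finrank_fintype_fun_eq_card]
  dim := by rw [Module.finrank_fintype_fun_eq_card]; exact hd

theorem sub_maximal {q : QuadraticForm F (ι → F)} (hnd : ND q) (hd : 13 ≤ Fintype.card ι)
    (hcase : (2 : F) ≠ 0 ∨ 14 ≤ Fintype.card ι) {r : ℕ} (hr : r.Prime) (hcard : Fintype.card F = Nat.card F₀ ^ r) (P : GL ι F)
    (hP : Geo.IsQuadFormRationalStructure (⇑q) F₀ P) :
    Geo.IsMaximalIn (Geo.omegaGL (⇑q)) (Geo.subfieldSubgroup F₀ P ⊓ Geo.omegaGL (⇑q)) := by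
  have hfr : Module.finrank F (ι → F) = Fintype.card ι := Module.finrank_fintype_fun_eq_card F
  apply maxIn_of hnd (by omega)
  have S := rs_of hnd hd P hP
  apply rs_maximal S
  · rw [finrank_sub hcard]; exact hr
  · exact rg_top hnd (fun _ => by omega)
  · rw [hfr]; exact hcase
  · intro g hg v
    rw [Subgroup.mem_comap, mem_subfield_iff] at hg
    obtain ⟨g₀, c, -, hc⟩ := hg
    refine ⟨c, (g₀ : Matrix ι ι F₀) *ᵥ v, ?_⟩
    rw [← hc v, ogGL_apply]
  · intro g hg
    rw [Subgroup.mem_comap]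
    apply mem_subfield_of_lines
    intro u
    obtain ⟨c, w, hw⟩ := hg u
    exact ⟨c, w, by rw [ogGL_apply]; exact hw⟩

end mat

end Cfsg.Agent.H12
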