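import Cfsg.Agent.H12.SimInv4
import Cfsg.Agent.H12.Subfield

/-! Involutions and subfield groups (helper12). -/

set_option autoImplicit false

namespace Cfsg.Agent.H12.SFI

open Matrix Module Cfsg.Geo

variable {F : Type*} [Field F] {n : ℕ}

theorem mem_sub_of {F₀ : Subfield F} {g : GL (Fin n) F} {c : F} (hc : c ≠ 0)
    {A : Matrix (Fin n) (Fin n) F₀}
    (h : (g : Matrix (Fin n) (Fin n) F) = c • A.map (F₀.subtype)) :
    g ∈ subfieldSubgroup F₀ (1 : GL (Fin n) F) := by
  rw [mem_subfield_iff]
  have hdet : A.det ≠ 0 := by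
    intro h0
    have h1 : ((g : Matrix (Fin n) (Fin n) F)).det ≠ 0 :=
      ((Matrix.isUnit_iff_isUnit_det _).1 g.isUnit).ne_zero
    apply h1
    rw [h, Matrix.det_smul]
    have h2 : (A.map F₀.subtype).det = F₀.subtype A.det := (RingHom.map_det F₀.subtype A).symm
    rw [h2, h0, map_zero, mul_zero]
  have hu : IsUnit A := (Matrix.isUnit_iff_isUnit_det _).2 hdet.isUnit
  obtain ⟨g₀, hg₀⟩ := hu
  refine ⟨g₀, c, hc, ?_⟩
  intro u
  simp only [emb]
  rw [hg₀, cov_mulVec, h, Matrix.smul_mulVec]
  simp

theorem of_mem_sub {F₀ : Subfield F} {g : GL (Fin n) F}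
    (hg : g ∈ subfieldSubgroup F₀ (1 : GL (Fin n) F)) : ∃ (c : F) (A : Matrix (Fin n) (Fin n) F₀),
      c ≠ 0 ∧ (g : Matrix (Fin n) (Fin n) F) = c • A.map (F₀.subtype) := by
  rw [mem_subfield_iff] at hg
  obtain ⟨g₀, c, hc, h⟩ := hg
  refine ⟨c, g₀, hc, ?_⟩
  ext i j
  have h1 := congrFun (h (Pi.single j 1)) i
  simp only [emb, Units.val_one, Matrix.one_mulVec] at h1
  rw [cov_mulVec] at h1
  have h2 : (cov (Pi.single j (1 : F₀)) : Fin n → F) = Pi.single j 1 := by
    ext k
    simp only [cov]
    by_cases hk : k = j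
    · subst hk; simp
    · rw [Pi.single_eq_of_ne hk, Pi.single_eq_of_ne hk]; rfl
  rw [h2] at h1
  simpa using h1

/-- monomial normal form -/
theorem nf_conj [Fintype F] (hn : 0 < n) (F₀ : Subfield F) (X : Matrix.SpecialLinearGroup (Fin n) F)
    {c : F} (hc : c ≠ 0) {κ : Type} [Fintype κ] [DecidableEq κ] (b : Basis κ F (Fin n → F)) (π : κ → κ)
    (hπ : ∀ k, π (π k) = k) (η : κ → F) (hη : ∀ k, η k = 1 ∨ η k = -1)
    (hx : ∀ k, (X : Matrix (Fin n) (Fin n) F) *ᵥ (b k) = (c * η k) • b (π k))
    (hfix : (∀ k, π k = k) ∨ (2 : F) = 0) :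
    ∃ P : Matrix.SpecialLinearGroup (Fin n) F, P⁻¹ * X * P ∈ (subfieldSubgroup F₀ (1 : GL (Fin n) F)).comap
      (Matrix.SpecialLinearGroup.toGL : Matrix.SpecialLinearGroup (Fin n) F →* GL (Fin n) F) := by
  classical
  have hcard : Fintype.card κ = n := by
    rw [← Module.finrank_eq_card_basis b]; exact Module.finrank_fin_fun F
  let e : Fin n ≃ κ := Fintype.equivOfCardEq (by rw [hcard, Fintype.card_fin])
  obtain ⟨k0⟩ : Nonempty κ := ⟨e ⟨0, hn⟩⟩
  let G : Matrix (Fin n) (Fin n) F := Matrix.of fun i j => b (e j) i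
  have hG : IsUnit G := by
    rw [← Matrix.linearIndependent_cols_iff_isUnit]
    exact b.linearIndependent.comp e e.injective
  have hGd : G.det ≠ 0 := ((Matrix.isUnit_iff_isUnit_det _).1 hG).ne_zero
  -- the commuting element
  obtain ⟨u, hu1, hu2⟩ : ∃ u : κ → F, (∀ k, u (π k) = u k) ∧ ∏ k, u k = G.det⁻¹ := by
    by_cases h : π k0 = k0
    · refine ⟨fun k => if k = k0 then G.det⁻¹ else 1, ?_, ?_⟩
      · intro k
        have : π k = k0 ↔ k = k0 := by
          constructor
          · intro h1; rw [← hπ k, h1, h]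
          · rintro rfl; exact h
        simp only [this]
      · rw [Finset.prod_ite_eq', if_pos (Finset.mem_univ _)]
    · have h2 : (2 : F) = 0 := by
        rcases hfix with h3 | h3
        · exact absurd (h3 k0) h
        · exact h3
      have hr : ringChar F = 2 := by
        have h4 : ringChar F ∣ 2 := (ringChar.spec F 2).1 (by exact_mod_cast h2)
        rcases (Nat.dvd_prime Nat.prime_two).1 h4 with h5 | h5
        · exfalso
          have h6 : ((ringChar F : ℕ) : F) = 0 := ringChar.Nat.cast_ringChar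
          rw [h5, Nat.cast_one] at h6
          exact one_ne_zero h6
        · exact h5
      obtain ⟨s, hs⟩ := FiniteField.isSquare_of_char_two hr G.det⁻¹
      refine ⟨fun k => if k ∈ ({k0, π k0} : Finset κ) then s else 1, ?_, ?_⟩
      · intro k
        have : π k ∈ ({k0, π k0} : Finset κ) ↔ k ∈ ({k0, π k0} : Finset κ) := by
          simp only [Finset.mem_insert, Finset.mem_singleton]
          constructor
          · rintro (h1 | h1)
            · right; rw [← h1, hπ]
            · left; rw [← hπ k, h1, hπ]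
          · rintro (h1 | h1)
            · right; rw [h1]
            · left; rw [h1, hπ]
        simp only [this]
      · rw [Finset.prod_ite, Finset.prod_const_one, mul_one, Finset.prod_const,
          Finset.filter_mem_eq_inter, Finset.univ_inter, Finset.card_pair (fun h1 => h h1.symm), hs, pow_two]
  let D := Matrix.toLin b b (Matrix.diagonal u)
  have hD : ∀ k, D (b k) = u k • b k := by
    intro k
    simp only [D, Matrix.toLin_self, Matrix.diagonal_apply]
    rw [Finset.sum_eq_single k]
    · simp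
    · intro l _ hl; simp [hl]
    · intro h; exact absurd (Finset.mem_univ _) h
  have hDdet : LinearMap.det D = G.det⁻¹ := by
    simp only [D]; rw [LinearMap.det_toLin, Matrix.det_diagonal, hu2]
  have hDX : D ∘ₗ Matrix.toLin' (X : Matrix (Fin n) (Fin n) F) =
      Matrix.toLin' (X : Matrix (Fin n) (Fin n) F) ∘ₗ D := by
    apply b.ext
    intro k
    simp only [LinearMap.comp_apply]
    rw [hD, map_smul, Matrix.toLin'_apply, hx, map_smul, hD, hu1, smul_comm]
  let Dm := LinearMap.toMatrix' D
  have hDm : Dm * (X : Matrix (Fin n) (Fin n) F) = (X : Matrix (Fin n) (Fin n) F) * Dm := by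
    apply Matrix.toLin'.injective
    rw [Matrix.toLin'_mul, Matrix.toLin'_mul]
    simp only [Dm, Matrix.toLin'_toMatrix']
    exact hDX
  have hDmd : Dm.det = G.det⁻¹ := by
    simp only [Dm]; rw [LinearMap.det_toMatrix']; exact hDdet
  have hDu : IsUnit Dm := by
    rw [Matrix.isUnit_iff_isUnit_det, hDmd]; exact (inv_ne_zero hGd).isUnit
  -- the rational matrix
  let η₀ : κ → F₀ := fun k => if η k = 1 then 1 else -1
  have hη₀ : ∀ k, (η₀ k : F) = η k := by
    intro k
    simp only [η₀]
    rcases hη k with h | h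
    · rw [if_pos h, h]; rfl
    · by_cases h1 : η k = 1
      · rw [if_pos h1, h1]; rfl
      · rw [if_neg h1, h]; simp
  let A : Matrix (Fin n) (Fin n) F₀ := Matrix.of fun i j => if i = e.symm (π (e j)) then η₀ (e j) else 0
  have hXG : (X : Matrix (Fin n) (Fin n) F) * G = G * (c • A.map F₀.subtype) := by
    ext i j
    have h1 : ((X : Matrix (Fin n) (Fin n) F) * G) i j = ((X : Matrix (Fin n) (Fin n) F) *ᵥ (b (e j))) i := rfl
    rw [h1, hx, Matrix.mul_apply, Finset.sum_eq_single (e.symm (π (e j)))]
    · simp only [G, A, Matrix.of_apply, Matrix.smul_apply, Matrix.map_apply, if_true, Pi.smul_apply,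
        smul_eq_mul, Equiv.apply_symm_apply]
      change _ = _ * (c * (η₀ (e j) : F))
      rw [hη₀]; ring
    · intro l _ hl
      simp only [A, Matrix.of_apply, Matrix.smul_apply, Matrix.map_apply, if_neg hl, map_zero, smul_zero,
        mul_zero]
    · intro h; exact absurd (Finset.mem_univ _) h
  let P : Matrix.SpecialLinearGroup (Fin n) F := ⟨Dm * G, by
    rw [Matrix.det_mul, hDmd, inv_mul_cancel₀ hGd]⟩
  refine ⟨P, ?_⟩
  rw [Subgroup.mem_comap]
  set Y := P⁻¹ * X * P with hY
  have hPY : P * Y = X * P := by rw [hY]; group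
  have h1 : Dm * G * (Y : Matrix (Fin n) (Fin n) F) = (X : Matrix (Fin n) (Fin n) F) * (Dm * G) := by
    have := congrArg (fun z : Matrix.SpecialLinearGroup (Fin n) F => (z : Matrix (Fin n) (Fin n) F)) hPY
    simpa using this
  have h2 : G * (Y : Matrix (Fin n) (Fin n) F) = (X : Matrix (Fin n) (Fin n) F) * G := by
    apply hDu.mul_left_cancel
    rw [← mul_assoc, h1, ← mul_assoc, ← hDm, mul_assoc]
  apply mem_sub_of hc (A := A)
  change (Y : Matrix (Fin n) (Fin n) F) = _
  apply hG.mul_left_cancel
  rw [h2, hXG]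

theorem sq_case [Fintype F] (hn : 0 < n) (F₀ : Subfield F) (X : Matrix.SpecialLinearGroup (Fin n) F)
    {c : F} (hc : c ≠ 0)
    (hz : ((X ^ 2 : Matrix.SpecialLinearGroup (Fin n) F) : Matrix (Fin n) (Fin n) F) =
      (c * c) • (1 : Matrix (Fin n) (Fin n) F)) :
    ∃ P : Matrix.SpecialLinearGroup (Fin n) F, P⁻¹ * X * P ∈ (subfieldSubgroup F₀ (1 : GL (Fin n) F)).comap
      (Matrix.SpecialLinearGroup.toGL : Matrix.SpecialLinearGroup (Fin n) F →* GL (Fin n) F) := by
  classical
  have hxx : ∀ v, Matrix.toLin' (X : Matrix (Fin n) (Fin n) F) (Matrix.toLin' (X : Matrix (Fin n) (Fin n) F) v) = (c * c) • v := by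
    intro v
    rw [Matrix.toLin'_apply, Matrix.toLin'_apply, Matrix.mulVec_mulVec, ← Matrix.SpecialLinearGroup.coe_mul,
      ← pow_two, hz, Matrix.smul_mulVec, Matrix.one_mulVec]
  have hfin : finrank F (Fin n → F) = n := Module.finrank_fin_fun F
  by_cases h2 : (2 : F) = 0
  · have hr : ringChar F = 2 := by
      have h4 : ringChar F ∣ 2 := (ringChar.spec F 2).1 (by exact_mod_cast h2)
      rcases (Nat.dvd_prime Nat.prime_two).1 h4 with h5 | h5
      · exfalso
        have h6 : ((ringChar F : ℕ) : F) = 0 := ringChar.Nat.cast_ringChar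
        rw [h5, Nat.cast_one] at h6
        exact one_ne_zero h6
      · exact h5
    obtain ⟨κ0, i0, b, π, hπ, hco⟩ := mono_basis n hfin (Matrix.toLin' (X : Matrix (Fin n) (Fin n) F)) (c * c)
      (mul_ne_zero hc hc) hxx
    choose co hco using hco
    have hcc : ∀ k, co k * co (π k) = c * c := by
      intro k
      have h1 := hxx (b k)
      rw [hco, map_smul, hco, hπ, smul_smul] at h1
      have h2 := congrArg (fun v => b.repr v k) h1
      simpa using h2
    have hco0 : ∀ k, co k ≠ 0 := by
      intro k h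
      have := hcc k
      rw [h, zero_mul] at this
      exact mul_ne_zero hc hc this.symm
    have hsq : ∀ k, ∃ s : F, s * s = co (π k) / c := by
      intro k
      obtain ⟨s, hs⟩ := FiniteField.isSquare_of_char_two hr (co (π k) / c)
      exact ⟨s, hs.symm⟩
    choose u hu using hsq
    have hu0 : ∀ k, u k ≠ 0 := by
      intro k h
      have := hu k
      rw [h, zero_mul] at this
      exact div_ne_zero (hco0 _) hc this.symm
    let b' := b.unitsSMul (fun k => Units.mk0 (u k) (hu0 k))
    have hb' : ∀ k, b' k = u k • b k := by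
      intro k; simp only [b', Basis.unitsSMul_apply]; rfl
    apply nf_conj hn F₀ X hc b' π hπ (fun _ => 1) (fun _ => Or.inl rfl) _ (Or.inr h2)
    intro k
    have h3 : (X : Matrix (Fin n) (Fin n) F) *ᵥ (b k) = co k • b (π k) := hco k
    rw [hb', hb', Matrix.mulVec_smul, h3, smul_smul, smul_smul, mul_one]
    congr 1
    have h5 : (u k * co k - c * u (π k)) ^ 2 = 0 := by
      have e1 := hu k
      have e2 := hu (π k)
      rw [hπ] at e2
      have e3 := hcc k
      have e4 : (u k * co k) ^ 2 = (c * u (π k)) ^ 2 := by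
        have : (u k * co k) ^ 2 = (u k * u k) * co k ^ 2 := by ring
        rw [this, e1]
        have : (c * u (π k)) ^ 2 = c ^ 2 * (u (π k) * u (π k)) := by ring
        rw [this, e2]
        field_simp
        linear_combination co k * e3
      linear_combination e4 + (c ^ 2 * u (π k) ^ 2 - u k * co k * c * u (π k)) * h2
    have h6 := pow_eq_zero_iff two_ne_zero |>.1 h5
    linear_combination h6
  · obtain ⟨a, b, β, hl, hr, -, -⟩ := SV.eigenbasis (Matrix.toLin' (X : Matrix (Fin n) (Fin n) F)) hc h2 hxx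
    apply nf_conj hn F₀ X hc β id (fun _ => rfl) (Sum.elim (fun _ => 1) (fun _ => -1))
      _ _ (Or.inl (fun _ => rfl))
    · rintro (k | k)
      · exact Or.inl rfl
      · exact Or.inr rfl
    · rintro (k | k)
      · have := hl k
        rw [Matrix.toLin'_apply] at this
        rw [this]; simp
      · have := hr k
        rw [Matrix.toLin'_apply] at this
        rw [this]; simp

end Cfsg.Agent.H12.SFI
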