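import Cfsg.Agent.H12.SFI1
import Cfsg.Agent.H12.QExt2

/-! Involutions and subfield groups, II (helper12). -/

set_option autoImplicit false

namespace Cfsg.Agent.H12.SFI

open Matrix Module Cfsg.Geo

variable {F : Type*} [Field F] {n : ℕ}

theorem ringChar_ne [Fintype F] {q : ℕ} (hq : Fintype.card F = q) (hodd : Odd q) : ringChar F ≠ 2 := by
  intro h
  have := FiniteField.even_card_of_char_two h
  rw [hq] at this
  rw [Nat.odd_iff] at hodd
  omega

theorem sq_F0 [Fintype F] {q q₀ : ℕ} (hq : Fintype.card F = q) (hodd : Odd q) {F₀ : Subfield F}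
    (hF₀ : Nat.card F₀ = q₀) (hqk : q = q₀ ^ 2) (a : F₀) : IsSquare (a : F) := by
  classical
  have hr := ringChar_ne hq hodd
  by_cases ha : a = 0
  · subst ha; exact ⟨0, by simp⟩
  · have ha' : (a : F) ≠ 0 := fun h => ha (Subtype.ext h)
    rw [FiniteField.isSquare_iff hr ha']
    have h1 : a ^ (q₀ - 1) = 1 := by
      rw [← hF₀, Nat.card_eq_fintype_card]
      exact FiniteField.pow_card_sub_one_eq_one a ha
    have h2 : (a : F) ^ (q₀ - 1) = 1 := by
      have := congrArg (fun x : F₀ => (x : F)) h1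
      simpa using this
    have hq0 : Odd q₀ := by
      rw [hqk] at hodd
      exact (Nat.odd_pow_iff two_ne_zero).1 hodd
    obtain ⟨m, hm⟩ := hq0
    have h3 : Fintype.card F / 2 = (q₀ - 1) * (m + 1) := by
      rw [hq, hqk, hm]
      have : (2 * m + 1) ^ 2 = 2 * ((2 * m + 1 - 1) * (m + 1)) + 1 := by
        rw [Nat.add_sub_cancel]; ring
      omega
    rw [h3, pow_mul, h2, one_pow]

theorem num_A [Fintype F] {q : ℕ} (hq : Fintype.card F = q) (hodd : Odd q)
    (hm1 : IsSquare (-1 : F)) (hn : n ≠ 0) (he : Even n) (hle : padicValNat 2 n ≤ padicValNat 2 (q - 1))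
    {z : F} (hz : ¬ IsSquare z) (hzn : (-z) ^ (n / 2) = 1) : False := by
  have hr := ringChar_ne hq hodd
  have hq1 : 1 < q := by rw [← hq]; exact Fintype.one_lt_card
  have hz0 : z ≠ 0 := by rintro rfl; exact hz ⟨0, by ring⟩
  have hw : ¬ IsSquare (-z) := by
    rintro ⟨r, hr'⟩
    obtain ⟨i, hi⟩ := hm1
    apply hz
    exact ⟨i * r, by linear_combination -hr' + r * r * hi⟩
  have hwq : (-z) ^ (q / 2) = -1 := by
    rcases FiniteField.pow_dichotomy hr (neg_ne_zero.2 hz0) with h | h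
    · exact absurd ((FiniteField.isSquare_iff hr (neg_ne_zero.2 hz0)).2 h) hw
    · rw [← hq]; exact h
  obtain ⟨m, hm, hnm⟩ := SV.odd_part hn
  obtain ⟨r, hr', hqr⟩ := SV.odd_part (show q - 1 ≠ 0 by omega)
  set a := padicValNat 2 n
  set v := padicValNat 2 (q - 1)
  have ha1 : 1 ≤ a := by
    rcases Nat.eq_zero_or_pos a with h | h
    · exfalso
      rw [h, pow_zero, one_mul] at hnm
      rw [hnm] at he
      exact (Nat.not_even_iff_odd.2 hm) he
    · exact h
  obtain ⟨a', ha'⟩ : ∃ a', a = a' + 1 := ⟨a - 1, by omega⟩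
  obtain ⟨v', hv'⟩ : ∃ v', v = v' + 1 := ⟨v - 1, by omega⟩
  obtain ⟨d, hd⟩ : ∃ d, v' = a' + d := ⟨v' - a', by omega⟩
  have h1 : n / 2 = 2 ^ a' * m := by
    have : n = 2 * (2 ^ a' * m) := by
      conv_lhs => rw [hnm, ha']
      rw [pow_succ]; ring
    omega
  have h2 : q / 2 = 2 ^ v' * r := by
    have : q - 1 = 2 * (2 ^ v' * r) := by
      conv_lhs => rw [hqr, hv']
      rw [pow_succ]; ring
    omega
  have h3 : (n / 2) * (2 ^ d * r) = (q / 2) * m := by
    rw [h1, h2, hd, pow_add]; ring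
  have h4 : (-z) ^ ((n / 2) * (2 ^ d * r)) = 1 := by rw [pow_mul, hzn, one_pow]
  rw [h3, pow_mul, hwq, hm.neg_one_pow] at h4
  apply Ring.two_ne_zero hr
  linear_combination -h4

theorem num_B [Fintype F] {q : ℕ} (hq : Fintype.card F = q) (hodd : Odd q)
    (hm1 : IsSquare (-1 : F)) (hn : n ≠ 0) (hlt : padicValNat 2 (q - 1) < padicValNat 2 n) :
    ∃ z : F, ¬ IsSquare z ∧ (-z) ^ (n / 2) = 1 := by
  have hr := ringChar_ne hq hodd
  have hq1 : 1 < q := by rw [← hq]; exact Fintype.one_lt_card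
  obtain ⟨m, hm, hnm⟩ := SV.odd_part hn
  obtain ⟨r, hr', hqr⟩ := SV.odd_part (show q - 1 ≠ 0 by omega)
  set a := padicValNat 2 n
  set v := padicValNat 2 (q - 1)
  have hv1 : 1 ≤ v := by
    rcases Nat.eq_zero_or_pos v with h | h
    · exfalso
      rw [h, pow_zero, one_mul] at hqr
      rw [Nat.odd_iff] at hr' hodd
      omega
    · exact h
  obtain ⟨v', hv'⟩ : ∃ v', v = v' + 1 := ⟨v - 1, by omega⟩
  obtain ⟨d, hd⟩ : ∃ d, a = v + d + 1 := ⟨a - v - 1, by omega⟩
  have h1 : n / 2 = 2 ^ v * (2 ^ d * m) := by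
    have : n = 2 * (2 ^ v * (2 ^ d * m)) := by
      conv_lhs => rw [hnm, hd]
      rw [pow_succ, pow_add]; ring
    omega
  have h2 : q / 2 = 2 ^ v' * r := by
    have : q - 1 = 2 * (2 ^ v' * r) := by
      conv_lhs => rw [hqr, hv']
      rw [pow_succ]; ring
    omega
  obtain ⟨g, hg⟩ := IsCyclic.exists_ofOrder_eq_natCard (α := Fˣ)
  rw [Nat.card_units, Nat.card_eq_fintype_card, hq] at hg
  have h9 : 2 ^ v ∣ orderOf g := by rw [hg]; exact ⟨r, hqr⟩
  have hg0 : orderOf g ≠ 0 := by rw [hg]; omega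
  have h10 := orderOf_pow_orderOf_div hg0 h9
  set c := g ^ (orderOf g / 2 ^ v) with hc
  have hc1 : (c : F) ^ (n / 2) = 1 := by
    have : c ^ (n / 2) = 1 := by
      rw [h1, pow_mul, orderOf_dvd_iff_pow_eq_one.1 (dvd_of_eq h10), one_pow]
    have h11 := congrArg Units.val this
    simpa using h11
  have hcs : ¬ IsSquare (c : F) := by
    intro hs
    rw [FiniteField.isSquare_iff hr c.ne_zero, hq] at hs
    have h12 : c ^ (q / 2) = 1 := by apply Units.ext; simpa using hs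
    have h13 := orderOf_dvd_of_pow_eq_one h12
    rw [h10, h2, hv', pow_succ, mul_comm, ] at h13
    have h14 : 2 * 2 ^ v' ∣ 2 ^ v' * r := h13
    rw [mul_comm 2, Nat.mul_dvd_mul_iff_left (by positivity)] at h14
    exact (Nat.not_even_iff_odd.2 hr') (even_iff_two_dvd.2 h14)
  refine ⟨-(c : F), ?_, by rw [neg_neg]; exact hc1⟩
  rintro ⟨s, hs⟩
  obtain ⟨i, hi⟩ := hm1
  exact hcs ⟨i * s, by linear_combination -hs + s * s * hi⟩

theorem det_nonsq (X : Matrix.SpecialLinearGroup (Fin n) F) {z : F} (hz : ¬ IsSquare z)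
    (hX : ((X ^ 2 : Matrix.SpecialLinearGroup (Fin n) F) : Matrix (Fin n) (Fin n) F) =
      z • (1 : Matrix (Fin n) (Fin n) F)) : Even n ∧ (-z) ^ (n / 2) = 1 := by
  classical
  have hxx : ∀ v, Matrix.toLin' (X : Matrix (Fin n) (Fin n) F) (Matrix.toLin' (X : Matrix (Fin n) (Fin n) F) v) = z • v := by
    intro v
    rw [Matrix.toLin'_apply, Matrix.toLin'_apply, Matrix.mulVec_mulVec, ← Matrix.SpecialLinearGroup.coe_mul,
      ← pow_two, hX, Matrix.smul_mulVec, Matrix.one_mulVec]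
  obtain ⟨κ, i0, c, h0, h1⟩ := QE.norm_form (Matrix.toLin' (X : Matrix (Fin n) (Fin n) F)) hz hxx
  have hcard := Module.finrank_eq_card_basis c
  rw [Module.finrank_fin_fun, Fintype.card_prod, Fintype.card_fin] at hcard
  have h2 := SV.toLin_block c (fun _ => !![0, z; 1, 0]) (Matrix.toLin' (X : Matrix (Fin n) (Fin n) F)) (by
    intro j k
    fin_cases j
    · change Matrix.toLin' (X : Matrix (Fin n) (Fin n) F) (c (0, k)) = _
      rw [h0]; simp
    · change Matrix.toLin' (X : Matrix (Fin n) (Fin n) F) (c (1, k)) = _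
      rw [h1]; simp)
  have h3 := congrArg LinearMap.det h2
  rw [LinearMap.det_toLin', X.2, LinearMap.det_toLin, Matrix.det_blockDiagonal, Finset.prod_const,
    Matrix.det_fin_two_of, Finset.card_univ] at h3
  refine ⟨⟨Fintype.card κ, by omega⟩, ?_⟩
  rw [show n / 2 = Fintype.card κ by omega, h3]
  congr 1; ring

theorem non_el (hn : 0 < n) (he : Even n) {F₀ : Subfield F} (hsq : ∀ a : F₀, IsSquare (a : F))
    {z : F} (hz : ¬ IsSquare z) (hzn : (-z) ^ (n / 2) = 1) :
    ∃ X : Matrix.SpecialLinearGroup (Fin n) F,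
      ((X ^ 2 : Matrix.SpecialLinearGroup (Fin n) F) : Matrix (Fin n) (Fin n) F) = z • (1 : Matrix (Fin n) (Fin n) F) ∧
      (∀ l : F, (X : Matrix (Fin n) (Fin n) F) ≠ l • (1 : Matrix (Fin n) (Fin n) F)) ∧
      ¬ ∃ P : Matrix.SpecialLinearGroup (Fin n) F, P⁻¹ * X * P ∈ (subfieldSubgroup F₀ (1 : GL (Fin n) F)).comap
        (Matrix.SpecialLinearGroup.toGL : Matrix.SpecialLinearGroup (Fin n) F →* GL (Fin n) F) := by
  classical
  have hn2 : 2 * (n / 2) = n := by obtain ⟨m, hm⟩ := he; omega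
  let e : Fin 2 × Fin (n / 2) ≃ Fin n := Fintype.equivOfCardEq (by
    rw [Fintype.card_prod, Fintype.card_fin, Fintype.card_fin, Fintype.card_fin, hn2])
  let B : Matrix (Fin 2 × Fin (n / 2)) (Fin 2 × Fin (n / 2)) F := Matrix.blockDiagonal (fun _ => !![0, z; 1, 0])
  let A : Matrix (Fin n) (Fin n) F := B.submatrix e.symm e.symm
  have hBB : B * B = z • 1 := by
    simp only [B]
    rw [← Matrix.blockDiagonal_mul]
    have h7 : (fun _ : Fin (n / 2) => (!![0, z; 1, 0] : Matrix (Fin 2) (Fin 2) F) * !![0, z; 1, 0]) =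
        z • (1 : Fin (n / 2) → Matrix (Fin 2) (Fin 2) F) := by
      funext k
      ext i j
      fin_cases i <;> fin_cases j <;> simp [Matrix.mul_apply, Fin.sum_univ_two]
    rw [h7, Matrix.blockDiagonal_smul, Matrix.blockDiagonal_one]
  have hAA : A * A = z • 1 := by
    simp only [A]
    rw [Matrix.submatrix_mul_equiv, hBB]
    ext i j
    simp [Matrix.one_apply]
  have hdet : A.det = 1 := by
    simp only [A, B]
    rw [Matrix.det_submatrix_equiv_self, Matrix.det_blockDiagonal, Finset.prod_const, Matrix.det_fin_two_of,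
      Finset.card_univ, Fintype.card_fin, show (0 * 0 - z * 1 : F) = -z by ring, hzn]
  let X : Matrix.SpecialLinearGroup (Fin n) F := ⟨A, hdet⟩
  have hX2 : ((X ^ 2 : Matrix.SpecialLinearGroup (Fin n) F) : Matrix (Fin n) (Fin n) F) = z • 1 := by
    rw [pow_two, Matrix.SpecialLinearGroup.coe_mul]; exact hAA
  let i0 : Fin n := ⟨0, hn⟩
  refine ⟨X, hX2, ?_, ?_⟩
  · intro l hl
    have h1 : A = l • 1 := hl
    rw [h1, Matrix.smul_mul, one_mul, smul_smul] at hAA
    have h2 := congrFun (congrFun hAA i0) i0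
    apply hz
    refine ⟨l, ?_⟩
    simpa using h2.symm
  · rintro ⟨P, hP⟩
    rw [Subgroup.mem_comap] at hP
    obtain ⟨c, A₀, hc, hA₀⟩ := of_mem_sub hP
    have hA₀' : ((P⁻¹ * X * P : Matrix.SpecialLinearGroup (Fin n) F) : Matrix (Fin n) (Fin n) F) =
      c • A₀.map F₀.subtype := hA₀
    have h1 : (P⁻¹ * X * P) * (P⁻¹ * X * P) = P⁻¹ * X ^ 2 * P := by rw [pow_two]; group
    have h5 : ((P⁻¹ * X ^ 2 * P : Matrix.SpecialLinearGroup (Fin n) F) : Matrix (Fin n) (Fin n) F) = z • 1 := by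
      rw [Matrix.SpecialLinearGroup.coe_mul, Matrix.SpecialLinearGroup.coe_mul, hX2, Matrix.mul_smul,
        mul_one, Matrix.smul_mul, ← Matrix.SpecialLinearGroup.coe_mul, inv_mul_cancel,
        Matrix.SpecialLinearGroup.coe_one]
    have h2 : ((P⁻¹ * X * P : Matrix.SpecialLinearGroup (Fin n) F) : Matrix (Fin n) (Fin n) F) *
        ((P⁻¹ * X * P : Matrix.SpecialLinearGroup (Fin n) F) : Matrix (Fin n) (Fin n) F) = z • 1 := by
      rw [← Matrix.SpecialLinearGroup.coe_mul, h1, h5]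
    rw [hA₀', Matrix.smul_mul, Matrix.mul_smul, smul_smul] at h2
    have h3 := congrFun (congrFun h2 i0) i0
    have h4 : (A₀.map F₀.subtype * A₀.map F₀.subtype) i0 i0 = (((A₀ * A₀) i0 i0 : F₀) : F) := by
      rw [← Matrix.map_mul]; rfl
    rw [Matrix.smul_apply, h4, Matrix.smul_apply, Matrix.one_apply_eq, smul_eq_mul, smul_eq_mul, mul_one] at h3
    obtain ⟨s, hs⟩ := hsq ((A₀ * A₀) i0 i0)
    apply hz
    refine ⟨c * s, ?_⟩
    rw [← h3, hs]; ring

end Cfsg.Agent.H12.SFI
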