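import Cfsg.Agent.H12.SFI1
import Cfsg.Agent.H5.LinBasic

/-! The index of the subfield group is odd for odd degree and odd characteristic (helper12). -/

set_option autoImplicit false

namespace Cfsg.Agent.H12.SFI

open Matrix Module Cfsg.Geo

theorem fac_pow {b k : ℕ} (hb : Odd b) (hb1 : 1 < b) (hk : Odd k) :
    (b ^ k - 1).factorization 2 = (b - 1).factorization 2 := by
  have h1 : b ^ k - 1 = (b - 1) * ∑ i ∈ Finset.range k, b ^ i := by
    have h2 := Nat.pred_mul_geom_sum_le
    zify [Nat.one_le_pow k b (by omega), hb1.le]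
    rw [mul_comm, geom_sum_mul]
  have hodd : Odd (∑ i ∈ Finset.range k, b ^ i) := by
    rw [← ZMod.natCast_eq_one_iff_odd]
    have hb' : (b : ZMod 2) = 1 := ZMod.natCast_eq_one_iff_odd.2 hb
    push_cast
    rw [hb']
    simp only [one_pow, Finset.sum_const, Finset.card_range, nsmul_eq_mul, mul_one]
    exact ZMod.natCast_eq_one_iff_odd.2 hk
  have h0 : (∑ i ∈ Finset.range k, b ^ i) ≠ 0 := by
    intro h; rw [h] at hodd; simp at hodd
  rw [h1, Nat.factorization_mul (by omega) h0, Finsupp.add_apply,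
    Nat.factorization_eq_zero_of_not_dvd (n := ∑ i ∈ Finset.range k, b ^ i), add_zero]
  rw [← even_iff_two_dvd, Nat.not_even_iff_odd]; exact hodd

theorem fac_term {b n i : ℕ} (hb : Odd b) (hb1 : 1 < b) (hi : i < n) :
    (b ^ n - b ^ i).factorization 2 = (b ^ (n - i) - 1).factorization 2 := by
  have h1 : b ^ n - b ^ i = b ^ i * (b ^ (n - i) - 1) := by
    rw [Nat.mul_sub, mul_one, ← pow_add, Nat.add_sub_cancel' hi.le]
  have h2 : b ^ (n - i) - 1 ≠ 0 := by
    have : 1 < b ^ (n - i) := Nat.one_lt_pow (by omega) hb1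
    omega
  rw [h1, Nat.factorization_mul (pow_ne_zero _ (by omega)) h2, Finsupp.add_apply,
    Nat.factorization_eq_zero_of_not_dvd (n := b ^ i), zero_add]
  rw [← even_iff_two_dvd, Nat.not_even_iff_odd]; exact hb.pow

theorem fac_SL {F : Type*} [Field F] [Fintype F] {F' : Type*} [Field F'] [Fintype F'] {q q' k n : ℕ}
    (hq : Fintype.card F = q) (hq' : Fintype.card F' = q') (hodd : Odd q') (hk : Odd k) (hqk : q = q' ^ k)
    (hn : 1 ≤ n) : (Nat.card (Matrix.SpecialLinearGroup (Fin n) F)).factorization 2 =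
      (Nat.card (Matrix.SpecialLinearGroup (Fin n) F')).factorization 2 := by
  have hq1 : 1 < q := by rw [← hq]; exact Fintype.one_lt_card
  have hq1' : 1 < q' := by rw [← hq']; exact Fintype.one_lt_card
  have hoddq : Odd q := by rw [hqk]; exact hodd.pow
  have key : ∀ j, 0 < j → (q ^ j - 1).factorization 2 = (q' ^ j - 1).factorization 2 := by
    intro j hj
    rw [hqk, ← pow_mul, mul_comm, pow_mul]
    exact fac_pow hodd.pow (Nat.one_lt_pow hj.ne' hq1') hk
  have h1 := H5.card_SL_mul hq n hn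
  have h2 := H5.card_SL_mul hq' n hn
  have hne : ∀ b : ℕ, 1 < b → ∀ i : Fin n, b ^ n - b ^ (i : ℕ) ≠ 0 := by
    intro b hb i
    have : b ^ (i : ℕ) < b ^ n := Nat.pow_lt_pow_right hb i.2
    omega
  have h3 : (∏ i : Fin n, (q ^ n - q ^ (i : ℕ))).factorization 2 =
      (∏ i : Fin n, (q' ^ n - q' ^ (i : ℕ))).factorization 2 := by
    rw [Nat.factorization_prod (fun i _ => hne q hq1 i), Nat.factorization_prod (fun i _ => hne q' hq1' i),
      Finsupp.finset_sum_apply, Finsupp.finset_sum_apply]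
    apply Finset.sum_congr rfl
    intro i _
    rw [fac_term hoddq hq1 i.2, fac_term hodd hq1' i.2]
    exact key _ (by omega)
  rw [← h1, ← h2, Nat.factorization_mul (by omega) Nat.card_pos.ne',
    Nat.factorization_mul (by omega) Nat.card_pos.ne', Finsupp.add_apply, Finsupp.add_apply] at h3
  have h4 := key 1 one_pos
  rw [pow_one, pow_one] at h4
  omega

theorem index_odd {F : Type*} [Field F] [Fintype F] {q q₀ k n : ℕ} (hq : Fintype.card F = q)
    (hodd : Odd q) (hk : Odd k) (F₀ : Subfield F) (hF₀ : Nat.card F₀ = q₀) (hqk : q = q₀ ^ k)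
    (hn : 1 ≤ n) : ¬ 2 ∣ ((subfieldSubgroup F₀ (1 : GL (Fin n) F)).comap
      (Matrix.SpecialLinearGroup.toGL : Matrix.SpecialLinearGroup (Fin n) F →* GL (Fin n) F)).index := by
  classical
  intro h
  set H := (subfieldSubgroup F₀ (1 : GL (Fin n) F)).comap
      (Matrix.SpecialLinearGroup.toGL : Matrix.SpecialLinearGroup (Fin n) F →* GL (Fin n) F) with hH
  have hF₀' : Fintype.card F₀ = q₀ := by rw [← hF₀, Nat.card_eq_fintype_card]
  have hk0 : k ≠ 0 := by rintro rfl; simp at hk
  have hodd0 : Odd q₀ := by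
    rw [hqk] at hodd
    exact (Nat.odd_pow_iff hk0).1 hodd
  let φ : Matrix.SpecialLinearGroup (Fin n) F₀ →* Matrix.SpecialLinearGroup (Fin n) F :=
    Matrix.SpecialLinearGroup.map F₀.subtype
  have hφ : Function.Injective φ := by
    intro A B hAB
    apply Subtype.ext
    ext i j
    have h1 := congrArg (fun z : Matrix.SpecialLinearGroup (Fin n) F => (z : Matrix (Fin n) (Fin n) F) i j) hAB
    exact h1
  have hr : φ.range ≤ H := by
    rintro _ ⟨A, rfl⟩
    rw [hH, Subgroup.mem_comap]
    apply mem_sub_of one_ne_zero (A := (A : Matrix (Fin n) (Fin n) F₀))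
    rw [one_smul]; rfl
  have hdvd : Nat.card (Matrix.SpecialLinearGroup (Fin n) F₀) ∣ Nat.card H := by
    rw [Nat.card_congr (MonoidHom.ofInjective hφ).toEquiv]
    exact Subgroup.card_dvd_of_le hr
  have h1 := Subgroup.index_mul_card H
  have h2 : 2 * Nat.card (Matrix.SpecialLinearGroup (Fin n) F₀) ∣ Nat.card (Matrix.SpecialLinearGroup (Fin n) F) := by
    rw [← h1]; exact mul_dvd_mul h hdvd
  have h3 := fac_SL (n := n) hq hF₀' hodd0 hk hqk hn
  have h4 := (Nat.factorization_le_iff_dvd (by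
    exact mul_ne_zero two_ne_zero Nat.card_pos.ne') Nat.card_pos.ne').2 h2
  have h5 := h4 2
  rw [Nat.factorization_mul two_ne_zero Nat.card_pos.ne', Finsupp.add_apply,
    Nat.Prime.factorization_self Nat.prime_two, h3] at h5
  omega

end Cfsg.Agent.H12.SFI
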