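import Mathlib
import Cfsg.Prelude.Def_GeometricClasses
import Cfsg.Agent.H12.SpGen
import Cfsg.Agent.H12.Perp

/-!
Symplectic short root elements `sse f a b : x ↦ x + f(a,x) b + f(b,x) a` (`f(a,b) = 0`).
-/

set_option autoImplicit false
set_option linter.unusedSectionVars false

open scoped MatrixGroups Matrix

namespace Cfsg.Agent.H12

variable {ι : Type} [Fintype ι] [DecidableEq ι] {F : Type*} [Field F]
variable {f : (ι → F) → (ι → F) → F}

/-- `x ↦ x + f(a,x) b + f(b,x) a` -/
noncomputable def sse (f : (ι → F) → (ι → F) → F) (a b : ι → F) : GL ι F :=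
  stv f (a + b) 1 * (stv f a (-1) * stv f b (-1))

lemma sse_isom (hf : Geo.IsSymplecticForm f) (a b : ι → F) : IsIsom f (sse f a b) :=
  (isIsom_stv hf _ _).mul ((isIsom_stv hf _ _).mul (isIsom_stv hf _ _))

lemma sse_mulVec (hf : Geo.IsSymplecticForm f) {a b : ι → F} (hab : f a b = 0) (x : ι → F) :
    ((sse f a b : GL ι F) : Matrix ι ι F) *ᵥ x = x + f a x • b + f b x • a := by
  have hb := hf.bilinear
  have hba : f b a = 0 := by rw [hf.skew, hab, neg_zero]
  rw [sse, gl_mul_mulVec, gl_mul_mulVec, stv_mulVec hf, stv_mulVec hf, stv_mulVec hf]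
  simp only [hb.add_left, hb.add_right, hb.smul_right, hf.alternating, hab, hba]
  module

lemma conj_sse (hf : Geo.IsSymplecticForm f) {g : GL ι F} (hg : IsIsom f g) {a b : ι → F} (hab : f a b = 0) :
    g * sse f a b * g⁻¹ = sse f ((g : Matrix ι ι F) *ᵥ a) ((g : Matrix ι ι F) *ᵥ b) := by
  apply gl_ext
  intro x
  have e1 : ∀ c, f c (((g⁻¹ : GL ι F) : Matrix ι ι F) *ᵥ x) = f ((g : Matrix ι ι F) *ᵥ c) x := by
    intro c
    rw [← hg, gl_mulVec_inv_mulVec]
  rw [gl_mul_mulVec, gl_mul_mulVec, sse_mulVec hf hab, sse_mulVec hf (by rw [hg]; exact hab), Matrix.mulVec_add,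
    Matrix.mulVec_add, gl_mulVec_inv_mulVec, Matrix.mulVec_smul, Matrix.mulVec_smul, e1, e1]

lemma sse_symm (hf : Geo.IsSymplecticForm f) {a b : ι → F} (hab : f a b = 0) : sse f a b = sse f b a := by
  have hba : f b a = 0 := by rw [hf.skew, hab, neg_zero]
  apply gl_ext
  intro x
  rw [sse_mulVec hf hab, sse_mulVec hf hba]
  abel

/-- commutator of two short root elements with a common vector -/
lemma sse_comm (hf : Geo.IsSymplecticForm f) {w y y' : ι → F} (hy : f w y = 0) (hy' : f w y' = 0) :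
    sse f w y * sse f w y' = stv f w (2 * f y y') * (sse f w y' * sse f w y) := by
  have hb := hf.bilinear
  have hyw : f y w = 0 := by rw [hf.skew, hy, neg_zero]
  have hyw' : f y' w = 0 := by rw [hf.skew, hy', neg_zero]
  apply gl_ext
  intro x
  rw [gl_mul_mulVec (stv f w _), gl_mul_mulVec, gl_mul_mulVec, stv_mulVec hf]
  simp only [sse_mulVec hf hy, sse_mulVec hf hy', hb.add_right, hb.smul_right, hy, hy', hyw, hyw', hf.alternating,
    hf.skew y' y]
  module

lemma sse_comm_mem (hf : Geo.IsSymplecticForm f) {M : Subgroup (GL ι F)} {w y y' : ι → F} (hy : f w y = 0)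
    (hy' : f w y' = 0) (h : sse f w y ∈ M) (h' : sse f w y' ∈ M) : stv f w (2 * f y y') ∈ M := by
  have h1 := sse_comm hf hy hy'
  have h2 : stv f w (2 * f y y') = (sse f w y * sse f w y') * (sse f w y' * sse f w y)⁻¹ := by
    rw [h1]; group
  rw [h2]
  exact mul_mem (mul_mem h h') (inv_mem (mul_mem h' h))

end Cfsg.Agent.H12
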