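import Cfsg.Agent.H12.OrthFam
import Cfsg.Agent.H12.InvDec
import Cfsg.Prelude.Def_GeometricClasses
import Mathlib.LinearAlgebra.Matrix.SpecialLinearGroup

/-! Conjugating a block diagonal element into a symplectic similarity group (helper12). -/

set_option autoImplicit false

namespace Cfsg.Agent.H12.SV

open Matrix Module Cfsg.Geo

variable {F : Type*} [Field F] {n : ℕ}

/-- the bilinear form as a Mathlib form -/
def toB {f : (Fin n → F) → (Fin n → F) → F} (hf : IsSymplecticForm f) :
    LinearMap.BilinForm F (Fin n → F) :=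
  LinearMap.mk₂ F f hf.bilinear.add_left hf.bilinear.smul_left hf.bilinear.add_right
    (fun c v x => hf.bilinear.smul_right c v x)

theorem exists_sbasis {f : (Fin n → F) → (Fin n → F) → F} (hf : IsSymplecticForm f) :
    ∃ (κ : Type) (_ : Fintype κ) (s : Basis (Fin 2 × κ) F (Fin n → F)),
      ∀ i j k l, k ≠ l → f (s (i, k)) (s (j, l)) = 0 := by
  have halt : ∀ v, (toB hf) v v = 0 := fun v => hf.alternating v
  have hnd : ∀ v, (∀ w, (toB hf) v w = 0) → v = 0 := by
    intro v hv
    by_contra h0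
    obtain ⟨x, hx⟩ := (hf.nondegenerate v h0).2
    exact hx (hv x)
  obtain ⟨κ, hκ, p, hp, -, b, hb⟩ := sp_inv_planes halt hnd LinearMap.id (fun _ _ => rfl) 1
    one_ne_zero (fun v => (one_smul F v).symm)
  refine ⟨κ, hκ, b.reindex (Equiv.prodComm _ _), ?_⟩
  intro i j k l hkl
  rw [Basis.reindex_apply, Basis.reindex_apply, hb]
  exact hp.orth k l i j hkl

theorem conj_sim {f : (Fin n → F) → (Fin n → F) → F} (hf : IsSymplecticForm f)
    (X : Matrix.SpecialLinearGroup (Fin n) F) {κ : Type} [Fintype κ] [DecidableEq κ]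
    (c : Basis (Fin 2 × κ) F (Fin n → F)) (M : κ → Matrix (Fin 2) (Fin 2) F)
    (hX : Matrix.toLin' (X : Matrix (Fin n) (Fin n) F) = Matrix.toLin c c (Matrix.blockDiagonal M))
    (δ : F) (hδ : δ ≠ 0) (hM : ∀ k, (M k).det = δ) (k0 : κ)
    (hN : ∀ t : F, t ≠ 0 → ∃ N : Matrix (Fin 2) (Fin 2) F, N * M k0 = M k0 * N ∧ N.det = t) :
    ∃ P : Matrix.SpecialLinearGroup (Fin n) F, P⁻¹ * X * P ∈ (similarityGroup f).comap
      (Matrix.SpecialLinearGroup.toGL : Matrix.SpecialLinearGroup (Fin n) F →* GL (Fin n) F) := by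
  classical
  obtain ⟨κ', hκ', s', hs'⟩ := exists_sbasis hf
  have hcard : Fintype.card κ' = Fintype.card κ := by
    have h1 := Module.finrank_eq_card_basis c
    have h2 := Module.finrank_eq_card_basis s'
    rw [Fintype.card_prod, Fintype.card_fin] at h1 h2
    omega
  let e : κ' ≃ κ := Fintype.equivOfCardEq hcard
  let s : Basis (Fin 2 × κ) F (Fin n → F) := s'.reindex (Equiv.prodCongr (Equiv.refl _) e)
  have hs : ∀ i j k l, k ≠ l → f (s (i, k)) (s (j, l)) = 0 := by
    intro i j k l hkl
    simp only [s, Basis.reindex_apply]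
    exact hs' _ _ _ _ (fun h => hkl (e.symm.injective h))
  let A := Matrix.blockDiagonal M
  let g : (Fin n → F) ≃ₗ[F] (Fin n → F) := c.equiv s (Equiv.refl _)
  have hg : ∀ j, g (c j) = s j := by
    intro j; simp only [g, Basis.equiv_apply, Equiv.refl_apply]
  let y := Matrix.toLin s s A
  have hyg : ∀ v, y (g v) = g (Matrix.toLin' (X : Matrix (Fin n) (Fin n) F) v) := by
    have : y ∘ₗ g.toLinearMap = g.toLinearMap ∘ₗ Matrix.toLin' (X : Matrix (Fin n) (Fin n) F) := by
      apply c.ext
      intro j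
      simp only [LinearMap.comp_apply, LinearEquiv.coe_coe]
      rw [hg, hX, Matrix.toLin_self]
      simp only [y, Matrix.toLin_self, map_sum, map_smul, hg]
      rfl
    intro v
    exact LinearMap.congr_fun this v
  -- y is a similarity
  have hys : ∀ j k, y (s (j, k)) = M k 0 j • s (0, k) + M k 1 j • s (1, k) := by
    intro j k
    simp only [y, Matrix.toLin_self, A]
    rw [Fintype.sum_prod_type, Fin.sum_univ_two]
    congr 1
    · rw [Finset.sum_eq_single k]
      · rw [Matrix.blockDiagonal_apply_eq]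
      · intro l _ hl
        rw [Matrix.blockDiagonal_apply_ne M _ _ hl, zero_smul]
      · intro h; exact absurd (Finset.mem_univ _) h
    · rw [Finset.sum_eq_single k]
      · rw [Matrix.blockDiagonal_apply_eq]
      · intro l _ hl
        rw [Matrix.blockDiagonal_apply_ne M _ _ hl, zero_smul]
      · intro h; exact absurd (Finset.mem_univ _) h
  let B := toB hf
  have hBf : ∀ u v, B u v = f u v := fun _ _ => rfl
  have hsim : ∀ u v, B (y u) (y v) = δ * B u v := by
    have : B.compl₁₂ y y = δ • B := by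
      apply s.ext
      rintro ⟨i, k⟩
      apply s.ext
      rintro ⟨j, l⟩
      rw [LinearMap.compl₁₂_apply, LinearMap.smul_apply, LinearMap.smul_apply, hys, hys]
      simp only [map_add, map_smul, LinearMap.add_apply, LinearMap.smul_apply, smul_eq_mul, hBf]
      by_cases hkl : k = l
      · subst hkl
        have h0 : ∀ v, f v v = 0 := hf.alternating
        have h10 : f (s (1, k)) (s (0, k)) = - f (s (0, k)) (s (1, k)) := hf.skew _ _
        have hdet := hM k
        rw [Matrix.det_fin_two] at hdet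
        fin_cases i <;> fin_cases j <;> simp only [Fin.zero_eta, Fin.mk_one, h0, h10] <;>
          rw [← hdet] <;> ring
      · rw [hs _ _ _ _ hkl, hs _ _ _ _ hkl, hs _ _ _ _ hkl, hs _ _ _ _ hkl, hs _ _ _ _ hkl]
        ring
    intro u v
    exact LinearMap.congr_fun (LinearMap.congr_fun this u) v
  -- determinant
  have hgdet : LinearMap.det g.toLinearMap ≠ 0 := g.isUnit_det'.ne_zero
  obtain ⟨N, hN1, hN2⟩ := hN _ hgdet
  let N' : κ → Matrix (Fin 2) (Fin 2) F := Function.update (fun _ => 1) k0 N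
  let D := Matrix.toLin c c (Matrix.blockDiagonal N')
  have hDdet : LinearMap.det D = LinearMap.det g.toLinearMap := by
    simp only [D]
    rw [LinearMap.det_toLin, Matrix.det_blockDiagonal, ← hN2, Finset.prod_eq_single k0]
    · simp [N']
    · intro l _ hl
      simp [N', Function.update_of_ne hl]
    · intro h; exact absurd (Finset.mem_univ _) h
  have hDX : D ∘ₗ Matrix.toLin' (X : Matrix (Fin n) (Fin n) F) =
      Matrix.toLin' (X : Matrix (Fin n) (Fin n) F) ∘ₗ D := by
    rw [hX]
    simp only [D]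
    rw [← Matrix.toLin_mul, ← Matrix.toLin_mul, ← Matrix.blockDiagonal_mul, ← Matrix.blockDiagonal_mul]
    congr 2
    funext k
    by_cases hk : k = k0
    · subst hk; simp [N', hN1]
    · simp [N', Function.update_of_ne hk]
  let Q : (Fin n → F) →ₗ[F] (Fin n → F) := D ∘ₗ g.symm.toLinearMap
  have hQdet : LinearMap.det Q = 1 := by
    simp only [Q]
    rw [LinearMap.det_comp, hDdet]
    exact LinearEquiv.det_mul_det_symm g
  let P : Matrix.SpecialLinearGroup (Fin n) F := ⟨LinearMap.toMatrix' Q, by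
    rw [LinearMap.det_toMatrix']; exact hQdet⟩
  have hP : ∀ v, (P : Matrix (Fin n) (Fin n) F) *ᵥ v = Q v := by
    intro v
    change (LinearMap.toMatrix' Q) *ᵥ v = Q v
    rw [← Matrix.toLin'_apply, Matrix.toLin'_toMatrix']
  refine ⟨P, ?_⟩
  rw [Subgroup.mem_comap]
  have hact : ∀ v, ((P⁻¹ * X * P : Matrix.SpecialLinearGroup (Fin n) F) : Matrix (Fin n) (Fin n) F) *ᵥ v = y v := by
    intro v
    have h1 : (P : Matrix (Fin n) (Fin n) F) *ᵥ (y v) = (X : Matrix (Fin n) (Fin n) F) *ᵥ ((P : Matrix (Fin n) (Fin n) F) *ᵥ v) := by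
      rw [hP, hP]
      simp only [Q, LinearMap.comp_apply, LinearEquiv.coe_coe]
      obtain ⟨w, rfl⟩ := g.surjective v
      rw [hyg, LinearEquiv.symm_apply_apply, LinearEquiv.symm_apply_apply]
      have := LinearMap.congr_fun hDX w
      simp only [LinearMap.comp_apply] at this
      rw [this]; rfl
    have h2 : ((P⁻¹ : Matrix.SpecialLinearGroup (Fin n) F) : Matrix (Fin n) (Fin n) F) * (P : Matrix (Fin n) (Fin n) F) = 1 := by
      rw [← Matrix.SpecialLinearGroup.coe_mul, inv_mul_cancel]; rfl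
    rw [Matrix.SpecialLinearGroup.coe_mul, Matrix.SpecialLinearGroup.coe_mul, ← Matrix.mulVec_mulVec,
      ← Matrix.mulVec_mulVec, ← h1, Matrix.mulVec_mulVec, h2, Matrix.one_mulVec]
  refine ⟨Units.mk0 δ hδ, ?_⟩
  intro u v
  change f (((P⁻¹ * X * P : Matrix.SpecialLinearGroup (Fin n) F) : Matrix (Fin n) (Fin n) F) *ᵥ u)
    (((P⁻¹ * X * P : Matrix.SpecialLinearGroup (Fin n) F) : Matrix (Fin n) (Fin n) F) *ᵥ v) = δ * f u v
  rw [hact, hact]
  exact hsim u v

end Cfsg.Agent.H12.SV
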