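import Cfsg.Agent.H12.SimInv1
import Cfsg.Agent.H12.InvPart

/-! Block diagonal form of linear maps with scalar square (helper12). -/

set_option autoImplicit false

namespace Cfsg.Agent.H12.SV

open Matrix Module

theorem pairing {κ0 : Type} [Fintype κ0] {L : Type} [Fintype L] [DecidableEq L]
    (lab : κ0 → L) (h : ∀ l, Even (Fintype.card {k // lab k = l})) :
    ∃ (κ : Type) (_ : Fintype κ) (_ : DecidableEq κ) (e : Fin 2 × κ ≃ κ0),
      ∀ k, lab (e (0, k)) = lab (e (1, k)) := by
  classical
  choose m hm using h
  let κ := Σ l : L, Fin (m l)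
  let E : ∀ l, (Fin (m l) × Fin 2) ≃ {k // lab k = l} := fun l =>
    Fintype.equivOfCardEq (by rw [Fintype.card_prod, Fintype.card_fin, Fintype.card_fin, hm l]; ring)
  let e : Fin 2 × κ ≃ κ0 := (Equiv.prodComm _ _).trans ((Equiv.sigmaProdDistrib _ _).trans
    ((Equiv.sigmaCongrRight E).trans (Equiv.sigmaFiberEquiv lab)))
  have he : ∀ j (k : κ), lab (e (j, k)) = k.1 := by
    rintro j ⟨l, a⟩
    exact (E l (a, j)).2
  exact ⟨κ, inferInstance, inferInstance, e, fun k => by rw [he, he]⟩

variable {F : Type*} [Field F] {V : Type*} [AddCommGroup V] [Module F V]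

theorem toLin_block {κ : Type} [Fintype κ] [DecidableEq κ]
    (c : Basis (Fin 2 × κ) F V) (M : κ → Matrix (Fin 2) (Fin 2) F) (x : V →ₗ[F] V)
    (h : ∀ j k, x (c (j, k)) = M k 0 j • c (0, k) + M k 1 j • c (1, k)) :
    x = Matrix.toLin c c (Matrix.blockDiagonal M) := by
  classical
  apply c.ext
  rintro ⟨j, k⟩
  rw [h, Matrix.toLin_self, Fintype.sum_prod_type, Fin.sum_univ_two]
  congr 1
  · rw [Finset.sum_eq_single k]
    · rw [Matrix.blockDiagonal_apply_eq]
    · intro l _ hl
      rw [Matrix.blockDiagonal_apply_ne M _ _ hl, zero_smul]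
    · intro h; exact absurd (Finset.mem_univ _) h
  · rw [Finset.sum_eq_single k]
    · rw [Matrix.blockDiagonal_apply_eq]
    · intro l _ hl
      rw [Matrix.blockDiagonal_apply_ne M _ _ hl, zero_smul]
    · intro h; exact absurd (Finset.mem_univ _) h

/-- diagonal case -/
theorem diag_case {κ0 : Type} [Fintype κ0] [DecidableEq κ0] (b : Basis κ0 F V) (x : V →ₗ[F] V)
    (lab : κ0 → Bool) (ε : Bool → F) {z : F} (hε : ∀ l, ε l ^ 2 = z)
    (hx : ∀ k, x (b k) = ε (lab k) • b k)
    (heven : ∀ l, Even (Fintype.card {k // lab k = l})) :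
    ∃ (κ : Type) (_ : Fintype κ) (_ : DecidableEq κ) (c : Basis (Fin 2 × κ) F V)
      (M : κ → Matrix (Fin 2) (Fin 2) F), x = Matrix.toLin c c (Matrix.blockDiagonal M) ∧
      (∀ k, (M k).det = z) ∧
      ∀ k, ∀ t : F, t ≠ 0 → ∃ N : Matrix (Fin 2) (Fin 2) F, N * M k = M k * N ∧ N.det = t := by
  obtain ⟨κ, i1, i2, e, he⟩ := pairing lab heven
  refine ⟨κ, i1, i2, b.reindex e.symm, fun k => (ε (lab (e (0, k)))) • (1 : Matrix (Fin 2) (Fin 2) F), ?_, ?_, ?_⟩
  · apply toLin_block
    intro j k
    simp only [Basis.reindex_apply, Equiv.symm_symm]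
    rw [hx]
    fin_cases j
    · simp
    · simp [he]
  · intro k
    simp only [Matrix.det_smul, Matrix.det_one, Fintype.card_fin, mul_one]
    exact hε _
  · intro k t _
    refine ⟨!![t, 0; 0, 1], ?_, ?_⟩
    · rw [Matrix.mul_smul, Matrix.smul_mul, one_mul, mul_one]
    · simp [Matrix.det_fin_two_of]

/-- monomial case -/
theorem mono_case [Fintype F] {κ0 : Type} [Fintype κ0] (b : Basis κ0 F V) (x : V →ₗ[F] V) {z : F}
    (hz : z ≠ 0) (hxx : ∀ v, x (x v) = z • v)
    (π : κ0 → κ0) (hπ : ∀ k, π (π k) = k) (co : κ0 → F) (hx : ∀ k, x (b k) = co k • b (π k))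
    (hfix : (∀ k, π k ≠ k) ∨ (2 : F) = 0) (heven : Even (Fintype.card κ0)) :
    ∃ (κ : Type) (_ : Fintype κ) (_ : DecidableEq κ) (c : Basis (Fin 2 × κ) F V)
      (M : κ → Matrix (Fin 2) (Fin 2) F), x = Matrix.toLin c c (Matrix.blockDiagonal M) ∧
      (∀ k, (M k).det = -z) ∧
      ∀ k, ∀ t : F, t ≠ 0 → ∃ N : Matrix (Fin 2) (Fin 2) F, N * M k = M k * N ∧ N.det = t := by
  classical
  have hco : ∀ k, co k * co (π k) = z := by
    intro k
    have h1 := hxx (b k)
    rw [hx, map_smul, hx, hπ, smul_smul] at h1
    have h2 := congrArg (fun v => b.repr v k) h1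
    simpa using h2
  let lab : κ0 → Finset κ0 := fun k => if π k = k then ∅ else {k, π k}
  have hpair : ∀ k l, lab k = lab l → k ≠ l → (π k = k ∧ π l = l) ∨ (π k = l ∧ π l = k) := by
    intro k l h hkl
    by_cases h1 : π k = k
    · by_cases h2 : π l = l
      · exact Or.inl ⟨h1, h2⟩
      · exfalso
        simp only [lab, if_pos h1, if_neg h2] at h
        have : l ∈ (∅ : Finset κ0) := by rw [h]; simp
        simp at this
    · by_cases h2 : π l = l
      · exfalso
        simp only [lab, if_neg h1, if_pos h2] at h
        have : k ∈ (∅ : Finset κ0) := by rw [← h]; simp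
        simp at this
      · right
        simp only [lab, if_neg h1, if_neg h2] at h
        have h3 : k ∈ ({l, π l} : Finset κ0) := by rw [← h]; simp
        rw [Finset.mem_insert, Finset.mem_singleton] at h3
        rcases h3 with h3 | h3
        · exact absurd h3 hkl
        · exact ⟨by rw [h3, hπ], h3.symm⟩
  have hlab : ∀ l, Even (Fintype.card {k // lab k = l}) := by
    intro l
    by_cases hl : l = ∅
    · subst hl
      have h1 : ∀ k, lab k = ∅ ↔ π k = k := by
        intro k
        simp only [lab]
        split_ifs with h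
        · simp [h]
        · simp [h]
      have h2 : Fintype.card {k // lab k = ∅} = (Finset.univ.filter (fun k => π k = k)).card := by
        rw [Fintype.card_subtype]
        congr 1
        ext k
        simp [h1]
      rw [h2]
      have h3 : Even (Finset.univ.filter (fun k => ¬ π k = k)).card := by
        apply even_of_free π hπ
        · intro k hk
          simp only [Finset.mem_filter, Finset.mem_univ, true_and] at hk ⊢
          rw [hπ]; exact fun h => hk h.symm
        · intro k hk
          simpa using hk
      have h4 := Finset.card_filter_add_card_filter_not (s := (Finset.univ : Finset κ0)) (fun k => π k = k)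
      rw [Finset.card_univ] at h4
      have h5 : Even ((Finset.univ.filter (fun k => π k = k)).card + (Finset.univ.filter (fun k => ¬ π k = k)).card) := by
        rw [h4]; exact heven
      rw [Nat.even_add] at h5
      exact h5.2 h3
    · by_cases hex : ∃ k, lab k = l
      · obtain ⟨k, hk⟩ := hex
        have hk1 : π k ≠ k := by
          intro h
          apply hl
          rw [← hk]
          simp only [lab, if_pos h]
        have h2 : Fintype.card {k // lab k = l} = ({k, π k} : Finset κ0).card := by
          rw [Fintype.card_subtype]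
          congr 1
          ext m
          simp only [Finset.mem_filter, Finset.mem_univ, true_and, Finset.mem_insert, Finset.mem_singleton]
          constructor
          · intro hm
            by_cases hmk : m = k
            · exact Or.inl hmk
            · rcases hpair m k (hm.trans hk.symm) hmk with h3 | h3
              · exact absurd h3.2 hk1
              · exact Or.inr h3.2.symm
          · rintro (rfl | rfl)
            · exact hk
            · rw [← hk]
              simp only [lab, hπ, if_neg hk1, if_neg (fun h : k = π k => hk1 h.symm)]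
              exact Finset.pair_comm _ _
        rw [h2, Finset.card_pair (fun h => hk1 h.symm)]
        exact even_two
      · have : IsEmpty {k // lab k = l} := ⟨fun k => hex ⟨k.1, k.2⟩⟩
        rw [Fintype.card_eq_zero]; simp
  obtain ⟨κ, i1, i2, e, he⟩ := pairing lab hlab
  have hne : ∀ k, e (0, k) ≠ e (1, k) := by
    intro k h
    have := e.injective h
    rw [Prod.mk.injEq] at this
    exact absurd this.1 (by decide)
  let M : κ → Matrix (Fin 2) (Fin 2) F := fun k =>
    if π (e (0, k)) = e (0, k) then !![co (e (0, k)), 0; 0, co (e (1, k))]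
    else !![0, co (e (1, k)); co (e (0, k)), 0]
  refine ⟨κ, i1, i2, b.reindex e.symm, M, ?_, ?_, ?_⟩
  · apply toLin_block
    intro j k
    simp only [Basis.reindex_apply, Equiv.symm_symm]
    rw [hx]
    rcases hpair _ _ (he k) (hne k) with ⟨h1, h2⟩ | ⟨h1, h2⟩
    · simp only [M, if_pos h1]
      fin_cases j
      · simp [h1]
      · simp [h2]
    · have h3 : π (e (0, k)) ≠ e (0, k) := by rw [h1]; exact (hne k).symm
      simp only [M, if_neg h3]
      fin_cases j
      · simp [h1]
      · simp [h2]
  · intro k
    rcases hpair _ _ (he k) (hne k) with ⟨h1, h2⟩ | ⟨h1, h2⟩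
    · simp only [M, if_pos h1, Matrix.det_fin_two_of]
      rcases hfix with hf | hf
      · exact absurd h1 (hf _)
      · have h4 := hco (e (0, k))
        have h5 := hco (e (1, k))
        rw [h1] at h4
        rw [h2] at h5
        have h6 : (co (e (0, k)) - co (e (1, k))) ^ 2 = 0 := by
          linear_combination h4 + h5 + (z - co (e (0, k)) * co (e (1, k))) * hf
        have h7 := pow_eq_zero_iff two_ne_zero |>.1 h6
        have h8 : co (e (1, k)) = co (e (0, k)) := by linear_combination -h7
        rw [h8]
        linear_combination h4 + z * hf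
    · have h3 : π (e (0, k)) ≠ e (0, k) := by rw [h1]; exact (hne k).symm
      simp only [M, if_neg h3, Matrix.det_fin_two_of]
      have h4 := hco (e (0, k))
      rw [h1] at h4
      linear_combination -h4
  · intro k t ht
    rcases hpair _ _ (he k) (hne k) with ⟨h1, h2⟩ | ⟨h1, h2⟩
    · simp only [M, if_pos h1]
      refine ⟨!![t, 0; 0, 1], ?_, ?_⟩
      · ext i j
        fin_cases i <;> fin_cases j <;> simp [Matrix.mul_apply, Fin.sum_univ_two, mul_comm]
      · simp [Matrix.det_fin_two_of]
    · have h3 : π (e (0, k)) ≠ e (0, k) := by rw [h1]; exact (hne k).symm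
      simp only [M, if_neg h3]
      have h4 := hco (e (0, k))
      rw [h1] at h4
      obtain ⟨α, β, hαβ⟩ : ∃ α β : F, α ^ 2 - z * β ^ 2 = t := by
        by_cases h2F : ringChar F = 2
        · obtain ⟨α, hα⟩ := FiniteField.isSquare_of_char_two h2F t
          exact ⟨α, 0, by rw [hα]; ring⟩
        · have hodd := FiniteField.odd_card_of_char_ne_two h2F
          obtain ⟨α, β, h⟩ := FiniteField.exists_root_sum_quadratic (R := F)
            (f := Polynomial.C 1 * Polynomial.X ^ 2 + Polynomial.C 0 * Polynomial.X + Polynomial.C (-t))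
            (g := Polynomial.C (-z) * Polynomial.X ^ 2 + Polynomial.C 0 * Polynomial.X + Polynomial.C 0)
            (Polynomial.degree_quadratic one_ne_zero) (Polynomial.degree_quadratic (neg_ne_zero.2 hz)) hodd
          refine ⟨α, β, ?_⟩
          simp only [Polynomial.eval_add, Polynomial.eval_mul, Polynomial.eval_C, Polynomial.eval_pow,
            Polynomial.eval_X] at h
          linear_combination h
      refine ⟨!![α, β * co (e (1, k)); β * co (e (0, k)), α], ?_, ?_⟩
      · ext i j
        fin_cases i <;> fin_cases j <;> simp [Matrix.mul_apply, Fin.sum_univ_two] <;> ring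
      · rw [Matrix.det_fin_two_of]
        linear_combination hαβ - β ^ 2 * h4

end Cfsg.Agent.H12.SV
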