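import Cfsg.Agent.H12.SimInv2

/-! Involutions of `PSL_n(q)` and symplectic similarities (helper12). -/

set_option autoImplicit false

namespace Cfsg.Agent.H12.SV

open Matrix Module Cfsg.Geo

section
variable {F : Type*} [Field F] {V : Type*} [AddCommGroup V] [Module F V] [FiniteDimensional F V]

theorem eigenbasis (x : V →ₗ[F] V) {c : F} (hc : c ≠ 0) (h2 : (2 : F) ≠ 0)
    (hxx : ∀ v, x (x v) = (c * c) • v) :
    ∃ (a b : ℕ) (β : Basis (Fin a ⊕ Fin b) F V), (∀ i, x (β (Sum.inl i)) = c • β (Sum.inl i)) ∧
      (∀ i, x (β (Sum.inr i)) = (-c) • β (Sum.inr i)) ∧ LinearMap.det x = c ^ a * (-c) ^ b ∧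
      a + b = finrank F V := by
  classical
  let E1 : Submodule F V := LinearMap.ker (x - c • LinearMap.id)
  let E2 : Submodule F V := LinearMap.ker (x + c • LinearMap.id)
  have m1 : ∀ v, v ∈ E1 ↔ x v = c • v := by
    intro v
    simp only [E1, LinearMap.mem_ker, LinearMap.sub_apply, LinearMap.smul_apply, LinearMap.id_apply,
      sub_eq_zero]
  have m2 : ∀ v, v ∈ E2 ↔ x v = (-c) • v := by
    intro v
    simp only [E2, LinearMap.mem_ker, LinearMap.add_apply, LinearMap.smul_apply, LinearMap.id_apply,
      neg_smul, eq_neg_iff_add_eq_zero]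
  have h2c : (2 * c : F) ≠ 0 := mul_ne_zero h2 hc
  have hcompl : IsCompl E1 E2 := by
    constructor
    · rw [Submodule.disjoint_def]
      intro v hv1 hv2
      rw [m1] at hv1
      rw [m2, hv1] at hv2
      have h3 : (2 * c) • v = 0 := by
        rw [two_mul, add_smul]
        nth_rewrite 1 [hv2]
        rw [neg_smul, neg_add_cancel]
      exact (smul_eq_zero.1 h3).resolve_left h2c
    · rw [codisjoint_iff_le_sup]
      intro v _
      rw [Submodule.mem_sup]
      refine ⟨(2 * c)⁻¹ • (x v + c • v), ?_, (2 * c)⁻¹ • (c • v - x v), ?_, ?_⟩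
      · rw [m1, map_smul, map_add, map_smul, hxx]
        module
      · rw [m2, map_smul, map_sub, map_smul, hxx]
        module
      · rw [← smul_add]
        have : x v + c • v + (c • v - x v) = (2 * c) • v := by
          rw [two_mul, add_smul]; abel
        rw [this, smul_smul, inv_mul_cancel₀ h2c, one_smul]
  let b1 := Module.finBasis F E1
  let b2 := Module.finBasis F E2
  let β : Basis (Fin (finrank F E1) ⊕ Fin (finrank F E2)) F V :=
    (b1.prod b2).map (Submodule.prodEquivOfIsCompl E1 E2 hcompl)
  have hl : ∀ i, β (Sum.inl i) = (b1 i : V) := by intro i; simp [β]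
  have hr : ∀ i, β (Sum.inr i) = (b2 i : V) := by intro i; simp [β]
  have hxl : ∀ i, x (β (Sum.inl i)) = c • β (Sum.inl i) := by
    intro i; rw [hl]; exact (m1 _).1 (b1 i).2
  have hxr : ∀ i, x (β (Sum.inr i)) = (-c) • β (Sum.inr i) := by
    intro i; rw [hr]; exact (m2 _).1 (b2 i).2
  refine ⟨_, _, β, hxl, hxr, ?_, ?_⟩
  · have h3 : LinearMap.toMatrix β β x = Matrix.diagonal (Sum.elim (fun _ => c) (fun _ => -c)) := by
      ext i j
      rw [LinearMap.toMatrix_apply]
      rcases j with j | j
      · rw [hxl, map_smul, Finsupp.smul_apply, Basis.repr_self, Matrix.diagonal_apply]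
        by_cases hij : i = Sum.inl j
        · subst hij; simp
        · rw [if_neg hij, Finsupp.single_eq_of_ne hij, smul_zero]
      · rw [hxr, map_smul, Finsupp.smul_apply, Basis.repr_self, Matrix.diagonal_apply]
        by_cases hij : i = Sum.inr j
        · subst hij; simp
        · rw [if_neg hij, Finsupp.single_eq_of_ne hij, smul_zero]
    rw [← LinearMap.det_toMatrix β x, h3, Matrix.det_diagonal, Fintype.prod_sum_type]
    simp
  · have h4 := Module.finrank_eq_card_basis β
    rw [Fintype.card_sum, Fintype.card_fin, Fintype.card_fin] at h4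
    exact h4.symm

end

theorem sim_main {F : Type*} [Field F] [Fintype F] {n : ℕ} (hn : 0 < n) (he : Even n)
    {f : (Fin n → F) → (Fin n → F) → F} (hf : IsSymplecticForm f)
    (hc : (2 : F) ≠ 0 → ∀ c : F, c ^ n ≠ -1)
    (X : Matrix.SpecialLinearGroup (Fin n) F) {z : F}
    (hz : ((X ^ 2 : Matrix.SpecialLinearGroup (Fin n) F) : Matrix (Fin n) (Fin n) F) =
      z • (1 : Matrix (Fin n) (Fin n) F)) :
    ∃ P : Matrix.SpecialLinearGroup (Fin n) F, P⁻¹ * X * P ∈ (similarityGroup f).comap
      (Matrix.SpecialLinearGroup.toGL : Matrix.SpecialLinearGroup (Fin n) F →* GL (Fin n) F) := by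
  classical
  have hne : Nonempty (Fin n) := ⟨⟨0, hn⟩⟩
  have hz0 : z ≠ 0 := by
    rintro rfl
    have h1 := (X ^ 2).2
    rw [show ((X ^ 2).val : Matrix (Fin n) (Fin n) F) = (0 : F) • 1 from hz, zero_smul,
      Matrix.det_zero] at h1
    exact zero_ne_one h1
  have hxx : ∀ v, Matrix.toLin' (X : Matrix (Fin n) (Fin n) F) (Matrix.toLin' (X : Matrix (Fin n) (Fin n) F) v) = z • v := by
    intro v
    rw [Matrix.toLin'_apply, Matrix.toLin'_apply, Matrix.mulVec_mulVec, ← Matrix.SpecialLinearGroup.coe_mul,
      ← pow_two, hz, Matrix.smul_mulVec, Matrix.one_mulVec]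
  have hfin : finrank F (Fin n → F) = n := Module.finrank_fin_fun F
  have hk0 : ∀ {κ : Type} (c : Basis (Fin 2 × κ) F (Fin n → F)), Nonempty κ := by
    intro κ c
    by_contra h
    rw [not_nonempty_iff] at h
    have : IsEmpty (Fin 2 × κ) := inferInstance
    haveI : Fintype (Fin 2 × κ) := Fintype.ofIsEmpty
    have h3 : finrank F (Fin n → F) = 0 := by
      rw [Module.finrank_eq_card_basis c]; exact Fintype.card_eq_zero
    omega
  by_cases hA : (2 : F) = 0 ∨ ¬ IsSquare z
  · obtain ⟨κ0, i0, b, π, hπ, hx⟩ := mono_basis n hfin (Matrix.toLin' (X : Matrix (Fin n) (Fin n) F)) z hz0 hxx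
    choose co hco using hx
    have hfix : (∀ k, π k ≠ k) ∨ (2 : F) = 0 := by
      rcases hA with h | h
      · exact Or.inr h
      · left
        intro k hk
        apply h
        have h1 := hxx (b k)
        rw [hco, map_smul, hco, hπ, hk, smul_smul] at h1
        have h2 := congrArg (fun v => b.repr v k) h1
        refine ⟨co k, ?_⟩
        simpa using h2.symm
    have heven : Even (Fintype.card κ0) := by
      rw [← Module.finrank_eq_card_basis b, hfin]; exact he
    obtain ⟨κ, i1, i2, c, M, hX, hdet, hN⟩ := mono_case b _ hz0 hxx π hπ co hco hfix heven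
    obtain ⟨k0⟩ := hk0 c
    exact conj_sim hf X c M hX (-z) (neg_ne_zero.2 hz0) hdet k0 (hN k0)
  · push Not at hA
    obtain ⟨h2, c0, hc0⟩ := hA
    have hc00 : c0 ≠ 0 := by rintro rfl; apply hz0; rw [hc0]; ring
    obtain ⟨a, b, β, hl, hr, hdet, hab⟩ := eigenbasis (Matrix.toLin' (X : Matrix (Fin n) (Fin n) F)) hc00 h2
      (by rw [← hc0]; exact hxx)
    rw [hfin] at hab
    have hb : Even b := by
      by_contra hb
      rw [Nat.not_even_iff_odd] at hb
      rw [LinearMap.det_toLin', X.2, hb.neg_pow, mul_neg, ← pow_add, hab] at hdet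
      apply hc h2 c0
      linear_combination hdet
    have ha : Even a := by
      have h5 : Even (a + b) := by rw [hab]; exact he
      rw [Nat.even_add] at h5
      exact h5.2 hb
    obtain ⟨κ, i1, i2, c, M, hX, hdet, hN⟩ := diag_case β (Matrix.toLin' (X : Matrix (Fin n) (Fin n) F))
      (fun s => s.isLeft) (fun l => if l then c0 else -c0) (z := z)
      (by intro l; cases l <;> simp [hc0, pow_two])
      (by
        rintro (i | i)
        · rw [hl]; simp
        · rw [hr]; simp)
      (by
        intro l
        cases l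
        · have : Fintype.card {k : Fin a ⊕ Fin b // k.isLeft = false} = b := by
            rw [Fintype.card_subtype]
            have h6 : (Finset.univ.filter (fun k : Fin a ⊕ Fin b => k.isLeft = false)) =
                Finset.univ.map ⟨Sum.inr, Sum.inr_injective⟩ := by
              ext k
              rcases k with k | k <;> simp
            rw [h6, Finset.card_map, Finset.card_univ, Fintype.card_fin]
          rw [this]; exact hb
        · have : Fintype.card {k : Fin a ⊕ Fin b // k.isLeft = true} = a := by
            rw [Fintype.card_subtype]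
            have h6 : (Finset.univ.filter (fun k : Fin a ⊕ Fin b => k.isLeft = true)) =
                Finset.univ.map ⟨Sum.inl, Sum.inl_injective⟩ := by
              ext k
              rcases k with k | k <;> simp
            rw [h6, Finset.card_map, Finset.card_univ, Fintype.card_fin]
          rw [this]; exact ha)
    obtain ⟨k0⟩ := hk0 c
    exact conj_sim hf X c M hX z hz0 hdet k0 (hN k0)

end Cfsg.Agent.H12.SV
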