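import Mathlib.FieldTheory.Galois.NormalBasis
import Mathlib.LinearAlgebra.Matrix.SchurComplement
import Mathlib.LinearAlgebra.Matrix.Charpoly.Minpoly
import Mathlib.LinearAlgebra.Matrix.GeneralLinearGroup.Defs
import Mathlib.LinearAlgebra.Matrix.SpecialLinearGroup

/-! Conjugacy to the cyclic shift matrix (helper12). -/

set_option autoImplicit false

namespace Cfsg.Agent.H12.SG

open Matrix Polynomial Module

variable {F : Type*} [Field F] {n : ℕ} [NeZero n]

/-- the cyclic shift -/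
def shiftM (F : Type*) [Field F] (n : ℕ) [NeZero n] : Matrix (Fin n) (Fin n) F :=
  Matrix.of fun i j => if i = j + 1 then 1 else 0

theorem mul_shiftM (g : Matrix (Fin n) (Fin n) F) (i j : Fin n) :
    (g * shiftM F n) i j = g i (j + 1) := by
  simp [Matrix.mul_apply, shiftM]

theorem conj_shiftM {x : Matrix (Fin n) (Fin n) F} {v : Fin n → F}
    (hli : LinearIndependent F (fun j : Fin n => (x ^ (j : ℕ)) *ᵥ v)) (hx : x ^ n = 1) :
    ∃ g : GL (Fin n) F, x * (g : Matrix (Fin n) (Fin n) F) = g * shiftM F n := by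
  let B : Matrix (Fin n) (Fin n) F := Matrix.of fun i j => ((x ^ (j : ℕ)) *ᵥ v) i
  have hB : IsUnit B := by
    rw [← Matrix.linearIndependent_cols_iff_isUnit]
    exact hli
  obtain ⟨g, hg⟩ := hB
  refine ⟨g, ?_⟩
  rw [hg]
  ext i j
  rw [mul_shiftM]
  have h1 : (x * B) i j = ((x ^ ((j : ℕ) + 1)) *ᵥ v) i := by
    rw [pow_succ', ← Matrix.mulVec_mulVec]
    rfl
  rw [h1]
  change _ = ((x ^ ((j + 1 : Fin n) : ℕ)) *ᵥ v) i
  have h2 : x ^ ((j : ℕ) + 1) = x ^ ((j + 1 : Fin n) : ℕ) := by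
    rw [Fin.val_add, Fin.val_one', Nat.add_mod_mod]
    exact pow_eq_pow_mod _ hx
  rw [h2]

theorem exists_comm_det (hn : (n : F) ≠ 0) (a : F) : ∃ c : Matrix (Fin n) (Fin n) F,
    c * shiftM F n = shiftM F n * c ∧ c.det = a := by
  let J : Matrix (Fin n) (Fin n) F := Matrix.of fun _ _ => 1
  refine ⟨1 + ((a - 1) / n) • J, ?_, ?_⟩
  · rw [add_mul, mul_add, one_mul, mul_one, Matrix.smul_mul, Matrix.mul_smul]
    congr 2
    ext i j
    rw [mul_shiftM, Matrix.mul_apply]
    simp only [J, shiftM, Matrix.of_apply]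
    rw [Finset.sum_eq_single (i - 1)]
    · simp
    · intro b _ hb
      rw [if_neg, zero_mul]
      intro h; apply hb; rw [h]; simp
    · simp
  · have h1 : 1 + ((a - 1) / (n : F)) • J = 1 + Matrix.replicateCol Unit (fun _ : Fin n => (a - 1) / (n : F)) *
        Matrix.replicateRow Unit (fun _ : Fin n => (1 : F)) := by
      congr 1
      ext i j
      simp [J, Matrix.mul_apply]
    rw [h1, Matrix.det_one_add_replicateCol_mul_replicateRow]
    simp only [dotProduct, one_mul, Finset.sum_const, Finset.card_univ, Fintype.card_fin,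
      nsmul_eq_mul]
    field_simp
    ring

/-- conjugate in `SL` to each other -/
theorem sl_conj (hn : (n : F) ≠ 0) {x y : Matrix.SpecialLinearGroup (Fin n) F}
    (hx : ∃ g : GL (Fin n) F, (x : Matrix (Fin n) (Fin n) F) * g = g * shiftM F n)
    (hy : ∃ g : GL (Fin n) F, (y : Matrix (Fin n) (Fin n) F) * g = g * shiftM F n) :
    ∃ P : Matrix.SpecialLinearGroup (Fin n) F, P⁻¹ * x * P = y := by
  obtain ⟨g, hg⟩ := hx
  obtain ⟨h, hh⟩ := hy
  have hdet : ((g : Matrix (Fin n) (Fin n) F)).det ≠ 0 :=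
    ((Matrix.isUnit_iff_isUnit_det _).1 g.isUnit).ne_zero
  have hdet2 : ((h : Matrix (Fin n) (Fin n) F)).det ≠ 0 :=
    ((Matrix.isUnit_iff_isUnit_det _).1 h.isUnit).ne_zero
  obtain ⟨c, hc, hcd⟩ := exists_comm_det (F := F) (n := n) hn
    (((g : Matrix (Fin n) (Fin n) F)).det⁻¹ * ((h : Matrix (Fin n) (Fin n) F)).det)
  let Q : Matrix (Fin n) (Fin n) F := (g : Matrix (Fin n) (Fin n) F) * c *
    ((h⁻¹ : GL (Fin n) F) : Matrix (Fin n) (Fin n) F)
  have hhi : ((h⁻¹ : GL (Fin n) F) : Matrix (Fin n) (Fin n) F).det =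
      ((h : Matrix (Fin n) (Fin n) F)).det⁻¹ := by
    have h1 : ((h : Matrix (Fin n) (Fin n) F)) * ((h⁻¹ : GL (Fin n) F) : Matrix (Fin n) (Fin n) F) = 1 :=
      h.mul_inv
    have h2 := congrArg Matrix.det h1
    rw [Matrix.det_mul, Matrix.det_one] at h2
    exact eq_inv_of_mul_eq_one_right h2
  have hQ : Q.det = 1 := by
    simp only [Q]
    rw [Matrix.det_mul, Matrix.det_mul, hcd, hhi]
    field_simp
  let Q' : Matrix.SpecialLinearGroup (Fin n) F := ⟨Q, hQ⟩
  refine ⟨Q', ?_⟩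
  rw [mul_assoc, inv_mul_eq_iff_eq_mul]
  apply Subtype.ext
  change (x : Matrix (Fin n) (Fin n) F) * Q = Q * (y : Matrix (Fin n) (Fin n) F)
  have hy' : ((h⁻¹ : GL (Fin n) F) : Matrix (Fin n) (Fin n) F) * (y : Matrix (Fin n) (Fin n) F) =
      shiftM F n * ((h⁻¹ : GL (Fin n) F) : Matrix (Fin n) (Fin n) F) := by
    have h1 : ((h⁻¹ : GL (Fin n) F) : Matrix (Fin n) (Fin n) F) * (h : Matrix (Fin n) (Fin n) F) = 1 := h.inv_mul
    have h2 : (h : Matrix (Fin n) (Fin n) F) * ((h⁻¹ : GL (Fin n) F) : Matrix (Fin n) (Fin n) F) = 1 := h.mul_inv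
    calc _ = ((h⁻¹ : GL (Fin n) F) : Matrix (Fin n) (Fin n) F) * ((y : Matrix (Fin n) (Fin n) F) * h) *
        ((h⁻¹ : GL (Fin n) F) : Matrix (Fin n) (Fin n) F) := by
          rw [mul_assoc, mul_assoc (y : Matrix (Fin n) (Fin n) F), h2, mul_one]
      _ = _ := by rw [hh, ← mul_assoc, h1, one_mul]
  calc (x : Matrix (Fin n) (Fin n) F) * Q
      = ((x : Matrix (Fin n) (Fin n) F) * g) * c * ((h⁻¹ : GL (Fin n) F) : Matrix (Fin n) (Fin n) F) := by
        simp only [Q, mul_assoc]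
    _ = (g : Matrix (Fin n) (Fin n) F) * c * (shiftM F n * ((h⁻¹ : GL (Fin n) F) : Matrix (Fin n) (Fin n) F)) := by
        rw [hg, mul_assoc (g : Matrix (Fin n) (Fin n) F) (shiftM F n) c, ← hc]
        simp only [mul_assoc]
    _ = _ := by rw [← hy']; simp only [Q, mul_assoc]

/-- cyclic vector -/
theorem exists_cyc {x : Matrix (Fin n) (Fin n) F} (hx : (minpoly F x).natDegree = n) :
    ∃ v : Fin n → F, LinearIndependent F (fun j : Fin n => (x ^ (j : ℕ)) *ᵥ v) := by
  obtain ⟨v, hv⟩ := exists_ker_toSpanSingleton_eq_annihilator F[X]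
    (AEval' (Matrix.toLin' x))
  obtain ⟨v, rfl⟩ := (AEval'.of _).surjective v
  refine ⟨v, ?_⟩
  rw [← span_minpoly_eq_annihilator, Matrix.minpoly_toLin'] at hv
  rw [Fintype.linearIndependent_iff]
  intro c hc i
  let f : F[X] := ∑ j : Fin n, C (c j) * X ^ (j : ℕ)
  have h1 : f ∈ LinearMap.ker (LinearMap.toSpanSingleton F[X] (AEval' (Matrix.toLin' x))
      (AEval'.of (Matrix.toLin' x) v)) := by
    rw [LinearMap.mem_ker, LinearMap.toSpanSingleton_apply]
    simp only [f, Finset.sum_smul, mul_smul]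
    have h2 : ∀ j : Fin n, (C (c j) : F[X]) • (X ^ (j : ℕ) : F[X]) • (AEval'.of (Matrix.toLin' x) v) =
        AEval'.of (Matrix.toLin' x) (c j • ((x ^ (j : ℕ)) *ᵥ v)) := by
      intro j
      rw [AEval'.X_pow_smul_of, AEval.C_smul]
      simp only [Module.End.smul_def]
      rw [map_smul]
      congr 2
      rw [← Matrix.toLin'_pow, Matrix.toLin'_apply]
    rw [Finset.sum_congr rfl (fun j _ => h2 j), ← map_sum, hc, map_zero]
  rw [hv, Ideal.mem_span_singleton] at h1
  have hdeg : f.degree < (minpoly F x).degree := by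
    rw [Polynomial.degree_eq_natDegree (minpoly.ne_zero (Matrix.isIntegral x)), hx]
    refine lt_of_le_of_lt (Polynomial.degree_sum_le _ _) ?_
    rw [Finset.sup_lt_iff (by exact_mod_cast WithBot.bot_lt_coe n)]
    intro j _
    refine lt_of_le_of_lt (Polynomial.degree_C_mul_X_pow_le _ _) ?_
    exact_mod_cast j.2
  have hf : f = 0 := Polynomial.eq_zero_of_dvd_of_degree_lt h1 hdeg
  have h5 : f.coeff (i : ℕ) = c i := by
    simp only [f, Polynomial.finset_sum_coeff, Polynomial.coeff_C_mul, Polynomial.coeff_X_pow]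
    rw [Finset.sum_eq_single i]
    · simp
    · intro b _ hb
      rw [if_neg, mul_zero]
      intro h; exact hb (Fin.ext h.symm)
    · simp
  rw [← h5, hf, Polynomial.coeff_zero]

end Cfsg.Agent.H12.SG
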