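import Cfsg.Agent.H12.Sing2
import Mathlib.RingTheory.Polynomial.Cyclotomic.Factorization

/-! Singer normalizers: elements of order `n` (helper12). -/

set_option autoImplicit false

namespace Cfsg.Agent.H12.SG

open Matrix Polynomial Module Cfsg.Geo

variable {F : Type*} [Field F] {n : ℕ} [NeZero n]

theorem det_shiftM (hn : Odd n) : (shiftM F n).det = 1 := by
  obtain ⟨m, rfl⟩ : ∃ m, n = m + 1 := ⟨n - 1, (Nat.succ_pred (NeZero.ne n)).symm⟩
  have h1 : shiftM F (m + 1) = ((finRotate (m + 1)).permMatrix F)ᵀ := by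
    ext i j
    simp only [shiftM, Matrix.of_apply, Matrix.transpose_apply, Equiv.Perm.permMatrix,
      PEquiv.toMatrix_apply, Equiv.toPEquiv_apply, finRotate_succ_apply, Option.mem_some_iff]
    congr 1
    exact propext eq_comm
  rw [h1, Matrix.det_transpose, Matrix.det_permutation, sign_finRotate]
  have hm : Even m := by
    rw [Nat.odd_add_one] at hn
    exact Nat.not_odd_iff_even.1 hn
  rw [Nat.add_sub_cancel, hm.neg_one_pow]; simp

theorem exists_s_sl [Fintype F] (hn : Odd n) {K : Subalgebra F (Matrix (Fin n) (Fin n) F)}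
    (hK : IsFieldSubalgebra n K) :
    ∃ s : Matrix.SpecialLinearGroup (Fin n) F,
      s ∈ (subalgebraNormalizer K).comap (Matrix.SpecialLinearGroup.toGL :
        Matrix.SpecialLinearGroup (Fin n) F →* GL (Fin n) F) ∧
      ∃ g : GL (Fin n) F, (s : Matrix (Fin n) (Fin n) F) * g = g * shiftM F n := by
  obtain ⟨s, h1, g, hg⟩ := exists_s hK
  have hdet : ((s : Matrix (Fin n) (Fin n) F)).det = 1 := by
    have h2 := congrArg Matrix.det hg
    rw [Matrix.det_mul, Matrix.det_mul, det_shiftM hn, mul_one] at h2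
    have hdet : ((g : Matrix (Fin n) (Fin n) F)).det ≠ 0 :=
      ((Matrix.isUnit_iff_isUnit_det _).1 g.isUnit).ne_zero
    exact mul_right_cancel₀ hdet (h2.trans (one_mul _).symm)
  let s' : Matrix.SpecialLinearGroup (Fin n) F := ⟨s, hdet⟩
  refine ⟨s', ?_, g, hg⟩
  have : Matrix.SpecialLinearGroup.toGL s' = s := Units.ext rfl
  rw [Subgroup.mem_comap, this]
  exact h1

theorem conj_into [Fintype F] (hn : Odd n) (hnF : (n : F) ≠ 0)
    {K : Subalgebra F (Matrix (Fin n) (Fin n) F)} (hK : IsFieldSubalgebra n K)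
    {x : Matrix.SpecialLinearGroup (Fin n) F}
    (hx : ∃ g : GL (Fin n) F, (x : Matrix (Fin n) (Fin n) F) * g = g * shiftM F n) :
    ∃ P : Matrix.SpecialLinearGroup (Fin n) F, P⁻¹ * x * P ∈
      (subalgebraNormalizer K).comap (Matrix.SpecialLinearGroup.toGL :
        Matrix.SpecialLinearGroup (Fin n) F →* GL (Fin n) F) := by
  obtain ⟨s, hs, hsg⟩ := exists_s_sl hn hK
  obtain ⟨P, hP⟩ := sl_conj hnF hx hsg
  exact ⟨P, by rw [hP]; exact hs⟩

theorem not_conj_into (hn : n.Prime) {K : Subalgebra F (Matrix (Fin n) (Fin n) F)}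
    (hK : IsFieldSubalgebra n K) {x : Matrix.SpecialLinearGroup (Fin n) F}
    (hns : ∀ z : F, (x : Matrix (Fin n) (Fin n) F) ≠ z • (1 : Matrix (Fin n) (Fin n) F))
    {l : F} {v w : Fin n → F} (hv : v ≠ 0) (hxv : (x : Matrix (Fin n) (Fin n) F) *ᵥ v = l • v)
    (hxw : (x : Matrix (Fin n) (Fin n) F) *ᵥ w = l • w) (hvw : ∀ c : F, w ≠ c • v) :
    ¬ ∃ P : Matrix.SpecialLinearGroup (Fin n) F, P⁻¹ * x * P ∈
      (subalgebraNormalizer K).comap (Matrix.SpecialLinearGroup.toGL :
        Matrix.SpecialLinearGroup (Fin n) F →* GL (Fin n) F) := by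
  rintro ⟨P, hP⟩
  rw [Subgroup.mem_comap] at hP
  have hPP : (P : Matrix (Fin n) (Fin n) F) * ((P⁻¹ : Matrix.SpecialLinearGroup (Fin n) F) : Matrix (Fin n) (Fin n) F) = 1 := by
    rw [← Matrix.SpecialLinearGroup.coe_mul, mul_inv_cancel]; rfl
  have hPP' : ((P⁻¹ : Matrix.SpecialLinearGroup (Fin n) F) : Matrix (Fin n) (Fin n) F) * (P : Matrix (Fin n) (Fin n) F) = 1 := by
    rw [← Matrix.SpecialLinearGroup.coe_mul, inv_mul_cancel]; rfl
  have key : ∀ u : Fin n → F, (x : Matrix (Fin n) (Fin n) F) *ᵥ u = l • u →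
      ((P⁻¹ * x * P : Matrix.SpecialLinearGroup (Fin n) F) : Matrix (Fin n) (Fin n) F) *ᵥ
        (((P⁻¹ : Matrix.SpecialLinearGroup (Fin n) F) : Matrix (Fin n) (Fin n) F) *ᵥ u) =
      l • (((P⁻¹ : Matrix.SpecialLinearGroup (Fin n) F) : Matrix (Fin n) (Fin n) F) *ᵥ u) := by
    intro u hu
    rw [Matrix.SpecialLinearGroup.coe_mul, Matrix.SpecialLinearGroup.coe_mul,
      Matrix.mulVec_mulVec, mul_assoc, hPP, mul_one, ← Matrix.mulVec_mulVec, hu, Matrix.mulVec_smul]
  have hinj : ∀ u : Fin n → F, ((P⁻¹ : Matrix.SpecialLinearGroup (Fin n) F) : Matrix (Fin n) (Fin n) F) *ᵥ u = 0 → u = 0 := by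
    intro u hu
    have h1 : (P : Matrix (Fin n) (Fin n) F) *ᵥ (((P⁻¹ : Matrix.SpecialLinearGroup (Fin n) F) : Matrix (Fin n) (Fin n) F) *ᵥ u) = 0 := by
      rw [hu, Matrix.mulVec_zero]
    rwa [Matrix.mulVec_mulVec, hPP, Matrix.one_mulVec] at h1
  rcases eig_one hn hK hP (l := l)
    (v := ((P⁻¹ : Matrix.SpecialLinearGroup (Fin n) F) : Matrix (Fin n) (Fin n) F) *ᵥ v)
    (w := ((P⁻¹ : Matrix.SpecialLinearGroup (Fin n) F) : Matrix (Fin n) (Fin n) F) *ᵥ w)
    (fun h => hv (hinj v h)) (key v hxv) (key w hxw) with ⟨c, hc⟩ | ⟨c, hc⟩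
  · apply hns c
    have h1 : ((P⁻¹ * x * P : Matrix.SpecialLinearGroup (Fin n) F) : Matrix (Fin n) (Fin n) F) = c • 1 := hc
    have h2 : x = P * (P⁻¹ * x * P) * P⁻¹ := by group
    rw [h2, Matrix.SpecialLinearGroup.coe_mul, Matrix.SpecialLinearGroup.coe_mul, h1,
      Matrix.mul_smul, mul_one, Matrix.smul_mul, hPP]
  · apply hvw c
    have h1 : ((P⁻¹ : Matrix.SpecialLinearGroup (Fin n) F) : Matrix (Fin n) (Fin n) F) *ᵥ (w - c • v) = 0 := by
      rw [Matrix.mulVec_sub, Matrix.mulVec_smul, hc, sub_self]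
    exact sub_eq_zero.1 (hinj _ h1)

/-- all elements of order `n` are regular when `q` is a primitive root modulo `n` -/
theorem regular_of_ord [Fintype F] {p : ℕ} [Fact p.Prime] [CharP F p] {q : ℕ}
    (hq : Fintype.card F = q) (hn : n.Prime) (hn2 : 2 < n) (hnp : n ≠ p)
    (hord : orderOf (q : ZMod n) = n - 1) {x : Matrix.SpecialLinearGroup (Fin n) F} {z : F}
    (hz : ((x ^ n : Matrix.SpecialLinearGroup (Fin n) F) : Matrix (Fin n) (Fin n) F) =
      z • (1 : Matrix (Fin n) (Fin n) F))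
    (hns : ∀ z : F, (x : Matrix (Fin n) (Fin n) F) ≠ z • (1 : Matrix (Fin n) (Fin n) F)) :
    ∃ g : GL (Fin n) F, (x : Matrix (Fin n) (Fin n) F) * g = g * shiftM F n := by
  classical
  haveI hnf : Fact n.Prime := ⟨hn⟩
  have hq1 : (q : ZMod n) ≠ 1 := by
    intro h
    rw [h, orderOf_one] at hord
    omega
  have hqpos : 1 < q := by rw [← hq]; exact Fintype.one_lt_card
  have hndvd : ¬ n ∣ q - 1 := by
    intro h
    apply hq1
    have h2 : ((q - 1 : ℕ) : ZMod n) = 0 := (ZMod.natCast_eq_zero_iff _ _).2 h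
    rw [Nat.cast_sub hqpos.le, Nat.cast_one, sub_eq_zero] at h2
    exact h2
  have hzn : z ^ n = 1 := by
    have h1 := (x ^ n).2
    rw [show ((x ^ n).val : Matrix (Fin n) (Fin n) F) = z • (1 : Matrix (Fin n) (Fin n) F) from hz,
      Matrix.det_smul, Matrix.det_one, mul_one, Fintype.card_fin] at h1
    exact h1
  have hz0 : z ≠ 0 := by
    rintro rfl
    rw [zero_pow hn.ne_zero] at hzn
    exact zero_ne_one hzn
  have hz1 : z = 1 := by
    have h1 : z ^ (q - 1) = 1 := by rw [← hq]; exact FiniteField.pow_card_sub_one_eq_one z hz0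
    have h2 := orderOf_dvd_of_pow_eq_one hzn
    have h3 := orderOf_dvd_of_pow_eq_one h1
    rcases (Nat.dvd_prime hn).1 h2 with h4 | h4
    · exact orderOf_eq_one_iff.1 h4
    · exact absurd (h4 ▸ h3) hndvd
  have hxn : (x : Matrix (Fin n) (Fin n) F) ^ n = 1 := by
    have h1 : ((x ^ n : Matrix.SpecialLinearGroup (Fin n) F) : Matrix (Fin n) (Fin n) F) =
      (x : Matrix (Fin n) (Fin n) F) ^ n := Matrix.SpecialLinearGroup.coe_pow x n
    rw [← h1, hz, hz1, one_smul]
  -- a nonzero fixed vector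
  obtain ⟨v, hv0, hv⟩ : ∃ v : Fin n → F, v ≠ 0 ∧ (x : Matrix (Fin n) (Fin n) F) *ᵥ v = v := by
    by_contra hcon
    push Not at hcon
    let f : Function.End (Fin n → F) := fun v => (x : Matrix (Fin n) (Fin n) F) *ᵥ v
    have hfm : ∀ m : ℕ, ∀ v, (f ^ m) v = ((x : Matrix (Fin n) (Fin n) F) ^ m) *ᵥ v := by
      intro m
      induction m with
      | zero => intro v; rw [pow_zero, pow_zero, Matrix.one_mulVec]; rfl
      | succ m ih =>
        intro v
        rw [pow_succ, pow_succ, ← Matrix.mulVec_mulVec, ← ih]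
        rfl
    have hf : f ^ n ^ 1 = 1 := by
      funext v
      rw [pow_one, hfm, hxn, Matrix.one_mulVec]; rfl
    have h1 := Equiv.Perm.card_fixedPoints_modEq hf
    have h2 : Fintype.card f.fixedPoints = 1 := by
      rw [Fintype.card_eq_one_iff]
      refine ⟨⟨0, ?_⟩, ?_⟩
      · change (x : Matrix (Fin n) (Fin n) F) *ᵥ 0 = 0
        exact Matrix.mulVec_zero _
      · rintro ⟨v, hv⟩
        apply Subtype.ext
        by_contra h3
        exact hcon v h3 hv
    rw [h2, Fintype.card_fun, Fintype.card_fin, hq] at h1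
    apply hq1
    have h3 := (ZMod.natCast_eq_natCast_iff _ _ _).2 h1
    rw [Nat.cast_pow, ZMod.pow_card, Nat.cast_one] at h3
    exact h3
  -- irreducibility
  obtain ⟨f, -, hpf⟩ := FiniteField.card F p
  have hpn : p.Coprime n := (Nat.coprime_primes Fact.out hn).2 (Ne.symm hnp)
  have hirr : Irreducible (cyclotomic n F) := by
    apply Polynomial.irreducible_of_dvd_cyclotomic_of_natDegree hpf hpn dvd_rfl
    rw [Polynomial.natDegree_cyclotomic, Nat.totient_prime hn, ← orderOf_units,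
      ZMod.coe_unitOfCoprime, ← hpf, hq, hord]
  have hroot : (X - C (1 : F)) ∣ minpoly F (x : Matrix (Fin n) (Fin n) F) := by
    rw [Polynomial.dvd_iff_isRoot]
    have h1 : (aeval (x : Matrix (Fin n) (Fin n) F) (minpoly F (x : Matrix (Fin n) (Fin n) F))) *ᵥ v =
        ((minpoly F (x : Matrix (Fin n) (Fin n) F)).eval 1) • v := by
      rw [Polynomial.aeval_eq_sum_range, Polynomial.eval_eq_sum_range, Matrix.sum_mulVec,
        Finset.sum_smul]
      apply Finset.sum_congr rfl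
      intro i hi
      rw [Matrix.smul_mulVec, one_pow, mul_one]
      congr 1
      clear hi
      induction i with
      | zero => rw [pow_zero, Matrix.one_mulVec]
      | succ i ih => rw [pow_succ, ← Matrix.mulVec_mulVec, hv, ih]
    rw [minpoly.aeval, Matrix.zero_mulVec] at h1
    exact (smul_eq_zero.1 h1.symm).resolve_right hv0
  obtain ⟨ν, hν⟩ := hroot
  have hprod : (X - C (1 : F)) * cyclotomic n F = X ^ n - 1 := by
    rw [Polynomial.cyclotomic_prime, mul_comm, C_1, geom_sum_mul]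
  have hdvd : minpoly F (x : Matrix (Fin n) (Fin n) F) ∣ X ^ n - 1 := by
    apply minpoly.dvd
    rw [map_sub, map_pow, aeval_X, map_one, hxn, sub_self]
  have hνd : ν ∣ cyclotomic n F := by
    rw [← hprod, hν] at hdvd
    exact (mul_dvd_mul_iff_left (X_sub_C_ne_zero 1)).1 hdvd
  have hν0 : ν ≠ 0 := by
    rintro rfl
    rw [mul_zero] at hν
    exact minpoly.ne_zero (Matrix.isIntegral (R := F) (x : Matrix (Fin n) (Fin n) F)) hν
  have hdeg : (minpoly F (x : Matrix (Fin n) (Fin n) F)).natDegree = n := by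
    rcases (hirr.dvd_iff.1 hνd) with h1 | h1
    · exfalso
      obtain ⟨c, hc, hc2⟩ := Polynomial.isUnit_iff.1 h1
      apply hns 1
      rw [one_smul]
      have h2 := minpoly.aeval F (x : Matrix (Fin n) (Fin n) F)
      rw [hν, ← hc2, map_mul, aeval_C, map_sub, aeval_X, C_1, map_one,
        Algebra.algebraMap_eq_smul_one, Matrix.mul_smul, mul_one] at h2
      exact sub_eq_zero.1 ((smul_eq_zero.1 h2).resolve_left hc.ne_zero)
    · have h2 : ν.natDegree = n - 1 := by
        have h3 := Polynomial.degree_eq_degree_of_associated h1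
        have h4 := Polynomial.natDegree_eq_of_degree_eq h3
        rw [Polynomial.natDegree_cyclotomic, Nat.totient_prime hn] at h4
        exact h4.symm
      rw [hν, Polynomial.natDegree_mul (X_sub_C_ne_zero 1) hν0, Polynomial.natDegree_X_sub_C, h2]
      omega
  obtain ⟨w, hw⟩ := exists_cyc hdeg
  exact conj_shiftM hw hxn

end Cfsg.Agent.H12.SG
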