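import Cfsg.Agent.H12.Sing3
import Cfsg.Agent.H16.SylB

/-! Singer normalizers: elements of order `n` with many fixed vectors (helper12). -/

set_option autoImplicit false

namespace Cfsg.Agent.H12.SG

open Matrix Polynomial Module Cfsg.Geo

variable {F : Type*} [Field F] {n : ℕ} [NeZero n]

/-- block embedding -/
def emb {m : ℕ} (e : Fin m ⊕ Fin 2 ≃ Fin n) : Matrix (Fin m) (Fin m) F →* Matrix (Fin n) (Fin n) F where
  toFun y := (Matrix.fromBlocks y 0 0 1).submatrix e.symm e.symm
  map_one' := by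
    rw [Matrix.fromBlocks_one, Matrix.submatrix_one_equiv]
  map_mul' a b := by
    rw [Matrix.submatrix_mul_equiv, Matrix.fromBlocks_multiply]
    simp

theorem emb_det {m : ℕ} (e : Fin m ⊕ Fin 2 ≃ Fin n) (y : Matrix (Fin m) (Fin m) F) :
    (emb e y).det = y.det := by
  change ((Matrix.fromBlocks y 0 0 1).submatrix e.symm e.symm).det = _
  rw [Matrix.det_submatrix_equiv_self, Matrix.det_fromBlocks_zero₂₁, Matrix.det_one, mul_one]

theorem emb_fix {m : ℕ} (e : Fin m ⊕ Fin 2 ≃ Fin n) (y : Matrix (Fin m) (Fin m) F) (j : Fin 2) :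
    (emb e y) *ᵥ (Pi.single (e (Sum.inr j)) 1) = Pi.single (e (Sum.inr j)) 1 := by
  rw [Matrix.mulVec_single_one]
  ext i
  obtain ⟨i, rfl⟩ := e.surjective i
  change (Matrix.fromBlocks y 0 0 (1 : Matrix (Fin 2) (Fin 2) F)) (e.symm (e i)) (e.symm (e (Sum.inr j))) = _
  rw [e.symm_apply_apply, e.symm_apply_apply]
  rcases i with i | i
  · rw [Matrix.fromBlocks_apply₁₂, Pi.single_eq_of_ne]
    · rfl
    · intro h
      exact Sum.inl_ne_inr (e.injective h)
  · rw [Matrix.fromBlocks_apply₂₂, Matrix.one_apply]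
    by_cases hij : i = j
    · subst hij; simp
    · rw [if_neg hij, Pi.single_eq_of_ne]
      intro h
      exact hij (Sum.inr_injective (e.injective h))

theorem exists_fix [Fintype F] {p : ℕ} [Fact p.Prime] [CharP F p] {q : ℕ}
    (hq : Fintype.card F = q) (hn : n.Prime) (hn3 : 3 < n) (hnp : n ≠ p)
    (hord : orderOf (q : ZMod n) ≠ n - 1) :
    ∃ x : Matrix.SpecialLinearGroup (Fin n) F, x ^ n = 1 ∧
      (∀ z : F, (x : Matrix (Fin n) (Fin n) F) ≠ z • (1 : Matrix (Fin n) (Fin n) F)) ∧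
      ∃ v w : Fin n → F, v ≠ 0 ∧ (x : Matrix (Fin n) (Fin n) F) *ᵥ v = (1 : F) • v ∧
        (x : Matrix (Fin n) (Fin n) F) *ᵥ w = (1 : F) • w ∧ ∀ c : F, w ≠ c • v := by
  classical
  haveI hnf : Fact n.Prime := ⟨hn⟩
  have hqpos : 1 < q := by rw [← hq]; exact Fintype.one_lt_card
  obtain ⟨f, -, hpf⟩ := FiniteField.card F p
  have hpn : p.Coprime n := (Nat.coprime_primes Fact.out hn).2 (Ne.symm hnp)
  have hnq : ¬ n ∣ q := by
    intro h
    rw [← hq, hpf] at h
    have h2 := hn.dvd_of_dvd_pow h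
    exact hnp ((Nat.prime_dvd_prime_iff_eq hn Fact.out).1 h2)
  have hq0 : (q : ZMod n) ≠ 0 := by
    intro h; exact hnq ((ZMod.natCast_eq_zero_iff _ _).1 h)
  set i := orderOf (q : ZMod n) with hi
  have hidvd : i ∣ n - 1 := by
    apply orderOf_dvd_of_pow_eq_one
    exact ZMod.pow_card_sub_one_eq_one hq0
  have hi0 : 0 < i := Nat.pos_of_dvd_of_pos hidvd (by omega)
  have hile : i ≤ n - 2 := by
    obtain ⟨k, hk⟩ := hidvd
    have hk2 : 2 ≤ k := by
      rcases k with _ | _ | k
      · omega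
      · omega
      · omega
    have : i * 2 ≤ n - 1 := by rw [hk]; exact Nat.mul_le_mul_left _ hk2
    omega
  have hdi : n ∣ q ^ i - 1 := by
    have h1 : (q : ZMod n) ^ i = 1 := pow_orderOf_eq_one _
    have h2 : ((q ^ i - 1 : ℕ) : ZMod n) = 0 := by
      rw [Nat.cast_sub (Nat.one_le_pow _ _ (by omega)), Nat.cast_pow, h1]; simp
    exact (ZMod.natCast_eq_zero_iff _ _).1 h2
  have hqi : q ^ i - 1 ≠ 0 := by
    have : 1 < q ^ i := Nat.one_lt_pow hi0.ne' hqpos
    omega
  have hv1 : 1 ≤ (q ^ i - 1).factorization n := (hn.dvd_iff_one_le_factorization hqi).1 hdi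
  have hval := Cfsg.Agent.H16.SylB.val_sl (r := n) (F := F) hq hnq (n := n - 2) (by omega) (by omega)
  rw [← hi] at hval
  have hdiv1 : 1 ≤ (n - 2) / i := (Nat.one_le_div_iff hi0).2 hile
  have hdvdcard : n ∣ Nat.card (Matrix.SpecialLinearGroup (Fin (n - 2)) F) := by
    rw [hn.dvd_iff_one_le_factorization Nat.card_pos.ne']
    by_cases hi1 : i = 1
    · rw [hi1, pow_one, Nat.div_one] at hval
      rw [hi1, pow_one] at hv1
      have : (n - 2) * (q - 1).factorization n ≥ 2 * (q - 1).factorization n :=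
        Nat.mul_le_mul_right _ (by omega)
      omega
    · have h1 : (q - 1).factorization n = 0 := by
        apply Nat.factorization_eq_zero_of_not_dvd
        intro h
        apply hi1
        rw [hi, orderOf_eq_one_iff]
        have h2 : ((q - 1 : ℕ) : ZMod n) = 0 := (ZMod.natCast_eq_zero_iff _ _).2 h
        rw [Nat.cast_sub hqpos.le, Nat.cast_one, sub_eq_zero] at h2
        exact h2
      rw [h1, add_zero] at hval
      rw [hval]
      exact Nat.mul_pos hdiv1 hv1
  obtain ⟨y, hy⟩ := exists_prime_orderOf_dvd_card' n hdvdcard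
  have hy1 : y ^ n = 1 := orderOf_dvd_iff_pow_eq_one.1 (dvd_of_eq hy)
  have hy2 : y ≠ 1 := by
    rintro rfl
    rw [orderOf_one] at hy
    omega
  let e : Fin (n - 2) ⊕ Fin 2 ≃ Fin n := finSumFinEquiv.trans (finCongr (by omega))
  let x : Matrix.SpecialLinearGroup (Fin n) F := ⟨emb e y, by rw [emb_det, y.2]⟩
  have hx : (x : Matrix (Fin n) (Fin n) F) = emb e y := rfl
  have hxn : x ^ n = 1 := by
    apply Subtype.ext
    have h1 : ((x ^ n : Matrix.SpecialLinearGroup (Fin n) F) : Matrix (Fin n) (Fin n) F) =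
      (x : Matrix (Fin n) (Fin n) F) ^ n := Matrix.SpecialLinearGroup.coe_pow x n
    have h2 : (y : Matrix (Fin (n - 2)) (Fin (n - 2)) F) ^ n = 1 := by
      rw [← Matrix.SpecialLinearGroup.coe_pow, hy1]; rfl
    change ((x ^ n : Matrix.SpecialLinearGroup (Fin n) F) : Matrix (Fin n) (Fin n) F) = 1
    rw [h1, hx, ← map_pow, h2, map_one]
  have hsing : ∀ j : Fin n, (Pi.single j (1 : F) : Fin n → F) ≠ 0 := by
    intro j h
    have := congrFun h j
    simp at this
  refine ⟨x, hxn, ?_, Pi.single (e (Sum.inr 0)) 1, Pi.single (e (Sum.inr 1)) 1, hsing _, ?_, ?_, ?_⟩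
  · intro z hz
    have h1 := emb_fix e (y : Matrix (Fin (n - 2)) (Fin (n - 2)) F) 0
    rw [← hx, hz, Matrix.smul_mulVec, Matrix.one_mulVec] at h1
    have h2 : z = 1 := by
      have := congrFun h1 (e (Sum.inr 0))
      simpa using this
    rw [h2, one_smul, hx] at hz
    apply hy2
    apply Subtype.ext
    change (y : Matrix (Fin (n - 2)) (Fin (n - 2)) F) = 1
    ext a b
    have h3 := congrFun (congrFun hz (e (Sum.inl a))) (e (Sum.inl b))
    change (Matrix.fromBlocks (y : Matrix (Fin (n - 2)) (Fin (n - 2)) F) 0 0 (1 : Matrix (Fin 2) (Fin 2) F))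
      (e.symm (e (Sum.inl a))) (e.symm (e (Sum.inl b))) = _ at h3
    rw [e.symm_apply_apply, e.symm_apply_apply, Matrix.fromBlocks_apply₁₁] at h3
    rw [h3, Matrix.one_apply, Matrix.one_apply]
    simp
  · rw [one_smul]; exact emb_fix e _ 0
  · rw [one_smul]; exact emb_fix e _ 1
  · intro c h
    have h1 := congrFun h (e (Sum.inr 1))
    have h2 : e (Sum.inr 1) ≠ e (Sum.inr 0) := by
      intro h3
      have := Sum.inr_injective (e.injective h3)
      exact absurd this (by decide)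
    rw [Pi.smul_apply, Pi.single_eq_same, Pi.single_eq_of_ne h2, smul_zero] at h1
    exact one_ne_zero h1

end Cfsg.Agent.H12.SG
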