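import Cfsg.Agent.H12.Sing4
import Mathlib.FieldTheory.KummerPolynomial

/-! Singer normalizers in dimension three (helper12). -/

set_option autoImplicit false

namespace Cfsg.Agent.H12.SG

open Matrix Polynomial Module Cfsg.Geo

variable {F : Type*} [Field F]

local notation "M₃" => Matrix (Fin 3) (Fin 3) F

theorem cayley3 {y : M₃} (hdet : y.det = 1) :
    y ^ 3 + y.charpoly.coeff 2 • y ^ 2 + y.charpoly.coeff 1 • y = 1 := by
  have h0 : y.charpoly.coeff 0 = -1 := by
    have h := Matrix.det_eq_sign_charpoly_coeff y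
    rw [hdet, Fintype.card_fin] at h
    linear_combination h
  have hd : y.charpoly.natDegree = 3 := by
    rw [Matrix.charpoly_natDegree_eq_dim, Fintype.card_fin]
  have h3 : y.charpoly.coeff 3 = 1 := by
    have := (Matrix.charpoly_monic y).coeff_natDegree
    rwa [hd] at this
  have h := Matrix.aeval_self_charpoly y
  rw [Polynomial.aeval_eq_sum_range, hd, Finset.sum_range_succ, Finset.sum_range_succ,
    Finset.sum_range_succ, Finset.sum_range_succ, Finset.sum_range_zero, h0, h3, one_smul,
    pow_zero, pow_one, zero_add, neg_smul, one_smul] at h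
  rw [← sub_eq_zero, ← h]
  abel

theorem trace_zero3 {y : M₃} (hdet : y.det = 1) (hy : y ^ 3 = 1)
    (hns : ∀ z : F, y ≠ z • (1 : M₃)) : y.trace = 0 := by
  have h := cayley3 hdet
  have hc2 : y.charpoly.coeff 2 = 0 := by
    by_contra hc
    have h1 : y.charpoly.coeff 2 • y ^ 2 + y.charpoly.coeff 1 • y = 0 := by
      rw [hy] at h
      have : (1 : M₃) + (y.charpoly.coeff 2 • y ^ 2 + y.charpoly.coeff 1 • y) = 1 := by
        rw [← add_assoc]; exact h
      exact add_eq_left.1 this
    have h2 := congrArg (fun z => z * y ^ 2) h1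
    simp only [add_mul, Matrix.smul_mul, zero_mul] at h2
    rw [show y ^ 2 * y ^ 2 = y ^ 3 * y by rw [← pow_add, ← pow_succ],
      show y * y ^ 2 = y ^ 3 by rw [← pow_succ'], hy, one_mul] at h2
    apply hns (-(y.charpoly.coeff 1) / y.charpoly.coeff 2)
    have h3 : y.charpoly.coeff 2 • y = -(y.charpoly.coeff 1) • (1 : M₃) := by
      rw [neg_smul]; exact eq_neg_of_add_eq_zero_left h2
    calc y = (y.charpoly.coeff 2)⁻¹ • (y.charpoly.coeff 2 • y) := by
          rw [smul_smul, inv_mul_cancel₀ hc, one_smul]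
      _ = _ := by rw [h3, smul_smul]; congr 1; ring
  rw [Matrix.trace_eq_neg_charpoly_coeff, Fintype.card_fin, hc2, neg_zero]

/-- regular elements of order three -/
theorem deg3 (h3 : (3 : F) ≠ 0) {x : M₃} (hdet : x.det = 1) (hx : x ^ 3 = 1)
    (hns : ∀ z : F, x ≠ z • (1 : M₃)) : (minpoly F x).natDegree = 3 := by
  have hint := Matrix.isIntegral (R := F) x
  have hle : (minpoly F x).natDegree ≤ 3 := by
    have h1 := Polynomial.natDegree_le_of_dvd (Matrix.minpoly_dvd_charpoly x)
      (Matrix.charpoly_monic x).ne_zero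
    rwa [Matrix.charpoly_natDegree_eq_dim, Fintype.card_fin] at h1
  have hmon := minpoly.monic hint
  have hae := minpoly.aeval F x
  rw [Polynomial.aeval_eq_sum_range] at hae
  have hlc := hmon.coeff_natDegree
  have hpos := minpoly.natDegree_pos hint
  have hcases : (minpoly F x).natDegree = 1 ∨ (minpoly F x).natDegree = 2 ∨
      (minpoly F x).natDegree = 3 := by omega
  rcases hcases with hd | hd | hd
  · exfalso
    rw [hd] at hae hlc
    rw [Finset.sum_range_succ, Finset.sum_range_succ, Finset.sum_range_zero, hlc, pow_zero,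
      pow_one, one_smul, zero_add] at hae
    apply hns (-(minpoly F x).coeff 0)
    rw [neg_smul]
    exact eq_neg_of_add_eq_zero_right hae
  · exfalso
    rw [hd] at hae hlc
    rw [Finset.sum_range_succ, Finset.sum_range_succ, Finset.sum_range_succ,
      Finset.sum_range_zero, hlc, pow_zero, pow_one, one_smul, zero_add] at hae
    have ht1 := trace_zero3 hdet hx hns
    have ht2 : (x ^ 2).trace = 0 := by
      apply trace_zero3
      · rw [Matrix.det_pow, hdet, one_pow]
      · rw [← pow_mul, mul_comm, pow_mul, hx, one_pow]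
      · intro z hz
        apply hns (z * z)
        calc x = x ^ 3 * x := by rw [hx, one_mul]
          _ = x ^ 2 * x ^ 2 := by rw [← pow_succ, ← pow_add]
          _ = _ := by rw [hz, Matrix.smul_mul, one_mul, smul_smul]
    have h1 := congrArg Matrix.trace hae
    rw [Matrix.trace_add, Matrix.trace_add, Matrix.trace_smul, Matrix.trace_smul, ht1, ht2,
      Matrix.trace_one, Fintype.card_fin, Matrix.trace_zero, smul_zero, add_zero, add_zero,
      smul_eq_mul] at h1
    have h2 : (minpoly F x).coeff 0 = 0 := by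
      rcases mul_eq_zero.1 h1 with h | h
      · exact h
      · exact absurd (by exact_mod_cast h) h3
    rw [h2, zero_smul, zero_add] at hae
    apply hns (-(minpoly F x).coeff 1)
    have h4 := congrArg (fun z => z * x ^ 2) hae
    simp only [add_mul, Matrix.smul_mul, zero_mul] at h4
    rw [show x ^ 2 * x ^ 2 = x ^ 3 * x by rw [← pow_add, ← pow_succ],
      show x * x ^ 2 = x ^ 3 by rw [← pow_succ'], hx, one_mul] at h4
    rw [neg_smul]
    exact eq_neg_of_add_eq_zero_right h4
  · exact hd

theorem regular_three [Fintype F] {q : ℕ} (hq : Fintype.card F = q) (h3 : (3 : F) ≠ 0)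
    (hq9 : ¬ 9 ∣ q - 1) (hq3 : 3 ∣ q - 1) {x : Matrix.SpecialLinearGroup (Fin 3) F} {z : F}
    (hz : ((x ^ 3 : Matrix.SpecialLinearGroup (Fin 3) F) : M₃) = z • (1 : M₃))
    (hns : ∀ z : F, (x : M₃) ≠ z • (1 : M₃)) :
    ∃ g : GL (Fin 3) F, (x : M₃) * g = g * shiftM F 3 := by
  have hx3 : ((x : M₃)) ^ 3 = z • (1 : M₃) := by
    rw [← hz]; exact (Matrix.SpecialLinearGroup.coe_pow x 3).symm
  have hzn : z ^ 3 = 1 := by
    have h1 := (x ^ 3).2
    rw [show ((x ^ 3).val : M₃) = z • (1 : M₃) from hz,
      Matrix.det_smul, Matrix.det_one, mul_one, Fintype.card_fin] at h1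
    exact h1
  have hz1 : z = 1 := by
    by_contra hz1
    have hirr : Irreducible (X ^ 3 - C z : F[X]) := by
      apply X_pow_sub_C_irreducible_of_prime Nat.prime_three
      intro b hb
      apply hz1
      have hb0 : b ≠ 0 := by
        rintro rfl
        rw [zero_pow (by norm_num)] at hb
        rw [← hb, zero_pow (by norm_num)] at hzn
        exact zero_ne_one hzn
      have h9 : b ^ 9 = 1 := by
        rw [show (9 : ℕ) = 3 * 3 by norm_num, pow_mul, hb, hzn]
      have hq1 : b ^ (q - 1) = 1 := by rw [← hq]; exact FiniteField.pow_card_sub_one_eq_one b hb0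
      have h1 := Nat.dvd_gcd (orderOf_dvd_of_pow_eq_one h9) (orderOf_dvd_of_pow_eq_one hq1)
      have h2 : Nat.gcd 9 (q - 1) ∣ 3 := by
        have h3 : Nat.gcd 9 (q - 1) ∣ 9 := Nat.gcd_dvd_left _ _
        have h4 : Nat.gcd 9 (q - 1) ∣ q - 1 := Nat.gcd_dvd_right _ _
        have h5 : (9 : ℕ) = 3 ^ 2 := by norm_num
        rw [h5] at h3
        obtain ⟨k, hk, hk2⟩ := (Nat.dvd_prime_pow Nat.prime_three).1 h3
        interval_cases k
        · rw [← h5] at hk2; rw [hk2]; norm_num
        · rw [← h5] at hk2; rw [hk2]; norm_num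
        · exfalso; apply hq9
          rw [← h5] at hk2
          rw [hk2] at h4
          exact h4
      rw [← hb]
      exact orderOf_dvd_iff_pow_eq_one.1 (h1.trans h2)
    have hmin : minpoly F (x : M₃) = X ^ 3 - C z := by
      symm
      apply minpoly.eq_of_irreducible_of_monic hirr
      · rw [map_sub, map_pow, aeval_X, aeval_C, hx3, Algebra.algebraMap_eq_smul_one, sub_self]
      · exact monic_X_pow_sub_C z (by norm_num)
    have hchar : (x : M₃).charpoly = X ^ 3 - C z := by
      rw [← hmin]
      symm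
      apply Polynomial.eq_of_monic_of_associated (minpoly.monic (Matrix.isIntegral (R := F) (x : M₃)))
        (Matrix.charpoly_monic _)
      apply Polynomial.associated_of_dvd_of_natDegree_le (Matrix.minpoly_dvd_charpoly _)
        (Matrix.charpoly_monic _).ne_zero
      rw [Matrix.charpoly_natDegree_eq_dim, Fintype.card_fin, hmin, natDegree_X_pow_sub_C]
    have h0 := Matrix.det_eq_sign_charpoly_coeff (x : M₃)
    rw [hchar, x.2, Fintype.card_fin] at h0
    simp at h0
    apply hz1
    linear_combination -h0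
  rw [hz1, one_smul] at hx3
  have hdeg := deg3 h3 x.2 hx3 hns
  obtain ⟨w, hw⟩ := exists_cyc hdeg
  exact conj_shiftM hw hx3

end Cfsg.Agent.H12.SG
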