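import Mathlib
import Cfsg.Prelude.Def_GeometricClasses
import Cfsg.Agent.H12.SpGen
import Cfsg.Agent.H12.Perp

/-!
Transitivity of the symplectic transvection group on ordered pairs of independent orthogonal vectors and on
hyperbolic pairs.
-/

set_option autoImplicit false
set_option linter.unusedSectionVars false

open scoped MatrixGroups Matrix

namespace Cfsg.Agent.H12

variable {ι : Type} [Fintype ι] [DecidableEq ι] {F : Type*} [Field F]
variable {f : (ι → F) → (ι → F) → F}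

lemma sp_step (hf : Geo.IsSymplecticForm f) {y y' : ι → F} (h : f y y' ≠ 0) :
    ((stv f (y' - y) (f y' y)⁻¹ : GL ι F) : Matrix ι ι F) *ᵥ y = y' := by
  have h1 : f y' y ≠ 0 := by rw [hf.skew]; exact neg_ne_zero.mpr h
  rw [stv_mulVec hf, bil_sub_left hf.bilinear, hf.alternating, sub_zero, inv_mul_cancel₀ h1, one_smul]
  abel

lemma image_notMem_span {h : GL ι F} {x y : ι → F} (hy : y ∉ Submodule.span F {x}) :
    (h : Matrix ι ι F) *ᵥ y ∉ Submodule.span F {(h : Matrix ι ι F) *ᵥ x} := by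
  intro hm
  apply hy
  obtain ⟨c, hc⟩ := Submodule.mem_span_singleton.mp hm
  rw [Submodule.mem_span_singleton]
  refine ⟨c, ?_⟩
  rw [← gl_inv_mulVec_mulVec h y, ← hc, Matrix.mulVec_smul, gl_inv_mulVec_mulVec]

/-- transitivity on ordered pairs of independent orthogonal vectors -/
lemma sp_trans_pair (hf : Geo.IsSymplecticForm f) {H : Subgroup (GL ι F)} (hH : ∀ v c, stv f v c ∈ H)
    {x y x' y' : ι → F} (hxy : f x y = 0) (hxy' : f x' y' = 0) (hx : x ≠ 0) (hy : y ∉ Submodule.span F {x})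
    (hx' : x' ≠ 0) (hy' : y' ∉ Submodule.span F {x'}) :
    ∃ h ∈ H, ((h : GL ι F) : Matrix ι ι F) *ᵥ x = x' ∧ ((h : GL ι F) : Matrix ι ι F) *ᵥ y = y' := by
  have hb := hf.bilinear
  have hr := reflForm_of_symplectic hf
  obtain ⟨h1, hh1, e1⟩ := stv_transitive hf (H := H ⊓ preserving (glToMat ι F) f)
    (fun v c => ⟨hH v c, isIsom_stv hf v c⟩) hx hx'
  set z := ((h1 : GL ι F) : Matrix ι ι F) *ᵥ y with hz
  have hi1 : IsIsom f h1 := hh1.2
  have hxz : f x' z = 0 := by rw [← e1, hz, hi1, hxy]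
  have hzs : z ∉ Submodule.span F {x'} := by
    rw [← e1]; exact image_notMem_span hy
  -- move z to y' fixing x'
  have hmove : ∀ a b : ι → F, f x' a = 0 → f x' b = 0 → f a b ≠ 0 →
      ∃ h ∈ H, ((h : GL ι F) : Matrix ι ι F) *ᵥ x' = x' ∧ ((h : GL ι F) : Matrix ι ι F) *ᵥ a = b := by
    intro a b ha hb' hab
    refine ⟨stv f (b - a) (f b a)⁻¹, hH _ _, ?_, sp_step hf hab⟩
    apply stv_fix hf
    rw [bil_sub_left hb, hf.skew b, hf.skew a, ha, hb']; ring
  obtain ⟨w, hw, hwz, hwy⟩ := hr.exists_common_in (hr.perp {x'}) (u := z) (v := y')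
    (hr.exists_perp_not_orth {x'} (by simpa using hzs)) (hr.exists_perp_not_orth {x'} (by simpa using hy'))
  have hwx : f x' w = 0 := by rw [hf.skew, hw x' (by simp), neg_zero]
  obtain ⟨h2, hh2, e2, e2'⟩ := hmove z w hxz hwx (by rw [hf.skew]; exact neg_ne_zero.mpr hwz)
  obtain ⟨h3, hh3, e3, e3'⟩ := hmove w y' hwx hxy' hwy
  refine ⟨h3 * (h2 * h1), mul_mem hh3 (mul_mem hh2 hh1.1), ?_, ?_⟩
  · rw [gl_mul_mulVec, gl_mul_mulVec, e1, e2, e3]
  · rw [gl_mul_mulVec, gl_mul_mulVec, ← hz, e2', e3']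

end Cfsg.Agent.H12
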