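import Mathlib
import Cfsg.Prelude.Def_GeometricClasses
import Cfsg.Agent.H12.SSE
import Cfsg.Agent.H12.SympSwap
import Cfsg.Agent.H12.OmUni2

/-!
A quadratic field with the non-trivial adjoint acting on a symplectic space: transitivity of the unitary group.
-/

set_option autoImplicit false
set_option linter.unusedSectionVars false

namespace Cfsg.Agent.H12

open Matrix Cfsg Cfsg.Agent.H5

section gen

variable {F V : Type*} [Field F] [Finite F] [AddCommGroup V] [Module F V] [FiniteDimensional F V] {Q : QuadraticForm F V}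

/-- all values are attained orthogonally to a small subspace -/
lemma exists_val_oc (hnd : ND Q) (S : Submodule F V) (hS : 2 * Module.finrank F S + 5 ≤ Module.finrank F V) (c : F) :
    ∃ z ∈ oc Q S, Q z = c ∧ z ≠ 0 := by
  obtain ⟨b, hb, hbS, hQb⟩ := exists_sing_off (Q := Q) (oc Q S) S (by
    have := finrank_oc hnd S
    omega)
  obtain ⟨u, hu, hQu, hub⟩ := exists_sing_not_orth hnd S hS hbS
  have hbu : pB Q b u ≠ 0 := by rw [pB_symm]; exact hub
  refine ⟨b + (c / pB Q b u) • u, Submodule.add_mem _ hb (Submodule.smul_mem _ _ hu), ?_, ?_⟩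
  · rw [q_add, q_smul, hQb, hQu, pr_smul, div_mul_cancel₀ _ hbu]; ring
  · intro h
    apply hub
    have h1 : b = -((c / pB Q b u) • u) := eq_neg_of_add_eq_zero_left h
    rw [h1, pr_neg, pr_smul, pB_self, hQu]; ring

lemma exists_two_val (hnd : ND Q) (hV : 7 ≤ Module.finrank F V) {x y : V} (hxy : x ∉ Submodule.span F {y})
    (hyx : y ∉ Submodule.span F {x}) (a b : F) : ∃ v, pB Q x v = a ∧ pB Q y v = b := by
  have e1 := finrank_span_one_le (F := F) x
  have e2 := finrank_span_one_le (F := F) y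
  obtain ⟨u, hu, -, hux⟩ := exists_sing_not_orth hnd (Submodule.span F {y}) (by omega) hxy
  obtain ⟨w, hw, -, hwy⟩ := exists_sing_not_orth hnd (Submodule.span F {x}) (by omega) hyx
  have hyu : pB Q y u = 0 := (mem_oc.1 hu) y (Submodule.mem_span_singleton_self y)
  have hxw : pB Q x w = 0 := (mem_oc.1 hw) x (Submodule.mem_span_singleton_self x)
  have hxu : pB Q x u ≠ 0 := by rw [pB_symm]; exact hux
  have hyw : pB Q y w ≠ 0 := by rw [pB_symm]; exact hwy
  refine ⟨(a / pB Q x u) • u + (b / pB Q y w) • w, ?_, ?_⟩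
  · rw [pr_add, pr_smul, pr_smul, hxw, div_mul_cancel₀ _ hxu]; ring
  · rw [pr_add, pr_smul, pr_smul, hyu, div_mul_cancel₀ _ hyw]; ring

lemma finrank_span_three (x y z : V) : Module.finrank F (Submodule.span F {x, y, z}) ≤ 3 := by
  rw [Submodule.span_insert]
  have e1 := Submodule.finrank_add_le_finrank_add_finrank (Submodule.span F {x}) (Submodule.span F {y, z})
  have e2 := finrank_span_one_le (F := F) x
  have e3 := finrank_span_pair_le (F := F) y z
  omega

/-- a vector off the orthogonals of two vectors, with prescribed value -/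
lemma exists_val_two (hnd : ND Q) (hV : 11 ≤ Module.finrank F V) {x y : V} (hx : x ≠ 0) (hy : y ≠ 0) (c : F) :
    ∃ v, Q v = c ∧ pB Q x v ≠ 0 ∧ pB Q y v ≠ 0 := by
  obtain ⟨v0, h1, h2⟩ : ∃ v0, pB Q x v0 ≠ 0 ∧ pB Q y v0 ≠ 0 := by
    obtain ⟨a, ha⟩ : ∃ a, pB Q x a ≠ 0 := by
      by_contra hcon
      push Not at hcon
      exact hx (hnd x hcon)
    obtain ⟨b, hb⟩ : ∃ b, pB Q y b ≠ 0 := by
      by_contra hcon
      push Not at hcon
      exact hy (hnd y hcon)
    by_cases h1 : pB Q y a = 0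
    swap
    · exact ⟨a, ha, h1⟩
    by_cases h2 : pB Q x b = 0
    swap
    · exact ⟨b, h2, hb⟩
    exact ⟨a + b, by rw [pr_add, h2, add_zero]; exact ha, by rw [pr_add, h1, zero_add]; exact hb⟩
  have e1 := finrank_span_three (F := F) x y v0
  obtain ⟨z, hz, hQz, -⟩ := exists_val_oc hnd (Submodule.span F {x, y, v0}) (by omega) (c - Q v0)
  rw [mem_oc] at hz
  have hxz : pB Q x z = 0 := hz x (Submodule.subset_span (by simp))
  have hyz : pB Q y z = 0 := hz y (Submodule.subset_span (by simp))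
  have hvz : pB Q v0 z = 0 := hz v0 (Submodule.subset_span (by simp))
  refine ⟨v0 + z, ?_, ?_, ?_⟩
  · rw [q_add, hQz, hvz]; ring
  · rw [pr_add, hxz, add_zero]; exact h1
  · rw [pr_add, hyz, add_zero]; exact h2

end gen

section su

variable {ι : Type} [Fintype ι] [DecidableEq ι] {F : Type*} [Field F] {f : (ι → F) → (ι → F) → F}

/-- the bilinear map of a form -/
noncomputable def bl (hf : Geo.IsBilinearForm f) : (ι → F) →ₗ[F] (ι → F) →ₗ[F] F :=
  LinearMap.mk₂ F f (fun x y v => hf.add_left x y v) (fun c x v => hf.smul_left c x v)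
    (fun v x y => hf.add_right v x y) (fun c v x => hf.smul_right c v x)

lemma bl_apply (hf : Geo.IsBilinearForm f) (x y : ι → F) : bl hf x y = f x y := rfl

/-- the hermitian norm -/
noncomputable def nq (hf : Geo.IsBilinearForm f) (J : (ι → F) →ₗ[F] (ι → F)) : QuadraticForm F (ι → F) :=
  LinearMap.BilinMap.toQuadraticMap ((bl hf).compl₂ J)

lemma nq_apply (hf : Geo.IsBilinearForm f) (J : (ι → F) →ₗ[F] (ι → F)) (v : ι → F) : nq hf J v = f v (J v) := rfl

lemma pB_nq (hf : Geo.IsBilinearForm f) (J : (ι → F) →ₗ[F] (ι → F)) (u v : ι → F) :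
    pB (nq hf J) u v = f u (J v) + f v (J u) := by
  rw [pB_apply, nq, LinearMap.BilinMap.polar_toQuadraticMap]
  rfl

/-- a quadratic field acting with the non-trivial adjoint -/
structure SU (f : (ι → F) → (ι → F) → F) (J : (ι → F) →ₗ[F] (ι → F)) (d : F) : Prop where
  hf : Geo.IsSymplecticForm f
  h2 : (2 : F) ≠ 0
  dim : 13 ≤ Fintype.card ι
  sq : ∀ v, J (J v) = d • v
  adj : ∀ u v, f (J u) v = - f u (J v)
  nsq : ∀ e : F, e * e ≠ d

namespace SU

variable {J : (ι → F) →ₗ[F] (ι → F)} {d : F}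

lemma d0 (S : SU f J d) : d ≠ 0 := fun h => S.nsq 0 (by rw [h, mul_zero])

lemma fJJ (S : SU f J d) (u v : ι → F) : f (J u) (J v) = -(d * f u v) := by
  rw [S.adj, S.sq, S.hf.bilinear.smul_right]

lemma pB_eq (S : SU f J d) (u v : ι → F) : pB (nq S.hf.bilinear J) u v = 2 * f u (J v) := by
  rw [pB_nq, S.hf.skew v (J u), S.adj]; ring

lemma J_inj (S : SU f J d) {v : ι → F} (h : J v = 0) : v = 0 := by
  have h1 := S.sq v
  rw [h, map_zero] at h1
  exact (smul_eq_zero.1 h1.symm).resolve_left S.d0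

lemma irr (S : SU f J d) {v : ι → F} (hv : v ≠ 0) : J v ∉ Submodule.span F {v} := by
  intro h
  obtain ⟨e, he⟩ := Submodule.mem_span_singleton.1 h
  apply S.nsq e
  have h1 := S.sq v
  rw [← he, map_smul, ← he, smul_smul] at h1
  have h2 : (e * e - d) • v = 0 := by rw [sub_smul, h1, sub_self]
  exact sub_eq_zero.1 ((smul_eq_zero.1 h2).resolve_right hv)

lemma nd (S : SU f J d) : ND (nq S.hf.bilinear J) := by
  intro u hu
  by_contra h0
  obtain ⟨x, hx⟩ := (S.hf.nondegenerate u h0).2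
  apply hx
  have h1 := hu (J x)
  rw [S.pB_eq, S.sq, S.hf.bilinear.smul_right] at h1
  exact (mul_eq_zero.1 ((mul_eq_zero.1 h1).resolve_left S.h2)).resolve_left S.d0

lemma frV : Module.finrank F (ι → F) = Fintype.card ι := Module.finrank_fintype_fun_eq_card F

lemma ks (S : SU f J d) : KS (nq S.hf.bilinear J) J 0 (-d) := by
  refine ⟨S.nd, by rw [frV]; exact S.dim, ?_, ?_, ?_, ?_, ?_⟩
  · intro v; rw [S.sq]; module
  · intro u v
    rw [S.pB_eq, S.pB_eq, S.pB_eq, S.fJJ, S.sq, S.hf.bilinear.smul_right]; ring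
  · intro v
    rw [nq_apply, nq_apply, S.fJJ, neg_mul]
  · intro v _
    rw [S.pB_eq, S.sq, S.hf.bilinear.smul_right, S.hf.alternating]; ring
  · intro v hv
    exact S.irr hv

/-- a unitary reflection -/
lemma exists_refl (S : SU f J d) {v w : ι → F} (hn : f w (J w) = 2 * f v (J w)) (hne : f v w ≠ 0) :
    ∃ g : GL ι F, IsIsom f g ∧ (∀ x, (g : Matrix ι ι F) *ᵥ (J x) = J ((g : Matrix ι ι F) *ᵥ x)) ∧
      (g : Matrix ι ι F) *ᵥ v = v - w := by
  have hb := S.hf.bilinear
  obtain ⟨α, hα⟩ : ∃ α, α = f v (J w) := ⟨_, rfl⟩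
  obtain ⟨β, hβ⟩ : ∃ β, β = -f v w := ⟨_, rfl⟩
  have hβ0 : β ≠ 0 := by rw [hβ]; exact neg_ne_zero.2 hne
  have hδ : α * α - d * (β * β) ≠ 0 := by
    intro h
    apply S.nsq (α / β)
    field_simp
    linear_combination h
  obtain ⟨δ, hδ'⟩ : ∃ δ, δ = (α * α - d * (β * β))⁻¹ := ⟨_, rfl⟩
  have hδ1 : δ * (α * α - d * (β * β)) = 1 := by rw [hδ', inv_mul_cancel₀ hδ]
  let p : (ι → F) →ₗ[F] F := (-(α * δ)) • (bl hb).flip (J w) + (-(β * d * δ)) • (bl hb).flip w
  let r : (ι → F) →ₗ[F] F := (β * δ) • (bl hb).flip (J w) + (α * δ) • (bl hb).flip w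
  have hp : ∀ x, p x = -(α * δ) * f x (J w) + -(β * d * δ) * f x w := fun x => rfl
  have hr : ∀ x, r x = (β * δ) * f x (J w) + (α * δ) * f x w := fun x => rfl
  let T : (ι → F) →ₗ[F] (ι → F) := LinearMap.id + p.smulRight w + r.smulRight (J w)
  have hT : ∀ x, T x = x + p x • w + r x • J w := fun x => rfl
  have hiso : ∀ x y, f (T x) (T y) = f x y := by
    intro x y
    rw [hT, hT]
    simp only [hb.add_left, hb.add_right, hb.smul_left, hb.smul_right, S.hf.alternating]
    rw [S.hf.skew w y, S.adj w y, S.adj w w, hn, ← hα]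
    have e1 : f w (J y) = f y (J w) := by
      rw [S.hf.skew, S.adj, neg_neg]
    rw [e1, hp, hp, hr, hr]
    linear_combination (-2 * α * δ * (f x (J w) * f y w - f x w * f y (J w))) * hδ1
  have hinj : Function.Injective T := by
    rw [injective_iff_map_eq_zero]
    intro x hx
    by_contra h0
    obtain ⟨y, hy⟩ := (S.hf.nondegenerate x h0).2
    apply hy
    rw [← hiso, hx, bil_zero_left hb]
  obtain ⟨g, hg⟩ := exists_gl_of_injective T hinj
  refine ⟨g, fun x y => by rw [hg, hg, hiso], ?_, ?_⟩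
  · intro x
    rw [hg, hg, hT, hT, map_add, map_add, map_smul, map_smul, S.sq, hp, hp, hr, hr, S.adj, S.adj, S.sq, hb.smul_right]
    module
  · rw [hg, hT, hp, hr, ← hα]
    have e2 : f v w = -β := by rw [hβ, neg_neg]
    rw [e2]
    have e3 : -(α * δ) * α + -(β * d * δ) * -β = -1 := by linear_combination -hδ1
    have e4 : β * δ * α + α * δ * -β = 0 := by ring
    rw [e3, e4]
    module

variable [Fintype F]

/-- transitivity of the unitary group on vectors of given norm -/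
theorem trans (S : SU f J d) {v v' : ι → F} (hv : v ≠ 0) (hv' : v' ≠ 0) (h : f v (J v) = f v' (J v')) :
    ∃ g : GL ι F, IsIsom f g ∧ (∀ x, (g : Matrix ι ι F) *ᵥ (J x) = J ((g : Matrix ι ι F) *ᵥ x)) ∧
      (g : Matrix ι ι F) *ᵥ v = v' := by
  have hb := S.hf.bilinear
  have step : ∀ a b : ι → F, f a (J a) = f b (J b) → f a b ≠ 0 → ∃ g : GL ι F, IsIsom f g ∧
      (∀ x, (g : Matrix ι ι F) *ᵥ (J x) = J ((g : Matrix ι ι F) *ᵥ x)) ∧ (g : Matrix ι ι F) *ᵥ a = b := by
    intro a b hab hab'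
    have e1 : f b (J a) = f a (J b) := by rw [S.hf.skew, S.adj, neg_neg]
    obtain ⟨g, h1, h2, h3⟩ := S.exists_refl (v := a) (w := a - b) (by
      rw [map_sub, bil_sub_left hb, bil_sub_right hb, bil_sub_right hb, e1, ← hab]; ring) (by
      rw [bil_sub_right hb, S.hf.alternating, zero_sub]; exact neg_ne_zero.2 hab')
    exact ⟨g, h1, h2, by rw [h3]; abel⟩
  have hJv : J v ≠ 0 := fun h => hv (S.J_inj h)
  have hJv' : J v' ≠ 0 := fun h => hv' (S.J_inj h)
  obtain ⟨z, hz, hvz, hvz'⟩ := exists_val_two S.nd (by rw [frV]; have := S.dim; omega) hJv hJv' (f v (J v))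
  rw [nq_apply] at hz
  rw [S.pB_eq, S.fJJ] at hvz hvz'
  have h1 : f v z ≠ 0 := fun h0 => hvz (by rw [h0]; ring)
  have h2 : f v' z ≠ 0 := fun h0 => hvz' (by rw [h0]; ring)
  obtain ⟨g1, a1, a2, a3⟩ := step v z hz.symm h1
  obtain ⟨g2, b1, b2, b3⟩ := step z v' (hz.trans h) (by rw [S.hf.skew]; exact neg_ne_zero.2 h2)
  refine ⟨g2 * g1, b1.mul a1, ?_, ?_⟩
  · intro x
    rw [gl_mul_mulVec, gl_mul_mulVec, a2, b2]
  · rw [gl_mul_mulVec, a3, b3]

end SU

end su

end Cfsg.Agent.H12
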