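import Mathlib
import Cfsg.Prelude.Def_GeometricClasses
import Cfsg.Agent.H12.SpUni1

/-!
Overgroups of the unitary group in a symplectic group.
-/

set_option autoImplicit false
set_option linter.unusedSectionVars false

namespace Cfsg.Agent.H12

open Matrix Cfsg Cfsg.Agent.H5

variable {ι : Type} [Fintype ι] [DecidableEq ι] {F : Type*} [Field F] {f : (ι → F) → (ι → F) → F}

/-- `M` contains the unitary group -/
def HU (f : (ι → F) → (ι → F) → F) (J : (ι → F) →ₗ[F] (ι → F)) (M : Subgroup (GL ι F)) : Prop :=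
  ∀ g : GL ι F, IsIsom f g → (∀ x, (g : Matrix ι ι F) *ᵥ (J x) = J ((g : Matrix ι ι F) *ᵥ x)) → g ∈ M

namespace SU

variable {J : (ι → F) →ₗ[F] (ι → F)} {d : F} {M : Subgroup (GL ι F)}

lemma not_span (S : SU f J d) {x : ι → F} (hx : x ≠ 0) : x ∉ Submodule.span F {J x} := by
  intro h
  obtain ⟨c, hc⟩ := Submodule.mem_span_singleton.1 h
  apply S.irr hx
  rw [Submodule.mem_span_singleton]
  refine ⟨c * d, ?_⟩
  have h1 := congrArg J hc
  rw [map_smul, S.sq, smul_smul] at h1
  exact h1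

lemma symmJ (S : SU f J d) (x y : ι → F) : f x (J y) = f y (J x) := by
  rw [S.hf.skew, S.adj, neg_neg]

/-- unitary transvections -/
lemma ut_mem (S : SU f J d) (hM : HU f J M) {v : ι → F} (hv : f v (J v) = 0) (c : F) :
    stv f (J v) c * stv f v (-(c * d)) ∈ M := by
  have hb := S.hf.bilinear
  have hJv : f (J v) v = 0 := by rw [S.adj, hv, neg_zero]
  refine hM _ ((isIsom_stv S.hf _ _).mul (isIsom_stv S.hf _ _)) ?_
  intro x
  rw [gl_mul_mulVec, gl_mul_mulVec, stv_mulVec S.hf, stv_mulVec S.hf, stv_mulVec S.hf, stv_mulVec S.hf, hb.add_right,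
    hb.add_right, hb.smul_right, hb.smul_right, hJv, S.fJJ, map_add, map_add, map_smul, map_smul, S.sq, S.adj v x]
  module

variable [Fintype F]

theorem full_all (S : SU f J d) (hM : HU f J M) {k : ι → F} (hk : k ≠ 0) (h : fullc f M k) (x : ι → F) :
    fullc f M x := by
  have hb := S.hf.bilinear
  by_cases hx : x = 0
  · rw [hx]; exact fullc_zero S.hf M
  obtain ⟨c, hc⟩ : ∃ c, c = f k (J k) := ⟨_, rfl⟩
  have hA : ∀ v : ι → F, v ≠ 0 → f v (J v) = c → fullc f M v := by
    intro v hv hvc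
    obtain ⟨g, hg1, hg2, hg3⟩ := S.trans hk hv (by rw [hvc, hc])
    rw [← hg3]
    exact fullc_image S.hf h (hM g hg1 hg2) hg1
  obtain ⟨v1, h1, h2⟩ := exists_two_val S.nd (by rw [frV]; have := S.dim; omega) (S.not_span hx) (S.irr hx)
    (f x (J x)) (-(2 * d))
  obtain ⟨z, hz, hQz, -⟩ := exists_val_oc S.nd (Submodule.span F {x, J x, v1}) (by
    have e1 := finrank_span_three (F := F) x (J x) v1
    have e2 := S.dim
    rw [frV]; omega) (c - f v1 (J v1))
  rw [mem_oc] at hz
  have hxz := hz x (Submodule.subset_span (by simp))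
  have hyz := hz (J x) (Submodule.subset_span (by simp))
  have hvz := hz v1 (Submodule.subset_span (by simp))
  rw [nq_apply] at hQz
  rw [S.pB_eq] at h1 hxz hvz
  rw [S.pB_eq, S.fJJ] at h2 hyz
  have h2d : (2 : F) * d ≠ 0 := mul_ne_zero S.h2 S.d0
  have h2' : f x v1 = 1 := by
    have : (2 * d) * (f x v1 - 1) = 0 := by linear_combination -h2
    exact sub_eq_zero.1 ((mul_eq_zero.1 this).resolve_left h2d)
  have hyz' : f x z = 0 := by
    have : (2 * d) * f x z = 0 := by linear_combination -hyz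
    exact (mul_eq_zero.1 this).resolve_left h2d
  have hvz' : f v1 (J z) = 0 := (mul_eq_zero.1 hvz).resolve_left S.h2
  have hxz' : f x (J z) = 0 := (mul_eq_zero.1 hxz).resolve_left S.h2
  have hfv : f x (v1 + z) = 1 := by rw [hb.add_right, h2', hyz', add_zero]
  have hNv : f (v1 + z) (J (v1 + z)) = c := by
    rw [map_add, hb.add_left, hb.add_right, hb.add_right, hvz', hQz, S.symmJ z v1, hvz']; ring
  have hNxv : f (x - (v1 + z)) (J (x - (v1 + z))) = c := by
    rw [map_sub, bil_sub_left hb, bil_sub_right hb, bil_sub_right hb, hNv, S.symmJ (v1 + z) x, map_add, hb.add_right, hxz']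
    linear_combination -h1
  have a1 := hA (v1 + z) (by
    intro h0
    rw [h0, bil_zero_right hb] at hfv
    exact zero_ne_one hfv) hNv
  have a2 := hA (x - (v1 + z)) (by
    intro h0
    have h3 : f x (x - (v1 + z)) = 0 := by rw [h0, bil_zero_right hb]
    rw [bil_sub_right hb, S.hf.alternating, hfv] at h3
    exact one_ne_zero (α := F) (by linear_combination -h3)) hNxv
  have a3 := fullc_add' S.hf a1 a2 (by
    rw [bil_sub_right hb, S.hf.alternating, S.hf.skew, hfv]
    intro h3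
    exact one_ne_zero (α := F) (by linear_combination -h3))
  rwa [add_sub_cancel] at a3

/-- a pair of totally isotropic planes with a pairing of rank one -/
lemma conf (S : SU f J d) {g : GL ι F} (hg : IsIsom f g) {v : ι → F} (hv : f v (J v) = 0)
    (hne : J ((g : Matrix ι ι F) *ᵥ v) ∉ Submodule.span F {(g : Matrix ι ι F) *ᵥ v, (g : Matrix ι ι F) *ᵥ (J v)}) :
    ∃ u v : ι → F, f u (J u) = 0 ∧ f v (J v) = 0 ∧ f u ((g : Matrix ι ι F) *ᵥ v) = 0 ∧
      f u ((g : Matrix ι ι F) *ᵥ (J v)) = 0 ∧ f (J u) ((g : Matrix ι ι F) *ᵥ v) = 0 ∧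
      f (J u) ((g : Matrix ι ι F) *ᵥ (J v)) = 1 := by
  have hb := S.hf.bilinear
  obtain ⟨w, hw⟩ : ∃ w, w = (g : Matrix ι ι F) *ᵥ v := ⟨_, rfl⟩
  obtain ⟨w', hw'⟩ : ∃ w', w' = (g : Matrix ι ι F) *ᵥ (J v) := ⟨_, rfl⟩
  rw [← hw, ← hw'] at hne
  have hwS : w ∉ Submodule.span F {J w, J w'} := by
    intro h
    obtain ⟨a, b, hab⟩ := Submodule.mem_span_pair.1 h
    apply hne
    rw [Submodule.mem_span_pair]
    refine ⟨a * d, b * d, ?_⟩
    have h1 := congrArg J hab
    rw [map_add, map_smul, map_smul, S.sq, S.sq, smul_smul, smul_smul] at h1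
    exact h1
  obtain ⟨u, hu, hQu, huw⟩ := exists_sing_not_orth S.nd (Submodule.span F {J w, J w'}) (by
    have e1 := finrank_span_pair_le (F := F) (J w) (J w')
    have e2 := S.dim
    rw [frV]; omega) hwS
  obtain ⟨h1, h2⟩ := mem_oc_pair.1 hu
  rw [S.pB_eq, S.fJJ] at h1 h2
  rw [S.pB_eq] at huw
  rw [nq_apply] at hQu
  have h2d : (2 : F) * d ≠ 0 := mul_ne_zero S.h2 S.d0
  have h1' : f u w = 0 := by
    have : (2 * d) * f u w = 0 := by rw [S.hf.skew u w]; linear_combination h1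
    exact (mul_eq_zero.1 this).resolve_left h2d
  have h2' : f u w' = 0 := by
    have : (2 * d) * f u w' = 0 := by rw [S.hf.skew u w']; linear_combination h2
    exact (mul_eq_zero.1 this).resolve_left h2d
  obtain ⟨η, hη⟩ : ∃ η, η = f (J u) w := ⟨_, rfl⟩
  obtain ⟨θ, hθ⟩ : ∃ θ, θ = f (J u) w' := ⟨_, rfl⟩
  have hη0 : η ≠ 0 := by
    rw [hη, S.adj]
    intro h3
    apply huw
    rw [neg_eq_zero.1 h3, mul_zero]
  have hδ : η * (d - (θ / η) * (θ / η)) ≠ 0 := by
    refine mul_ne_zero hη0 ?_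
    rw [sub_ne_zero]
    exact fun h => S.nsq _ h.symm
  refine ⟨u, (η * (d - (θ / η) * (θ / η)))⁻¹ • (J v - (θ / η) • v), hQu, ?_, ?_, ?_, ?_, ?_⟩
  · have hJv : f (J v) v = 0 := by rw [S.adj, hv, neg_zero]
    rw [map_smul, hb.smul_left, hb.smul_right, map_sub, map_smul, S.sq, bil_sub_left hb, bil_sub_right hb,
      bil_sub_right hb, hb.smul_left, hb.smul_right, hb.smul_right, hb.smul_right, hb.smul_left, hb.smul_right,
      S.hf.alternating, S.hf.alternating, hv, hJv]
    ring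
  · rw [Matrix.mulVec_smul, Matrix.mulVec_sub, Matrix.mulVec_smul, ← hw, ← hw', hb.smul_right, bil_sub_right hb,
      hb.smul_right, h1', h2']
    ring
  · rw [map_smul, map_sub, map_smul, S.sq, Matrix.mulVec_smul, Matrix.mulVec_sub, Matrix.mulVec_smul, Matrix.mulVec_smul,
      ← hw, ← hw', hb.smul_right, bil_sub_right hb, hb.smul_right, hb.smul_right, h1', h2']
    ring
  · rw [Matrix.mulVec_smul, Matrix.mulVec_sub, Matrix.mulVec_smul, ← hw, ← hw', hb.smul_right, bil_sub_right hb,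
      hb.smul_right, ← hη, ← hθ, div_mul_cancel₀ _ hη0]
    ring
  · rw [map_smul, map_sub, map_smul, S.sq, Matrix.mulVec_smul, Matrix.mulVec_sub, Matrix.mulVec_smul, Matrix.mulVec_smul,
      ← hw, ← hw', hb.smul_right, bil_sub_right hb, hb.smul_right, hb.smul_right, ← hη, ← hθ]
    have e1 : d * η - θ / η * θ = η * (d - (θ / η) * (θ / η)) := by field_simp
    rw [e1, inv_mul_cancel₀ hδ]

end SU

end Cfsg.Agent.H12
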