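import Mathlib
import Cfsg.Prelude.Def_GeometricClasses
import Cfsg.Agent.H12.SpUni2

/-!
Overgroups of the unitary group in a symplectic group: transvections.
-/

set_option autoImplicit false
set_option linter.unusedSectionVars false

namespace Cfsg.Agent.H12

open Matrix Cfsg Cfsg.Agent.H5

variable {ι : Type} [Fintype ι] [DecidableEq ι] {F : Type*} [Field F] {f : (ι → F) → (ι → F) → F}

namespace SU

variable {J : (ι → F) →ₗ[F] (ι → F)} {d : F} {M : Subgroup (GL ι F)}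

/-- the two families of elements -/
structure Cf (S : SU f J d) (M : Subgroup (GL ι F)) (u0 u1 w0 w1 : ι → F) : Prop where
  s : ∀ c : F, stv f u1 c * stv f u0 (-(c * d)) ∈ M
  r : ∀ c : F, stv f w1 c * stv f w0 (-(c * d)) ∈ M
  uu : f u0 u1 = 0
  ww : f w0 w1 = 0
  e00 : f u0 w0 = 0
  e01 : f u0 w1 = 0
  e10 : f u1 w0 = 0
  e11 : f u1 w1 = 1

lemma stv_fix (hf : Geo.IsSymplecticForm f) {v x : ι → F} {c : F} (h : f v x = 0) :
    ((stv f v c : GL ι F) : Matrix ι ι F) *ᵥ x = x := by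
  rw [stv_mulVec hf, h, mul_zero, zero_smul, add_zero]

lemma conj2 (hf : Geo.IsSymplecticForm f) {g : GL ι F} (hg : IsIsom f g) (v w : ι → F) (a b : F) :
    g * (stv f v a * stv f w b) * g⁻¹ = stv f ((g : Matrix ι ι F) *ᵥ v) a * stv f ((g : Matrix ι ι F) *ᵥ w) b := by
  rw [← conj_stv hf hg, ← conj_stv hf hg]; group

/-- at least five elements -/
lemma five (S : SU f J d) {u0 u1 w0 w1 : ι → F} (C : Cf S M u0 u1 w0 w1) {l : F} (hl : l ≠ 0) (hl2 : l * l ≠ 1) :
    fullc f M u1 := by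
  have hf := S.hf
  have hb := hf.bilinear
  have e10' : f w0 u1 = 0 := by rw [hf.skew, C.e10, neg_zero]
  have e11' : f w1 u1 = -1 := by rw [hf.skew, C.e11]
  have e00' : f w0 u0 = 0 := by rw [hf.skew, C.e00, neg_zero]
  have e01' : f w1 u0 = 0 := by rw [hf.skew, C.e01, neg_zero]
  have uu' : f u1 u0 = 0 := by rw [hf.skew, C.uu, neg_zero]
  have ww' : f w1 w0 = 0 := by rw [hf.skew, C.ww, neg_zero]
  have rI : ∀ c : F, IsIsom f (stv f w1 c * stv f w0 (-(c * d))) := fun c => (isIsom_stv hf _ _).mul (isIsom_stv hf _ _)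
  have sI : ∀ c : F, IsIsom f (stv f u1 c * stv f u0 (-(c * d))) := fun c => (isIsom_stv hf _ _).mul (isIsom_stv hf _ _)
  have r_u1 : ∀ c : F, ((stv f w1 c * stv f w0 (-(c * d)) : GL ι F) : Matrix ι ι F) *ᵥ u1 = u1 - c • w1 := by
    intro c
    rw [gl_mul_mulVec, stv_fix hf e10', stv_mulVec hf, e11']; module
  have r_w1 : ∀ c : F, ((stv f w1 c * stv f w0 (-(c * d)) : GL ι F) : Matrix ι ι F) *ᵥ w1 = w1 := by
    intro c
    rw [gl_mul_mulVec, stv_fix hf C.ww, stv_fix hf (hf.alternating w1)]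
  have r_u0 : ∀ c : F, ((stv f w1 c * stv f w0 (-(c * d)) : GL ι F) : Matrix ι ι F) *ᵥ u0 = u0 := by
    intro c
    rw [gl_mul_mulVec, stv_fix hf e00', stv_fix hf e01']
  have s_w1 : ∀ c : F, ((stv f u1 c * stv f u0 (-(c * d)) : GL ι F) : Matrix ι ι F) *ᵥ w1 = w1 + c • u1 := by
    intro c
    rw [gl_mul_mulVec, stv_fix hf C.e01, stv_mulVec hf, C.e11, mul_one]
  have s_u1 : ∀ c : F, ((stv f u1 c * stv f u0 (-(c * d)) : GL ι F) : Matrix ι ι F) *ᵥ u1 = u1 := by
    intro c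
    rw [gl_mul_mulVec, stv_fix hf C.uu, stv_fix hf (hf.alternating u1)]
  have s_u0 : ∀ c : F, ((stv f u1 c * stv f u0 (-(c * d)) : GL ι F) : Matrix ι ι F) *ᵥ u0 = u0 := by
    intro c
    rw [gl_mul_mulVec, stv_fix hf (hf.alternating u0), stv_fix hf uu']
  obtain ⟨r, hr⟩ : ∃ r : F → GL ι F, r = fun c => stv f w1 c * stv f w0 (-(c * d)) := ⟨_, rfl⟩
  obtain ⟨s, hs⟩ : ∃ s : F → GL ι F, s = fun c => stv f u1 c * stv f u0 (-(c * d)) := ⟨_, rfl⟩
  have hr' : ∀ c, stv f w1 c * stv f w0 (-(c * d)) = r c := fun c => by rw [hr]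
  have hs' : ∀ c, stv f u1 c * stv f u0 (-(c * d)) = s c := fun c => by rw [hs]
  have rM : ∀ c, r c ∈ M := fun c => by rw [hr]; exact C.r c
  have sM : ∀ c, s c ∈ M := fun c => by rw [hs]; exact C.s c
  simp only [hr', hs'] at rI sI r_u1 r_w1 r_u0 s_w1 s_u1 s_u0
  set p : GL ι F := r l⁻¹ * (s (l - 1) * r (-1)) with hp
  have hpM : p ∈ M := M.mul_mem (rM _) (M.mul_mem (sM _) (rM _))
  have hpI : IsIsom f p := (rI _).mul ((sI _).mul (rI _))
  have p_u0 : (p : Matrix ι ι F) *ᵥ u0 = u0 := by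
    rw [hp, gl_mul_mulVec, gl_mul_mulVec, r_u0, s_u0, r_u0]
  have p_u1 : (p : Matrix ι ι F) *ᵥ u1 = l • u1 := by
    rw [hp, gl_mul_mulVec, gl_mul_mulVec, r_u1, Matrix.mulVec_sub, Matrix.mulVec_smul, s_u1, s_w1, Matrix.mulVec_sub,
      Matrix.mulVec_smul, Matrix.mulVec_add, Matrix.mulVec_smul, r_u1, r_w1]
    have e : l⁻¹ * l = 1 := inv_mul_cancel₀ hl
    have e2 : u1 - l⁻¹ • w1 - (-1 : F) • (w1 + (l - 1) • (u1 - l⁻¹ • w1)) = l • u1 + (1 - l⁻¹ * l) • w1 := by module
    rw [e2, e]; module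
  clear_value p
  have key : ∀ c : F, stv f u1 (l * l * c - c) ∈ M := by
    intro c
    have h1 := M.mul_mem (M.mul_mem (M.mul_mem hpM (C.s c)) (M.inv_mem hpM)) (M.inv_mem (C.s c))
    rw [conj2 hf hpI, p_u0, p_u1, stv_smul hf, _root_.mul_inv_rev, stv_inv hf, stv_inv hf] at h1
    have h2 : stv f u1 (l ^ 2 * c) * stv f u0 (-(c * d)) * (stv f u0 (- -(c * d)) * stv f u1 (-c)) =
        stv f u1 (l * l * c - c) := by
      rw [mul_assoc, ← mul_assoc (stv f u0 _), stv_mul hf, add_neg_cancel, stv_zero hf, one_mul, stv_mul hf]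
      congr 1; ring
    rwa [h2] at h1
  intro c
  have h1 := key (c / (l * l - 1))
  have h0 : l * l - 1 ≠ 0 := sub_ne_zero.2 hl2
  have h2 : l * l * (c / (l * l - 1)) - c / (l * l - 1) = c := by
    have h3 : l * l * (c / (l * l - 1)) - c / (l * l - 1) = c / (l * l - 1) * (l * l - 1) := by ring
    rw [h3, div_mul_cancel₀ _ h0]
  rwa [h2] at h1

/-- three elements -/
lemma three [Fintype F] (S : SU f J d) (hM : HU f J M) (hMi : ∀ g ∈ M, IsIsom f g) {u w0 w1 : ι → F}
    (C : Cf S M u (J u) w0 w1) (h3 : (3 : F) = 0) (hF : ∀ a : F, a ≠ 0 → a * a = 1) : ∃ k, k ≠ 0 ∧ fullc f M k := by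
  have hf := S.hf
  have hb := hf.bilinear
  obtain ⟨u1, hu1⟩ : ∃ u1, u1 = J u := ⟨_, rfl⟩
  rw [← hu1] at C
  have e10' : f w0 u1 = 0 := by rw [hf.skew, C.e10, neg_zero]
  have e11' : f w1 u1 = -1 := by rw [hf.skew, C.e11]
  have e01' : f w1 u = 0 := by rw [hf.skew, C.e01, neg_zero]
  have uu' : f u1 u = 0 := by rw [hf.skew, C.uu, neg_zero]
  -- the element of order four
  set x : GL ι F := stv f (w1 - u1) 1 * stv f w1 (-1) with hx
  have hxM : x ∈ M := by
    have hsI : IsIsom f (stv f u1 (-1) * stv f u (-(-1 * d))) := (isIsom_stv hf _ _).mul (isIsom_stv hf _ _)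
    have h1 := M.mul_mem (M.mul_mem (M.mul_mem (C.s (-1)) (C.r 1)) (M.inv_mem (C.s (-1)))) (M.inv_mem (C.r 1))
    rw [conj2 hf hsI, gl_mul_mulVec, gl_mul_mulVec, stv_fix hf C.e01, stv_fix hf C.e00, stv_fix hf C.e10, stv_mulVec hf,
      C.e11, _root_.mul_inv_rev, stv_inv hf, stv_inv hf] at h1
    have e : w1 + (-1 * 1 : F) • u1 = w1 - u1 := by module
    rw [e] at h1
    have h2 : stv f (w1 - u1) 1 * stv f w0 (-(1 * d)) * (stv f w0 (- -(1 * d)) * stv f w1 (-1)) = x := by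
      rw [mul_assoc, ← mul_assoc (stv f w0 _), stv_mul hf, add_neg_cancel, stv_zero hf, one_mul]
    rwa [h2] at h1
  have hxy : ∀ y, (x : Matrix ι ι F) *ᵥ y = y + (f w1 y - f u1 y) • w1 + (f w1 y + f u1 y) • u1 := by
    intro y
    rw [hx, gl_mul_mulVec, stv_mulVec hf, stv_mulVec hf, bil_sub_left hb, hb.add_right, hb.add_right, hb.smul_right,
      hb.smul_right, hf.alternating, C.e11]
    have e : y + (-1 * f w1 y) • w1 + (1 * (f w1 y + -1 * f w1 y * 0 - (f u1 y + -1 * f w1 y * 1))) • (w1 - u1) =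
        y + (f w1 y - f u1 y) • w1 + (f w1 y + f u1 y) • u1 - ((3 : F) * f w1 y) • u1 := by module
    rw [e, h3]; module
  have hxI := hMi x hxM
  clear_value x
  obtain ⟨z, hz⟩ : ∃ z, z = x * x := ⟨_, rfl⟩
  have hzM : z ∈ M := by rw [hz]; exact M.mul_mem hxM hxM
  have hzI := hMi z hzM
  have hzy : ∀ y, (z : Matrix ι ι F) *ᵥ y = y + f u1 y • w1 - f w1 y • u1 := by
    intro y
    rw [hz, gl_mul_mulVec, hxy, hxy]
    simp only [hb.add_right, hb.smul_right, hf.alternating, C.e11, e11']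
    have e : ∀ A B : F, y + (A - B) • w1 + (A + B) • u1 + (A + (A - B) * 0 + (A + B) * -1 - (B + (A - B) * 1 + (A + B) * 0)) • w1 +
        (A + (A - B) * 0 + (A + B) * -1 + (B + (A - B) * 1 + (A + B) * 0)) • u1 =
        y + B • w1 - A • u1 + ((3 : F) * (A)) • u1 - ((3 : F) * B) • w1 := by
      intro A B; module
    rw [e, h3]; module
  clear hz
  -- the isotropic vector
  have huH : u ∉ Submodule.span F {u1, w1} := by
    intro h
    obtain ⟨a, b, hab⟩ := Submodule.mem_span_pair.1 h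
    have h1 : f u u1 = 0 := C.uu
    rw [← hab, hb.add_left, hb.smul_left, hb.smul_left, hf.alternating, e11'] at h1
    have h2 : f u w1 = 0 := C.e01
    rw [← hab, hb.add_left, hb.smul_left, hb.smul_left, hf.alternating, C.e11] at h2
    have hb0 : b = 0 := by linear_combination -h1
    have ha0 : a = 0 := by linear_combination h2
    rw [ha0, hb0] at hab
    have hu0 : u = 0 := by rw [← hab]; module
    have h4 : f u1 w1 = 0 := by rw [hu1, hu0, map_zero, bil_zero_left hb]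
    rw [C.e11] at h4
    exact one_ne_zero h4
  have e1 := finrank_span_pair_le (F := F) u1 w1
  have e2 := S.dim
  obtain ⟨v, hv, hQv, hvu, hvH⟩ : ∃ v ∈ oc (nq hf.bilinear J) (Submodule.span F {u1, w1}), nq hf.bilinear J v = 0 ∧
      pB (nq hf.bilinear J) v u ≠ 0 ∧ v ∉ Submodule.span F {u1, w1} := by
    obtain ⟨v, hv, hQv, hvu⟩ := exists_sing_not_orth S.nd (Submodule.span F {u1, w1}) (by rw [frV]; omega) huH
    by_cases hvH : v ∈ Submodule.span F {u1, w1}
    swap
    · exact ⟨v, hv, hQv, hvu, hvH⟩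
    have e3 := Submodule.finrank_add_le_finrank_add_finrank (Submodule.span F {u1, w1}) (Submodule.span F {u})
    have e4 := finrank_span_one_le (F := F) u
    have e5 := finrank_oc S.nd (Submodule.span F {u1, w1} ⊔ Submodule.span F {u})
    rw [frV] at e5
    obtain ⟨e, he, heK, hQe⟩ := exists_sing_off (Q := nq hf.bilinear J) (oc (nq hf.bilinear J) (Submodule.span F {u1, w1} ⊔ Submodule.span F {u}))
      (Submodule.span F {u1, w1} ⊔ Submodule.span F {u}) (by omega)
    rw [mem_oc] at he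
    refine ⟨v + e, ?_, ?_, ?_, ?_⟩
    · apply Submodule.add_mem _ hv
      rw [mem_oc]
      exact fun n hn => he n (Submodule.mem_sup_left hn)
    · rw [q_add, hQv, hQe, he v (Submodule.mem_sup_left hvH)]; ring
    · rw [pl_add, pB_symm _ e u, he u (Submodule.mem_sup_right (Submodule.mem_span_singleton_self u)), add_zero]
      exact hvu
    · intro h
      apply heK
      have := Submodule.sub_mem _ h hvH
      rw [add_sub_cancel_left] at this
      exact Submodule.mem_sup_left this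
  obtain ⟨hv1, hv2⟩ := mem_oc_pair.1 hv
  rw [S.pB_eq] at hv1 hv2 hvu
  rw [nq_apply] at hQv
  have hJv1 : f u1 (J v) = 0 := (mul_eq_zero.1 hv1).resolve_left S.h2
  have hJv2 : f w1 (J v) = 0 := (mul_eq_zero.1 hv2).resolve_left S.h2
  have hB0 : f u1 v ≠ 0 := by
    intro h
    apply hvu
    rw [← hu1, hf.skew, h]; ring
  obtain ⟨A, hA⟩ : ∃ A, A = f w1 v := ⟨_, rfl⟩
  obtain ⟨B, hB⟩ : ∃ B, B = f u1 v := ⟨_, rfl⟩
  rw [← hB] at hB0
  have hAB : A * A + B * B ≠ 0 := by
    rw [hF B hB0]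
    by_cases hA0 : A = 0
    · rw [hA0, mul_zero, zero_add]; exact one_ne_zero
    · rw [hF A hA0, one_add_one_eq_two]; exact S.h2
  obtain ⟨h, hh⟩ : ∃ h, h = B • w1 - A • u1 := ⟨_, rfl⟩
  obtain ⟨k, hk⟩ : ∃ k, k = v - h := ⟨_, rfl⟩
  have hzv : (z : Matrix ι ι F) *ᵥ v = k - h := by
    rw [hzy, ← hA, ← hB, hk, hh]
    have : v + B • w1 - A • u1 = v - (B • w1 - A • u1) - (B • w1 - A • u1) + (3 : F) • (B • w1 - A • u1) := by module
    rw [this, h3]; module
  have hzJv : (z : Matrix ι ι F) *ᵥ (J v) = J v := by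
    rw [hzy, hJv1, hJv2]; module
  have hvk : v = k + h := by rw [hk]; abel
  have hu1h : f u1 h = B := by rw [hh, bil_sub_right hb, hb.smul_right, hb.smul_right, C.e11, hf.alternating]; ring
  have hw1h : f w1 h = A := by rw [hh, bil_sub_right hb, hb.smul_right, hb.smul_right, e11', hf.alternating]; ring
  have hu1k : f u1 k = 0 := by rw [hk, bil_sub_right hb, hu1h, hB, sub_self]
  have hw1k : f w1 k = 0 := by rw [hk, bil_sub_right hb, hw1h, hA, sub_self]
  have hkh : f k h = 0 := by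
    rw [hf.skew, hh, bil_sub_left hb, hb.smul_left, hb.smul_left, hu1k, hw1k]; ring
  have hxk : (x : Matrix ι ι F) *ᵥ k = k := by
    rw [hxy, hu1k, hw1k]; module
  have hfhx : f h ((x : Matrix ι ι F) *ᵥ h) = -(A * A + B * B) := by
    rw [hxy, hu1h, hw1h, hb.add_right, hb.add_right, hb.smul_right, hb.smul_right, hf.alternating, hf.skew h w1,
      hf.skew h u1, hu1h, hw1h]; ring
  have hfkx : f k ((x : Matrix ι ι F) *ᵥ h) = 0 := by
    rw [hxy, hb.add_right, hb.add_right, hb.smul_right, hb.smul_right, hkh, hf.skew k w1, hf.skew k u1, hu1k, hw1k]; ring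
  have hk0 : k ≠ 0 := by
    intro h0
    apply hvH
    rw [hvk, h0, zero_add, hh, Submodule.mem_span_pair]
    exact ⟨-A, B, by module⟩
  -- the short root element
  have hE : sse f k (d • h) ∈ M := by
    have hJvv : f (J v) v = 0 := by rw [S.adj, hQv, neg_zero]
    have hu := S.ut_mem hM hQv 1
    have h1 := M.mul_mem hu (M.inv_mem (M.mul_mem (M.mul_mem hzM hu) (M.inv_mem hzM)))
    rw [conj2 hf hzI, hzJv, hzv, _root_.mul_inv_rev, stv_inv hf, stv_inv hf] at h1
    have h2 : stv f (J v) 1 * stv f v (-(1 * d)) * (stv f (k - h) (- -(1 * d)) * stv f (J v) (-1)) = sse f k (d • h) := by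
      have hj1 : f (J v) (k - h) = 0 := by
        have := hzI (J v) v
        rw [hzJv, hzv, hJvv] at this
        exact this
      have hj2 : f (k - h) (J v) = 0 := by rw [hf.skew, hj1, neg_zero]
      have hvv : f v (k - h) = 0 := by
        rw [hvk, bil_sub_right hb, hb.add_left, hb.add_left, hf.alternating, hf.alternating, hkh, hf.skew h k, hkh]; ring
      apply gl_ext
      intro y
      rw [gl_mul_mulVec, gl_mul_mulVec, gl_mul_mulVec, sse_mulVec hf (by rw [hb.smul_right, hkh, mul_zero])]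
      simp only [stv_mulVec hf, hb.add_right, hb.smul_right, hf.alternating, hj1, hj2, hvv, hJvv, hQv, hb.smul_left]
      rw [hvk, hb.add_left, bil_sub_left hb]
      have e : ∀ a b c : F, y + (-1 * c) • J (k + h) + (- -(1 * d) * (a - b + -1 * c * 0)) • (k - h) +
          (-(1 * d) * (a + b + -1 * c * 0 + - -(1 * d) * (a - b + -1 * c * 0) * 0)) • (k + h) +
          (1 * (c + -1 * c * 0 + - -(1 * d) * (a - b + -1 * c * 0) * 0 + -(1 * d) * (a + b + -1 * c * 0 + - -(1 * d) * (a - b + -1 * c * 0) * 0) * 0)) • J (k + h) =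
          y + a • d • h + (d * b) • k - ((3 : F) * (d * a)) • h - ((3 : F) * (d * b)) • k := by
        intro a b c; module
      rw [e, h3]; module
    rwa [h2] at h1
  have hE2 : sse f k (d • ((x : Matrix ι ι F) *ᵥ h)) ∈ M := by
    have h1 := M.mul_mem (M.mul_mem hxM hE) (M.inv_mem hxM)
    rw [conj_sse hf hxI (by rw [hb.smul_right, hkh, mul_zero]), hxk, Matrix.mulVec_smul] at h1
    exact h1
  have hT := sse_comm_mem hf (by rw [hb.smul_right, hkh, mul_zero]) (by rw [hb.smul_right, hfkx, mul_zero]) hE hE2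
  rw [hb.smul_left, hb.smul_right, hfhx] at hT
  refine ⟨k, hk0, ?_⟩
  obtain ⟨c0, hc0⟩ : ∃ c0, c0 = 2 * (d * (d * -(A * A + B * B))) := ⟨_, rfl⟩
  rw [← hc0] at hT
  have hc00 : c0 ≠ 0 := by
    rw [hc0]
    exact mul_ne_zero S.h2 (mul_ne_zero S.d0 (mul_ne_zero S.d0 (neg_ne_zero.2 hAB)))
  intro c
  by_cases hc : c = 0
  · rw [hc, stv_zero hf]; exact M.one_mem
  have h4 := hF c hc
  have h5 := hF c0 hc00
  have h6 : (c - c0) * (c + c0) = 0 := by linear_combination h4 - h5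
  rcases mul_eq_zero.1 h6 with h7 | h7
  · rw [sub_eq_zero.1 h7]; exact hT
  · rw [eq_neg_of_add_eq_zero_left h7, ← stv_inv hf]; exact M.inv_mem hT

end SU

end Cfsg.Agent.H12
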