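import Mathlib
import Cfsg.Prelude.Def_GeometricClasses
import Cfsg.Agent.H12.SpUni3

/-!
The normaliser of a quadratic field with non-trivial adjoint is maximal in the symplectic group.
-/

set_option autoImplicit false
set_option linter.unusedSectionVars false

namespace Cfsg.Agent.H12

open Matrix Cfsg Cfsg.Agent.H5

section su

variable {ι : Type} [Fintype ι] [DecidableEq ι] {F : Type*} [Field F] [Fintype F] {f : (ι → F) → (ι → F) → F}

namespace SU

variable {J : (ι → F) →ₗ[F] (ι → F)} {d : F} {M : Subgroup (GL ι F)}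

/-- overgroups not normalising the field -/
theorem all (S : SU f J d) (hM : HU f J M) (hMi : ∀ g ∈ M, IsIsom f g) {g : GL ι F} (hg : g ∈ M)
    (hne : ¬ ∃ α β : F, ∀ v, (g : Matrix ι ι F) *ᵥ (J v) = α • ((g : Matrix ι ι F) *ᵥ v) + β • J ((g : Matrix ι ι F) *ᵥ v)) :
    ∀ x, fullc f M x := by
  by_cases hcase : ∀ v, f v (J v) = 0 → J ((g : Matrix ι ι F) *ᵥ v) ∈
      Submodule.span F {(g : Matrix ι ι F) *ᵥ v, (g : Matrix ι ι F) *ᵥ (J v)}
  · exfalso
    apply hne
    let T : (ι → F) →ₗ[F] (ι → F) := Matrix.toLin' ((g⁻¹ : GL ι F) : Matrix ι ι F) ∘ₗ J ∘ₗ Matrix.toLin' (g : Matrix ι ι F)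
    have hT : ∀ x, T x = ((g⁻¹ : GL ι F) : Matrix ι ι F) *ᵥ (J ((g : Matrix ι ι F) *ᵥ x)) := fun x => rfl
    obtain ⟨α, β, h⟩ := S.ks.of_lines T (by
      intro x hx
      obtain ⟨a, b, hab⟩ := Submodule.mem_span_pair.1 (hcase x hx)
      rw [hT, ← hab, Matrix.mulVec_add, Matrix.mulVec_smul, Matrix.mulVec_smul, gl_inv_mulVec_mulVec, gl_inv_mulVec_mulVec]
      exact Submodule.mem_span_pair.2 ⟨a, b, rfl⟩)
    have h1 : ∀ v, J ((g : Matrix ι ι F) *ᵥ v) = α • ((g : Matrix ι ι F) *ᵥ v) + β • ((g : Matrix ι ι F) *ᵥ (J v)) := by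
      intro v
      have h2 := h v
      rw [hT] at h2
      have h3 := congrArg (fun y => (g : Matrix ι ι F) *ᵥ y) h2
      beta_reduce at h3
      rwa [gl_mulVec_inv_mulVec, Matrix.mulVec_add, Matrix.mulVec_smul, Matrix.mulVec_smul] at h3
    have hβ : β ≠ 0 := by
      intro hβ
      have : Nonempty ι := Fintype.card_pos_iff.1 (by have := S.dim; omega)
      obtain ⟨v, hv⟩ := exists_ne (0 : ι → F)
      apply S.irr (gl_mulVec_ne_zero g hv)
      rw [Submodule.mem_span_singleton, h1 v, hβ, zero_smul, add_zero]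
      exact ⟨α, rfl⟩
    refine ⟨-(β⁻¹ * α), β⁻¹, fun v => ?_⟩
    rw [h1 v, smul_add, smul_smul, smul_smul, inv_mul_cancel₀ hβ]
    module
  push Not at hcase
  obtain ⟨v0, hv0, hv0'⟩ := hcase
  obtain ⟨u, v, hu, hv, e00, e01, e10, e11⟩ := S.conf (hMi g hg) hv0 hv0'
  have hJu : f (J u) u = 0 := by rw [S.adj, hu, neg_zero]
  have C : Cf S M u (J u) ((g : Matrix ι ι F) *ᵥ v) ((g : Matrix ι ι F) *ᵥ (J v)) := by
    refine ⟨fun c => S.ut_mem hM hu c, fun c => ?_, hu, ?_, e00, e01, e10, e11⟩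
    · rw [← conj2 S.hf (hMi g hg)]
      exact M.mul_mem (M.mul_mem hg (S.ut_mem hM hv c)) (M.inv_mem hg)
    · rw [hMi g hg]; exact hv
  have hJu0 : J u ≠ 0 := by
    intro h
    rw [h, bil_zero_left S.hf.bilinear] at e11
    exact zero_ne_one e11
  by_cases hF : ∀ a : F, a ≠ 0 → a * a = 1
  · have h3 : (3 : F) = 0 := by
      have h4 := hF 2 S.h2
      linear_combination h4
    obtain ⟨k, hk0, hk⟩ := S.three hM hMi C h3 hF
    exact S.full_all hM hk0 hk
  · push Not at hF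
    obtain ⟨a, ha, ha2⟩ := hF
    exact S.full_all hM hJu0 (S.five C ha ha2)

end SU

end su

section mat

variable {ι : Type} [Fintype ι] [DecidableEq ι] {F : Type*} [Field F] [Fintype F]

/-- a subalgebra of dimension two generated by a non-scalar -/
lemma sub2_span' {K : Subalgebra F (Matrix ι ι F)} (hK : Geo.IsFieldSubalgebra 2 K)
    {k0 : Matrix ι ι F} (hk0 : k0 ∈ K)
    (hns : ∀ a b : F, a • (1 : Matrix ι ι F) + b • k0 = 0 → a = 0 ∧ b = 0) :
    ∀ k ∈ K, ∃ a b : F, k = a • (1 : Matrix ι ι F) + b • k0 := by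
  have hli : LinearIndependent F ![(1 : Matrix ι ι F), k0] := by
    rw [LinearIndependent.pair_iff]
    exact hns
  have h2 : Submodule.span F {(1 : Matrix ι ι F), k0} ≤ Subalgebra.toSubmodule K := by
    rw [Submodule.span_le]
    intro y hy
    rw [Set.mem_insert_iff, Set.mem_singleton_iff] at hy
    rcases hy with rfl | rfl
    · exact K.one_mem
    · exact hk0
  have h3 : Module.finrank F (Subalgebra.toSubmodule K) = 2 := hK.finrank_eq
  have h4 : Module.finrank F (Submodule.span F {(1 : Matrix ι ι F), k0}) = 2 := finrank_pair hli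
  have h5 := Submodule.eq_of_le_of_finrank_eq h2 (h4.trans h3.symm)
  intro k hk
  have h6 : k ∈ Submodule.span F {(1 : Matrix ι ι F), k0} := by rw [h5]; exact hk
  obtain ⟨a, b, hab⟩ := Submodule.mem_span_pair.mp h6
  exact ⟨a, b, hab.symm⟩

/-- the normaliser, in terms of the generator -/
theorem mem_normalizer2 {K : Subalgebra F (Matrix ι ι F)} (hK : Geo.IsFieldSubalgebra 2 K)
    {k0 : Matrix ι ι F} (hk0 : k0 ∈ K)
    (hns : ∀ a b : F, a • (1 : Matrix ι ι F) + b • k0 = 0 → a = 0 ∧ b = 0) (G : GL ι F) :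
    G ∈ Geo.subalgebraNormalizer K ↔
      ∃ α β : F, ∀ v, (G : Matrix ι ι F) *ᵥ (Matrix.toLin' k0 v) = α • ((G : Matrix ι ι F) *ᵥ v) +
        β • Matrix.toLin' k0 ((G : Matrix ι ι F) *ᵥ v) := by
  have hsp := sub2_span' hK hk0 hns
  have hin : ∀ a b : F, a • (1 : Matrix ι ι F) + b • k0 ∈ K := fun a b =>
    K.add_mem (K.smul_mem K.one_mem a) (K.smul_mem hk0 b)
  have hinv : ((G⁻¹ : GL ι F) : Matrix ι ι F) * (G : Matrix ι ι F) = 1 := by
    rw [← Units.val_mul, inv_mul_cancel, Units.val_one]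
  have hinv' : (G : Matrix ι ι F) * ((G⁻¹ : GL ι F) : Matrix ι ι F) = 1 := by
    rw [← Units.val_mul, mul_inv_cancel, Units.val_one]
  constructor
  · intro h
    obtain ⟨α, β, hab⟩ := hsp _ ((h k0).1 hk0)
    refine ⟨α, β, fun v => ?_⟩
    have h1 : (G : Matrix ι ι F) * k0 = (α • (1 : Matrix ι ι F) + β • k0) * (G : Matrix ι ι F) := by
      rw [← hab, Matrix.mul_assoc, hinv, Matrix.mul_one]
    have h2 := congrArg (fun A => A *ᵥ v) h1
    beta_reduce at h2
    rw [← Matrix.mulVec_mulVec, ← Matrix.mulVec_mulVec, Matrix.add_mulVec, Matrix.smul_mulVec, Matrix.smul_mulVec,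
      Matrix.one_mulVec] at h2
    rw [Matrix.toLin'_apply, Matrix.toLin'_apply]
    exact h2
  · rintro ⟨α, β, h⟩
    have h1 : (G : Matrix ι ι F) * k0 = (α • (1 : Matrix ι ι F) + β • k0) * (G : Matrix ι ι F) := by
      apply Matrix.toLin'.injective
      apply LinearMap.ext
      intro v
      rw [Matrix.toLin'_apply, Matrix.toLin'_apply, ← Matrix.mulVec_mulVec, ← Matrix.mulVec_mulVec,
        Matrix.add_mulVec, Matrix.smul_mulVec, Matrix.smul_mulVec, Matrix.one_mulVec]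
      have h2 := h v
      rw [Matrix.toLin'_apply, Matrix.toLin'_apply] at h2
      exact h2
    have h2 : ∀ a b : F, (G : Matrix ι ι F) * (a • (1 : Matrix ι ι F) + b • k0) * ((G⁻¹ : GL ι F) : Matrix ι ι F)
        = (a + b * α) • (1 : Matrix ι ι F) + (b * β) • k0 := by
      intro a b
      rw [Matrix.mul_add, Matrix.mul_smul, Matrix.mul_smul, Matrix.mul_one, h1, Matrix.add_mul, Matrix.smul_mul, hinv',
        Matrix.smul_mul, Matrix.mul_assoc, hinv', Matrix.mul_one, smul_add, smul_smul, smul_smul]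
      module
    intro k
    constructor
    · intro hk
      obtain ⟨a, b, rfl⟩ := hsp k hk
      rw [h2]
      exact hin _ _
    · intro hk
      obtain ⟨a, b, hab⟩ := hsp _ hk
      -- `β ≠ 0`
      have hβ : β ≠ 0 := by
        intro hβ
        have h3 := h2 (-α) 1
        rw [hβ, one_mul, neg_add_cancel, mul_zero, zero_smul, zero_smul, add_zero] at h3
        have h4 : (-α) • (1 : Matrix ι ι F) + (1 : F) • k0 = 0 := by
          have h5 := congrArg (fun A => ((G⁻¹ : GL ι F) : Matrix ι ι F) * A * (G : Matrix ι ι F)) h3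
          beta_reduce at h5
          rw [Matrix.mul_zero, Matrix.zero_mul] at h5
          rw [← h5, Matrix.mul_assoc, Matrix.mul_assoc, hinv, Matrix.mul_one, ← Matrix.mul_assoc, hinv, Matrix.one_mul]
        exact one_ne_zero (hns _ _ h4).2
      have h3 : (G : Matrix ι ι F) * k * ((G⁻¹ : GL ι F) : Matrix ι ι F) =
          (G : Matrix ι ι F) * ((a - b * β⁻¹ * α) • (1 : Matrix ι ι F) + (b * β⁻¹) • k0) * ((G⁻¹ : GL ι F) : Matrix ι ι F) := by
        rw [h2, hab, sub_add_cancel, mul_assoc b, inv_mul_cancel₀ hβ, mul_one]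
      have h4 : k = (a - b * β⁻¹ * α) • (1 : Matrix ι ι F) + (b * β⁻¹) • k0 := by
        have h5 := congrArg (fun A => ((G⁻¹ : GL ι F) : Matrix ι ι F) * A * (G : Matrix ι ι F)) h3
        beta_reduce at h5
        rw [Matrix.mul_assoc, Matrix.mul_assoc, hinv, Matrix.mul_one, ← Matrix.mul_assoc, hinv, Matrix.one_mul] at h5
        rw [h5, Matrix.mul_assoc, Matrix.mul_assoc, hinv, Matrix.mul_one, ← Matrix.mul_assoc, hinv, Matrix.one_mul]
      rw [h4]
      exact hin _ _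

/-- the generator with trace zero -/
theorem su_of {f : (ι → F) → (ι → F) → F} (hf : Geo.IsSymplecticForm f) (h2 : (2 : F) ≠ 0) (hn : 13 ≤ Fintype.card ι)
    {K : Subalgebra F (Matrix ι ι F)} (hK : Geo.IsFieldSubalgebra 2 K) (hac : Geo.IsAdjointClosedFor f K)
    (hnsa : ¬ Geo.IsSelfAdjointFor f K) :
    ∃ k0 ∈ K, ∃ d : F, SU f (Matrix.toLin' k0) d ∧
      (∀ a b : F, a • (1 : Matrix ι ι F) + b • k0 = 0 → a = 0 ∧ b = 0) := by
  have hb := hf.bilinear
  have : Nonempty ι := Fintype.card_pos_iff.1 (by omega)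
  obtain ⟨k, hk, u0, v0, hu0⟩ : ∃ k ∈ K, ∃ u v, f (k *ᵥ u) v ≠ f u (k *ᵥ v) := by
    by_contra hcon
    push Not at hcon
    exact hnsa (fun k hk u v => hcon k hk u v)
  obtain ⟨k', hk', hadj⟩ := hac k hk
  have hadj' : ∀ u v, f (k' *ᵥ u) v = f u (k *ᵥ v) := by
    intro u v
    rw [hf.skew, ← hadj, hf.skew, neg_neg]
  obtain ⟨j, hj⟩ : ∃ j, j = k - k' := ⟨_, rfl⟩
  have hjK : j ∈ K := by rw [hj]; exact K.sub_mem hk hk'
  have hjadj : ∀ u v, f (j *ᵥ u) v = - f u (j *ᵥ v) := by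
    intro u v
    rw [hj, Matrix.sub_mulVec, Matrix.sub_mulVec, bil_sub_left hb, bil_sub_right hb, hadj, hadj']; ring
  have hju0 : f (j *ᵥ u0) v0 ≠ 0 := by
    rw [hj, Matrix.sub_mulVec, bil_sub_left hb, hadj' u0 v0]
    exact sub_ne_zero.2 hu0
  -- not a scalar
  have hns : ∀ a b : F, a • (1 : Matrix ι ι F) + b • j = 0 → a = 0 ∧ b = 0 := by
    intro a b hab
    have hb0 : b = 0 := by
      by_contra hb0
      have h3 : j = (-(b⁻¹ * a)) • (1 : Matrix ι ι F) := by
        have h3 : b • j = -(a • (1 : Matrix ι ι F)) := eq_neg_of_add_eq_zero_right hab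
        have h4 : j = b⁻¹ • (b • j) := by rw [smul_smul, inv_mul_cancel₀ hb0, one_smul]
        rw [h4, h3]
        module
      have h4 := hjadj u0 v0
      apply hju0
      rw [h3, Matrix.smul_mulVec, Matrix.one_mulVec, Matrix.smul_mulVec, Matrix.one_mulVec, hb.smul_left, hb.smul_right] at h4
      rw [h3, Matrix.smul_mulVec, Matrix.one_mulVec, hb.smul_left]
      have h5 : 2 * (-(b⁻¹ * a) * f u0 v0) = 0 := by linear_combination h4
      exact (mul_eq_zero.1 h5).resolve_left h2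
    rw [hb0, zero_smul, add_zero] at hab
    exact ⟨(smul_eq_zero.mp hab).resolve_right one_ne_zero, hb0⟩
  have hsp := sub2_span' hK hjK hns
  have hin : ∀ a b : F, a • (1 : Matrix ι ι F) + b • j ∈ K := fun a b =>
    K.add_mem (K.smul_mem K.one_mem a) (K.smul_mem hjK b)
  obtain ⟨d, b, hsq⟩ := hsp (j * j) (K.mul_mem hjK hjK)
  have hjj : ∀ v, j *ᵥ (j *ᵥ v) = d • v + b • (j *ᵥ v) := by
    intro v
    rw [Matrix.mulVec_mulVec, hsq, Matrix.add_mulVec, Matrix.smul_mulVec, Matrix.smul_mulVec, Matrix.one_mulVec]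
  have hb0 : b = 0 := by
    have h3 : f (j *ᵥ (j *ᵥ u0)) v0 = f u0 (j *ᵥ (j *ᵥ v0)) := by rw [hjadj, hjadj, neg_neg]
    rw [hjj, hjj, hb.add_left, hb.add_right, hb.smul_left, hb.smul_left, hb.smul_right, hb.smul_right] at h3
    have h4 := hjadj u0 v0
    have h5 : (2 * b) * f (j *ᵥ u0) v0 = 0 := by linear_combination h3 + b * h4
    exact (mul_eq_zero.1 ((mul_eq_zero.1 h5).resolve_right hju0)).resolve_left h2
  refine ⟨j, hjK, d, ⟨hf, h2, hn, ?_, ?_, ?_⟩, hns⟩
  · intro v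
    rw [Matrix.toLin'_apply, Matrix.toLin'_apply, hjj, hb0]; module
  · intro u v
    rw [Matrix.toLin'_apply, Matrix.toLin'_apply]; exact hjadj u v
  · intro e he
    -- `(j - e)(j + e) = 0`
    have h3 : (-e) • (1 : Matrix ι ι F) + (1 : F) • j ≠ 0 := fun h => one_ne_zero (hns _ _ h).2
    have h4 : e • (1 : Matrix ι ι F) + (1 : F) • j ≠ 0 := fun h => one_ne_zero (hns _ _ h).2
    obtain ⟨y, hy, hxy⟩ := hK.inv _ (hin (-e) 1) h3
    rw [hK.comm _ (hin (-e) 1) y hy] at hxy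
    apply h4
    have h5 : ((-e) • (1 : Matrix ι ι F) + (1 : F) • j) * (e • (1 : Matrix ι ι F) + (1 : F) • j) = 0 := by
      rw [Matrix.add_mul, Matrix.mul_add, Matrix.mul_add]
      simp only [Matrix.smul_mul, Matrix.mul_smul, Matrix.one_mul, Matrix.mul_one]
      rw [hsq, hb0, ← he]
      module
    calc e • (1 : Matrix ι ι F) + (1 : F) • j = (y * ((-e) • (1 : Matrix ι ι F) + (1 : F) • j)) * (e • (1 : Matrix ι ι F) + (1 : F) • j) := by
          rw [hxy, Matrix.one_mul]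
      _ = 0 := by rw [Matrix.mul_assoc, h5, Matrix.mul_zero]

/-- maximality -/
theorem su_maximal {m : ℕ} (hm : 7 ≤ m) (h2 : (2 : F) ≠ 0)
    {K : Subalgebra F (Matrix (Fin m ⊕ Fin m) (Fin m ⊕ Fin m) F)} (hK : Geo.IsFieldSubalgebra 2 K)
    (hac : Geo.IsAdjointClosedFor (sympForm m F) K) (hnsa : ¬ Geo.IsSelfAdjointFor (sympForm m F) K) :
    Geo.IsMaximalIn (spGL m F) (Geo.subalgebraNormalizer K ⊓ spGL m F) := by
  obtain ⟨j, hjK, d, S, hns⟩ := su_of (sympForm_isSymp m) h2 (by simp; omega) hK hac hnsa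
  have hb := S.hf.bilinear
  have hnorm := mem_normalizer2 hK hjK hns
  refine ⟨lt_of_le_of_ne inf_le_right ?_, ?_⟩
  · intro heq
    obtain ⟨v, -, hv00, hQv⟩ := exists_sing_off (Q := nq hb (Matrix.toLin' j)) ⊤ ⊥ (by
      rw [finrank_bot, finrank_top, SU.frV]; have := S.dim; omega)
    have hv0 : v ≠ 0 := fun h => hv00 ((Submodule.mem_bot F).2 h)
    rw [nq_apply] at hQv
    have h1 : stv (sympForm m F) v 1 ∈ Geo.subalgebraNormalizer K ⊓ spGL m F := by
      rw [heq]; exact stv_mem_spGL m v 1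
    obtain ⟨α, β, hαβ⟩ := (hnorm _).1 h1.1
    have h3 := hαβ v
    rw [stv_mulVec S.hf, stv_mulVec S.hf, hQv, S.hf.alternating] at h3
    have h4 : α • v + (β - 1) • Matrix.toLin' j v = 0 := by
      have h5 : Matrix.toLin' j v + (1 * 0 : F) • v = Matrix.toLin' j v := by module
      have h6 : v + (1 * 0 : F) • v = v := by module
      rw [h5, h6] at h3
      have : α • v + (β - 1) • Matrix.toLin' j v = (α • v + β • Matrix.toLin' j v) - Matrix.toLin' j v := by module
      rw [this, ← h3, sub_self]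
    obtain ⟨hα, hβ⟩ := S.ks.indep hv0 h4
    obtain ⟨x, hx⟩ := (S.hf.nondegenerate v hv0).2
    have h7 := hαβ x
    rw [stv_mulVec S.hf, stv_mulVec S.hf, hα, sub_eq_zero.1 hβ, map_add, map_smul, zero_smul, zero_add, one_smul] at h7
    have h8 := add_left_cancel h7
    apply S.irr hv0
    rw [Submodule.mem_span_singleton]
    refine ⟨(sympForm m F v x)⁻¹ * sympForm m F v (Matrix.toLin' j x), ?_⟩
    rw [one_mul, one_mul] at h8
    rw [mul_smul, h8, smul_smul, inv_mul_cancel₀ hx, one_smul]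
  · intro M hM1 hM2
    by_cases hMX : M ≤ Geo.subalgebraNormalizer K
    · left
      exact le_antisymm (le_inf hMX hM2) hM1
    right
    obtain ⟨g, hg, hgX⟩ := Set.not_subset.1 hMX
    have hMi : ∀ g ∈ M, IsIsom (sympForm m F) g := fun g hg => (mem_spGL m g).1 (hM2 hg)
    have hHU : HU (sympForm m F) (Matrix.toLin' j) M := by
      intro g hg1 hg2
      refine hM1 ⟨(hnorm g).2 ⟨0, 1, fun v => ?_⟩, (mem_spGL m g).2 hg1⟩
      rw [zero_smul, zero_add, one_smul]
      exact hg2 v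
    exact eq_spGL_of_fullc hM2 (S.all hHU hMi hg (fun h => hgX ((hnorm g).2 h)))

end mat

end Cfsg.Agent.H12
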