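import Mathlib
import Cfsg.Prelude.Def_GeometricClasses
import Cfsg.Agent.H12.Subfield
import Cfsg.Agent.H12.Transv
import Cfsg.Agent.H12.Irred
import Cfsg.Agent.H12.SubForm3

/-!
Overgroups of the group `SL_n(F₀)` in `SL_n(F)`.
-/

set_option autoImplicit false
set_option linter.unusedSectionVars false

open scoped MatrixGroups Matrix

namespace Cfsg.Agent.H12

section kill

variable {ι : Type} [Fintype ι] [DecidableEq ι] {K : Type*} [Field K]

/-- a vector killed by two functionals and outside the span of two vectors -/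
lemma exists_kill (hc : 5 ≤ Fintype.card ι) (φ ψ a b : ι → K) :
    ∃ x : ι → K, φ ⬝ᵥ x = 0 ∧ ψ ⬝ᵥ x = 0 ∧ x ∉ Submodule.span K ({a, b} : Set (ι → K)) := by
  classical
  let L : (ι → K) →ₗ[K] (Fin 2 → K) :=
    { toFun := fun x => ![φ ⬝ᵥ x, ψ ⬝ᵥ x]
      map_add' := by
        intro x y
        funext i
        fin_cases i <;> simp [dotProduct_add]
      map_smul' := by
        intro c x
        funext i
        fin_cases i <;> simp [dotProduct_smul] }
  have h1 := LinearMap.finrank_range_add_finrank_ker L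
  have h2 : Module.finrank K (LinearMap.range L) ≤ 2 := by
    have := Submodule.finrank_le (LinearMap.range L)
    simpa using this
  rw [Module.finrank_fintype_fun_eq_card] at h1
  have h3 : Module.finrank K (Submodule.span K ({a, b} : Set (ι → K))) ≤ 2 := by
    have h4 := finrank_span_finset_le_card (R := K) ({a, b} : Finset (ι → K))
    rw [Finset.coe_insert, Finset.coe_singleton] at h4
    exact h4.trans Finset.card_le_two
  by_contra hcon
  push Not at hcon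
  have h5 : LinearMap.ker L ≤ Submodule.span K ({a, b} : Set (ι → K)) := by
    intro x hx
    have h6 : L x = 0 := hx
    have h7 := congrFun h6 0
    have h8 := congrFun h6 1
    exact hcon x h7 h8
  have h6 := Submodule.finrank_mono h5
  omega

lemma ne_zero_of_notMem_span {a b x : ι → K} (h : x ∉ Submodule.span K ({a, b} : Set (ι → K))) : x ≠ 0 := by
  rintro rfl
  exact h (Submodule.zero_mem _)

lemma notMem_span_left {a b x : ι → K} (h : x ∉ Submodule.span K ({a, b} : Set (ι → K))) :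
    x ∉ Submodule.span K {a} := fun hm => h (Submodule.span_mono (by simp) hm)

lemma notMem_span_right {a b x : ι → K} (h : x ∉ Submodule.span K ({a, b} : Set (ι → K))) :
    x ∉ Submodule.span K {b} := fun hm => h (Submodule.span_mono (by simp) hm)

lemma notMem_span_symm {a x : ι → K} (ha : a ≠ 0) (h : x ∉ Submodule.span K {a}) : a ∉ Submodule.span K {x} := by
  intro hm
  obtain ⟨c, hc⟩ := Submodule.mem_span_singleton.mp hm
  apply h
  have hc0 : c ≠ 0 := by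
    rintro rfl
    apply ha
    rw [← hc, zero_smul]
  rw [Submodule.mem_span_singleton]
  exact ⟨c⁻¹, by rw [← hc, smul_smul, inv_mul_cancel₀ hc0, one_smul]⟩

end kill

variable {ι : Type} [Fintype ι] [DecidableEq ι] {F : Type*} [Field F] {F₀ : Subfield F}

/-- the basic commutator -/
lemma tv_star {M : Subgroup (GL ι F)} {u v φ ψ : ι → F} (hφu : φ ⬝ᵥ u = 0) (hψv : ψ ⬝ᵥ v = 0) (hφv : φ ⬝ᵥ v = 0)
    (h1 : tv u φ ∈ M) (h2 : tv v ψ ∈ M) : tv ((ψ ⬝ᵥ u) • v) φ ∈ M := by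
  have h3 := conj_tv (tv u φ) hψv
  have h4 : ((tv u φ : GL ι F) : Matrix ι ι F) *ᵥ v = v := by
    rw [tv_mulVec hφu, hφv, zero_smul, add_zero]
  have h5 : ψ ᵥ* (((tv u φ)⁻¹ : GL ι F) : Matrix ι ι F) = ψ + (-(ψ ⬝ᵥ u)) • φ := by
    funext j
    have h6 := vecMul_inv_dot (tv u φ) ψ (Pi.single j 1)
    rw [tv_inv hφu, tv_mulVec (by rw [neg_dotProduct, hφu, neg_zero]), dotProduct_add, dotProduct_smul] at h6
    rw [tv_inv hφu]
    simp only [dotProduct_single_one, smul_eq_mul] at h6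
    simp only [Pi.add_apply, Pi.smul_apply, smul_eq_mul]
    rw [h6, Pi.neg_apply]
    ring
  rw [h4, h5] at h3
  have h6 : tv v (ψ + (-(ψ ⬝ᵥ u)) • φ) * (tv v ψ)⁻¹ ∈ M := by
    rw [← h3]
    exact mul_mem (mul_mem (mul_mem h1 h2) (inv_mem h1)) (inv_mem h2)
  rw [tv_inv hψv, tv_mul (by rw [add_dotProduct, smul_dotProduct, hψv, hφv]; simp)
    (by rw [neg_dotProduct, hψv, neg_zero])] at h6
  have h7 := inv_mem h6
  have h8 : ψ + (-(ψ ⬝ᵥ u)) • φ + -ψ = (-(ψ ⬝ᵥ u)) • φ := by abel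
  rw [h8, tv_inv (by rw [smul_dotProduct, hφv, smul_zero])] at h7
  rw [tv_smul_left hφv]
  have h9 : -(-(ψ ⬝ᵥ u)) • φ = (ψ ⬝ᵥ u) • φ := by rw [neg_neg]
  have h10 : -((-(ψ ⬝ᵥ u)) • φ) = (ψ ⬝ᵥ u) • φ := by rw [neg_smul, neg_neg]
  rwa [h10] at h7

/-- inverse transpose -/
def ti : GL ι F →* GL ι F where
  toFun g := ⟨((g⁻¹ : GL ι F) : Matrix ι ι F)ᵀ, (g : Matrix ι ι F)ᵀ,
    by rw [← Matrix.transpose_mul, ← Units.val_mul, mul_inv_cancel, Units.val_one, Matrix.transpose_one],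
    by rw [← Matrix.transpose_mul, ← Units.val_mul, inv_mul_cancel, Units.val_one, Matrix.transpose_one]⟩
  map_one' := by
    apply Units.ext
    show (((1 : GL ι F)⁻¹ : GL ι F) : Matrix ι ι F)ᵀ = 1
    rw [inv_one, Units.val_one, Matrix.transpose_one]
  map_mul' := by
    intro g h
    apply Units.ext
    show (((g * h)⁻¹ : GL ι F) : Matrix ι ι F)ᵀ = ((g⁻¹ : GL ι F) : Matrix ι ι F)ᵀ * ((h⁻¹ : GL ι F) : Matrix ι ι F)ᵀ
    rw [mul_inv_rev, Units.val_mul, Matrix.transpose_mul]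

lemma coe_ti (g : GL ι F) : ((ti g : GL ι F) : Matrix ι ι F) = ((g⁻¹ : GL ι F) : Matrix ι ι F)ᵀ := rfl

lemma ti_mulVec (g : GL ι F) (φ : ι → F) :
    ((ti g : GL ι F) : Matrix ι ι F) *ᵥ φ = φ ᵥ* ((g⁻¹ : GL ι F) : Matrix ι ι F) := by
  rw [coe_ti, Matrix.mulVec_transpose]

lemma ti_ti (g : GL ι F) : ti (ti g) = g := by
  apply Units.ext
  show (((ti g)⁻¹ : GL ι F) : Matrix ι ι F)ᵀ = g
  have : (((ti g)⁻¹ : GL ι F) : Matrix ι ι F) = (g : Matrix ι ι F)ᵀ := rfl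
  rw [this, Matrix.transpose_transpose]

lemma ti_tv {v φ : ι → F} (h : φ ⬝ᵥ v = 0) : ti (tv v φ) = tv (-φ) v := by
  have h' : v ⬝ᵥ (-φ) = 0 := by rw [dotProduct_neg, dotProduct_comm, h, neg_zero]
  apply gl_ext
  intro x
  rw [ti_mulVec, tv_inv h, tv_mulVec h', coe_tv (by rw [neg_dotProduct, h, neg_zero])]
  funext j
  simp only [tvm, Matrix.vecMul_add, Matrix.vecMul_one, Pi.add_apply, Pi.smul_apply, smul_eq_mul, Pi.neg_apply,
    Matrix.vecMul_vecMulVec]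
  rw [dotProduct_comm x v]

lemma ti_dot (g : GL ι F) (φ x : ι → F) :
    (((ti g : GL ι F) : Matrix ι ι F) *ᵥ φ) ⬝ᵥ ((g : Matrix ι ι F) *ᵥ x) = φ ⬝ᵥ x := by
  rw [ti_mulVec, vecMul_inv_dot_self]

lemma demb_dot_emb (P : GL ι F) (φ u : ι → F₀) : emb (ti P) φ ⬝ᵥ emb P u = ((φ ⬝ᵥ u : F₀) : F) := by
  rw [emb, emb, ti_dot]
  simp only [dotProduct, cov]
  push_cast
  rfl

/-- the set-up -/
structure LinF (F₀ : Subfield F) (P : GL ι F) (M : Subgroup (GL ι F)) : Prop where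
  dim : 13 ≤ Fintype.card ι
  hM : ∀ u φ : ι → F₀, φ ⬝ᵥ u = 0 → tv (emb P u) (emb (ti P) φ) ∈ M

/-- only scalars in the subfield occur -/
def Triv (F₀ : Subfield F) (P : GL ι F) (M : Subgroup (GL ι F)) : Prop :=
  ∀ (t : F) (u φ : ι → F₀), u ≠ 0 → φ ≠ 0 → φ ⬝ᵥ u = 0 → tv (t • emb P u) (emb (ti P) φ) ∈ M → t ∈ F₀

namespace LinF

variable {P : GL ι F} {M : Subgroup (GL ι F)}

lemma dual (S : LinF F₀ P M) : LinF F₀ (ti P) (M.comap ti) where
  dim := S.dim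
  hM := by
    intro u φ h
    have h0 : emb P φ ⬝ᵥ emb (ti P) u = 0 := by
      rw [dotProduct_comm, demb_dot_emb, dotProduct_comm, h]; rfl
    rw [Subgroup.mem_comap, ti_ti, ti_tv h0, ← emb_neg]
    -- tv (-(emb P φ)) (emb (ti P) u)
    have h1 := S.hM (-φ) u (by rw [dotProduct_neg, dotProduct_comm, h, neg_zero])
    exact h1

/-- moving the vector -/
lemma stepU (S : LinF F₀ P M) {t : F} {u w φ : ι → F₀} (hφu : φ ⬝ᵥ u = 0) (hφw : φ ⬝ᵥ w = 0)
    (huw : u ∉ Submodule.span F₀ {w}) (h : tv (t • emb P u) (emb (ti P) φ) ∈ M) :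
    tv (t • emb P w) (emb (ti P) φ) ∈ M := by
  obtain ⟨χ, hχw, hχu⟩ := exists_dot_span huw
  have h1 := tv_star (u := t • emb P u) (φ := emb (ti P) φ) (v := emb P w) (ψ := emb (ti P) χ)
    (by rw [dotProduct_smul, demb_dot_emb, hφu]; simp) (by rw [demb_dot_emb, hχw]; rfl)
    (by rw [demb_dot_emb, hφw]; rfl) h (S.hM _ _ hχw)
  rw [dotProduct_smul, demb_dot_emb, hχu] at h1
  simpa using h1

/-- moving the functional -/
lemma stepφ (S : LinF F₀ P M) {t : F} {u φ χ : ι → F₀} (hφu : φ ⬝ᵥ u = 0) (hχu : χ ⬝ᵥ u = 0)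
    (hφχ : φ ∉ Submodule.span F₀ {χ}) (h : tv (t • emb P u) (emb (ti P) φ) ∈ M) :
    tv (t • emb P u) (emb (ti P) χ) ∈ M := by
  obtain ⟨w, hwχ, hwφ⟩ := exists_dot_span hφχ
  have h1 := tv_star (u := emb P w) (φ := emb (ti P) χ) (v := t • emb P u) (ψ := emb (ti P) φ)
    (by rw [demb_dot_emb, dotProduct_comm, hwχ]; rfl) (by rw [dotProduct_smul, demb_dot_emb, hφu]; simp)
    (by rw [dotProduct_smul, demb_dot_emb, hχu]; simp) (S.hM _ _ (by rw [dotProduct_comm, hwχ])) h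
  rw [demb_dot_emb, dotProduct_comm, hwφ] at h1
  simpa using h1

/-- one pair is enough -/
lemma of_pair (S : LinF F₀ P M) {t : F} {u φ : ι → F₀} (hu : u ≠ 0) (hφ : φ ≠ 0) (hφu : φ ⬝ᵥ u = 0)
    (h : tv (t • emb P u) (emb (ti P) φ) ∈ M) (u' φ' : ι → F₀) (hφu' : φ' ⬝ᵥ u' = 0) :
    tv (t • emb P u') (emb (ti P) φ') ∈ M := by
  have hdim := S.dim
  by_cases hu' : u' = 0
  · rw [hu', emb_zero, smul_zero, tv_zero_left]; exact one_mem M
  by_cases hφ' : φ' = 0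
  · rw [hφ', emb_zero, tv_zero_right]; exact one_mem M
  obtain ⟨u1, hu1, hu1', hu1s⟩ := exists_kill (by omega) φ φ' u u'
  have h1 := S.stepU hφu hu1 (notMem_span_symm hu (notMem_span_left hu1s)) h
  obtain ⟨φ1, hφ1, -, hφ1s⟩ := exists_kill (by omega) u1 u1 φ φ'
  rw [dotProduct_comm] at hφ1
  have h2 := S.stepφ hu1 hφ1 (notMem_span_symm hφ (notMem_span_left hφ1s)) h1
  have h3 := S.stepφ hφ1 hu1' (notMem_span_right hφ1s) h2
  exact S.stepU hu1' hφu' (notMem_span_right hu1s) h3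

/-- the algebra of scalars -/
def Csub (S : LinF F₀ P M) : Subalgebra F₀ F where
  carrier := {s | ∀ u φ : ι → F₀, φ ⬝ᵥ u = 0 → tv (s • emb P u) (emb (ti P) φ) ∈ M}
  algebraMap_mem' := by
    intro r u φ h
    have h1 := S.hM (r • u) φ (by rw [dotProduct_smul, h, smul_zero])
    rw [emb_smul] at h1
    exact h1
  add_mem' := by
    intro s t hs ht u φ h
    have h0 : emb (ti P) φ ⬝ᵥ emb P u = 0 := by rw [demb_dot_emb, h]; rfl
    have h1 := mul_mem (hs u φ h) (ht u φ h)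
    rw [tv_smul_left h0, tv_smul_left h0, tv_mul (by rw [smul_dotProduct, h0, smul_zero])
      (by rw [smul_dotProduct, h0, smul_zero]), ← add_smul, ← tv_smul_left h0] at h1
    exact h1
  mul_mem' := by
    intro s t hs ht u φ h
    have hdim := S.dim
    obtain ⟨w, hw, -, hws⟩ := exists_kill (by omega) φ φ u u
    obtain ⟨χ, hχu, hχw⟩ := exists_dot_span (notMem_span_left hws)
    have h1 := tv_star (u := s • emb P w) (φ := emb (ti P) φ) (v := t • emb P u) (ψ := emb (ti P) χ)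
      (by rw [dotProduct_smul, demb_dot_emb, hw]; simp) (by rw [dotProduct_smul, demb_dot_emb, hχu]; simp)
      (by rw [dotProduct_smul, demb_dot_emb, h]; simp) (hs w φ hw) (ht u χ hχu)
    rw [dotProduct_smul, demb_dot_emb, hχw, smul_smul] at h1
    simpa using h1

lemma mem_Csub (S : LinF F₀ P M) {s : F} : s ∈ S.Csub ↔
    ∀ u φ : ι → F₀, φ ⬝ᵥ u = 0 → tv (s • emb P u) (emb (ti P) φ) ∈ M := Iff.rfl

lemma triv_of (S : LinF F₀ P M) (h : ∀ s ∈ S.Csub, s ∈ F₀) : Triv F₀ P M := by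
  intro t u φ hu hφ hφu ht
  exact h t (S.mem_Csub.2 (fun u' φ' h' => S.of_pair hu hφ hφu ht u' φ' h'))

end LinF

lemma Triv.dual {P : GL ι F} {M : Subgroup (GL ι F)} (T : Triv F₀ P M) : Triv F₀ (ti P) (M.comap ti) := by
  intro t u φ hu hφ h ht
  have h0 : emb P φ ⬝ᵥ emb (ti P) u = 0 := by
    rw [dotProduct_comm, demb_dot_emb, dotProduct_comm, h]; rfl
  have h0' : (emb P φ) ⬝ᵥ (t • emb (ti P) u) = 0 := by rw [dotProduct_smul, h0, smul_zero]
  rw [Subgroup.mem_comap, ti_ti, ti_tv h0'] at ht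
  have h1 : tv (t • emb P (-φ)) (emb (ti P) u) ∈ M := by
    have h2 : (emb (ti P) u) ⬝ᵥ (-emb P φ) = 0 := by rw [dotProduct_neg, dotProduct_comm, h0, neg_zero]
    rw [emb_neg, tv_smul_left h2]
    exact ht
  exact T t (-φ) u (neg_ne_zero.2 hφ) hu (by rw [dotProduct_neg, dotProduct_comm, h, neg_zero]) h1

/-- killed by a non-zero rational functional -/
def Kil (F₀ : Subfield F) (P : GL ι F) (x : ι → F) : Prop :=
  ∃ φ : ι → F₀, φ ≠ 0 ∧ emb (ti P) φ ⬝ᵥ x = 0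

lemma emb_comb_eq (P : GL ι F) {x : ι → F} (h : ∀ χ : ι → F₀, emb (ti P) χ ⬝ᵥ x ∈ F₀) :
    ∃ v : ι → F₀, x = emb P v := by
  refine ⟨fun j => ⟨_, h (Pi.single j 1)⟩, ?_⟩
  have h1 : ∀ j : ι, emb (ti P) (Pi.single j (1 : F₀)) ⬝ᵥ x = (((P⁻¹ : GL ι F) : Matrix ι ι F) *ᵥ x) j := by
    intro j
    rw [emb, ti_mulVec, ← Matrix.dotProduct_mulVec]
    simp only [dotProduct, cov, Pi.single_apply]
    rw [Finset.sum_eq_single j]
    · simp
    · intro b _ hb
      simp [hb]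
    · simp
  rw [emb]
  have h2 : cov (fun j => (⟨_, h (Pi.single j 1)⟩ : F₀)) = ((P⁻¹ : GL ι F) : Matrix ι ι F) *ᵥ x := by
    funext j
    exact h1 j
  rw [h2, gl_mulVec_inv_mulVec]

namespace LinF

variable {P : GL ι F} {M : Subgroup (GL ι F)}

theorem rat_of_kil (S : LinF F₀ P M) (T : Triv F₀ P M) {g : GL ι F} (hg : g ∈ M) {u : ι → F₀} (hu : u ≠ 0)
    (hk : Kil F₀ P ((g : Matrix ι ι F) *ᵥ emb P u)) : Rat F₀ P ((g : Matrix ι ι F) *ᵥ emb P u) := by
  have hdim := S.dim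
  obtain ⟨φ, hφ, hφv⟩ := hk
  set v := (g : Matrix ι ι F) *ᵥ emb P u with hv
  -- `w` and `ψ₀`
  obtain ⟨w, ψ₀, hφw, hψu, hne⟩ : ∃ w ψ₀ : ι → F₀, φ ⬝ᵥ w = 0 ∧ ψ₀ ⬝ᵥ u = 0 ∧
      emb (ti P) ψ₀ ⬝ᵥ (((g⁻¹ : GL ι F) : Matrix ι ι F) *ᵥ emb P w) ≠ 0 := by
    by_contra hcon
    push Not at hcon
    -- all `g⁻¹ emb w` are multiples of `emb u`
    have h1 : ∀ w : ι → F₀, φ ⬝ᵥ w = 0 → ∃ c : F, ((g⁻¹ : GL ι F) : Matrix ι ι F) *ᵥ emb P w = c • emb P u := by
      intro w hw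
      by_contra h2
      have h3 : ((g⁻¹ : GL ι F) : Matrix ι ι F) *ᵥ emb P w ∉ Submodule.span F {emb P u} := by
        intro hm
        obtain ⟨c, hc⟩ := Submodule.mem_span_singleton.mp hm
        exact h2 ⟨c, hc.symm⟩
      obtain ⟨θ, hθu, hθw⟩ := exists_dot_span h3
      -- expand `θ` in rational functionals
      obtain ⟨c, hc⟩ := exists_emb_comb (F₀ := F₀) (ti P) θ
      -- `u` has a non-zero coordinate
      obtain ⟨i0, hi0⟩ : ∃ i, u i ≠ 0 := by
        by_contra h4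
        push Not at h4
        exact hu (funext h4)
      have h5 : ∀ j, emb (ti P) (Pi.single j (1 : F₀)) ⬝ᵥ (((g⁻¹ : GL ι F) : Matrix ι ι F) *ᵥ emb P w) =
          ((u j / u i0 : F₀) : F) *
            (emb (ti P) (Pi.single i0 (1 : F₀)) ⬝ᵥ (((g⁻¹ : GL ι F) : Matrix ι ι F) *ᵥ emb P w)) := by
        intro j
        have h6 := hcon w (Pi.single j 1 - (u j / u i0) • Pi.single i0 1) hw (by
          rw [sub_dotProduct, smul_dotProduct]
          simp only [single_one_dotProduct, smul_eq_mul]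
          field_simp
          ring)
        rw [emb_sub, emb_smul, sub_dotProduct, smul_dotProduct, smul_eq_mul, sub_eq_zero] at h6
        exact h6
      have h7 : θ ⬝ᵥ (((g⁻¹ : GL ι F) : Matrix ι ι F) *ᵥ emb P w) = (∑ j, c j * ((u j / u i0 : F₀) : F)) *
          (emb (ti P) (Pi.single i0 (1 : F₀)) ⬝ᵥ (((g⁻¹ : GL ι F) : Matrix ι ι F) *ᵥ emb P w)) := by
        conv_lhs => rw [hc]
        rw [sum_dotProduct, Finset.sum_mul]
        apply Finset.sum_congr rfl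
        intro j _
        rw [smul_dotProduct, h5, smul_eq_mul]
        ring
      have h8 : θ ⬝ᵥ emb P u = (∑ j, c j * ((u j / u i0 : F₀) : F)) * ((u i0 : F₀) : F) := by
        conv_lhs => rw [hc]
        rw [sum_dotProduct, Finset.sum_mul]
        apply Finset.sum_congr rfl
        intro j _
        rw [smul_dotProduct, demb_dot_emb, smul_eq_mul]
        simp only [single_one_dotProduct]
        have h9 : ((u i0 : F₀) : F) ≠ 0 := fun h' => hi0 (Subtype.ext h')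
        push_cast
        field_simp
      rw [h8] at hθu
      have h9 : ((u i0 : F₀) : F) ≠ 0 := fun h' => hi0 (Subtype.ext h')
      rw [(mul_eq_zero.mp hθu).resolve_right h9, zero_mul, hθw] at h7
      exact one_ne_zero h7
    obtain ⟨w1, hw1, -, hw1s⟩ := exists_kill (by omega) φ φ (0 : ι → F₀) 0
    obtain ⟨w2, hw2, -, hw2s⟩ := exists_kill (by omega) φ φ w1 w1
    obtain ⟨c1, hc1⟩ := h1 w1 hw1
    obtain ⟨c2, hc2⟩ := h1 w2 hw2
    have hw10 := ne_zero_of_notMem_span hw1s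
    have hc10 : c1 ≠ 0 := by
      rintro rfl
      rw [zero_smul] at hc1
      exact gl_mulVec_ne_zero g⁻¹ (fun h' => hw10 ((emb_eq_zero P).mp h')) hc1
    have h2 : emb P w2 = (c2 / c1) • emb P w1 := by
      have h3 := congrArg (fun x => (g : Matrix ι ι F) *ᵥ x) hc1
      have h4 := congrArg (fun x => (g : Matrix ι ι F) *ᵥ x) hc2
      simp only [gl_mulVec_inv_mulVec, Matrix.mulVec_smul] at h3 h4
      rw [h4, h3, smul_smul, div_mul_cancel₀ _ hc10]
    obtain ⟨c₀, hc₀⟩ := emb_smul_mem P hw10 h2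
    rw [← hc₀, ← emb_smul] at h2
    apply notMem_span_left hw2s
    rw [Submodule.mem_span_singleton]
    exact ⟨c₀, (emb_inj P h2).symm⟩
  -- the first commutator
  set κ := emb (ti P) ψ₀ ⬝ᵥ (((g⁻¹ : GL ι F) : Matrix ι ι F) *ᵥ emb P w) with hκ
  have h1 : tv v (emb (ti P) ψ₀ ᵥ* ((g⁻¹ : GL ι F) : Matrix ι ι F)) ∈ M := by
    rw [hv, ← conj_tv g (by rw [demb_dot_emb, hψu]; rfl)]
    exact mul_mem (mul_mem hg (S.hM _ _ hψu)) (inv_mem hg)
  have h2 := tv_star (u := emb P w) (φ := emb (ti P) φ) (v := v)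
    (ψ := emb (ti P) ψ₀ ᵥ* ((g⁻¹ : GL ι F) : Matrix ι ι F)) (by rw [demb_dot_emb, hφw]; rfl)
    (by rw [hv, vecMul_inv_dot_self, demb_dot_emb, hψu]; rfl) hφv (S.hM _ _ hφw) h1
  rw [vecMul_inv_dot, ← hκ] at h2
  -- the second commutator
  have h3 : ∀ χ : ι → F₀, emb (ti P) χ ⬝ᵥ (κ • v) ∈ F₀ := by
    intro χ
    obtain ⟨w', hφw', hχw', hw's⟩ := exists_kill (by omega) φ χ (0 : ι → F₀) 0
    have h4 := tv_star (u := κ • v) (φ := emb (ti P) φ) (v := emb P w') (ψ := emb (ti P) χ)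
      (by rw [dotProduct_smul, hφv, smul_zero]) (by rw [demb_dot_emb, hχw']; rfl) (by rw [demb_dot_emb, hφw']; rfl)
      h2 (S.hM _ _ hχw')
    exact T _ w' φ (ne_zero_of_notMem_span hw's) hφ hφw' h4
  obtain ⟨v₀, hv₀⟩ := emb_comb_eq P h3
  exact ⟨κ⁻¹, v₀, by rw [← hv₀, smul_smul, inv_mul_cancel₀ hne, one_smul]⟩

end LinF

end Cfsg.Agent.H12
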