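import Mathlib
import Cfsg.Prelude.Def_GeometricClasses
import Cfsg.Agent.H12.SubLin

/-!
Overgroups of the group `SL_n(F₀)` in `SL_n(F)`, part 2.
-/

set_option autoImplicit false
set_option linter.unusedSectionVars false

open scoped MatrixGroups Matrix

namespace Cfsg.Agent.H12

variable {ι : Type} [Fintype ι] [DecidableEq ι] {F : Type*} [Field F] {F₀ : Subfield F}

lemma Rat.smul_ne {P : GL ι F} {x : ι → F} (h : Rat F₀ P x) (hx : x ≠ 0) :
    ∃ (c : F) (u : ι → F₀), c ≠ 0 ∧ u ≠ 0 ∧ x = c • emb P u := by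
  obtain ⟨c, u, rfl⟩ := h
  refine ⟨c, u, ?_, ?_, rfl⟩
  · rintro rfl
    exact hx (zero_smul _ _)
  · rintro rfl
    exact hx (by rw [emb_zero, smul_zero])

namespace LinF

variable {P : GL ι F} {M : Subgroup (GL ι F)}

/-- one rational line going to a rational line is enough -/
theorem all_rat (S : LinF F₀ P M) (T : Triv F₀ P M) {g : GL ι F} (hg : g ∈ M) {u : ι → F₀} (hu : u ≠ 0)
    (hr : Rat F₀ P ((g : Matrix ι ι F) *ᵥ emb P u)) : g ∈ Geo.subfieldSubgroup F₀ P := by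
  have hdim := S.dim
  apply mem_subfield_of_lines
  intro v
  have hgu : (g : Matrix ι ι F) *ᵥ emb P u ≠ 0 := gl_mulVec_ne_zero g (fun h' => hu ((emb_eq_zero P).mp h'))
  obtain ⟨c, u', hc, hu', hcu⟩ := hr.smul_ne hgu
  by_cases hv : v = 0
  · exact ⟨0, 0, by rw [hv, emb_zero, Matrix.mulVec_zero, zero_smul]⟩
  obtain ⟨χ, hχu, hχv, hχ⟩ := exists_kill (by omega) u v (0 : ι → F₀) 0
  have hχ0 := ne_zero_of_notMem_span hχ
  rw [dotProduct_comm] at hχu hχv
  -- the dual statement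
  have hgd : ti g ∈ M.comap ti := by rw [Subgroup.mem_comap, ti_ti]; exact hg
  have h1 : Kil F₀ (ti P) (((ti g : GL ι F) : Matrix ι ι F) *ᵥ emb (ti P) χ) := by
    refine ⟨u', hu', ?_⟩
    rw [ti_ti]
    have h2 := ti_dot g (emb (ti P) χ) (emb P u)
    rw [demb_dot_emb, hχu, hcu, dotProduct_smul, smul_eq_mul] at h2
    rw [dotProduct_comm]
    exact (mul_eq_zero.mp h2).resolve_left hc
  have h2 := (S.dual).rat_of_kil T.dual hgd hχ0 h1
  have hgχ : ((ti g : GL ι F) : Matrix ι ι F) *ᵥ emb (ti P) χ ≠ 0 :=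
    gl_mulVec_ne_zero (ti g) (fun h' => hχ0 ((emb_eq_zero (ti P)).mp h'))
  obtain ⟨c', χ', hc', hχ', hcχ⟩ := h2.smul_ne hgχ
  have h3 : Kil F₀ P ((g : Matrix ι ι F) *ᵥ emb P v) := by
    refine ⟨χ', hχ', ?_⟩
    have h4 := ti_dot g (emb (ti P) χ) (emb P v)
    rw [demb_dot_emb, hχv, hcχ, smul_dotProduct, smul_eq_mul] at h4
    exact (mul_eq_zero.mp h4).resolve_left hc'
  obtain ⟨c'', v', h5⟩ := S.rat_of_kil T hg hv h3
  exact ⟨c'', v', h5⟩

/-- a vector killed by `rho z₀ - s` for a non-scalar rational element is killed by a rational functional -/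
lemma kil_of_eigen {z₀ : GL ι F₀} {s : F₀} {x : ι → F} (hs : ∃ w : ι → F₀, (z₀ : Matrix ι ι F₀) *ᵥ w ≠ s • w)
    (hx : ((rho P z₀ : GL ι F) : Matrix ι ι F) *ᵥ x = (s : F) • x) : Kil F₀ P x := by
  obtain ⟨w, hw⟩ := hs
  obtain ⟨i, hi⟩ : ∃ i, ((z₀ : Matrix ι ι F₀) *ᵥ w) i ≠ (s • w) i := by
    by_contra h
    push Not at h
    exact hw (funext h)
  -- the functional `x ↦ (z₀ x)_i - s x_i`
  refine ⟨(z₀ : Matrix ι ι F₀) i - s • Pi.single i 1, ?_, ?_⟩
  · intro h
    apply hi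
    have h1 := congrArg (fun φ => φ ⬝ᵥ w) h
    simp only [sub_dotProduct, smul_dotProduct, zero_dotProduct, single_one_dotProduct] at h1
    rw [sub_eq_zero] at h1
    exact h1
  · obtain ⟨c, hc⟩ := exists_emb_comb (F₀ := F₀) P x
    have h1 : ∀ y : ι → F, emb (ti P) (Pi.single i (1 : F₀)) ⬝ᵥ (((rho P z₀ : GL ι F) : Matrix ι ι F) *ᵥ y - (s : F) • y) =
        emb (ti P) ((z₀ : Matrix ι ι F₀) i - s • Pi.single i 1) ⬝ᵥ y := by
      intro y
      obtain ⟨d, hd⟩ := exists_emb_comb (F₀ := F₀) P y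
      rw [hd, Matrix.mulVec_sum, Finset.smul_sum, ← Finset.sum_sub_distrib, dotProduct_sum, dotProduct_sum]
      apply Finset.sum_congr rfl
      intro j _
      rw [Matrix.mulVec_smul, rho_mulVec_emb, dotProduct_sub, dotProduct_smul, demb_dot_emb, dotProduct_smul, dotProduct_smul,
        demb_dot_emb, dotProduct_smul, demb_dot_emb, sub_dotProduct, smul_dotProduct]
      simp only [single_one_dotProduct, smul_eq_mul, Matrix.mulVec]
      push_cast
      ring
    rw [← h1, hx, sub_self, dotProduct_zero]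

/-- elements of `M` of order two commuting with a rational non-scalar element having a fixed vector are rational -/
theorem inv_rational (S : LinF F₀ P M) (T : Triv F₀ P M) (hsq : ∀ c : F, c * c ∈ F₀ → c ∈ F₀)
    {i₀ : GL ι F₀} (hi1 : ∃ w : ι → F₀, (i₀ : Matrix ι ι F₀) *ᵥ w ≠ w)
    (hi2 : ∃ u : ι → F₀, u ≠ 0 ∧ (i₀ : Matrix ι ι F₀) *ᵥ u = u) {z : GL ι F} (hz : z ∈ M) (hzz : z * z = 1)
    (hcomm : z * rho P i₀ = rho P i₀ * z) : ∃ z₀ : GL ι F₀, z = rho P z₀ := by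
  obtain ⟨u, hu, hiu⟩ := hi2
  have hne : Nonempty ι := by
    rw [← Fintype.card_pos_iff]
    have := S.dim
    omega
  have h1 : Kil F₀ P ((z : Matrix ι ι F) *ᵥ emb P u) := by
    apply kil_of_eigen (z₀ := i₀) (s := 1)
    · obtain ⟨w, hw⟩ := hi1
      exact ⟨w, by rwa [one_smul]⟩
    · rw [← gl_mul_mulVec, ← hcomm, gl_mul_mulVec, rho_mulVec_emb, hiu]
      simp
  have h2 := S.all_rat T hz hu (S.rat_of_kil T hz hu h1)
  obtain ⟨g₀, c, hc, hg₀⟩ := (mem_subfield_iff P z).mp h2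
  -- `c` is rational
  have h3 : emb P u = (c * c) • emb P ((g₀ : Matrix ι ι F₀) *ᵥ ((g₀ : Matrix ι ι F₀) *ᵥ u)) := by
    rw [← smul_smul, ← hg₀, ← Matrix.mulVec_smul, ← hg₀, ← gl_mul_mulVec, hzz, Units.val_one, Matrix.one_mulVec]
  have h4 : (g₀ : Matrix ι ι F₀) *ᵥ ((g₀ : Matrix ι ι F₀) *ᵥ u) ≠ 0 := gl_mulVec_ne_zero g₀ (gl_mulVec_ne_zero g₀ hu)
  obtain ⟨c₀, hc₀⟩ := emb_smul_mem P h4 h3
  have hcF : c ∈ F₀ := hsq c (by rw [← hc₀]; exact SetLike.coe_mem _)
  apply rho_of_preserves hne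
  intro v
  refine ⟨(⟨c, hcF⟩ : F₀) • ((g₀ : Matrix ι ι F₀) *ᵥ v), ?_⟩
  rw [hg₀, emb_smul]

/-- the core: two non-conjugate rational involutions -/
theorem core [Finite F] (S : LinF F₀ P M) (T : Triv F₀ P M) (hsq : ∀ c : F, c * c ∈ F₀ → c ∈ F₀)
    {i1 i2 : GL ι F₀} (h11 : i1 * i1 = 1) (h22 : i2 * i2 = 1) (hm1 : rho P i1 ∈ M) (hm2 : rho P i2 ∈ M)
    (hn1 : i1 ≠ 1) (hn2 : i2 ≠ 1)
    (hf1 : ∃ s : Finset (ι → F₀), s.card ≤ 4 ∧ ∀ x : ι → F₀, (∀ φ ∈ s, φ ⬝ᵥ x = 0) → (i1 : Matrix ι ι F₀) *ᵥ x = x)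
    (hf2 : ∃ s : Finset (ι → F₀), s.card ≤ 4 ∧ ∀ x : ι → F₀, (∀ φ ∈ s, φ ⬝ᵥ x = 0) → (i2 : Matrix ι ι F₀) *ᵥ x = x)
    (htr : ∀ x : GL ι F, x * rho P i1 * x⁻¹ ≠ rho P i2) : M ≤ Geo.subfieldSubgroup F₀ P := by
  classical
  intro g hg
  have hdim := S.dim
  obtain ⟨s1, hs1, hx1⟩ := hf1
  obtain ⟨s2, hs2, hx2⟩ := hf2
  -- common solutions
  have hker : ∀ (K : Type _) [Field K] (s t : Finset (ι → K)), s.card ≤ 4 → t.card ≤ 4 →
      ∃ x : ι → K, x ≠ 0 ∧ (∀ φ ∈ s, φ ⬝ᵥ x = 0) ∧ (∀ φ ∈ t, φ ⬝ᵥ x = 0) := by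
    intro K _ s t hs ht
    let L : (ι → K) →ₗ[K] ((↥(s ∪ t)) → K) :=
      { toFun := fun x φ => φ.1 ⬝ᵥ x
        map_add' := by intro x y; funext φ; simp [dotProduct_add]
        map_smul' := by intro c x; funext φ; simp [dotProduct_smul] }
    have h4 : Module.finrank K ((↥(s ∪ t)) → K) < Module.finrank K (ι → K) := by
      rw [Module.finrank_fintype_fun_eq_card, Module.finrank_fintype_fun_eq_card, Fintype.card_coe]
      have := Finset.card_union_le s t
      omega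
    have h5 : LinearMap.ker L ≠ ⊥ := LinearMap.ker_ne_bot_of_finrank_lt h4
    obtain ⟨x, hx, hx0⟩ := (Submodule.ne_bot_iff _).mp h5
    have h6 : L x = 0 := hx
    refine ⟨x, hx0, fun φ hφ => ?_, fun φ hφ => ?_⟩
    · exact congrFun h6 ⟨φ, Finset.mem_union_left _ hφ⟩
    · exact congrFun h6 ⟨φ, Finset.mem_union_right _ hφ⟩
  -- lifting the fixed spaces to `F`
  have hlift : ∀ (i : GL ι F₀) (s : Finset (ι → F₀)),
      (∀ x : ι → F₀, (∀ φ ∈ s, φ ⬝ᵥ x = 0) → (i : Matrix ι ι F₀) *ᵥ x = x) →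
      ∀ x : ι → F, (∀ φ ∈ s.image (fun φ => emb (ti P) φ), φ ⬝ᵥ x = 0) → ((rho P i : GL ι F) : Matrix ι ι F) *ᵥ x = x := by
    intro i s hs x hx
    -- every row of `i - 1` is a combination of `s`
    have hrow : ∀ j : ι, (i : Matrix ι ι F₀) j - Pi.single j 1 ∈ Submodule.span F₀ (s : Set (ι → F₀)) := by
      intro j
      by_contra hcon
      obtain ⟨y, hy, hy1⟩ := exists_dot_of_notMem _ hcon
      have h1 := hs y (fun φ hφ => by rw [dotProduct_comm]; exact hy φ (Submodule.subset_span hφ))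
      rw [dotProduct_comm, sub_dotProduct] at hy1
      have h2 := congrFun h1 j
      simp only [single_one_dotProduct] at hy1
      have h3 : (i : Matrix ι ι F₀) j ⬝ᵥ y = y j := h2
      rw [h3, sub_self] at hy1
      exact zero_ne_one hy1
    have hrow2 : ∀ j : ι, emb (ti P) ((i : Matrix ι ι F₀) j - Pi.single j 1) ⬝ᵥ x = 0 := by
      intro j
      have h1 : ∀ y ∈ Submodule.span F₀ (s : Set (ι → F₀)), emb (ti P) y ⬝ᵥ x = 0 := by
        intro y hy
        induction hy using Submodule.span_induction with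
        | mem y hy => exact hx _ (Finset.mem_image_of_mem _ hy)
        | zero => rw [emb_zero, zero_dotProduct]
        | add a b _ _ ha hb => rw [emb_add, add_dotProduct, ha, hb, add_zero]
        | smul c a _ ha => rw [emb_smul, smul_dotProduct, ha, smul_zero]
      exact h1 _ (hrow j)
    obtain ⟨c, hc⟩ := exists_emb_comb (F₀ := F₀) P x
    rw [← sub_eq_zero]
    obtain ⟨v, hv⟩ := emb_comb_eq (F₀ := F₀) P (x := ((rho P i : GL ι F) : Matrix ι ι F) *ᵥ x - x) (by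
      intro χ
      -- value zero
      have hbas : ∀ j, emb (ti P) (Pi.single j (1 : F₀)) ⬝ᵥ (((rho P i : GL ι F) : Matrix ι ι F) *ᵥ x - x) = 0 := by
        intro j
        rw [← hrow2 j, hc, Matrix.mulVec_sum, ← Finset.sum_sub_distrib, dotProduct_sum, dotProduct_sum]
        apply Finset.sum_congr rfl
        intro k _
        rw [Matrix.mulVec_smul, rho_mulVec_emb, dotProduct_sub, dotProduct_smul, demb_dot_emb, dotProduct_smul,
          demb_dot_emb, dotProduct_smul, demb_dot_emb, sub_dotProduct]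
        simp only [single_one_dotProduct, smul_eq_mul, Matrix.mulVec]
        push_cast
        ring
      obtain ⟨d, hd⟩ := exists_emb_comb (F₀ := F₀) (ti P) (emb (ti P) χ)
      rw [hd, sum_dotProduct, Finset.sum_eq_zero (fun j _ => by rw [smul_dotProduct, hbas, smul_zero])]
      exact F₀.zero_mem)
    rw [hv]
    have hv0 : v = 0 := by
      funext j
      have h1 : emb (ti P) (Pi.single j (1 : F₀)) ⬝ᵥ emb P v = 0 := by
        rw [← hv, ← hrow2 j, hc, Matrix.mulVec_sum, ← Finset.sum_sub_distrib, dotProduct_sum, dotProduct_sum]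
        apply Finset.sum_congr rfl
        intro k _
        rw [Matrix.mulVec_smul, rho_mulVec_emb, dotProduct_sub, dotProduct_smul, demb_dot_emb, dotProduct_smul,
          demb_dot_emb, dotProduct_smul, demb_dot_emb, sub_dotProduct]
        simp only [single_one_dotProduct, smul_eq_mul, Matrix.mulVec]
        push_cast
        ring
      rw [demb_dot_emb] at h1
      simp only [single_one_dotProduct] at h1
      exact Subtype.ext h1
    rw [hv0, emb_zero]
  -- the central involution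
  have hc1 : g * rho P i1 * g⁻¹ ∈ M := mul_mem (mul_mem hg hm1) (inv_mem hg)
  obtain ⟨k, hk1, hk2, hk3, hk4⟩ := exists_central_involution (K := M) hc1 hm2
    (by
      have h1 : rho P i1 * rho P i1 = 1 := by rw [← map_mul, h11, map_one]
      calc g * rho P i1 * g⁻¹ * (g * rho P i1 * g⁻¹) = g * (rho P i1 * rho P i1) * g⁻¹ := by group
        _ = 1 := by rw [h1]; group)
    (by rw [← map_mul, h22, map_one])
    (by
      intro x _ hx
      apply htr (x * g)
      rw [← hx]; group)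
  set z := (g * rho P i1 * g⁻¹ * rho P i2) ^ k with hz
  have hzM : z ∈ M := pow_mem (mul_mem hc1 hm2) k
  -- a common fixed vector
  obtain ⟨x0, hx0, hxa, hxb⟩ := hker F (s1.image (fun φ => ((ti g : GL ι F) : Matrix ι ι F) *ᵥ emb (ti P) φ))
    (s2.image (fun φ => emb (ti P) φ)) (Finset.card_image_le.trans hs1) (Finset.card_image_le.trans hs2)
  have hzx : (z : Matrix ι ι F) *ᵥ x0 = x0 := by
    have h1 : ((rho P i2 : GL ι F) : Matrix ι ι F) *ᵥ x0 = x0 := hlift i2 s2 hx2 x0 hxb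
    have h2 : ((g * rho P i1 * g⁻¹ : GL ι F) : Matrix ι ι F) *ᵥ x0 = x0 := by
      rw [gl_mul_mulVec, gl_mul_mulVec]
      have h3 := hlift i1 s1 hx1 (((g⁻¹ : GL ι F) : Matrix ι ι F) *ᵥ x0) (by
        intro φ hφ
        obtain ⟨φ₀, hφ₀, rfl⟩ := Finset.mem_image.mp hφ
        have h4 := hxa _ (Finset.mem_image_of_mem _ hφ₀)
        have h5 := ti_dot g (emb (ti P) φ₀) (((g⁻¹ : GL ι F) : Matrix ι ι F) *ᵥ x0)
        rw [gl_mulVec_inv_mulVec] at h5
        rw [← h5]; exact h4)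
      rw [h3, gl_mulVec_inv_mulVec]
    have h3 : ∀ m : ℕ, (((g * rho P i1 * g⁻¹ * rho P i2) ^ m : GL ι F) : Matrix ι ι F) *ᵥ x0 = x0 := by
      intro m
      induction m with
      | zero => simp
      | succ m ih => rw [pow_succ, gl_mul_mulVec, gl_mul_mulVec, h1, h2, ih]
    exact h3 k
  -- conditions for the rational elements
  have hmove : ∀ i : GL ι F₀, i ≠ 1 → ∃ w : ι → F₀, (i : Matrix ι ι F₀) *ᵥ w ≠ w := by
    intro i hi
    by_contra h
    push Not at h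
    apply hi
    apply gl_ext
    intro x
    rw [h x]; simp
  have hfix : ∀ (i : GL ι F₀) (s : Finset (ι → F₀)), s.card ≤ 4 →
      (∀ x : ι → F₀, (∀ φ ∈ s, φ ⬝ᵥ x = 0) → (i : Matrix ι ι F₀) *ᵥ x = x) →
      ∃ u : ι → F₀, u ≠ 0 ∧ (i : Matrix ι ι F₀) *ᵥ u = u := by
    intro i s hs h
    obtain ⟨x, hx, h1, -⟩ := hker F₀ s ∅ hs (by simp)
    exact ⟨x, hx, h x h1⟩
  obtain ⟨z₀, hz₀⟩ := S.inv_rational T hsq (hmove i2 hn2) (hfix i2 s2 hs2 hx2) hzM hk1 hk4
  have hz'M : g⁻¹ * z * g ∈ M := mul_mem (mul_mem (inv_mem hg) hzM) hg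
  obtain ⟨z₁, hz₁⟩ := S.inv_rational T hsq (hmove i1 hn1) (hfix i1 s1 hs1 hx1) hz'M
    (by
      calc g⁻¹ * z * g * (g⁻¹ * z * g) = g⁻¹ * (z * z) * g := by group
        _ = 1 := by rw [hk1]; group)
    (by
      calc g⁻¹ * z * g * rho P i1 = g⁻¹ * (z * (g * rho P i1 * g⁻¹)) * g := by group
        _ = g⁻¹ * ((g * rho P i1 * g⁻¹) * z) * g := by rw [hk3]
        _ = rho P i1 * (g⁻¹ * z * g) := by group)
  -- `z₁ ≠ 1`
  have hz₁1 : z₁ ≠ 1 := by
    rintro rfl
    rw [map_one] at hz₁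
    apply hk2
    calc z = g * (g⁻¹ * z * g) * g⁻¹ := by group
      _ = 1 := by rw [hz₁]; group
  obtain ⟨w, hw⟩ := hmove z₁ hz₁1
  set u := w - (z₁ : Matrix ι ι F₀) *ᵥ w with hu
  have hu0 : u ≠ 0 := by
    intro h
    exact hw (sub_eq_zero.mp h).symm
  have hzz1 : z₁ * z₁ = 1 := by
    apply rho_inj (P := P)
    rw [map_mul, ← hz₁, map_one]
    calc g⁻¹ * z * g * (g⁻¹ * z * g) = g⁻¹ * (z * z) * g := by group
      _ = 1 := by rw [hk1]; group
  have hzu : (z₁ : Matrix ι ι F₀) *ᵥ u = (-1 : F₀) • u := by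
    rw [hu, Matrix.mulVec_sub, ← gl_mul_mulVec, hzz1, Units.val_one, Matrix.one_mulVec]
    module
  have hkil : Kil F₀ P ((g : Matrix ι ι F) *ᵥ emb P u) := by
    apply kil_of_eigen (z₀ := z₀) (s := -1)
    · by_contra hcon
      push Not at hcon
      -- `z = -1`
      have h1 : ∀ x : ι → F, (z : Matrix ι ι F) *ᵥ x = (-1 : F) • x := by
        intro x
        obtain ⟨c, hc⟩ := exists_emb_comb (F₀ := F₀) P x
        rw [hz₀, hc, Matrix.mulVec_sum, Finset.smul_sum]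
        apply Finset.sum_congr rfl
        intro j _
        rw [Matrix.mulVec_smul, rho_mulVec_emb, hcon, emb_smul, smul_comm]
        push_cast
        rfl
      have h2 := h1 x0
      rw [hzx] at h2
      -- then `2 = 0` and `z = 1`
      have h3 : (2 : F) = 0 := by
        by_contra h4
        apply hx0
        have h5 : (2 : F) • x0 = 0 := by
          have : x0 + x0 = 0 := by
            nth_rewrite 2 [h2]
            module
          rw [two_smul, this]
        exact (smul_eq_zero.mp h5).resolve_left h4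
      apply hk2
      apply gl_ext
      intro x
      rw [h1 x, Units.val_one, Matrix.one_mulVec]
      have : (-1 : F) = 1 := by linear_combination -h3
      rw [this, one_smul]
    · rw [← hz₀, ← gl_mul_mulVec]
      have h1 : z * g = g * (g⁻¹ * z * g) := by group
      rw [h1, hz₁, gl_mul_mulVec, rho_mulVec_emb, hzu, emb_smul, Matrix.mulVec_smul]
  exact S.all_rat T hg hu0 (S.rat_of_kil T hg hu0 hkil)

end LinF

end Cfsg.Agent.H12
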