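import Mathlib
import Cfsg.Prelude.Def_GeometricClasses
import Cfsg.Agent.H12.HermStd
import Cfsg.Agent.H12.Perp
import Cfsg.Agent.H12.UniGen

/-!
Relative versions (inside a non-degenerate subspace `P`) of the transitivity lemmas for unitary transvections.
-/

set_option autoImplicit false
set_option linter.unusedSectionVars false

open scoped MatrixGroups Matrix

namespace Cfsg.Agent.H12

variable {ι : Type} [Fintype ι] [DecidableEq ι] {F : Type*} [Field F]
variable {σ : F ≃+* F} {f : (ι → F) → (ι → F) → F}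

/-- anisotropic vectors in `P` orthogonal to a small set -/
lemma exists_aniso_in (h : ReflForm σ 1 f) (hσ : σ ≠ RingEquiv.refl F) {P : Submodule F (ι → F)}
    (hP : Geo.IsNondegenerateOn f P) (s : Finset (ι → F))
    (hs : 2 * s.card < Module.finrank F P) : ∃ y ∈ P, y ∈ h.perp s ∧ f y y ≠ 0 := by
  by_contra hcon
  push Not at hcon
  set Y := P ⊓ h.perp s with hY
  have htot := tot_iso h hσ (Y := Y) (fun y hy => hcon y hy.1 hy.2)
  -- Y ≤ P ⊓ (perpS P ⊔ span s)
  set W := h.perpS P with hW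
  set A := W ⊔ Submodule.span F (s : Set (ι → F)) with hA
  have hPW : h.perpS W = P := h.perpS_perpS P
  have hYA : Y ≤ A := by
    intro x hx
    apply h.mem_of_perpS_perpS
    intro y hy
    -- y ∈ perpS A ≤ Y
    have hyY : y ∈ Y := by
      refine ⟨?_, ?_⟩
      · rw [← hPW]
        intro a ha
        exact hy a (Submodule.mem_sup_left ha)
      · intro a ha
        exact hy a (Submodule.mem_sup_right (Submodule.subset_span ha))
    exact htot y hyY x hx
  have hWP : W ⊓ P = ⊥ := by rw [inf_comm]; exact h.inf_perpS_of_nondeg hP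
  have h1 : Module.finrank F W + Module.finrank F (A ⊓ P : Submodule F (ι → F)) ≤ Module.finrank F A := by
    have h2 := Submodule.finrank_sup_add_finrank_inf_eq W (A ⊓ P)
    have h3 : W ⊓ (A ⊓ P) = ⊥ := by
      rw [eq_bot_iff]
      intro x hx
      rw [← hWP]
      exact ⟨hx.1, hx.2.2⟩
    rw [h3, finrank_bot] at h2
    have h4 : W ⊔ (A ⊓ P) ≤ A := sup_le le_sup_left inf_le_left
    have h5 := Submodule.finrank_mono h4
    omega
  have h2 : Module.finrank F A ≤ Module.finrank F W + s.card := by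
    have h3 := Submodule.finrank_add_le_finrank_add_finrank W (Submodule.span F (s : Set (ι → F)))
    have h4 := finrank_span_finset_le_card (R := F) s
    rw [Set.finrank] at h4
    rw [← hA] at h3
    omega
  have h3 : Module.finrank F Y ≤ Module.finrank F (A ⊓ P : Submodule F (ι → F)) :=
    Submodule.finrank_mono (le_inf hYA inf_le_left)
  have h4 : Module.finrank F P ≤ Module.finrank F Y + s.card := by
    have h5 := Submodule.finrank_sup_add_finrank_inf_eq P (h.perp s)
    have h6 := h.finrank_perp s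
    have h7 := Submodule.finrank_le (P ⊔ h.perp s)
    rw [Module.finrank_fintype_fun_eq_card] at h7
    rw [← hY] at h5
    omega
  omega

lemma exists_norm_in [Finite F] (h : ReflForm σ 1 f) (hσ : σ ≠ RingEquiv.refl F) {P : Submodule F (ι → F)}
    (hP : Geo.IsNondegenerateOn f P) (s : Finset (ι → F))
    (hs : 2 * s.card < Module.finrank F P) {c : F} (hc : σ c = c) : ∃ y ∈ P, y ∈ h.perp s ∧ f y y = c := by
  by_cases hc0 : c = 0
  · exact ⟨0, Submodule.zero_mem _, Submodule.zero_mem _, by rw [h.zero_left, hc0]⟩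
  obtain ⟨y, hyP, hy, hyy⟩ := exists_aniso_in h hσ hP s hs
  obtain ⟨l, hl0, hl⟩ := norm_surj hσ h.inv (b := c / f y y) (div_ne_zero hc0 hyy)
    (by rw [map_div₀, hc, fix_self h])
  refine ⟨l • y, Submodule.smul_mem _ _ hyP, Submodule.smul_mem _ _ hy, ?_⟩
  rw [h.smul_left, h.smul_right, ← mul_assoc, hl, div_mul_cancel₀ _ hyy]

/-- prescribed norm and prescribed product with a given non-zero vector -/
lemma exists_pair_in [Finite F] (h : ReflForm σ 1 f) (hσ : σ ≠ RingEquiv.refl F) {P : Submodule F (ι → F)}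
    (hP : Geo.IsNondegenerateOn f P) (hdim : 7 ≤ Module.finrank F P) {b : ι → F} (hb : b ∈ P) (hb0 : b ≠ 0)
    (t : F) {c : F} (hc : σ c = c) : ∃ y ∈ P, f b y = t ∧ f y y = c := by
  classical
  obtain ⟨-, x, hx, hbx⟩ := hP b hb hb0
  set x' := σ (t / f b x) • x with hx'
  have e1 : f b x' = t := by rw [hx', h.smul_right, h.inv, div_mul_cancel₀ _ hbx]
  have hx'P : x' ∈ P := P.smul_mem _ hx
  obtain ⟨z, hzP, hz, hzz⟩ := exists_norm_in h hσ hP {b, x'} (by
    have := Finset.card_le_two (a := b) (b := x')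
    omega) (c := c - f x' x') (by rw [map_sub, hc, fix_self h])
  have hzb : f z b = 0 := hz b (by simp)
  have hzx : f z x' = 0 := hz x' (by simp)
  have hxz : f x' z = 0 := h.symm_zero.mp hzx
  refine ⟨x' + z, P.add_mem hx'P hzP, ?_, ?_⟩
  · rw [h.add_right, e1, h.symm_zero.mp hzb, add_zero]
  · rw [h.add_left, h.add_right x' x' z, h.add_right z x' z, hzz, hzx, hxz]; ring

/-- transvections with centres in `P` -/
def utvGroupOn (σ : F ≃+* F) (f : (ι → F) → (ι → F) → F) (P : Submodule F (ι → F)) : Subgroup (GL ι F) :=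
  Subgroup.closure {g | ∃ z a, z ∈ P ∧ f z z = 0 ∧ σ a = -a ∧ g = utv f z a}

lemma utv_mem_groupOn {P : Submodule F (ι → F)} {z : ι → F} {a : F} (hzP : z ∈ P) (hz : f z z = 0)
    (ha : σ a = -a) : utv f z a ∈ utvGroupOn σ f P :=
  Subgroup.subset_closure ⟨z, a, hzP, hz, ha, rfl⟩

lemma utvGroupOn_le {P : Submodule F (ι → F)} {H : Subgroup (GL ι F)}
    (hH : ∀ z ∈ P, f z z = 0 → ∀ a, σ a = -a → utv f z a ∈ H) : utvGroupOn σ f P ≤ H := by
  rw [utvGroupOn, Subgroup.closure_le]
  rintro g ⟨z, a, hzP, hz, ha, rfl⟩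
  exact hH z hzP hz a ha

lemma utvGroupOn_fix (h : ReflForm σ 1 f) {P : Submodule F (ι → F)} {g : GL ι F} (hg : g ∈ utvGroupOn σ f P)
    {x : ι → F} (hx : x ∈ h.perpS P) : (g : Matrix ι ι F) *ᵥ x = x := by
  have : utvGroupOn σ f P ≤ fixer {x | x ∈ h.perpS P} := by
    apply utvGroupOn_le
    intro z hzP hz a _ x hx
    rw [utv_mulVec h hz, hx z hzP]; simp
  exact this hg x hx

lemma utv_trans_step_in (h : ReflForm σ 1 f) {P : Submodule F (ι → F)} {u v : ι → F} {c : F} (huP : u ∈ P)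
    (hvP : v ∈ P) (hu : f u u = c) (hv : f v v = c)
    (h1 : f u v - c ≠ 0) (h2 : σ (f u v - c) = -(f u v - c)) :
    ∃ t ∈ utvGroupOn σ f P, ((t : GL ι F) : Matrix ι ι F) *ᵥ u = v := by
  have hc : σ c = c := by rw [← hu, fix_self h]
  have hiso : f (v - u) (v - u) = 0 := by
    rw [h.sub_left, h.sub_right, h.sub_right, hu, hv, herm' h v u]
    rw [map_sub, hc] at h2
    linear_combination -h2
  refine ⟨utv f (v - u) (f u v - c)⁻¹, utv_mem_groupOn (P.sub_mem hvP huP) hiso ?_, ?_⟩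
  · rw [map_inv₀, h2, inv_neg]
  · rw [utv_mulVec h hiso, h.sub_right, hu, inv_mul_cancel₀ h1, one_smul]
    abel

lemma utv_trans_indep_in [Finite F] (h : ReflForm σ 1 f) (hσ : σ ≠ RingEquiv.refl F) {P : Submodule F (ι → F)}
    (hP : Geo.IsNondegenerateOn f P) (hdim : 7 ≤ Module.finrank F P)
    {u v : ι → F} {c : F} (huP : u ∈ P) (hvP : v ∈ P) (hu : f u u = c) (hv : f v v = c)
    (huv : u ∉ Submodule.span F {v}) (hvu : v ∉ Submodule.span F {u}) :
    ∃ t ∈ utvGroupOn σ f P, ((t : GL ι F) : Matrix ι ι F) *ᵥ u = v := by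
  classical
  have hc : σ c = c := by rw [← hu, fix_self h]
  obtain ⟨δ, hδ0, hδ⟩ := exists_skew hσ h.inv
  -- vectors of P orthogonal to u but not v, and conversely
  have hkey : ∀ a b : ι → F, a ∈ P → b ∈ P → b ∉ Submodule.span F {a} → ∃ y ∈ P, f y a = 0 ∧ f y b ≠ 0 := by
    intro a b ha hb hab
    obtain ⟨y, hy, hyb⟩ := h.exists_perp_not_orth {a} (x := b) (by simpa using hab)
    have hya : f y a = 0 := hy a (by simp)
    obtain ⟨p, hp, w, hw, rfl⟩ := h.decomp_of_nondeg hP y
    refine ⟨p, hp, ?_, ?_⟩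
    · rwa [h.add_left, hw a ha, add_zero] at hya
    · rwa [h.add_left, hw b hb, add_zero] at hyb
  obtain ⟨y1, hy1P, hy1u, hy1'⟩ := hkey u v huP hvP hvu
  obtain ⟨y2, hy2P, hy2v, hy2'⟩ := hkey v u hvP huP huv
  set w0 := ((c - δ) / f y2 u) • y2 + ((c + δ) / f y1 v) • y1 with hw0
  have hw0P : w0 ∈ P := P.add_mem (P.smul_mem _ hy2P) (P.smul_mem _ hy1P)
  have h1 : f w0 u = c - δ := by
    rw [hw0, h.add_left, h.smul_left, h.smul_left, hy1u, mul_zero, add_zero, div_mul_cancel₀ _ hy2']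
  have h2 : f w0 v = c + δ := by
    rw [hw0, h.add_left, h.smul_left, h.smul_left, hy2v, mul_zero, zero_add, div_mul_cancel₀ _ hy1']
  obtain ⟨z, hzP, hz, hzz⟩ := exists_norm_in h hσ hP {u, v, w0} (by
    have := Finset.card_le_three (a := u) (b := v) (c := w0)
    omega) (c := c - f w0 w0) (by rw [map_sub, hc, fix_self h])
  have hzu : f z u = 0 := hz u (by simp)
  have hzv : f z v = 0 := hz v (by simp)
  have hzw : f z w0 = 0 := hz w0 (by simp)
  have hwz : f w0 z = 0 := h.symm_zero.mp hzw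
  have h3 : f (w0 + z) (w0 + z) = c := by
    rw [h.add_left, h.add_right w0 w0 z, h.add_right z w0 z, hzz, hzw, hwz]; ring
  have h4 : f u (w0 + z) = c + δ := by
    rw [herm' h, h.add_left, hzu, add_zero, h1, map_sub, hc, hδ]; ring
  have h5 : f (w0 + z) v = c + δ := by
    rw [h.add_left, hzv, add_zero, h2]
  have hwzP : w0 + z ∈ P := P.add_mem hw0P hzP
  obtain ⟨t1, ht1, e1⟩ := utv_trans_step_in h huP hwzP hu h3 (by rw [h4]; simpa using hδ0)
    (by rw [h4, map_sub, map_add, hc, hδ]; ring)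
  obtain ⟨t2, ht2, e2⟩ := utv_trans_step_in h hwzP hvP h3 hv (by rw [h5]; simpa using hδ0)
    (by rw [h5, map_sub, map_add, hc, hδ]; ring)
  exact ⟨t2 * t1, mul_mem ht2 ht1, by rw [gl_mul_mulVec, e1, e2]⟩

/-- transitivity on non-zero vectors of `P` with the same norm -/
lemma utv_trans_in [Finite F] (h : ReflForm σ 1 f) (hσ : σ ≠ RingEquiv.refl F) {P : Submodule F (ι → F)}
    (hP : Geo.IsNondegenerateOn f P) (hdim : 7 ≤ Module.finrank F P)
    {u v : ι → F} (huP : u ∈ P) (hvP : v ∈ P) (hu0 : u ≠ 0) (hv0 : v ≠ 0) (huv : f u u = f v v) :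
    ∃ t ∈ utvGroupOn σ f P, ((t : GL ι F) : Matrix ι ι F) *ᵥ u = v := by
  classical
  by_cases hd : u ∈ Submodule.span F {v} ∨ v ∈ Submodule.span F {u}
  · -- dependent
    have hdep : ∃ k : F, k ≠ 0 ∧ v = k • u := by
      rcases hd with hm | hm
      · obtain ⟨k, hk⟩ := Submodule.mem_span_singleton.mp hm
        have hk0 : k ≠ 0 := by rintro rfl; exact hu0 (by rw [← hk, zero_smul])
        exact ⟨k⁻¹, inv_ne_zero hk0, by rw [← hk, smul_smul, inv_mul_cancel₀ hk0, one_smul]⟩
      · obtain ⟨k, hk⟩ := Submodule.mem_span_singleton.mp hm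
        have hk0 : k ≠ 0 := by rintro rfl; exact hv0 (by rw [← hk, zero_smul])
        exact ⟨k, hk0, hk.symm⟩
    obtain ⟨k, hk0, rfl⟩ := hdep
    obtain ⟨w, hwP, hww, hw1, hw2⟩ : ∃ w ∈ P, f w w = f u u ∧ w ∉ Submodule.span F {u} ∧
        u ∉ Submodule.span F {w} := by
      by_cases hc : f u u = 0
      · obtain ⟨w, hwP, hw1, hw2⟩ := exists_pair_in h hσ hP hdim huP hu0 1 (c := 0) (map_zero σ)
        refine ⟨w, hwP, by rw [hw2, hc], ?_, ?_⟩
        · intro hm
          obtain ⟨r, rfl⟩ := Submodule.mem_span_singleton.mp hm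
          rw [h.smul_right, hc, mul_zero] at hw1
          exact zero_ne_one hw1
        · intro hm
          obtain ⟨r, hr⟩ := Submodule.mem_span_singleton.mp hm
          rw [← hr, h.smul_left, hw2, mul_zero] at hw1
          exact zero_ne_one hw1
      · obtain ⟨w, hwP, hw1, hw2⟩ := exists_norm_in h hσ hP {u} (by simp; omega) (c := f u u) (fix_self h u)
        have hw0 : w ≠ 0 := by
          rintro rfl; rw [h.zero_left] at hw2; exact hc hw2.symm
        have := notMem_span_of_orth h hw0 hu0 (hw1 u (by simp)) (Or.inl hc)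
        exact ⟨w, hwP, hw2, this.2, this.1⟩
    obtain ⟨t1, ht1, e1⟩ := utv_trans_indep_in h hσ hP hdim huP hwP rfl hww hw2 hw1
    have hw3 : w ∉ Submodule.span F {k • u} := by
      rwa [Submodule.span_singleton_smul_eq (IsUnit.mk0 k hk0)]
    have hw4 : k • u ∉ Submodule.span F {w} := by
      intro hm
      apply hw2
      have := Submodule.smul_mem _ k⁻¹ hm
      rwa [smul_smul, inv_mul_cancel₀ hk0, one_smul] at this
    obtain ⟨t2, ht2, e2⟩ := utv_trans_indep_in h hσ hP hdim hwP hvP (hww.trans huv) rfl hw3 hw4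
    exact ⟨t2 * t1, mul_mem ht2 ht1, by rw [gl_mul_mulVec, e1, e2]⟩
  · push Not at hd
    exact utv_trans_indep_in h hσ hP hdim huP hvP huv rfl hd.1 hd.2

end Cfsg.Agent.H12
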